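import Cfsg.Agent.Suzuki.TwoGroupClassTwo

/-!
Suzuki two-groups: the order is the square or the cube of the order of the centre.

The squaring map induces an anisotropic quadratic map of `P / Z(P)` into the elementary abelian group of
involutions, so the Chevalley–Warning theorem bounds the dimension; the scalars act freely on the
non-identity cosets, so the dimension is a multiple of that of the centre.
-/

set_option autoImplicit false

universe u

namespace Cfsg.Agent.Suzuki.TwoGroup

namespace Data

variable {P : Type u} [Group P] {F : Type} [Field F] (d : Data P F)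

/-- a parametrisation of part of `P / Z(P)` by a cube with quadratic squaring map -/
structure Cube (n : ℕ) (π : F →+ (Fin n → ZMod 2)) (k : ℕ) where
  w : (Fin k → ZMod 2) → P
  inj : ∀ x y, (w x)⁻¹ * w y ∈ Subgroup.center P → x = y
  add : ∀ x y, (w (x + y))⁻¹ * (w x * w y) ∈ Subgroup.center P
  Q : Fin n → MvPolynomial (Fin k) (ZMod 2)
  deg : ∀ i, (Q i).totalDegree ≤ 2
  eval : ∀ x i, MvPolynomial.eval x (Q i) = π (d.co (w x * w x)) i

theorem zmod_two_cases : ∀ a : ZMod 2, a = 0 ∨ a = 1 := by decide

theorem fin_sum_single {k : ℕ} (x : Fin k → ZMod 2) :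
    x = ∑ i, Pi.single i (x i) := (Finset.univ_sum_single x).symm

set_option maxHeartbeats 800000 in
include d in
theorem exists_cube [Finite P] [Finite F] [CharP F 2]
    (hsq : ∀ x : P, x * x ∈ Subgroup.center P) (hdl : ∀ p x : P, dl p x ∈ Subgroup.center P)
    (hnc : ∃ x y : P, x * y ≠ y * x) {n : ℕ} (π : F →+ (Fin n → ZMod 2)) :
    ∀ k, Nat.card (Subgroup.center P) * 2 ^ k ≤ Nat.card P → Nonempty (d.Cube n π k) := by
  intro k
  induction k with
  | zero =>
    intro _
    exact ⟨{ w := fun _ => 1
             inj := fun x y _ => Subsingleton.elim x y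
             add := fun _ _ => by simp
             Q := fun _ => 0
             deg := fun i => by simp
             eval := fun x i => by simp [d.co_one] }⟩
  | succ k ih =>
    intro hk
    obtain ⟨C⟩ := ih (le_trans (Nat.mul_le_mul_left _ (Nat.pow_le_pow_right (by omega) (Nat.le_succ k))) hk)
    let m : (Fin k → ZMod 2) × Subgroup.center P → P := fun q => C.w q.1 * q.2.1
    obtain ⟨g, hg⟩ : ∃ g, ∀ q, m q ≠ g := by
      by_contra hc
      push Not at hc
      have := Nat.card_le_card_of_surjective m hc
      rw [Nat.card_prod, Nat.card_pi] at this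
      simp only [Nat.card_eq_fintype_card (α := ZMod 2), ZMod.card, Finset.prod_const,
        Finset.card_univ, Fintype.card_fin] at this
      rw [pow_succ] at hk
      have hpos : 0 < Nat.card (Subgroup.center P) * 2 ^ k := Nat.mul_pos Nat.card_pos (by positivity)
      nlinarith
    have hg' : ∀ x, (C.w x)⁻¹ * g ∉ Subgroup.center P := fun x hx =>
      hg (x, ⟨_, hx⟩) (mul_inv_cancel_left _ _)
    have hcz : ∀ z ∈ Subgroup.center P, ∀ p : P, p * z = z * p := fun z hz p => Subgroup.mem_center_iff.1 hz p
    let gp : ZMod 2 → P := fun a => if a = 0 then 1 else g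
    have gp0 : gp 0 = 1 := rfl
    have gp1 : gp 1 = g := rfl
    let w' : (Fin (k + 1) → ZMod 2) → P := fun x => C.w (fun i => x i.castSucc) * gp (x (Fin.last k))
    have hzz : ∀ z ∈ Subgroup.center P, z * z = 1 := fun z hz => d.center_sq hnc hz
    -- the commutator with the new element is linear
    let L : (Fin k → ZMod 2) → Fin n → ZMod 2 := fun x => π (d.co (dl g (C.w x)))
    have hLadd : ∀ x y, L (x + y) = L x + L y := by
      intro x y
      show π _ = π _ + π _
      rw [← map_add, ← d.co_mul (hzz _ (hdl _ _)) (hzz _ (hdl _ _))]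
      refine congrArg π (congrArg d.co ?_)
      obtain ⟨z, hz, e⟩ : ∃ z ∈ Subgroup.center P, C.w x * C.w y = C.w (x + y) * z :=
        ⟨_, C.add x y, (mul_inv_cancel_left _ _).symm⟩
      have e1 : dl g (C.w x * C.w y) = dl g (C.w x) * dl g (C.w y) := by
        rw [show dl g (C.w x * C.w y) = dl g (C.w x) * (C.w x * dl g (C.w y) * (C.w x)⁻¹) by
          simp only [dl]; group, hcz _ (hdl g (C.w y)) (C.w x), mul_inv_cancel_right]
      rw [← e1, e]
      calc dl g (C.w (x + y)) = g * C.w (x + y) * (z * g⁻¹ * z⁻¹) * (C.w (x + y))⁻¹ := by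
            rw [← hcz z hz g⁻¹, mul_inv_cancel_right]; rfl
        _ = dl g (C.w (x + y) * z) := by simp only [dl]; group
    let Lm : (Fin k → ZMod 2) →+ (Fin n → ZMod 2) := AddMonoidHom.mk' L hLadd
    have hLsum : ∀ x i, L x i = ∑ j, x j * L (Pi.single j 1) i := by
      intro x i
      show Lm x i = _
      conv_lhs => rw [fin_sum_single x, map_sum, Finset.sum_apply]
      refine Finset.sum_congr rfl fun j _ => ?_
      rcases zmod_two_cases (x j) with h | h
      · rw [h, zero_mul, Pi.single_zero, map_zero]; rfl
      · rw [h, one_mul]; rfl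
    have hrest : ∀ (x : Fin (k + 1) → ZMod 2), x =
        Fin.snoc (fun i => x i.castSucc) (x (Fin.last k)) := fun x => (Fin.snoc_init_self x).symm
    refine ⟨{ w := w'
              inj := fun x y hxy => ?_
              add := fun x y => ?_
              Q := fun i => MvPolynomial.rename Fin.castSucc (C.Q i) +
                MvPolynomial.X (Fin.last k) * (MvPolynomial.C (π (d.co (g * g)) i) +
                  ∑ j, MvPolynomial.C (L (Pi.single j 1) i) * MvPolynomial.X j.castSucc)
              deg := fun i => ?_
              eval := fun x i => ?_ }⟩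
    · simp only [w'] at hxy
      rcases zmod_two_cases (x (Fin.last k)) with h1 | h1 <;>
        rcases zmod_two_cases (y (Fin.last k)) with h2 | h2 <;> simp only [h1, h2, gp0, gp1, mul_one] at hxy
      · have := C.inj _ _ hxy
        rw [hrest x, hrest y, this, h1, h2]
      · refine absurd ?_ (hg' ((fun i => x i.castSucc) + fun i => y i.castSucc))
        have h3 := C.add (fun i => x i.castSucc) (fun i => y i.castSucc)
        have h4 := hsq (C.w fun i => x i.castSucc)
        have := mul_mem (mul_mem h3 (inv_mem (hsq (C.w fun i => y i.castSucc))))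
          (mul_mem (hdl (C.w fun i => y i.castSucc) (C.w fun i => x i.castSucc)) hxy)
        have e : ∀ s a b : P, (a * a) ∈ Subgroup.center P → (b * b) ∈ Subgroup.center P →
            dl b a ∈ Subgroup.center P → s⁻¹ * (a * b) ∈ Subgroup.center P → a⁻¹ * (b * g) ∈ Subgroup.center P →
            s⁻¹ * g ∈ Subgroup.center P := by
          intro s a b ha hb hab hs hx
          have h6 : s⁻¹ * g = (s⁻¹ * (a * b)) * (b * b)⁻¹ * ((b * a⁻¹ * b⁻¹ * a) * (a⁻¹ * (b * g))) *
              1 := by group
          rw [h6, mul_one]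
          refine mul_mem (mul_mem hs (inv_mem hb)) (mul_mem ?_ hx)
          rw [show b * a⁻¹ * b⁻¹ * a = dl b a⁻¹ by simp only [dl]; group]
          exact hdl _ _
        exact e _ _ _ h4 (hsq _) (hdl _ _) h3 hxy
      · refine absurd ?_ (hg' ((fun i => x i.castSucc) + fun i => y i.castSucc))
        have h3 := C.add (fun i => x i.castSucc) (fun i => y i.castSucc)
        set a := C.w fun i => x i.castSucc with ha
        set b := C.w fun i => y i.castSucc with hb
        set s := C.w ((fun i => x i.castSucc) + fun i => y i.castSucc) with hs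
        rw [show s⁻¹ * g = (s⁻¹ * (a * b)) * ((a * g)⁻¹ * b)⁻¹ * ((b⁻¹ * a * g)⁻¹ * (b⁻¹ * a⁻¹ * g)) by group]
        refine mul_mem (mul_mem h3 (inv_mem hxy)) ?_
        rw [show (b⁻¹ * a * g)⁻¹ * (b⁻¹ * a⁻¹ * g) = g⁻¹ * (a * a)⁻¹ * g by group,
          hcz _ (inv_mem (hsq a)) g⁻¹, inv_mul_cancel_right]
        exact inv_mem (hsq a)
      · have h5 : (C.w fun i => x i.castSucc)⁻¹ * (C.w fun i => y i.castSucc) ∈ Subgroup.center P := by
          have h6 := hcz _ hxy g
          rw [show g * ((C.w (fun i => x i.castSucc) * g)⁻¹ * (C.w (fun i => y i.castSucc) * g)) =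
            ((C.w fun i => x i.castSucc)⁻¹ * (C.w fun i => y i.castSucc)) * g by group] at h6
          rw [mul_right_cancel h6]
          exact hxy
        have := C.inj _ _ h5
        rw [hrest x, hrest y, this, h1, h2]
    · simp only [w', Pi.add_apply]
      have h3 := C.add (fun i => x i.castSucc) (fun i => y i.castSucc)
      set a := C.w fun i => x i.castSucc with ha
      set b := C.w fun i => y i.castSucc with hb
      rw [show ((fun i => x i.castSucc) + fun i => y i.castSucc) = fun i : Fin k => x i.castSucc + y i.castSucc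
        from rfl] at h3
      set s := C.w fun i : Fin k => x i.castSucc + y i.castSucc with hs
      have hsab : ∀ u : P, s⁻¹ * (a * b) * u = u * (s⁻¹ * (a * b)) := fun u => (hcz _ h3 u).symm
      rcases zmod_two_cases (x (Fin.last k)) with h1 | h1 <;>
        rcases zmod_two_cases (y (Fin.last k)) with h2 | h2 <;>
        simp only [h1, h2, add_zero, zero_add, show (1 : ZMod 2) + 1 = 0 by decide, gp0, gp1, mul_one]
      · exact h3
      · rw [show (s * g)⁻¹ * (a * (b * g)) = g⁻¹ * (s⁻¹ * (a * b)) * g by group,
          hcz _ h3 g⁻¹, inv_mul_cancel_right]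
        exact h3
      · rw [show (s * g)⁻¹ * (a * g * b) = g⁻¹ * (s⁻¹ * (a * b) * (b⁻¹ * g * b * g⁻¹)) * g by group,
          show b⁻¹ * g * b * g⁻¹ = dl b⁻¹ g by simp only [dl]; group,
          hcz _ (mul_mem h3 (hdl _ _)) g⁻¹, inv_mul_cancel_right]
        exact mul_mem h3 (hdl _ _)
      · rw [show s⁻¹ * (a * g * (b * g)) = (s⁻¹ * (a * b)) * (b⁻¹ * g * b * g⁻¹) * (g * g) by group,
          show b⁻¹ * g * b * g⁻¹ = dl b⁻¹ g by simp only [dl]; group]
        exact mul_mem (mul_mem h3 (hdl _ _)) (hsq g)
    · refine (MvPolynomial.totalDegree_add _ _).trans (max_le ?_ ?_)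
      · exact (MvPolynomial.totalDegree_rename_le _ _).trans (C.deg i)
      · refine (MvPolynomial.totalDegree_mul _ _).trans ?_
        rw [MvPolynomial.totalDegree_X]
        refine le_trans (Nat.add_le_add_left ((MvPolynomial.totalDegree_add _ _).trans (max_le ?_ ?_)) 1)
          (show 1 + 1 ≤ 2 from le_rfl)
        · simp
        · refine MvPolynomial.totalDegree_finsetSum_le fun j _ => ?_
          refine (MvPolynomial.totalDegree_mul _ _).trans ?_
          simp
    · simp only [map_add, map_mul, MvPolynomial.eval_rename, MvPolynomial.eval_X, MvPolynomial.eval_C,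
        map_sum, w', Function.comp_def, C.eval]
      rcases zmod_two_cases (x (Fin.last k)) with h1 | h1
      · simp [h1, gp0]
      · simp only [h1, gp1, one_mul]
        set a := C.w fun i => x i.castSucc with ha
        have hL := hLsum (fun j => x j.castSucc) i
        have e1 : a * g * (a * g) = (a * a) * (g * g) * dl g a := by
          calc a * g * (a * g) = a * (dl g a * (a * g * g)) := by simp only [dl]; group
            _ = a * ((a * g * g) * dl g a) := by rw [hcz _ (hdl g a) (a * g * g)]
            _ = _ := by group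
        rw [e1, d.co_mul (hzz _ (mul_mem (hsq a) (hsq g))) (hzz _ (hdl _ _)),
          d.co_mul (hzz _ (hsq a)) (hzz _ (hsq g)), map_add, map_add, Pi.add_apply, Pi.add_apply,
          show π (d.co (dl g a)) i = L (fun j => x j.castSucc) i from rfl, hL, add_assoc]
        simp [mul_comm]

include d in
/-- the exponent of two in the index of the centre is at most twice that in the order of the field -/
theorem index_le [Finite P] [Finite F] [CharP F 2]
    (hsq : ∀ x : P, x * x ∈ Subgroup.center P) (hdl : ∀ p x : P, dl p x ∈ Subgroup.center P)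
    (hnc : ∃ x y : P, x * y ≠ y * x) {n m : ℕ} (hn : Nat.card F = 2 ^ n)
    (hm : Nat.card P = Nat.card (Subgroup.center P) * 2 ^ m) : m ≤ 2 * n := by
  classical
  by_contra hlt
  let := ZMod.algebra F 2
  have : Module.finrank (ZMod 2) F = n := by
    have h1 := Module.natCard_eq_pow_finrank (K := ZMod 2) (V := F)
    rw [hn, Nat.card_eq_fintype_card, ZMod.card] at h1
    exact (Nat.pow_right_injective le_rfl h1).symm
  let b := (Module.finBasisOfFinrankEq (ZMod 2) F this).equivFun
  obtain ⟨C⟩ := d.exists_cube hsq hdl hnc b.toAddEquiv.toAddMonoidHom m hm.ge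
  have hdvd := char_dvd_card_solutions_of_fintype_sum_lt (p := 2) (σ := Fin m) (f := C.Q) (by
    rw [Fintype.card_fin]
    calc ∑ i, (C.Q i).totalDegree ≤ ∑ _i : Fin n, 2 := Finset.sum_le_sum fun i _ => C.deg i
      _ = 2 * n := by simp [mul_comm]
      _ < m := by omega)
  -- the only zero is the trivial coset
  have h0 : (C.w 0) ∈ Subgroup.center P := by
    have := C.add 0 0
    rwa [add_zero, inv_mul_cancel_left] at this
  have hone : ∀ x, (∀ i, MvPolynomial.eval x (C.Q i) = 0) ↔ x = 0 := by
    intro x
    constructor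
    · intro hx
      refine (C.inj 0 x ?_).symm
      have h1 : d.co (C.w x * C.w x) = 0 := by
        refine b.injective (funext fun i => ?_)
        rw [map_zero, Pi.zero_apply, ← hx i, C.eval]
        rfl
      refine mul_mem (inv_mem h0) (Subgroup.mem_center_iff.2 (d.sq_central ?_))
      exact d.eq_one_of_co (d.center_sq hnc (hsq _)) h1
    · rintro rfl i
      rw [C.eval, d.center_sq hnc h0, d.co_one, map_zero]
      rfl
  have hcard : Fintype.card { x : Fin m → ZMod 2 // ∀ i, MvPolynomial.eval x (C.Q i) = 0 } = 1 :=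
    Fintype.card_eq_one_iff.2 ⟨⟨0, (hone 0).2 rfl⟩, fun y => Subtype.ext ((hone _).1 y.2)⟩
  have h2 : (2 : ℕ) ∣ 1 := hcard ▸ by convert hdvd
  exact absurd (Nat.le_of_dvd one_pos h2) (by norm_num)

include d in
/-- the scalars act freely on the non-identity cosets of the centre -/
theorem dvd_index [Finite P] [Finite F] {m : ℕ} (hm : Nat.card P = Nat.card (Subgroup.center P) * m) :
    Nat.card Fˣ ∣ m - 1 := by
  classical
  set Z := Subgroup.center P with hZ
  have hcard : Nat.card (P ⧸ Z) = m := by
    have h1 := Subgroup.card_eq_card_quotient_mul_card_subgroup Z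
    rw [hm, mul_comm] at h1
    exact (Nat.eq_of_mul_eq_mul_right Nat.card_pos h1).symm
  let act : Fˣ → P ⧸ Z → P ⧸ Z := fun k =>
    QuotientGroup.map Z Z (d.μ k).toMonoidHom fun z hz => d.center_inv k hz
  let : MulAction Fˣ (P ⧸ Z) :=
    { smul := act
      one_smul := fun q => by
        induction q using QuotientGroup.induction_on with
        | H z => show ((d.μ 1 z : P) : P ⧸ Z) = (z : P ⧸ Z); rw [map_one]; rfl
      mul_smul := fun k l q => by
        induction q using QuotientGroup.induction_on with
        | H z => show ((d.μ (k * l) z : P) : P ⧸ Z) = ((d.μ k (d.μ l z) : P) : P ⧸ Z); rw [map_mul]; rfl }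
  let : MulAction Fˣ {q : P ⧸ Z // q ≠ 1} :=
    { smul := fun k q => ⟨k • q.1, fun e => q.2 (by
        have := congrArg (fun t => k⁻¹ • t) e
        simp only [inv_smul_smul] at this
        rw [this]
        show act k⁻¹ 1 = 1
        exact map_one (QuotientGroup.map Z Z (d.μ k⁻¹).toMonoidHom fun z hz => d.center_inv k⁻¹ hz))⟩
      one_smul := fun q => Subtype.ext (one_smul Fˣ q.1)
      mul_smul := fun k l q => Subtype.ext (mul_smul k l q.1) }
  have hfree : ∀ q : {q : P ⧸ Z // q ≠ 1}, MulAction.stabilizer Fˣ q = ⊥ := by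
    intro q
    refine (Subgroup.eq_bot_iff_forall _).2 fun k hk => ?_
    by_contra hk1
    obtain ⟨z, hz⟩ := QuotientGroup.mk_surjective q.1
    refine q.2 ?_
    rw [← hz, QuotientGroup.eq_one_iff]
    refine d.mem_of_fix_coset hk1 Z (fun y hy => d.center_inv k hy) (QuotientGroup.eq.1 ?_)
    have := congrArg Subtype.val (MulAction.mem_stabilizer_iff.1 hk)
    rw [hz]
    refine this.symm.trans ?_
    show act k q.1 = _
    rw [← hz]
    rfl
  have hdvd : Nat.card Fˣ ∣ Nat.card {q : P ⧸ Z // q ≠ 1} := by
    have := Fintype.ofFinite (Quotient (MulAction.orbitRel Fˣ {q : P ⧸ Z // q ≠ 1}))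
    rw [Nat.card_congr (MulAction.selfEquivSigmaOrbitsQuotientStabilizer Fˣ {q : P ⧸ Z // q ≠ 1}), Nat.card_sigma]
    refine Finset.dvd_sum fun ω _ => ?_
    rw [hfree, Nat.card_congr (QuotientGroup.quotientBot (G := Fˣ)).toEquiv]
  have : Nat.card {q : P ⧸ Z // q ≠ 1} = m - 1 := by
    let := Fintype.ofFinite (P ⧸ Z)
    rw [← hcard, Nat.card_eq_fintype_card, Nat.card_eq_fintype_card, Fintype.card_subtype_compl,
      Fintype.card_subtype_eq]
  rwa [this] at hdvd

end Data

end Cfsg.Agent.Suzuki.TwoGroup
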