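import Cfsg.Agent.Chev.Certs
import Cfsg.Agent.Chev.Torus
import Cfsg.Prelude.Def_ChevAutomorphisms

/-!
Root characters, generators of the Chevalley group.
-/

set_option autoImplicit false

universe u

namespace Cfsg.Agent.Suzuki

open Cfsg.Lie Cfsg.Agent.Chev

/-- the chain through `s` continues by single steps -/
noncomputable def okStep (D : ChevalleyDatum) (T : FTab) : Bool :=
  allIdx (fun r row => row.toList.all fun e =>
    allBelow (fun k =>
      bif Nat.beq (Nat.shiftRight (T.slot r e.1) (12 * (k + 1))) 0 then true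
      else (let a := Nat.mod (Nat.shiftRight (T.slot r e.1) (12 * k)) 256
        !Nat.beq (T.slot r a) 0 &&
          Nat.beq (Nat.mod (T.slot r a) 256)
            (Nat.mod (Nat.shiftRight (T.slot r e.1) (12 * (k + 1))) 256))) 2) D.chain.toList 0

theorem chainRoot_step {D : ChevalleyDatum} {T : FTab} (B : BasicOK D T) (h : okStep D T = true)
    {r s k a b : ℕ} (hr : r < D.nroots) (hs : s < D.nroots)
    (ha : D.chainRoot r s (k + 1) = some a) (hb : D.chainRoot r s (k + 2) = some b) :
    D.chainRoot r a 1 = some b := by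
  rw [B.nroots_eq] at hr hs
  rw [ChevalleyDatum.chainRoot, B.chainRoot_eq hr hs (by omega)] at ha hb
  simp only [Nat.add_sub_cancel, show k + 2 - 1 = k + 1 from rfl] at ha hb
  by_cases h1 : Nat.shiftRight (T.slot r s) (12 * k) = 0
  · rw [if_pos h1] at ha; cases ha
  by_cases h2 : Nat.shiftRight (T.slot r s) (12 * (k + 1)) = 0
  · rw [if_pos h2] at hb; cases hb
  rw [if_neg h1] at ha
  rw [if_neg h2] at hb
  have ha' : Nat.mod (Nat.shiftRight (T.slot r s) (12 * k)) 256 = a := Option.some.inj ha
  have hb' : Nat.mod (Nat.shiftRight (T.slot r s) (12 * (k + 1))) 256 = b := Option.some.inj hb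
  have hk : k < 2 := by
    by_contra hk
    apply h2
    have hd := decode_getElem? 4 (T.slot r s) (k + 1)
    have hl : (D.chainEntry r s).length ≤ 3 := by
      rw [B.chainEntry_eq hr hs]; exact decode_length_le 3 _
    have hg : (D.chainEntry r s)[k + 1]? = none := List.getElem?_eq_none (by omega)
    have := B.chainRoot_eq hr hs (k := k + 2) (by omega)
    rw [show k + 2 - 1 = k + 1 from rfl, hg, eq_comm] at this
    by_contra hne
    rw [if_neg hne] at this
    cases this
  have hl := B.chain
  simp only [okChain, Bool.and_eq_true, decide_eq_true_eq] at hl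
  have hrow := allIdx_spec _ _ _ h r (by omega)
  rw [Nat.zero_add, List.all_eq_true] at hrow
  have hget : D.chain.getD r #[] = D.chain.toList[r]'(by omega) := by
    rw [array_getD_toList, List.getD_eq_getElem?_getD, List.getElem?_eq_getElem (by omega), Option.getD_some]
  obtain ⟨e, he, hes⟩ : ∃ e ∈ (D.chain.getD r #[]).toList, e.1 = s := by
    by_contra hno
    push Not at hno
    have hnil : T.slot r s = 0 := by
      rw [← B.chainEntry_nil_iff hr hs]
      unfold ChevalleyDatum.chainEntry
      rw [List.find?_eq_none.mpr (fun x hx => by simpa using hno x hx)]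
    apply h1
    rw [hnil]
    exact Nat.zero_shiftRight _
  rw [hget] at he
  have hc := (allBelow_iff _ _).mp (hrow e he) k hk
  rw [hes, beq_f h2, cond_false, Bool.and_eq_true, Bool.not_eq_true', ha', hb'] at hc
  have ha0 : T.slot r a ≠ 0 := fun e0 => by simp [e0] at hc
  have hab : Nat.mod (T.slot r a) 256 = b := Nat.eq_of_beq_eq_true hc.2
  have halt : a < T.n := by
    rw [← ha']
    have hmem : decodeOne (Nat.shiftRight (T.slot r s) (12 * k)) ∈ D.chainEntry r s := by
      refine List.mem_of_getElem? (i := k) ?_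
      have := B.chainRoot_eq hr hs (k := k + 1) (by omega)
      rwa [Nat.add_sub_cancel, if_neg h1] at this
    rw [B.chainEntry_eq hr hs] at hmem
    obtain ⟨j, hj⟩ := List.getElem?_of_mem hmem
    exact (B.entry_ok hr hs (_, j) (List.mem_zipIdx_iff_getElem?.mpr hj)).1
  rw [ChevalleyDatum.chainRoot, B.chainRoot_eq hr halt le_rfl,
    if_neg (show Nat.shiftRight (T.slot r a) (12 * (1 - 1)) ≠ 0 from ha0)]
  exact congrArg some hab

/-- Multiples are reached by single steps. -/
def ChainSteps (D : ChevalleyDatum) : Prop :=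
  ∀ r s k a b : ℕ, r < D.nroots → s < D.nroots → D.chainRoot r s (k + 1) = some a →
    D.chainRoot r s (k + 2) = some b → D.chainRoot r a 1 = some b

theorem chainSteps {D : ChevalleyDatum}
    (hD : D ∈ [chevG2, chevB2, chevD4, chevF4, chevE6, chevE7, chevE8]) : ChainSteps D := by
  intro r s k a b hr hs ha hb
  simp only [List.mem_cons, List.not_mem_nil, or_false] at hD
  rcases hD with rfl | rfl | rfl | rfl | rfl | rfl | rfl
  · exact chainRoot_step allOKG2.basic (by decide +kernel) hr hs ha hb
  · exact chainRoot_step allOKB2.basic (by decide +kernel) hr hs ha hb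
  · exact chainRoot_step allOKD4.basic (by decide +kernel) hr hs ha hb
  · exact chainRoot_step allOKF4.basic (by decide +kernel) hr hs ha hb
  · exact chainRoot_step allOKE6.basic (by decide +kernel) hr hs ha hb
  · exact chainRoot_step allOKE7.basic (by decide +kernel) hr hs ha hb
  · exact chainRoot_step allOKE8.basic (by decide +kernel) hr hs ha hb

variable {D : ChevalleyDatum}

theorem isChar_of_rootCharacter (C : Cert.{u} D) (hst : ChainSteps D) {F : Type*} [Field F]
    {χ : ℕ → Fˣ} (hχ : D.IsRootCharacter χ) : IsChar D (fun s => (χ s : F)) where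
  neg r hr := by simp [hχ.1 r hr]
  chain r hr s hs q hq := by
    rw [List.mem_zipIdx_iff_getElem?] at hq
    have key : ∀ (k u : ℕ), D.chainRoot r s (k + 1) = some u → χ u = χ r ^ (k + 1) * χ s := by
      intro k
      induction k with
      | zero => intro u hu; rw [pow_one]; exact hχ.2 r s u hr hs hu
      | succ k ih =>
        intro u hu
        obtain ⟨a, ha⟩ : ∃ a, D.chainRoot r s (k + 1) = some a := by
          rw [map_chainRoot] at hu ⊢
          obtain ⟨x, hx, -⟩ := Option.map_eq_some_iff.mp hu
          obtain ⟨hlt, -⟩ := List.getElem?_eq_some_iff.mp hx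
          exact ⟨_, by rw [List.getElem?_eq_getElem (by omega)]; rfl⟩
        rw [hχ.2 r a u hr (C.chainRoot_lt hr hs ha) (hst r s k a u hr hs ha hu), ih a ha,
          pow_succ' _ (k + 1), mul_assoc]
    have := key q.2 q.1.1 (by rw [map_chainRoot, Nat.add_sub_cancel, hq]; rfl)
    simp [this]

variable {F : Type u} [Field F] (C : Cert.{u} D)
include C

/-- The fundamental root elements and their negatives generate. -/
theorem group_le_of_simple {K : Subgroup (GL D.Idx F)}
    (h : ∀ i < D.rank, ∀ t : F, C.xu (D.simple i) t ∈ K ∧ C.xu (D.neg (D.simple i)) t ∈ K) :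
    D.group F ≤ K := by
  have hn : ∀ i < D.rank, C.nu (D.simple i) (1 : F) ∈ K := fun i hi => by
    rw [C.nu_eq]
    exact K.mul_mem (K.mul_mem (h i hi _).1 (h i hi _).2) (h i hi _).1
  have hall : ∀ r < D.nroots, ∀ t : F, C.xu r t ∈ K := by
    refine C.induction_simple (fun r => ∀ t : F, C.xu r t ∈ K) (fun i hi t => (h i hi t).1) ?_
    intro i hi r hr hK t
    have := C.nu_conj (F := F) hi hr (((C.eta i r : ℤ) : F) * t)
    rw [← mul_assoc, C.eta_cast_sq hi hr, one_mul] at this
    rw [show C.xu (D.reflectRoot i r) t = C.nu (D.simple i) 1 * C.xu r (((C.eta i r : ℤ) : F) * t) *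
      (C.nu (D.simple i) 1)⁻¹ by rw [this, mul_inv_cancel_right]]
    exact K.mul_mem (K.mul_mem (hn i hi) (hK _)) (K.inv_mem (hn i hi))
  refine (Subgroup.closure_le _).2 ?_
  rintro g ⟨r, t, hg⟩
  rw [show g = C.xu r.val t from Units.ext (by rw [hg]; show _ = D.x F r.val t; rw [ChevalleyDatum.x, dif_pos r.isLt])]
  exact hall r.val r.isLt t

end Cfsg.Agent.Suzuki
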