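import Cfsg.Agent.Suzuki.Zassenhaus
import Cfsg.Agent.Core.ThompsonFPF

/-!
Degree of a doubly transitive group with regular normal subgroup in which some
element fixes exactly two points.
-/

set_option autoImplicit false

namespace Cfsg.Agent.Suzuki

open MulAction

variable {G X : Type*} [Group G] [MulAction G X] [Finite X] [FaithfulSMul G X]

theorem regular_normal_degree (h2 : IsMultiplyPretransitive G X 2)
    (h3 : ∀ g : G, ∀ a b c : X, a ≠ b → b ≠ c → a ≠ c → g • a = a → g • b = b → g • c = c → g = 1)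
    (hfix : ∃ g : G, g ≠ 1 ∧ ∃ a b : X, a ≠ b ∧ g • a = a ∧ g • b = b)
    (N : Subgroup G) [N.Normal] (hNt : IsPretransitive N X) (hNr : ∀ a : X, stabilizer N a = ⊥) :
    ∃ p : ℕ, p.Prime ∧ Nat.card X = 2 ^ p := by
  classical
  haveI : Finite G := Finite.of_injective _ (MulAction.toPerm_injective (α := G) (β := X))
  have hX3 := three_le_card (G := G) hfix
  haveI : Nontrivial X := Finite.one_lt_card_iff_nontrivial.1 (by omega)
  obtain ⟨p, j, hp, hj, hcN, hcX, hcomm, hexp⟩ :=
    Cfsg.Agent.PermGroups.regular_normal_elementaryAbelian h2 N hNt hNr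
  obtain ⟨h0, h01, a, b, hab, h0a, h0b⟩ := hfix
  -- an element of prime order fixing two points
  obtain ⟨s, hs, hsd⟩ := Nat.exists_prime_and_dvd
    (show orderOf h0 ≠ 1 from fun e => h01 (orderOf_eq_one_iff.1 e))
  obtain ⟨h, ho, ha, hb⟩ : ∃ h : G, orderOf h = s ∧ h • a = a ∧ h • b = b :=
    ⟨h0 ^ (orderOf h0 / s), orderOf_pow_orderOf_div (orderOf_pos h0).ne' hsd,
      mem_stabilizer_iff.1 ((stabilizer G a).pow_mem (mem_stabilizer_iff.2 h0a) _),
      mem_stabilizer_iff.1 ((stabilizer G b).pow_mem (mem_stabilizer_iff.2 h0b) _)⟩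
  have hinj := Cfsg.Agent.PermGroups.regular_smul_injective (hNr a)
  -- fixed points of powers of h on N
  obtain ⟨v, hv⟩ := hNt.exists_smul_eq a b
  have hfixN : ∀ g : G, g ≠ 1 → g • a = a → g • b = b → ∀ n : N, MulAut.conjNormal g n = n →
      n = 1 ∨ n = v := by
    intro g hg ga gb n hn
    have e : g • ((n : G) • a) = (n : G) • a := by
      rw [← Cfsg.Agent.PermGroups.conj_smul_eq ga, ← MulAut.conjNormal_apply, hn]
    by_cases e1 : (n : G) • a = a
    · exact Or.inl (hinj (show (n : G) • a = ((1 : N) : G) • a by rw [e1, Subgroup.coe_one, one_smul]))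
    by_cases e2 : (n : G) • a = b
    · exact Or.inr (hinj (show (n : G) • a = (v : G) • a from e2.trans hv.symm))
    exact absurd (h3 g a b _ hab (Ne.symm e2) (Ne.symm e1) ga gb e) hg
  have hh1 : h ≠ 1 := fun e => hs.one_lt.ne (by rw [← ho, e, orderOf_one])
  have hhv : MulAut.conjNormal h v = v := hinj (by
    show ((MulAut.conjNormal h v : N) : G) • a = (v : G) • a
    rw [MulAut.conjNormal_apply, Cfsg.Agent.PermGroups.conj_smul_eq ha, show (v : G) • a = b from hv, hb])
  have hv1 : v ≠ 1 := fun e => hab (by rw [← hv, e, one_smul])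
  obtain rfl : p = 2 := by
    have hv2 : v * v = 1 := (hfixN h hh1 ha hb (v * v) (by rw [map_mul, hhv])).resolve_right
      fun e => hv1 (mul_eq_left.1 e)
    have hop : orderOf v = p := by
      haveI := Fact.mk hp
      exact orderOf_eq_prime (hexp v) hv1
    exact (Nat.prime_dvd_prime_iff_eq hp Nat.prime_two).1
      (hop ▸ orderOf_dvd_of_pow_eq_one (by rw [pow_two]; exact hv2))
  have hj2 : 2 ≤ j := by
    by_contra hlt
    have : (2:ℕ) ^ j ≤ 2 ^ 1 := Nat.pow_le_pow_right (by norm_num) (by omega)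
    omega
  have hinv : ∀ n : N, n⁻¹ = n := fun n => inv_eq_of_mul_eq_one_left (by rw [← pow_two]; exact hexp n)
  by_cases hs2 : s = 2
  · -- an involution fixing two points
    refine ⟨2, Nat.prime_two, ?_⟩
    let f : N →* N :=
      { toFun := fun n => n * MulAut.conjNormal h n
        map_one' := by rw [map_one, one_mul]
        map_mul' := fun x y => by
          rw [map_mul, mul_assoc x y, ← mul_assoc y (MulAut.conjNormal h x), hcomm y (MulAut.conjNormal h x),
            mul_assoc (MulAut.conjNormal h x) y, ← mul_assoc x] }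
    have hker : Nat.card f.ker ≤ 2 := by
      have : (f.ker : Set N) ⊆ {1, v} := fun n hn => by
        have e : n * MulAut.conjNormal h n = 1 := hn
        rcases hfixN h hh1 ha hb n ((inv_eq_of_mul_eq_one_right e).symm.trans (hinv n)) with e' | e' <;>
          simp [e']
      rw [← SetLike.coe_sort_coe, Nat.card_coe_set_eq]
      exact (Set.ncard_le_ncard this).trans ((Set.ncard_insert_le _ _).trans (by simp))
    have hran : Nat.card f.range ≤ 2 := by
      have : (f.range : Set N) ⊆ {1, v} := by
        rintro _ ⟨n, rfl⟩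
        have hhh : h * h = 1 := by rw [← pow_two]; exact hs2 ▸ ho ▸ pow_orderOf_eq_one h
        rcases hfixN h hh1 ha hb (f n) (by
          show MulAut.conjNormal h (n * MulAut.conjNormal h n) = n * MulAut.conjNormal h n
          rw [map_mul, ← MulAut.mul_apply, ← map_mul, hhh, map_one, MulAut.one_apply, hcomm]) with e | e <;>
          simp [e]
      rw [← SetLike.coe_sort_coe, Nat.card_coe_set_eq]
      exact (Set.ncard_le_ncard this).trans ((Set.ncard_insert_le _ _).trans (by simp))
    have hmul := f.ker.card_mul_index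
    rw [Subgroup.index_ker, hcN] at hmul
    have : (2:ℕ) ^ j ≤ 2 ^ 2 := hmul ▸ Nat.mul_le_mul hker hran
    have := (Nat.pow_le_pow_iff_right (by norm_num : 1 < 2)).1 this
    rw [hcX, show j = 2 by omega]
  -- the kernel of the point stabiliser
  haveI := Fact.mk hs
  obtain ⟨K, hKa, hKn, hK, hKt⟩ := zas_kernel h2 h3 hX3 a
  have hpow : ∀ i, ¬ s ∣ i → h ^ i ≠ 1 ∧ (h ^ i) • a = a ∧ (h ^ i) • b = b := fun i hi =>
    ⟨fun e => hi (ho ▸ orderOf_dvd_of_pow_eq_one e),
      mem_stabilizer_iff.1 ((stabilizer G a).pow_mem (mem_stabilizer_iff.2 ha) _),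
      mem_stabilizer_iff.1 ((stabilizer G b).pow_mem (mem_stabilizer_iff.2 hb) _)⟩
  have hKfpf : ∀ i, ¬ s ∣ i → ∀ k ∈ K, h ^ i * k = k * h ^ i → k = 1 := by
    intro i hi k hk e
    obtain ⟨g1, ga, gb⟩ := hpow i hi
    rcases ((hK k).1 hk).2 with e1 | e1
    · exact e1
    exfalso
    have hne : k • b ≠ a := fun e2 => hab (smul_left_cancel k (e2.trans ((hK k).1 hk).1.symm)).symm
    exact g1 (h3 _ a b (k • b) hab (e1 b hab.symm).symm hne.symm ga gb
      (by rw [← mul_smul, e, mul_smul, gb]))
  have hKh : ∀ i : ℕ, ∀ k ∈ K, h ^ i * k * (h ^ i)⁻¹ ∈ K := fun i k hk =>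
    hKn _ ((stabilizer G a).pow_mem (mem_stabilizer_iff.2 ha) i) k hk
  -- K is nilpotent
  let φ : K ≃* K :=
    { toFun := fun k => ⟨h * k * h⁻¹, hKn h (mem_stabilizer_iff.2 ha) k k.2⟩
      invFun := fun k => ⟨h⁻¹ * k * h, by
        have := hKn h⁻¹ ((stabilizer G a).inv_mem (mem_stabilizer_iff.2 ha)) k k.2
        rwa [inv_inv] at this⟩
      left_inv := fun k => Subtype.ext (by simp only; group)
      right_inv := fun k => Subtype.ext (by simp only; group)
      map_mul' := fun k l => Subtype.ext (by simp only [Subgroup.coe_mul]; group) }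
  have hs' : ¬ s ∣ 1 := fun e => hs.one_lt.ne' (Nat.dvd_one.1 e)
  have hφr : ∀ (i : ℕ) (k : K), (((fun z => φ z)^[i] k : K) : G) = h ^ i * k * (h ^ i)⁻¹ := by
    intro i
    induction i with
    | zero => intro k; simp
    | succ i ih =>
      intro k
      rw [Function.iterate_succ_apply', show ((φ ((fun z => φ z)^[i] k) : K) : G) =
        h * ((fun z => φ z)^[i] k : K) * h⁻¹ from rfl, ih, pow_succ']
      group
  haveI hnil : Group.IsNilpotent K := by
    refine Cfsg.Agent.Core.ThompsonFPF.isNilpotent_of_fpf (φ := φ) hs (fun k e => ?_) ?_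
    · exact Subtype.ext (hKfpf 1 hs' k k.2 (by
        have : h * (k : G) * h⁻¹ = k := congrArg Subtype.val e
        rw [pow_one]; exact mul_inv_eq_iff_eq_mul.1 this))
    · intro k
      exact Subtype.ext (by rw [hφr, ← ho, pow_orderOf_eq_one]; simp)
  haveI : Nontrivial K := by
    obtain ⟨c, hca, hcb⟩ : ∃ c, c ≠ a ∧ c ≠ b := by
      haveI := Fintype.ofFinite X
      by_contra! hno
      have : (Finset.univ : Finset X) ⊆ {a, b} := fun c _ => by
        by_cases hc : c = a
        · simp [hc]
        · simp [hno c hc]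
      have := (Finset.card_le_card this).trans Finset.card_le_two
      rw [Finset.card_univ, ← Nat.card_eq_fintype_card] at this
      omega
    obtain ⟨k, hk, e⟩ := hKt b c hab.symm hca
    exact ⟨⟨k, hk⟩, 1, fun e' => hcb (by rw [← e, show k = 1 from congrArg Subtype.val e', one_smul])⟩
  set A : Subgroup G := (Subgroup.center K).map K.subtype with hA
  have hAK : A ≤ K := Subgroup.map_subtype_le _
  have hAcomm : ∀ x ∈ A, ∀ k ∈ K, x * k = k * x := by
    rintro _ ⟨z, hz, rfl⟩ k hk
    exact (congrArg Subtype.val (Subgroup.mem_center_iff.1 hz ⟨k, hk⟩)).symm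
  have hAh : ∀ i : ℕ, ∀ x ∈ A, h ^ i * x * (h ^ i)⁻¹ ∈ A := by
    intro i x hx
    refine ⟨⟨_, hKh i x (hAK hx)⟩, Subgroup.mem_center_iff.2 fun k => Subtype.ext ?_, rfl⟩
    have hk' : (h ^ i)⁻¹ * (k : G) * h ^ i ∈ K := by
      have := hKn _ ((stabilizer G a).inv_mem ((stabilizer G a).pow_mem (mem_stabilizer_iff.2 ha) i)) k k.2
      rwa [inv_inv] at this
    show (k : G) * (h ^ i * x * (h ^ i)⁻¹) = h ^ i * x * (h ^ i)⁻¹ * k
    calc (k : G) * (h ^ i * x * (h ^ i)⁻¹) = h ^ i * (((h ^ i)⁻¹ * k * h ^ i) * x) * (h ^ i)⁻¹ := by group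
      _ = h ^ i * (x * ((h ^ i)⁻¹ * k * h ^ i)) * (h ^ i)⁻¹ := by rw [hAcomm x hx _ hk']
      _ = _ := by group
  obtain ⟨a1, ha1, ha1'⟩ : ∃ x ∈ A, x ≠ 1 := by
    haveI : Nontrivial (Subgroup.center K) := (Subgroup.nontrivial_iff_ne_bot _).2 (Group.IsNilpotent.center_ne_bot K)
    obtain ⟨z, hz⟩ := exists_ne (1 : Subgroup.center K)
    exact ⟨_, ⟨z.1, z.2, rfl⟩, fun e => hz (Subtype.ext (Subtype.ext e))⟩
  have hKodd : Odd (Nat.card A) := by
    have hbij : Function.Bijective fun k : K => (⟨(k : G) • b, fun e => hab (smul_left_cancel (k : G)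
        ((((hK k).1 k.2).1).trans e.symm))⟩ : ({a}ᶜ : Set X)) := by
      constructor
      · intro k l e
        have e' : (k : G) • b = (l : G) • b := congrArg Subtype.val e
        have hm := K.mul_mem (K.inv_mem l.2) k.2
        rcases ((hK _).1 hm).2 with e1 | e1
        · exact Subtype.ext (inv_mul_eq_one.1 e1).symm
        · exact absurd (by rw [mul_smul, e', inv_smul_smul]) (e1 b hab.symm)
      · rintro ⟨c, hc⟩
        obtain ⟨k, hk, e⟩ := hKt b c hab.symm hc
        exact ⟨⟨k, hk⟩, Subtype.ext e⟩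
    have hcK : Odd (Nat.card K) := by
      rw [Nat.card_congr (Equiv.ofBijective _ hbij), Nat.card_coe_set_eq, Set.ncard_compl,
        Set.ncard_singleton, hcX]
      exact Nat.Even.sub_odd (Nat.one_le_two_pow) (Nat.even_pow.2 ⟨even_two, by omega⟩) odd_one
    exact hcK.of_dvd_nat (Subgroup.card_dvd_of_le hAK)
  -- linear algebra on N
  letI : AddCommGroup (Additive N) :=
    { (inferInstance : AddGroup (Additive N)) with
      add_comm := fun x y => congrArg Additive.ofMul (hcomm x.toMul y.toMul) }
  have hMM : ∀ m : Additive N, m + m = 0 := fun m =>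
    congrArg Additive.ofMul (show m.toMul * m.toMul = 1 by rw [← pow_two]; exact hexp _)
  let c : G →* AddMonoid.End (Additive N) :=
    { toFun := fun g =>
        (MonoidHom.toAdditive (MulAut.conjNormal g : MulAut N).toMonoidHom : Additive N →+ Additive N)
      map_one' := by
        refine AddMonoidHom.ext fun m => ?_
        show Additive.ofMul ((MulAut.conjNormal (1 : G) : MulAut N) m.toMul) = m
        rw [map_one]; rfl
      map_mul' := fun x y => by
        refine AddMonoidHom.ext fun m => ?_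
        show Additive.ofMul ((MulAut.conjNormal (x * y) : MulAut N) m.toMul) = _
        rw [map_mul]; rfl }
  have hc : ∀ (g : G) (m : Additive N), c g m = Additive.ofMul (MulAut.conjNormal g m.toMul) := fun _ _ => rfl
  have hcA : ∀ k ∈ K, k ≠ 1 → ∀ m : Additive N, c k m = m → m = 0 := by
    intro k hk hk1 m hm
    have hm' : MulAut.conjNormal k m.toMul = m.toMul := congrArg Additive.toMul hm
    have e : k • ((m.toMul : G) • a) = (m.toMul : G) • a := by
      rw [← Cfsg.Agent.PermGroups.conj_smul_eq ((hK k).1 hk).1, ← MulAut.conjNormal_apply, hm']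
    by_contra hne
    exact ((hK k).1 hk).2.resolve_left hk1 _ (fun e1 => hne (congrArg Additive.ofMul
      (hinj (show (m.toMul : G) • a = ((1 : N) : G) • a by rw [e1, Subgroup.coe_one, one_smul])))) e
  let V : Additive N := Additive.ofMul v
  have hV : V ≠ 0 := fun e => hv1 (congrArg Additive.toMul e)
  have hcK : ∀ u w : Additive N, u ≠ 0 → w ≠ 0 → ∃ k ∈ K, c k u = w := by
    intro u w hu hw
    obtain ⟨k, hk, e⟩ := hKt ((u.toMul : G) • a) ((w.toMul : G) • a)
      (fun e1 => hu (congrArg Additive.ofMul (hinj (show (u.toMul : G) • a = ((1 : N) : G) • a by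
        rw [e1, Subgroup.coe_one, one_smul]))))
      (fun e1 => hw (congrArg Additive.ofMul (hinj (show (w.toMul : G) • a = ((1 : N) : G) • a by
        rw [e1, Subgroup.coe_one, one_smul]))))
    refine ⟨k, hk, congrArg Additive.ofMul (hinj ?_)⟩
    show ((MulAut.conjNormal k u.toMul : N) : G) • a = _
    rw [MulAut.conjNormal_apply, Cfsg.Agent.PermGroups.conj_smul_eq ((hK k).1 hk).1]
    exact e
  let S : Subring (AddMonoid.End (Additive N)) := Subring.closure (c '' A)
  have hScen : ∀ k ∈ K, ∀ x ∈ S, c k * x = x * c k := by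
    intro k hk x hx
    have : S ≤ Subring.centralizer {c k} := Subring.closure_le.2 (by
      rintro _ ⟨z, hz, rfl⟩
      refine Subring.mem_centralizer_iff.2 fun g hg => ?_
      rw [Set.mem_singleton_iff.1 hg, ← map_mul, ← map_mul, hAcomm z hz k hk])
    exact Subring.mem_centralizer_iff.1 (this hx) _ rfl
  have hScomm : ∀ x ∈ S, ∀ y ∈ S, x * y = y * x := by
    intro x hx y hy
    have : S ≤ Subring.centralizer {y} := Subring.closure_le.2 (by
      rintro _ ⟨z, hz, rfl⟩
      exact Subring.mem_centralizer_iff.2 fun g hg => by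
        rw [Set.mem_singleton_iff.1 hg]; exact (hScen z (hAK hz) y hy).symm)
    exact (Subring.mem_centralizer_iff.1 (this hx) _ rfl).symm
  have hSdom : ∀ x ∈ S, ∀ u : Additive N, u ≠ 0 → x u = 0 → x = 0 := by
    intro x hx u hu hxu
    refine AddMonoidHom.ext fun w => ?_
    by_cases hw : w = 0
    · rw [hw]; exact (map_zero x).trans (map_zero (0 : AddMonoid.End (Additive N))).symm
    obtain ⟨k, hk, rfl⟩ := hcK u w hu hw
    show (x * c k) u = 0
    rw [← hScen k hk x hx]
    show c k (x u) = 0
    rw [hxu, map_zero]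
  -- every vector lies in S V
  haveI : Fintype A := Fintype.ofFinite A
  have hspan : ∀ m, ∃ x ∈ S, x V = m := by
    intro m
    have hzero : ∀ w, ∑ x : A, c x w = 0 := by
      intro w
      refine hcA a1 (hAK ha1) ha1' _ ?_
      rw [map_sum]
      refine Fintype.sum_equiv (Equiv.mulLeft ⟨a1, ha1⟩) _ _ fun x => ?_
      show c a1 (c x w) = c (a1 * x) w
      rw [map_mul]; rfl
    have hT : ∀ w, ∑ i ∈ Finset.range s, c (h ^ i) w = 0 ∨ ∑ i ∈ Finset.range s, c (h ^ i) w = V := by
      intro w
      set T := ∑ i ∈ Finset.range s, c (h ^ i) w with hTdef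
      have hTfix : c h T = T := by
        rw [hTdef, map_sum]
        have e1 : ∀ i, c h (c (h ^ i) w) = c (h ^ (i + 1)) w := fun i => by
          rw [pow_succ', map_mul]; rfl
        rw [Finset.sum_congr rfl fun i _ => e1 i]
        have hsum := Finset.sum_range_succ' (fun i => c (h ^ i) w) s
        rw [Finset.sum_range_succ, ← ho, pow_orderOf_eq_one, pow_zero, ho] at hsum
        exact add_right_cancel (b := c 1 w) hsum.symm
      rcases hfixN h hh1 ha hb T.toMul (congrArg Additive.toMul hTfix) with e | e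
      · exact Or.inl (congrArg Additive.ofMul e)
      · exact Or.inr (congrArg Additive.ofMul e)
    have hm : m = ∑ x : A, c x (∑ i ∈ Finset.range s, c (h ^ i) (c (x : G)⁻¹ m)) := by
      simp only [map_sum]
      rw [Finset.sum_comm, Finset.sum_eq_single 0]
      · have e1 : ∀ x : A, c x (c (h ^ 0) (c (x : G)⁻¹ m)) = m := fun x => by
          show (c x * (c (h ^ 0) * c (x : G)⁻¹)) m = m
          rw [← map_mul, ← map_mul, pow_zero, one_mul, mul_inv_cancel, map_one]; rfl
        rw [Finset.sum_congr rfl fun x _ => e1 x, Finset.sum_const, Finset.card_univ,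
          ← Nat.card_eq_fintype_card]
        obtain ⟨l, hl⟩ := hKodd
        rw [hl, add_smul, one_smul, mul_comm, mul_smul, two_smul, smul_add, ← smul_add, hMM, smul_zero,
          zero_add]
      · intro i hi hi0
        have hi' : ¬ s ∣ i := fun e => hi0 (Nat.eq_zero_of_dvd_of_lt e (Finset.mem_range.1 hi))
        let f : A → A := fun x => ⟨(x : G) * (h ^ i * (x : G)⁻¹ * (h ^ i)⁻¹),
          A.mul_mem x.2 (hAh i _ (A.inv_mem x.2))⟩
        have hf : Function.Bijective f := by
          refine Finite.injective_iff_bijective.1 fun x y e => Subtype.ext ?_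
          have e' : (x : G) * (h ^ i * (x : G)⁻¹ * (h ^ i)⁻¹) =
              y * (h ^ i * (y : G)⁻¹ * (h ^ i)⁻¹) := congrArg Subtype.val e
          refine (inv_mul_eq_one.1 (hKfpf i hi' ((y : G)⁻¹ * x)
            (K.mul_mem (K.inv_mem (hAK y.2)) (hAK x.2)) ?_)).symm
          calc h ^ i * ((y : G)⁻¹ * x)
              = (y : G)⁻¹ * ((y : G) * (h ^ i * (y : G)⁻¹ * (h ^ i)⁻¹)) * h ^ i * x := by group
            _ = (y : G)⁻¹ * ((x : G) * (h ^ i * (x : G)⁻¹ * (h ^ i)⁻¹)) * h ^ i * x := by rw [e']
            _ = (y : G)⁻¹ * x * h ^ i := by group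
        refine Eq.trans ?_ (hzero (c (h ^ i) m))
        refine Fintype.sum_equiv (Equiv.ofBijective f hf) _ _ fun x => ?_
        show (c x * (c (h ^ i) * c (x : G)⁻¹)) m = (c (f x : G) * c (h ^ i)) m
        rw [← map_mul, ← map_mul, ← map_mul]
        congr 2
        simp only [f]; group
      · intro hh
        exact absurd (Finset.mem_range.2 hs.pos) hh
    refine ⟨∑ x : A, if ∑ i ∈ Finset.range s, c (h ^ i) (c (x : G)⁻¹ m) = V then c x else 0,
      sum_mem fun x _ => ?_, ?_⟩
    · split_ifs
      · exact Subring.subset_closure ⟨x, x.2, rfl⟩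
      · exact S.zero_mem
    · conv_rhs => rw [hm]
      refine (AddMonoidHom.finsetSum_apply _ _ _).trans ?_
      refine Finset.sum_congr rfl fun x _ => ?_
      split_ifs with e
      · rw [e]; rfl
      · rw [(hT _).resolve_right e, map_zero]; rfl
  have hbij : Function.Bijective fun x : S => (x : AddMonoid.End (Additive N)) V := by
    refine ⟨fun x y e => ?_, fun m => ?_⟩
    · refine sub_eq_zero.1 (Subtype.ext (hSdom _ (x - y).2 V hV ?_))
      show (x : AddMonoid.End (Additive N)) V - (y : AddMonoid.End (Additive N)) V = 0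
      exact sub_eq_zero.2 e
    · obtain ⟨x, hx, e⟩ := hspan m
      exact ⟨⟨x, hx⟩, e⟩
  haveI : Finite S := Finite.of_injective _ hbij.1
  have hcardS : Nat.card S = 2 ^ j := by
    rw [Nat.card_congr (Equiv.ofBijective _ hbij)]; exact hcN
  haveI : Nontrivial S := Finite.one_lt_card_iff_nontrivial.1 (by
    rw [hcardS]; exact Nat.one_lt_two_pow (by omega))
  letI : CommRing S := { (inferInstance : Ring S) with
    mul_comm := fun x y => Subtype.ext (hScomm x x.2 y y.2) }
  haveI : NoZeroDivisors S := ⟨fun {x y} e => by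
    by_contra! hxy
    apply hxy.1
    have hu : (y : AddMonoid.End (Additive N)) V ≠ 0 := fun e1 =>
      hxy.2 (hbij.1 (e1.trans (AddMonoidHom.zero_apply V).symm))
    exact Subtype.ext (hSdom _ x.2 _ hu (DFunLike.congr_fun (congrArg Subtype.val e) V))⟩
  haveI : IsDomain S := NoZeroDivisors.to_isDomain S
  letI : Field S := (Finite.isField_of_domain S).toField
  have hσmem : ∀ g : G, (∀ z ∈ A, g * z * g⁻¹ ∈ A) → ∀ x ∈ S, c g * x * c g⁻¹ ∈ S := by
    intro g hg x hx
    induction hx using Subring.closure_induction with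
    | mem z hz =>
      obtain ⟨w, hw, rfl⟩ := hz
      rw [← map_mul, ← map_mul]; exact Subring.subset_closure ⟨_, hg w hw, rfl⟩
    | zero => rw [mul_zero, zero_mul]; exact S.zero_mem
    | one => rw [mul_one, ← map_mul, mul_inv_cancel, map_one]; exact S.one_mem
    | add x y _ _ hx hy => rw [mul_add, add_mul]; exact S.add_mem hx hy
    | neg x _ hx =>
      have e : c g * -x * c g⁻¹ = -(c g * x * c g⁻¹) := AddMonoidHom.ext fun m => map_neg (c g) _
      rw [e]; exact S.neg_mem hx
    | mul x y _ _ hx hy =>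
      rw [show c g * (x * y) * c g⁻¹ = c g * x * (c g⁻¹ * c g) * y * c g⁻¹ by
        rw [← map_mul, inv_mul_cancel, map_one, mul_one]; simp only [mul_assoc]]
      have := S.mul_mem hx hy
      simpa only [mul_assoc] using this
  have hh : ∀ z ∈ A, h * z * h⁻¹ ∈ A := fun z hz => by simpa using hAh 1 z hz
  have hh' : ∀ z ∈ A, h⁻¹ * z * h⁻¹⁻¹ ∈ A := by
    intro z hz
    have e : h⁻¹ = h ^ (s - 1) := inv_eq_of_mul_eq_one_right (by
      rw [← pow_succ', Nat.sub_add_cancel hs.pos, ← ho, pow_orderOf_eq_one])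
    rw [e]
    exact hAh _ z hz
  have hone : c h⁻¹ * c h = 1 ∧ c h * c h⁻¹ = 1 := by
    rw [← map_mul, ← map_mul, inv_mul_cancel, mul_inv_cancel, map_one]; exact ⟨rfl, rfl⟩
  let σ : RingAut S :=
    { toFun := fun x => ⟨c h * x * c h⁻¹, hσmem h hh x x.2⟩
      invFun := fun x => ⟨c h⁻¹ * x * c h, by simpa using hσmem h⁻¹ hh' x x.2⟩
      left_inv := fun x => Subtype.ext (by
        show c h⁻¹ * (c h * x * c h⁻¹) * c h = x
        simp only [mul_assoc, hone.1, mul_one]
        rw [← mul_assoc, hone.1, one_mul])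
      right_inv := fun x => Subtype.ext (by
        show c h * (c h⁻¹ * x * c h) * c h⁻¹ = x
        simp only [mul_assoc, hone.2, mul_one]
        rw [← mul_assoc, hone.2, one_mul])
      map_add' := fun x y => Subtype.ext (by
        show c h * (x + y : AddMonoid.End (Additive N)) * c h⁻¹ = _
        rw [mul_add, add_mul]; rfl)
      map_mul' := fun x y => Subtype.ext (by
        show c h * (x * y : AddMonoid.End (Additive N)) * c h⁻¹ =
          c h * x * c h⁻¹ * (c h * y * c h⁻¹)
        simp only [mul_assoc]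
        rw [← mul_assoc (c h⁻¹), hone.1, one_mul]) }
  have hσi : ∀ (i : ℕ) (x : S), ((σ ^ i) x : AddMonoid.End (Additive N)) = c (h ^ i) * x * c (h ^ i)⁻¹ := by
    intro i
    induction i with
    | zero => intro x; simp
    | succ i ih =>
      intro x
      rw [pow_succ', RingAut.mul_apply]
      show c h * ((σ ^ i) x : AddMonoid.End (Additive N)) * c h⁻¹ = _
      rw [ih, pow_succ', mul_inv_rev, map_mul, map_mul]
      simp only [mul_assoc]
  have hfixS : ∀ x : S, σ x = x → x = 0 ∨ x = 1 := by
    intro x hx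
    have e : c h ((x : AddMonoid.End (Additive N)) V) = (x : AddMonoid.End (Additive N)) V := by
      have h1 : c h * x * c h⁻¹ = (x : AddMonoid.End (Additive N)) := congrArg Subtype.val hx
      have h2' : c h * x = (x : AddMonoid.End (Additive N)) * c h := by
        conv_rhs => rw [← h1, mul_assoc (c h * _), hone.1, mul_one]
      have h3' : c h V = V := congrArg Additive.ofMul hhv
      exact (DFunLike.congr_fun h2' V).trans (congrArg _ h3')
    rcases hfixN h hh1 ha hb _ (congrArg Additive.toMul e) with e' | e'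
    · exact Or.inl (hbij.1 (congrArg Additive.ofMul e'))
    · exact Or.inr (hbij.1 (congrArg Additive.ofMul e'))
  have hσo : orderOf σ = s := by
    refine orderOf_eq_prime ?_ ?_
    · refine RingEquiv.ext fun x => Subtype.ext ?_
      rw [hσi, ← ho, pow_orderOf_eq_one, inv_one, map_one, one_mul, mul_one]; rfl
    · intro e
      have hle : Nat.card S ≤ 2 := by
        have : (Set.univ : Set S) ⊆ {0, 1} := fun x _ => hfixS x (by rw [e]; rfl)
        rw [← Set.ncard_univ]
        exact (Set.ncard_le_ncard this).trans ((Set.ncard_insert_le _ _).trans (by simp))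
      rw [hcardS] at hle
      have : (2:ℕ) ^ 2 ≤ 2 ^ j := Nat.pow_le_pow_right (by norm_num) hj2
      omega
  haveI : Finite (RingAut S) := Finite.of_injective (fun e : RingAut S => (e : S → S)) DFunLike.coe_injective
  haveI : Fintype (Subgroup.zpowers σ) := Fintype.ofFinite _
  have hfr : Module.finrank (FixedPoints.subfield (Subgroup.zpowers σ) S) S = s := by
    rw [FixedPoints.finrank_eq_card, ← Nat.card_eq_fintype_card, Nat.card_zpowers, hσo]
  have hcF : Nat.card (FixedPoints.subfield (Subgroup.zpowers σ) S) = 2 := by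
    refine le_antisymm ?_ Finite.one_lt_card
    have : ((FixedPoints.subfield (Subgroup.zpowers σ) S : Subfield S) : Set S) ⊆ {0, 1} :=
      fun x hx => hfixS x (hx ⟨σ, Subgroup.mem_zpowers σ⟩)
    rw [← SetLike.coe_sort_coe, Nat.card_coe_set_eq]
    exact (Set.ncard_le_ncard this).trans ((Set.ncard_insert_le _ _).trans (by simp))
  have hfin := Module.natCard_eq_pow_finrank (K := FixedPoints.subfield (Subgroup.zpowers σ) S) (V := S)
  rw [hfr, hcF, hcardS] at hfin
  exact ⟨s, hs, by rw [hcX, Nat.pow_right_injective le_rfl hfin]⟩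

end Cfsg.Agent.Suzuki
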