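import Cfsg.Agent.Suzuki.ReeCentralizer
import Cfsg.Agent.TwoGroups.CGroupPSL
import Cfsg.Agent.Linear.PSL2Subfield
import Cfsg.Agent.Linear.Congr

/-!
The small Ree group over the field with three elements: its derived group is `PSL₂(8)`.
-/

set_option autoImplicit false

universe u

namespace Cfsg.Agent.Suzuki.Ree

open Cfsg.Lie Cfsg.Agent.Chev
open scoped Matrix MatrixGroups Pointwise

variable {K : Type u} [Field K] (h : Ctx K 0)

/-- `G¹` over the prime field -/
local notation "R₃" => twistedG2 K (3 ^ 0)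
/-- `U¹` -/
local notation "U₃" => Subgroup.subgroupOf (chevG2.posUnipotent K ⊓ twistedG2 K (3 ^ 0)) (twistedG2 K (3 ^ 0))
/-- three elements -/
local notation "Z₃" => Multiplicative K

include h in
theorem cube_self (a : K) : a ^ 3 = a := by
  have := h.finite
  let := Fintype.ofFinite K
  have e := FiniteField.pow_card a
  rw [← Nat.card_eq_fintype_card, h.card] at e
  simpa using e

include h in
theorem three_zero : (3 : K) = 0 := by
  have := h.char
  exact_mod_cast CharP.cast_eq_zero K 3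

include h in
theorem trichotomy (a : K) : a = 0 ∨ a = 1 ∨ a = -1 := by
  rcases mul_eq_zero.1 (show a * (a ^ 2 - 1) = 0 by linear_combination cube_self h a) with e | e
  · exact Or.inl e
  · exact Or.inr (sq_eq_one_iff.1 (sub_eq_zero.1 e))

include h in
theorem card_Z₃ : Nat.card Z₃ = 3 := by
  rw [Nat.card_congr Multiplicative.toAdd, h.card]; norm_num

include h in
theorem gen_Z₃ {a : Z₃} (ha : a ≠ 1) (y : Z₃) : y = 1 ∨ y = a ∨ y = a * a := by
  have h3 := three_zero h
  have ha' : a.toAdd ≠ 0 := ha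
  rcases trichotomy h y.toAdd with e | e | e <;> rcases trichotomy h a.toAdd with f | f | f
  all_goals first
    | exact absurd f ha'
    | exact Or.inl e
    | exact Or.inr (Or.inl (Multiplicative.toAdd.injective (e.trans f.symm)))
    | refine Or.inr (Or.inr (Multiplicative.toAdd.injective ?_))
      rw [toAdd_mul, e, f]
      first | linear_combination h3 | linear_combination -h3

include h in
theorem three_coords (x : ↥U₃) : ∃ p : K × K × K, x.1.1 = reeU 0 p.1 p.2.1 p.2.2 := by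
  obtain ⟨t, u, v, e⟩ := (mem_unipotent_twisted h _).1 (Subgroup.mem_subgroupOf.1 x.2)
  exact ⟨(t, u, v), e⟩

/-- coordinates of an element of `U¹` -/
noncomputable def coord (x : ↥U₃) : K × K × K := (three_coords h x).choose

include h in
theorem coord_eq {x : ↥U₃} {t u v : K} (e : x.1.1 = reeU 0 t u v) : coord h x = (t, u, v) := by
  obtain ⟨e1, e2, e3⟩ := reeU_inj h ((three_coords h x).choose_spec.symm.trans e)
  exact Prod.ext e1 (Prod.ext e2 e3)

include h in
theorem three_mul (t u v t' u' v' : K) : ∃ v'', reeU 0 t u v * reeU 0 t' u' v' =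
    reeU 0 (t + t') (u + u' - t' ^ 3 * t) v'' := by
  have := h.char
  obtain ⟨T, A, B, e⟩ := (mem_unipotent_twisted h _).1
    (mul_mem ((mem_unipotent_twisted h _).2 ⟨t, u, v, rfl⟩)
      ((mem_unipotent_twisted h _).2 ⟨t', u', v', rfl⟩))
  refine ⟨B, ?_⟩
  have e' := e
  rw [reeU_eq, reeU_eq, reeU_eq, Ug_mul] at e'
  obtain ⟨-, e2, -, -, e5, -⟩ := Ug_inj e'
  simp only [pow_zero, pow_one] at e2 e5
  rw [e, e2, e5]

/-- the invariant linear form on `U¹` -/
noncomputable def psi : ↥U₃ →* Z₃ :=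
  MonoidHom.mk' (fun x => Multiplicative.ofAdd ((coord h x).2.1 - (coord h x).1 ^ 2)) (by
    intro x y
    obtain ⟨p, hp⟩ := three_coords h x
    obtain ⟨q, hq⟩ := three_coords h y
    obtain ⟨v'', e⟩ := three_mul h p.1 p.2.1 p.2.2 q.1 q.2.1 q.2.2
    rw [coord_eq h hp, coord_eq h hq,
      coord_eq h (x := x * y) (show (x * y).1.1 = _ from (congrArg₂ (· * ·) hp hq).trans e), ← ofAdd_add]
    refine congrArg Multiplicative.ofAdd ?_
    linear_combination (-p.1) * cube_self h q.1 - (p.1 * q.1) * three_zero h)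

include h in
theorem psi_apply {x : ↥U₃} {t u v : K} (e : x.1.1 = reeU 0 t u v) :
    psi h x = Multiplicative.ofAdd (u - t ^ 2) := by
  show Multiplicative.ofAdd ((coord h x).2.1 - (coord h x).1 ^ 2) = _
  rw [coord_eq h e]

include h in
theorem psi_conj {b : ↥R₃} (hb : b.1 ∈ chevG2.borelSubgroup K) (x y : ↥U₃)
    (e : b.1 * x.1.1 * b.1⁻¹ = y.1.1) : psi h y = psi h x := by
  have := h.char
  obtain ⟨t, u, v, d, hd, hbe⟩ := mem_borel_twisted h (Subgroup.mem_inf.2 ⟨hb, b.2⟩)
  obtain ⟨p, hp⟩ := three_coords h x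
  have hW : reeU 0 t u v ∈ chevG2.posUnipotent K ⊓ R₃ := (mem_unipotent_twisted h _).2 ⟨_, _, _, rfl⟩
  let W : ↥U₃ := ⟨⟨reeU 0 t u v, hW.2⟩, Subgroup.mem_subgroupOf.2 hW⟩
  have hd' : d * x.1.1 * d⁻¹ ∈ chevG2.posUnipotent K ⊓ R₃ :=
    borel_normalises h (Subgroup.mem_inf.2 ⟨cG.diagonal_le_borel hd.1, hd.2⟩) (Subgroup.mem_subgroupOf.1 x.2)
  let Y : ↥U₃ := ⟨⟨d * x.1.1 * d⁻¹, hd'.2⟩, Subgroup.mem_subgroupOf.2 hd'⟩
  have hy : y = W * Y * W⁻¹ := by
    apply Subtype.ext; apply Subtype.ext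
    show y.1.1 = reeU 0 t u v * (d * x.1.1 * d⁻¹) * (reeU 0 t u v)⁻¹
    rw [← e, hbe]; group
  rw [hy, map_mul, map_mul, map_inv, mul_right_comm, mul_inv_cancel, one_mul, psi_apply h hp]
  have hY : Y.1.1 = reeU 0 (kap d * p.1) ((kap d ^ 3 ^ 0) ^ 3 * kap d * p.2.1)
      ((kap d ^ 3 ^ 0) ^ 3 * kap d ^ 2 * p.2.2) := by
    show d * x.1.1 * d⁻¹ = _
    rw [hp, torus_conj h hd]
  rw [psi_apply h hY]
  refine congrArg Multiplicative.ofAdd ?_
  have e2 : kap d ^ 2 = 1 := by
    rcases trichotomy h (kap d) with e | e | e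
    · exact absurd e (kap_ne_zero hd.1)
    · rw [e, one_pow]
    · rw [e]; ring
  simp only [pow_zero, pow_one]
  linear_combination (p.2.1 * (kap d ^ 2 + 1) - p.1 ^ 2) * e2

set_option maxHeartbeats 2000000 in
include h in
theorem exists_transfer : ∃ f : ↥R₃ →* Z₃, Function.Surjective f ∧
    ∀ z : ↥R₃, z.1 = reeU 0 (0 : K) 1 0 → f z ≠ 1 := by
  classical
  have := h.char
  have := h.finite
  have hz : reeU 0 (0 : K) 1 0 ∈ chevG2.posUnipotent K ⊓ R₃ :=
    (mem_unipotent_twisted h _).2 ⟨_, _, _, rfl⟩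
  set z : ↥R₃ := ⟨reeU 0 (0 : K) 1 0, hz.2⟩ with hzdef
  have hzU : z ∈ U₃ := Subgroup.mem_subgroupOf.2 hz
  set c : Z₃ := psi h ⟨z, hzU⟩ with hc
  have hc1 : c = Multiplicative.ofAdd 1 := by rw [hc, psi_apply h (x := ⟨z, hzU⟩) rfl]; simp
  have key' : ∀ {g₀ : ↥R₃}, g₀.1 ∈ chevG2.borelSubgroup K → ∀ y x : ↥U₃, x.1 = g₀⁻¹ * y.1 * g₀ →
      psi h x = psi h y := by
    intro g₀ hg y x e
    refine psi_conj h (b := g₀⁻¹) (inv_mem hg) y x ?_
    have e' := congrArg Subtype.val e
    rw [Subgroup.coe_mul, Subgroup.coe_mul] at e'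
    rw [e', Subgroup.coe_inv, inv_inv]
  have key : ∀ (k : ℕ) (g₀ : ↥R₃) (hk : g₀⁻¹ * z ^ k * g₀ ∈ U₃), psi h ⟨_, hk⟩ = c ^ k := by
    intro k g₀ hk
    rw [hc, ← map_pow]
    by_cases h1 : z ^ k = 1
    · have e1 : (⟨g₀⁻¹ * z ^ k * g₀, hk⟩ : ↥U₃) = 1 := Subtype.ext (by simp [h1])
      have e2 : (⟨z, hzU⟩ : ↥U₃) ^ k = 1 := Subtype.ext (by simpa using h1)
      rw [e1, e2]
    · have hB := ti h g₀.2 (Subgroup.mem_subgroupOf.1 (pow_mem hzU k))
        (by simpa using Subgroup.mem_subgroupOf.1 hk) (fun e => h1 (Subtype.ext e))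
      exact key' hB.1 (⟨z, hzU⟩ ^ k) ⟨_, hk⟩ (by rw [Subgroup.coe_pow])
  have hidx : (U₃).index % 3 ≠ 0 := by
    have hU : Nat.card ↥U₃ = 27 := by
      rw [Nat.card_congr (Subgroup.subgroupOfEquivOfLe (inf_le_right : chevG2.posUnipotent K ⊓ R₃ ≤ R₃)).toEquiv,
        card_unipotent h]
      norm_num
    have := (U₃).card_mul_index
    rw [hU, card_twisted h] at this
    generalize (U₃).index = i at this ⊢
    norm_num at this
    omega
  refine ⟨MonoidHom.transfer (psi h), ?_⟩
  have htr : MonoidHom.transfer (psi h) z = c ^ (U₃).index := by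
    let := (U₃).fintypeQuotientOfFiniteIndex
    rw [MonoidHom.transfer_eq_prod_quotient_orbitRel_zpowers_quot,
      Finset.prod_congr rfl fun q _ => key _ _ _, Finset.prod_pow_eq_pow_sum]
    congr 1
    exact (Subgroup.index_eq_sum_minimalPeriod U₃ z).symm
  have hne : c ^ (U₃).index ≠ 1 := by
    rw [hc1, ← ofAdd_nsmul]
    intro e
    have e' : ((U₃).index • (1 : K)) = 0 := Multiplicative.ofAdd.injective e
    rw [nsmul_one, CharP.cast_eq_zero_iff K 3] at e'
    omega
  refine ⟨fun y => ?_, fun z' hz' => by rw [show z' = z from Subtype.ext hz', htr]; exact hne⟩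
  rcases gen_Z₃ h hne y with rfl | rfl | rfl
  · exact ⟨1, map_one _⟩
  · exact ⟨z, htr⟩
  · exact ⟨z * z, by rw [map_mul, htr]⟩

include h in
theorem reeU_pow_nine (t u v : K) : (reeU 0 t u v) ^ 9 = 1 := by
  obtain ⟨T, A, B, e⟩ := (mem_unipotent_twisted h _).1
    (pow_mem ((mem_unipotent_twisted h _).2 ⟨t, u, v, rfl⟩) 3)
  obtain ⟨v1, e1⟩ := three_mul h t u v t u v
  obtain ⟨v2, e2⟩ := three_mul h (t + t) (u + u - t ^ 3 * t) v1 t u v
  have e3 : reeU 0 t u v ^ 3 = reeU 0 (t + t + t) (u + u - t ^ 3 * t + u - t ^ 3 * (t + t)) v2 := by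
    rw [pow_succ, pow_two, e1, e2]
  have hT := (reeU_inj h (e.symm.trans e3)).1
  rw [show (9 : ℕ) = 3 * 3 by norm_num, pow_mul, e,
    (cube_eq_one_iff h T A B).2 (hT.trans (show t + t + t = 0 by linear_combination t * three_zero h))]

include h in
theorem no_two_quotient (f : ↥R₃ →* Multiplicative (ZMod 2)) : f = 1 := by
  have h2 : ∀ y : Multiplicative (ZMod 2), y ^ 9 = 1 → y = 1 := by decide
  obtain ⟨M, hM⟩ : ∃ M, CoxOK chevG2 M := exists_cox (by simp)
  have hU : ∀ x : ↥R₃, (∃ t u v, x.1 = reeU 0 t u v) → f x = 1 := by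
    rintro x ⟨t, u, v, e⟩
    apply h2
    rw [← map_pow, show x ^ 9 = 1 from Subtype.ext (by rw [Subgroup.coe_pow, e, reeU_pow_nine h]; rfl), map_one]
  have hW : (wElt : GL chevG2.Idx K) ∈ R₃ := wElt_mem h
  refine MonoidHom.ext fun ⟨g, hg⟩ => ?_
  rw [MonoidHom.one_apply]
  have hcl := hg
  rw [twisted_eq_closure] at hcl
  have : ∀ y ∈ Subgroup.closure {g : GL chevG2.Idx K | ∃ t u v, g = reeU 0 t u v ∨ g = reeV 0 t u v},
      ∀ hy : y ∈ R₃, f ⟨y, hy⟩ = 1 := by
    intro y hy
    induction hy using Subgroup.closure_induction with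
    | mem y hy =>
      obtain ⟨t, u, v, rfl | rfl⟩ := hy
      · exact fun hy => hU _ ⟨t, u, v, rfl⟩
      · intro hy
        have := h.char
        have h1 : wElt⁻¹ * reeV 0 t u v * (wElt : GL chevG2.Idx K) ∈ chevG2.posUnipotent K ⊓ R₃ := by
          refine Subgroup.mem_inf.2 ⟨?_, mul_mem (mul_mem (inv_mem hW) hy) hW⟩
          simpa using conj_neg_le_pos hM (inv_mem wElt_monomial) (wElt_inverts h hM).2 (reeV_mem_neg t u v)
        obtain ⟨t', u', v', e⟩ := (mem_unipotent_twisted h _).1 h1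
        rw [show (⟨reeV 0 t u v, hy⟩ : ↥R₃) = ⟨wElt, hW⟩ * ⟨_, reeU_mem t' u' v'⟩ * ⟨wElt, hW⟩⁻¹ from
          Subtype.ext (by show reeV 0 t u v = wElt * reeU 0 t' u' v' * wElt⁻¹; rw [← e]; group),
          map_mul, map_mul, map_inv, hU ⟨_, reeU_mem t' u' v'⟩ ⟨t', u', v', rfl⟩, mul_one, mul_inv_cancel]
    | one => exact fun hy => map_one f
    | mul a b ha hb iha ihb =>
      intro hy
      have ha' : a ∈ R₃ := by rw [twisted_eq_closure]; exact ha
      have hb' : b ∈ R₃ := by rw [twisted_eq_closure]; exact hb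
      rw [show (⟨a * b, hy⟩ : ↥R₃) = ⟨a, ha'⟩ * ⟨b, hb'⟩ from rfl, map_mul, iha, ihb, one_mul]
    | inv a ha iha =>
      intro hy
      have ha' : a ∈ R₃ := by rw [twisted_eq_closure]; exact ha
      rw [show (⟨a⁻¹, hy⟩ : ↥R₃) = ⟨a, ha'⟩⁻¹ from rfl, map_inv, iha, inv_one]
  exact this g hcl hg

set_option maxHeartbeats 2000000 in
include h in
theorem commutator_three [Fintype K] {L : Type*} [Field L] [Fintype L] (hL : Fintype.card L = 8) :
    Nat.card ↥(commutator ↥R₃) = 504 ∧
      Nonempty (↥(commutator ↥R₃) ≃* Matrix.ProjectiveSpecialLinearGroup (Fin 2) L) := by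
  classical
  have := h.finite
  have := h.char
  have : Fact (Nat.Prime 2) := ⟨Nat.prime_two⟩
  have hcard : Nat.card ↥R₃ = 1512 := by rw [card_twisted h]; norm_num
  obtain ⟨b, hb, hb1, hb2⟩ := exists_involution h
  obtain ⟨hS, hfus⟩ := fusion_sylow_two h (no_two_quotient h) b hb hb1 hb2
  obtain ⟨ι, V, E, hinj, hr, hι, hV, hE8, hexp, hE⟩ := exists_sylow_two h b hb hb1 hb2
  obtain ⟨f, hf, hfz⟩ := exists_transfer h
  set N := f.ker with hN
  have hNcard : Nat.card ↥N = 504 := by
    have h1 := N.card_mul_index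
    rw [Subgroup.index_ker, MonoidHom.range_eq_top.2 hf, Subgroup.card_top,
      card_Z₃ h, hcard] at h1
    omega
  -- two elements lie in the kernel
  have h2N : ∀ x : ↥R₃, x * x = 1 → x ∈ N := fun x hx => by
    rw [hN, MonoidHom.mem_ker]
    have e : f x * f x = 1 := by rw [← map_mul, hx, map_one]
    have e' : (f x).toAdd + (f x).toAdd = 0 := congrArg Multiplicative.toAdd e
    exact Multiplicative.toAdd.injective (show (f x).toAdd = 0 by linear_combination (f x).toAdd * three_zero h - e')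
  have hEN : (E : Subgroup ↥R₃) ≤ N := fun x hx => h2N x (hexp x hx)
  let T : Sylow 2 ↥N := E.subtype hEN
  have hTcard : Nat.card ↥(T : Subgroup ↥N) = 8 := by
    rw [← hE8]
    exact Nat.card_congr (Subgroup.subgroupOfEquivOfLe hEN).toEquiv
  have hnc : ¬ IsCyclic ↥(T : Subgroup ↥N) := by
    intro hc
    obtain ⟨g, hg⟩ := hc.exists_generator
    have h8 := orderOf_eq_card_of_forall_mem_zpowers hg
    rw [hTcard] at h8
    have h2 : orderOf g ∣ 2 := orderOf_dvd_of_pow_eq_one (Subtype.ext (Subtype.ext (by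
      rw [pow_two]; exact hexp _ g.2)))
    rw [h8] at h2
    norm_num at h2
  have hnn : ¬ (T : Subgroup ↥N).Normal := by
    intro hn
    have huniq : ∀ S : Sylow 2 ↥R₃, (S : Subgroup ↥R₃) = E := by
      intro S
      have hSN : (S : Subgroup ↥R₃) ≤ N := fun x hx => h2N x ((involution_centralizer h b hb hb1 hb2).2 S |>.2 x hx)
      have h1 : (S.subtype hSN : Sylow 2 ↥N) = T := by
        have := Sylow.unique_of_normal T hn
        exact Subsingleton.elim _ _
      refine le_antisymm (fun x hx => ?_) (fun x hx => ?_)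
      · have : (⟨x, hSN hx⟩ : ↥N) ∈ (T : Subgroup ↥N) := by rw [← h1]; exact hx
        exact this
      · have : (⟨x, hEN hx⟩ : ↥N) ∈ ((S.subtype hSN : Sylow 2 ↥N) : Subgroup ↥N) := by rw [h1]; exact hx
        exact this
    have hnorm : Subgroup.normalizer ((E : Subgroup ↥R₃) : Set ↥R₃) = ⊤ := by
      rw [eq_top_iff]
      intro g _
      exact Sylow.smul_eq_iff_mem_normalizer.1 (Sylow.ext (huniq (g • E)))
    have := (hS E).2
    rw [hnorm, Subgroup.card_top, hcard] at this
    norm_num at this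
  have hC : ∀ t : ↥N, orderOf t = 2 → IsMulCommutative (Subgroup.centralizer ({t} : Set ↥N)) ∧
      ∀ c ∈ Subgroup.centralizer ({t} : Set ↥N), c ^ 2 = 1 := by
    intro t ht
    have ht1 : (t : ↥R₃) ≠ 1 := fun e => by
      rw [show t = 1 from Subtype.ext e, orderOf_one] at ht; norm_num at ht
    have ht2 : (t : ↥R₃) * t = 1 := by
      have := pow_orderOf_eq_one t
      rw [ht, pow_two] at this
      exact congrArg Subtype.val this
    obtain ⟨g, hg⟩ := isConj_iff.1 (hfus _ ht1 ht2)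
    -- the part of the centraliser of the involution inside the kernel has exponent two
    have hexp2 : ∀ y : ↥R₃, y * b = b * y → y ∈ N → y * y = 1 := by
      intro y hy hyN
      obtain ⟨z, rfl⟩ : y ∈ ι.range := by rw [hr, Subgroup.mem_centralizer_singleton_iff]; exact hy
      let F : Multiplicative (ZMod 2) × Matrix.ProjectiveSpecialLinearGroup (Fin 2) K →* Z₃ := f.comp ι
      have hP : Nat.card (Multiplicative (ZMod 2) × Matrix.ProjectiveSpecialLinearGroup (Fin 2) K) = 24 := by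
        rw [Nat.card_prod, show Nat.card (Multiplicative (ZMod 2)) = 2 by simp, card_psl h]
        norm_num
      have hdk := kap_of_involution h b hb hb1 hb2
      have hFsurj : Function.Surjective F := by
        let u : ↥R₃ := ⟨reeU 0 (0 : K) 1 0, reeU_mem _ _ _⟩
        obtain ⟨w, hw⟩ : u ∈ ι.range := by
          rw [hr, Subgroup.mem_centralizer_singleton_iff]
          apply Subtype.ext
          have e := inv_conj_reeU h ⟨hb, b.2⟩ hdk (0 : K) 1 0
          rw [neg_zero, mul_inv_eq_iff_eq_mul] at e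
          exact e.symm
        have hne : F w ≠ 1 := fun e => hfz u rfl (by rw [← hw]; exact e)
        intro c
        rcases gen_Z₃ h hne c with rfl | rfl | rfl
        · exact ⟨1, map_one F⟩
        · exact ⟨w, rfl⟩
        · exact ⟨w * w, map_mul F w w⟩
      have hK : Nat.card ↥F.ker = 8 := by
        have h1 := F.ker.card_mul_index
        rw [Subgroup.index_ker, MonoidHom.range_eq_top.2 hFsurj, Subgroup.card_top,
          card_Z₃ h, hP] at h1
        omega
      have hle : ((⊤ : Subgroup (Multiplicative (ZMod 2))).prod V) ≤ F.ker := by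
        rintro x hx
        rw [MonoidHom.mem_ker]
        exact MonoidHom.mem_ker.1 (hEN (hE.ge ⟨x, hx, rfl⟩))
      have heq : ((⊤ : Subgroup (Multiplicative (ZMod 2))).prod V) = F.ker := Subgroup.eq_of_le_of_card_ge hle (by
        rw [hK, Nat.card_congr (Subgroup.prodEquiv _ _).toEquiv, Nat.card_prod, hV.card_four, Subgroup.card_top]
        simp)
      have hz : z ∈ ((⊤ : Subgroup (Multiplicative (ZMod 2))).prod V) := by
        rw [heq, MonoidHom.mem_ker]; exact hyN
      exact hexp _ (hE.ge ⟨z, hz, rfl⟩)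
    have hall : ∀ c ∈ Subgroup.centralizer ({t} : Set ↥N), c * c = 1 := by
      intro c hc
      have hc' : (c : ↥R₃) * t = t * c := congrArg Subtype.val (Subgroup.mem_centralizer_singleton_iff.1 hc)
      have e := hexp2 (g⁻¹ * c * g) (by
        rw [show (t : ↥R₃) = g * b * g⁻¹ from hg.symm] at hc'
        calc g⁻¹ * (c : ↥R₃) * g * b = g⁻¹ * ((c : ↥R₃) * (g * b * g⁻¹)) * g := by group
          _ = b * (g⁻¹ * c * g) := by rw [hc']; group) (by
        have : N.Normal := inferInstance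
        simpa using this.conj_mem c c.2 g⁻¹)
      apply Subtype.ext
      show (c : ↥R₃) * c = 1
      calc (c : ↥R₃) * c = g * ((g⁻¹ * c * g) * (g⁻¹ * c * g)) * g⁻¹ := by group
        _ = 1 := by rw [e]; group
    refine ⟨⟨⟨fun x y => Subtype.ext ?_⟩⟩, fun c hc => by rw [pow_two]; exact hall c hc⟩
    have hi : ∀ z : ↥(Subgroup.centralizer ({t} : Set ↥N)), (z : ↥N)⁻¹ = z := fun z =>
      inv_eq_of_mul_eq_one_left (hall z.1 z.2)
    show (x : ↥N) * y = y * x
    have := hi (x * y)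
    rw [Subgroup.coe_mul, mul_inv_rev, hi, hi] at this
    exact this.symm
  have hCH : Cfsg.Agent.TwoGroups.CHyp T := ⟨hnc, hnn, hC⟩
  obtain ⟨u, huH, hu⟩ := Cfsg.Agent.TwoGroups.se_exists_notMem hCH.se
  obtain ⟨F, fF, fTF, hF, ⟨e⟩⟩ := hCH.nonempty_psl hu huH
  rw [hTcard] at hF
  obtain ⟨ρ⟩ := Cfsg.Agent.Linear.nonempty_ringHom_of_card_pow (F := L) (K := F) (m := 1) le_rfl (by rw [pow_one, hF, hL])
  let eF : F ≃+* L := RingEquiv.ofBijective ρ
    ((Fintype.bijective_iff_injective_and_card _).2 ⟨ρ.injective, hF.trans hL.symm⟩)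
  let e' : ↥N ≃* Matrix.ProjectiveSpecialLinearGroup (Fin 2) L := e.trans (Cfsg.Agent.Linear.pslCongr eF)
  have hsimp : IsSimpleGroup (Matrix.ProjectiveSpecialLinearGroup (Fin 2) L) :=
    Matrix.ProjectiveSpecialLinearGroup.rank_two_simple (by rw [Nat.card_eq_fintype_card, hL]; norm_num)
  have : IsSimpleGroup ↥N := e'.isSimpleGroup
  have hcomm : commutator ↥R₃ = N := by
    have hle : commutator ↥R₃ ≤ N := Abelianization.commutator_subset_ker f
    refine le_antisymm hle ?_
    have : ((commutator ↥R₃).subgroupOf N).Normal := inferInstance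
    rcases this.eq_bot_or_eq_top with h1 | h1
    · exfalso
      have hbot : commutator ↥R₃ = ⊥ := by
        rw [eq_bot_iff]
        intro x hx
        have : (⟨x, hle hx⟩ : ↥N) ∈ (commutator ↥R₃).subgroupOf N := hx
        rw [h1, Subgroup.mem_bot] at this
        exact congrArg Subtype.val this
      have hcomm : IsMulCommutative ↥R₃ := ⟨⟨fun x y => by
        rw [← commutatorElement_eq_one_iff_mul_comm, ← Subgroup.mem_bot, ← hbot, commutator_def]
        exact Subgroup.commutator_mem_commutator (Subgroup.mem_top _) (Subgroup.mem_top _)⟩⟩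
      have hce : (E : Subgroup ↥R₃) = ⊤ := by
        rw [← (hS E).1, eq_top_iff]
        intro x _
        exact Subgroup.mem_centralizer_iff.2 fun y _ => hcomm.is_comm.comm y x
      rw [hce, Subgroup.card_top, hcard] at hE8
      norm_num at hE8
    · exact fun x hx => (Subgroup.subgroupOf_eq_top.1 h1) hx
  exact ⟨hcomm ▸ hNcard, ⟨(MulEquiv.subgroupCongr hcomm).trans e'⟩⟩

end Cfsg.Agent.Suzuki.Ree
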