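import Cfsg.Prelude.Def_LieRecognition
import Cfsg.Agent.Coprime.Generation
import Cfsg.Agent.Core.Cores

/-!
The rank-one set-up: first consequences.
-/

set_option autoImplicit false

namespace Cfsg.Agent.Suzuki

section OddOrder

variable {M : Type*} [Group M]

theorem sq_inj_odd {X : Subgroup M} (hodd : Odd (Nat.card X)) {x y : M} (hx : x ∈ X) (hy : y ∈ X)
    (e : x * x = y * y) : x = y := by
  have hcop : (Nat.card X).Coprime 2 := Nat.coprime_two_right.2 hodd
  have := (powCoprime hcop).injective (a₁ := (⟨x, hx⟩ : X)) (a₂ := ⟨y, hy⟩) (by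
    simp only [powCoprime_apply, pow_two]
    exact Subtype.ext e)
  exact congrArg Subtype.val this

theorem exists_sqrt_odd {X : Subgroup M} (hodd : Odd (Nat.card X)) {x : M} (hx : x ∈ X) :
    ∃ y ∈ X, y * y = x := by
  obtain ⟨y, hy⟩ := (powCoprime (Nat.coprime_two_right.2 hodd)).surjective (⟨x, hx⟩ : X)
  exact ⟨y.1, y.2, by simpa [pow_two] using congrArg Subtype.val hy⟩

theorem commute_of_commute_sq {X : Subgroup M} (hodd : Odd (Nat.card X)) {k d : M} (hk : k ∈ X)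
    (hdk : d * k * d⁻¹ ∈ X) (e : d * (k * k) = k * k * d) : d * k = k * d := by
  have := sq_inj_odd hodd hdk hk (by
    rw [show d * k * d⁻¹ * (d * k * d⁻¹) = d * (k * k) * d⁻¹ by group, e, mul_inv_cancel_right])
  rwa [mul_inv_eq_iff_eq_mul] at this

variable {t : M} (ht2 : t * t = 1) {X : Subgroup M} (hodd : Odd (Nat.card X))
  (hn : ∀ x ∈ X, t * x * t⁻¹ ∈ X)

include ht2 hodd hn in
/-- Unique decomposition into a fixed and an inverted part. -/
theorem unique_decomposition {x : M} (hx : x ∈ X) :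
    ∃! p : M × M, p.1 ∈ X ⊓ Subgroup.centralizer {t} ∧ p.2 ∈ Cfsg.invertedBy X t ∧ x = p.1 * p.2 := by
  have htinv : t⁻¹ = t := inv_eq_of_mul_eq_one_right ht2
  obtain ⟨z, hz, hz2⟩ := exists_sqrt_odd hodd (mul_mem (inv_mem (hn x hx)) hx)
  have hzi : t * z * t⁻¹ = z⁻¹ := by
    apply sq_inj_odd hodd (hn z hz) (inv_mem hz)
    rw [show t * z * t⁻¹ * (t * z * t⁻¹) = t * (z * z) * t⁻¹ by group, hz2, ← mul_inv_rev, hz2, htinv]
    simp only [mul_inv_rev, htinv, inv_inv, mul_assoc, ht2, mul_one, one_mul]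
    rw [← mul_assoc t t, ht2, one_mul]
  refine ⟨(x * z⁻¹, z), ⟨Subgroup.mem_inf.2 ⟨X.mul_mem hx (X.inv_mem hz), ?_⟩, ⟨hz, hzi⟩, by simp⟩, ?_⟩
  · rw [Subgroup.mem_centralizer_singleton_iff]
    have e : t * (x * z⁻¹) * t⁻¹ = x * z⁻¹ := by
      calc t * (x * z⁻¹) * t⁻¹ = (t * x * t⁻¹) * (t * z * t⁻¹)⁻¹ := by group
        _ = (t * x * t⁻¹) * (z * z) * z⁻¹ := by rw [hzi]; group
        _ = x * z⁻¹ := by rw [hz2]; group
    rw [mul_inv_eq_iff_eq_mul] at e
    exact e.symm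
  · rintro ⟨y, w⟩ ⟨hy', ⟨hw, hwt⟩, e⟩
    simp only at hy' hw hwt e
    obtain ⟨hy, hyt⟩ := Subgroup.mem_inf.1 hy'
    rw [Subgroup.mem_centralizer_singleton_iff] at hyt
    have hwz : w = z := sq_inj_odd hodd hw hz (by
      rw [hz2, e, show (t * (y * w) * t⁻¹)⁻¹ * (y * w) =
        (t * w * t⁻¹)⁻¹ * (t * y * t⁻¹)⁻¹ * y * w by group, hwt, ← hyt]
      group)
    subst hwz
    exact Prod.ext (by simp [e]) rfl

include ht2 hodd hn in
theorem eq_of_inverted_mul [Finite M] {v k k' : M} (hv : v ∈ X) (hvt : v * t = t * v)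
    (hk : k ∈ Cfsg.invertedBy X t) (hk' : k' ∈ Cfsg.invertedBy X t) (e : k' = v * k) : v = 1 := by
  obtain ⟨p, -, huniq⟩ := unique_decomposition ht2 hodd hn hk'.1
  have h1 := huniq (v, k) ⟨⟨hv, Subgroup.mem_centralizer_singleton_iff.2 hvt⟩, hk, e⟩
  have h2 := huniq (1, k') ⟨one_mem _, hk', (one_mul _).symm⟩
  exact congrArg Prod.fst (h1.trans h2.symm)

end OddOrder

variable {G Ω : Type*} [Group G] [MulAction G Ω] {a : Ω} {t : G} {Q : Subgroup G}
  (hS : Cfsg.IsRankOneSetup G Ω a t Q)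

/-- The two-point stabiliser. -/
abbrev tps (G : Type*) {Ω : Type*} [Group G] [MulAction G Ω] (a : Ω) (t : G) : Subgroup G :=
  MulAction.stabilizer G a ⊓ MulAction.stabilizer G (t • a)

include hS

theorem ro_tinv : t⁻¹ = t := inv_eq_of_mul_eq_one_right hS.mul_self

theorem ro_ne : t • a ≠ a := hS.not_mem

theorem ro_swap : t • t • a = a := by rw [← mul_smul, hS.mul_self, one_smul]

theorem ro_two {b c b' c' : Ω} (h1 : b ≠ c) (h2 : b' ≠ c') :
    ∃ g : G, g • b = b' ∧ g • c = c' :=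
  MulAction.is_two_pretransitive_iff.1 hS.two_transitive h1 h2

theorem ro_trans (b c : Ω) : ∃ g : G, g • b = c := by
  by_cases hb : b = c
  · exact ⟨1, by rw [hb, one_smul]⟩
  · obtain ⟨g, hg, -⟩ := ro_two hS hb (Ne.symm hb)
    exact ⟨g, hg⟩

theorem ro_tD {d : G} (hd : d ∈ tps G a t) : t * d * t ∈ tps G a t := by
  obtain ⟨h1, h2⟩ := hd
  exact ⟨by show (t * d * t) • a = a; rw [mul_smul, mul_smul, h2, ro_swap hS],
    by show (t * d * t) • t • a = t • a; rw [mul_smul, mul_smul, ro_swap hS, h1]⟩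

theorem ro_tD' : ∀ d ∈ tps G a t, t * d * t⁻¹ ∈ tps G a t := fun d hd => by
  rw [ro_tinv hS]; exact ro_tD hS hd

theorem ro_decomp {g : G} (hg : g ∈ MulAction.stabilizer G a) :
    ∃ q ∈ Q, ∃ d ∈ tps G a t, g = q * d := by
  rw [← hS.sup_eq] at hg
  have hle : (MulAction.stabilizer G a ⊓ MulAction.stabilizer G (t • a)) ≤ Subgroup.normalizer (Q : Set G) := by
    intro d hd
    rw [Subgroup.mem_normalizer_iff]
    refine fun x => ⟨hS.conj_mem d hd.1 x, fun hx => ?_⟩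
    have := hS.conj_mem d⁻¹ (inv_mem hd.1) _ hx
    simpa [mul_assoc] using this
  rw [← SetLike.mem_coe, Subgroup.coe_mul_of_right_le_normalizer_left _ _ hle] at hg
  obtain ⟨q, hq, d, hd, rfl⟩ := hg
  exact ⟨q, hq, d, hd, rfl⟩

theorem ro_free_b {x : G} (hx : x ∈ Q) (e : x • (t • a) = t • a) : x = 1 := by
  have : x ∈ Q ⊓ MulAction.stabilizer G (t • a) := ⟨hx, e⟩
  rwa [hS.inf_eq_bot, Subgroup.mem_bot] at this

theorem ro_reach {c : Ω} (hc : c ≠ a) : ∃ q ∈ Q, q • (t • a) = c := by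
  obtain ⟨g, g1, g2⟩ := ro_two hS (ro_ne hS).symm hc.symm
  obtain ⟨q, hq, d, hd, rfl⟩ := ro_decomp hS (show g ∈ MulAction.stabilizer G a from g1)
  exact ⟨q, hq, by rwa [mul_smul, hd.2] at g2⟩

/-- Non-identity elements of `Q` fix only `a`. -/
theorem ro_free {x : G} (hx : x ∈ Q) {c : Ω} (hc : c ≠ a) (e : x • c = c) : x = 1 := by
  obtain ⟨q, hq, rfl⟩ := ro_reach hS hc
  have h1 := ro_free_b hS (mul_mem (mul_mem (inv_mem hq) hx) hq) (by
    rw [mul_smul, mul_smul, e, inv_smul_smul])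
  calc x = q * (q⁻¹ * x * q) * q⁻¹ := by group
    _ = 1 := by rw [h1]; group

theorem ro_fix_eq {x : G} (hx : x ∈ Q) (hx1 : x ≠ 1) {c : Ω} (e : x • c = c) : c = a := by
  by_contra hc
  exact hx1 (ro_free hS hx hc e)

theorem ro_inj {x y : G} (hx : x ∈ Q) (hy : y ∈ Q) (e : x • (t • a) = y • (t • a)) : x = y := by
  have := ro_free_b hS (mul_mem (inv_mem hy) hx) (by rw [mul_smul, e, inv_smul_smul])
  exact (inv_mul_eq_one.1 this).symm

theorem ro_regular : ∀ b c : Ω, b ≠ a → c ≠ a → ∃! x : Q, (x : G) • b = c := by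
  intro b c hb hc
  obtain ⟨q, hq, rfl⟩ := ro_reach hS hb
  obtain ⟨r, hr, rfl⟩ := ro_reach hS hc
  refine ⟨⟨r * q⁻¹, mul_mem hr (inv_mem hq)⟩, by
    show (r * q⁻¹) • q • (t • a) = _
    rw [mul_smul, inv_smul_smul], ?_⟩
  rintro ⟨x, hx⟩ (e : x • q • (t • a) = r • (t • a))
  rw [← mul_smul] at e
  exact Subtype.ext ((mul_inv_cancel_right x q).symm.trans (congrArg (· * q⁻¹) (ro_inj hS (mul_mem hx hq) hr e)))

/-- `Q` parametrises the other points. -/
noncomputable def roEquiv : Q ≃ {c : Ω // c ≠ a} :=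
  Equiv.ofBijective (fun q => ⟨q.1 • (t • a), fun e => ro_ne hS (by
    have h1 : q.1 • a = a := hS.le q.2
    exact MulAction.injective q.1 (e.trans h1.symm))⟩)
  ⟨fun x y e => Subtype.ext (ro_inj hS x.2 y.2 (congrArg Subtype.val e)), fun c => by
    obtain ⟨q, hq, e⟩ := ro_reach hS c.2
    exact ⟨⟨q, hq⟩, Subtype.ext e⟩⟩

theorem ro_canonical {g : G} (hg : g ∉ MulAction.stabilizer G a) :
    ∃! p : G × G, p.1 ∈ MulAction.stabilizer G a ∧ p.2 ∈ Q ∧ g = p.1 * t * p.2 := by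
  have hc : g⁻¹ • a ≠ a := fun e => hg (inv_smul_eq_iff.1 e).symm
  obtain ⟨q, hq, e⟩ := ro_reach hS hc
  refine ⟨(g * q * t, q⁻¹), ⟨?_, inv_mem hq, ?_⟩, ?_⟩
  · show (g * q * t) • a = a
    rw [mul_smul, mul_smul, e, smul_inv_smul]
  · show g = g * q * t * t * q⁻¹
    simp [mul_assoc, ← mul_assoc t t, hS.mul_self]
  · rintro ⟨x, y⟩ ⟨hx, hy, rfl⟩
    have hy' : y⁻¹ = q := ro_inj hS (inv_mem hy) hq (by
      rw [e, mul_inv_rev, mul_inv_rev, ro_tinv hS, mul_smul, mul_smul,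
        inv_smul_eq_iff.2 (hx : x • a = a).symm])
    subst hy'
    simp [mul_assoc, hS.mul_self]

theorem ro_unique_split {x x' y y' : G} (hx : x ∈ MulAction.stabilizer G a)
    (hx' : x' ∈ MulAction.stabilizer G a) (hy : y ∈ Q) (hy' : y' ∈ Q)
    (e : x * t * y = x' * t * y') : x = x' ∧ y = y' := by
  have hg : x * t * y ∉ MulAction.stabilizer G a := fun hh => hS.not_mem (by
    have h1 := mul_mem (mul_mem (inv_mem hx) hh) (inv_mem (hS.le hy))
    simpa [mul_assoc] using h1)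
  obtain ⟨p, -, hu⟩ := ro_canonical hS hg
  have h1 := hu (x, y) ⟨hx, hy, rfl⟩
  have h2 := hu (x', y') ⟨hx', hy', e⟩
  exact ⟨congrArg Prod.fst (h1.trans h2.symm), congrArg Prod.snd (h1.trans h2.symm)⟩

theorem ro_qd_unique {q q' d d' : G} (hq : q ∈ Q) (hq' : q' ∈ Q) (hd : d ∈ tps G a t)
    (hd' : d' ∈ tps G a t) (e : q * d = q' * d') : q = q' ∧ d = d' := by
  have h1 : q = q' := ro_inj hS hq hq' (by
    rw [show q • (t • a) = (q * d) • (t • a) by rw [mul_smul, hd.2], e, mul_smul, hd'.2])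
  subst h1
  exact ⟨rfl, mul_left_cancel e⟩

theorem ro_normalizer {X : Set G} (hX : X ⊆ (Q : Set G)) (h1 : ∃ x ∈ X, x ≠ 1) :
    Subgroup.normalizer X ≤ MulAction.stabilizer G a := by
  obtain ⟨x, hx, hx1⟩ := h1
  intro n hn
  have hmem : n * x * n⁻¹ ∈ X := (hn x).1 hx
  refine ro_fix_eq hS (hX hmem) (fun e => hx1 (conj_eq_one_iff.1 e)) ?_
  rw [mul_smul, mul_smul, inv_smul_smul, (hS.le (hX hx) : x • a = a)]

theorem ro_centralizer {x g : G} (hx : x ∈ Q) (hx1 : x ≠ 1) (e : g * x = x * g) : g • a = a :=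
  ro_fix_eq hS hx hx1 (by rw [← mul_smul, ← e, mul_smul, (hS.le hx : x • a = a)])

variable [Finite G]

theorem ro_finite : Finite Ω :=
  Finite.of_surjective (fun g : G => g • a) (fun c => ro_trans hS a c)

theorem ro_card_omega : Nat.card Ω = Nat.card Q + 1 := by
  have := ro_finite hS
  have e := Nat.card_congr (roEquiv hS)
  have h2 : Set.ncard {c : Ω | c ≠ a} + 1 = Nat.card Ω := by
    rw [show {c : Ω | c ≠ a} = Set.univ \ {a} by ext; simp,
      Set.ncard_diff_singleton_add_one (Set.mem_univ a) Set.finite_univ, Set.ncard_univ]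
  rw [e, ← h2, ← Nat.card_coe_set_eq]
  rfl

theorem ro_card_stab :
    Nat.card (MulAction.stabilizer G a) = Nat.card Q * Nat.card (tps G a t) := by
  rw [← Nat.card_prod]
  refine (Nat.card_eq_of_bijective (fun p : Q × tps G a t =>
    (⟨p.1.1 * p.2.1, mul_mem (hS.le p.1.2) p.2.2.1⟩ : MulAction.stabilizer G a)) ⟨?_, ?_⟩).symm
  · intro p p' e
    obtain ⟨h1, h2⟩ := ro_qd_unique hS p.1.2 p'.1.2 p.2.2 p'.2.2 (congrArg Subtype.val e)
    exact Prod.ext (Subtype.ext h1) (Subtype.ext h2)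
  · rintro ⟨g, hg⟩
    obtain ⟨q, hq, d, hd, rfl⟩ := ro_decomp hS hg
    exact ⟨(⟨q, hq⟩, ⟨d, hd⟩), rfl⟩

theorem ro_card : Nat.card G = Nat.card Q * Nat.card (tps G a t) * (Nat.card Q + 1) := by
  have : MulAction.IsPretransitive G Ω := ⟨ro_trans hS⟩
  rw [← Subgroup.card_mul_index (MulAction.stabilizer G a),
    MulAction.index_stabilizer_of_transitive, ro_card_stab hS, ro_card_omega hS]

theorem ro_sylow : ∃ P : Sylow 2 G, (P : Subgroup G) ≤ Q := by
  have := Fact.mk Nat.prime_two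
  obtain ⟨S⟩ : Nonempty (Sylow 2 Q) := inferInstance
  have hodd : ¬ 2 ∣ Nat.card (tps G a t) * (Nat.card Q + 1) := by
    rw [← even_iff_two_dvd, Nat.not_even_iff_odd]
    exact hS.odd_card.mul hS.even_card.add_one
  refine ⟨Sylow.ofCard ((S : Subgroup Q).map Q.subtype) ?_, Subgroup.map_subtype_le _⟩
  rw [← Nat.card_congr (Subgroup.equivMapOfInjective _ _ Q.subtype_injective).toEquiv,
    S.card_eq_multiplicity, ro_card hS, mul_assoc, Nat.factorization_mul Nat.card_pos.ne'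
      (Nat.mul_pos Nat.card_pos (by omega)).ne', Finsupp.add_apply,
    Nat.factorization_eq_zero_of_not_dvd hodd, add_zero]

theorem ro_inv_mem {s : G} (h : s • a = a) (h2 : s * s = 1) : s ∈ Q := by
  obtain ⟨q, hq, d, hd, rfl⟩ := ro_decomp hS (show s ∈ MulAction.stabilizer G a from h)
  have hq' : d * q * d⁻¹ ∈ Q := hS.conj_mem d hd.1 q hq
  have e : (q * (d * q * d⁻¹)) * (d * d) = 1 * 1 := by rw [one_mul, ← h2]; group
  have h3 := (ro_qd_unique hS (mul_mem hq hq') (one_mem _) (mul_mem hd hd) (one_mem _) e).2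
  have hd1 : d = 1 := sq_inj_odd hS.odd_card hd (one_mem _) (h3.trans (one_mul 1).symm)
  rw [hd1, mul_one]; exact hq

theorem ro_exists_inv : ∃ s ∈ Q, s ≠ 1 ∧ s * s = 1 := by
  have := Fact.mk Nat.prime_two
  obtain ⟨s, hs⟩ := exists_prime_orderOf_dvd_card' (G := Q) 2 (even_iff_two_dvd.1 hS.even_card)
  rw [← Subgroup.orderOf_coe] at hs
  exact ⟨s.1, s.2, fun e => by simp [e] at hs, by rw [← pow_two, ← hs, pow_orderOf_eq_one]⟩

theorem ro_odd_product {s u : G} (hs : s • a = a) (hs1 : s ≠ 1) (hs2 : s * s = 1)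
    (hu : u • a ≠ a) (hu2 : u * u = 1) : Odd (orderOf (s * u)) := by
  have hsQ := ro_inv_mem hS hs hs2
  rw [← Nat.not_even_iff_odd]
  rintro ⟨j, hj⟩
  have hpos := orderOf_pos (s * u)
  have hinv : ∀ x : G, x * x = 1 → x⁻¹ = x := fun x hx => inv_eq_of_mul_eq_one_right hx
  set w := (s * u) ^ j with hw
  have hw2 : w * w = 1 := by rw [hw, ← pow_add, ← hj, pow_orderOf_eq_one]
  have hw1 : w ≠ 1 := pow_ne_one_of_lt_orderOf (by omega) (by omega)
  have key : ∀ x : G, x * x = 1 → x * (s * u) * x⁻¹ = (s * u)⁻¹ → x * w = w * x := by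
    intro x _ hx
    have e : x * w * x⁻¹ = w := by
      rw [hw, ← conj_pow, hx, inv_pow, ← hw, hinv w hw2]
    rwa [mul_inv_eq_iff_eq_mul] at e
  have hsw := key s hs2 (by rw [mul_inv_rev, hinv s hs2, hinv u hu2, ← mul_assoc, hs2, one_mul])
  have huw := key u hu2 (by
    rw [mul_inv_rev, hinv s hs2, hinv u hu2]; simp [mul_assoc, hu2])
  have hwQ : w ∈ Q := ro_inv_mem hS (ro_centralizer hS hsQ hs1 hsw.symm) hw2
  exact hu (ro_centralizer hS hwQ hw1 huw)

omit hS [Finite G] [MulAction G Ω] in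
theorem conj_of_odd_product {s u : G} (hs2 : s * s = 1) (hu2 : u * u = 1)
    (hodd : Odd (orderOf (s * u))) : ∃ g : G, g * s * g⁻¹ = u := by
  obtain ⟨j, hj⟩ := hodd
  have hs' : s⁻¹ = s := inv_eq_of_mul_eq_one_right hs2
  have hu' : u⁻¹ = u := inv_eq_of_mul_eq_one_right hu2
  have e0 : s * (s * u) * s⁻¹ = (s * u)⁻¹ := by
    rw [mul_inv_rev, hs', hu', ← mul_assoc, hs2, one_mul]
  have e1 : ∀ i : ℕ, s * (s * u) ^ i = ((s * u) ^ i)⁻¹ * s := fun i => by
    rw [← mul_inv_eq_iff_eq_mul, ← conj_pow, e0, inv_pow]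
  refine ⟨(s * u) ^ j, ?_⟩
  have e2 : (s * u) ^ j * s = s * ((s * u) ^ j)⁻¹ := by
    have h3 := e1 j
    calc (s * u) ^ j * s = (s * s) * ((s * u) ^ j * s) := by rw [hs2, one_mul]
      _ = s * ((s * (s * u) ^ j) * s) := by group
      _ = s * ((s * u) ^ j)⁻¹ := by rw [h3, mul_assoc (((s * u) ^ j)⁻¹), hs2, mul_one]
  rw [e2, mul_assoc, ← mul_inv_rev, ← pow_add]
  have h4 : (s * u) ^ (j + j) * (s * u) = 1 := by
    rw [← pow_succ, show j + j + 1 = 2 * j + 1 by omega, ← hj, pow_orderOf_eq_one]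
  rw [inv_eq_of_mul_eq_one_right h4, ← mul_assoc, hs2, one_mul]

theorem ro_conj {u v : G} (hu1 : u ≠ 1) (hu2 : u * u = 1) (hv1 : v ≠ 1) (hv2 : v * v = 1) :
    ∃ g : G, g * u * g⁻¹ = v := by
  have key : ∀ x : G, x ≠ 1 → x * x = 1 → ∃ g : G, g * t * g⁻¹ = x := by
    intro x hx1 hx2
    by_cases hx : x • a = a
    · obtain ⟨g, hg⟩ := conj_of_odd_product hx2 hS.mul_self
        (ro_odd_product hS hx hx1 hx2 hS.not_mem hS.mul_self)
      exact ⟨g⁻¹, by rw [← hg]; group⟩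
    · obtain ⟨s, hs, hs1, hs2⟩ := ro_exists_inv hS
      obtain ⟨g, hg⟩ := conj_of_odd_product hs2 hx2
        (ro_odd_product hS (hS.le hs) hs1 hs2 hx hx2)
      obtain ⟨g', hg'⟩ := conj_of_odd_product hs2 hS.mul_self
        (ro_odd_product hS (hS.le hs) hs1 hs2 hS.not_mem hS.mul_self)
      exact ⟨g * g'⁻¹, by rw [← hg, ← hg']; group⟩
  obtain ⟨g, rfl⟩ := key u hu1 hu2
  obtain ⟨g', rfl⟩ := key v hv1 hv2
  exact ⟨g' * g⁻¹, by group⟩


/-- Every involution fixes exactly one point. -/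
theorem ro_fixed_point {u : G} (hu1 : u ≠ 1) (hu2 : u * u = 1) : ∃! c : Ω, u • c = c := by
  obtain ⟨s, hs, hs1, hs2⟩ := ro_exists_inv hS
  obtain ⟨g, rfl⟩ := ro_conj hS hs1 hs2 hu1 hu2
  refine ⟨g • a, by
    show (g * s * g⁻¹) • g • a = g • a
    rw [mul_smul, mul_smul, inv_smul_smul, (hS.le hs : s • a = a)], fun c hc => ?_⟩
  have hc : (g * s * g⁻¹) • c = c := hc
  rw [mul_smul, mul_smul, ← eq_inv_smul_iff] at hc
  exact inv_smul_eq_iff.1 (ro_fix_eq hS hs hs1 hc)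

omit [Finite G] in
/-- The involutions swapping `a` and `t • a`. -/
theorem ro_swapping {d : G} (hd : d ∈ Cfsg.invertedBy (tps G a t) t) :
    t * d ≠ 1 ∧ (t * d) * (t * d) = 1 ∧ (t * d) • a = t • a := by
  refine ⟨fun e => ro_ne hS ?_, ?_, by rw [mul_smul, hd.1.1]⟩
  · have := congrArg (· • a) e
    rwa [mul_smul, hd.1.1, one_smul] at this
  · have h1 := hd.2
    rw [ro_tinv hS] at h1
    rw [← mul_assoc, h1, inv_mul_cancel]

omit [Finite G] in
theorem ro_swap_mem {u : G} (hu2 : u * u = 1) (hu : u • a = t • a) :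
    t * u ∈ Cfsg.invertedBy (tps G a t) t := by
  have h1 : u • t • a = a := by rw [← hu, ← mul_smul, hu2, one_smul]
  refine ⟨⟨?_, ?_⟩, ?_⟩
  · show (t * u) • a = a
    rw [mul_smul, hu, ro_swap hS]
  · show (t * u) • t • a = t • a
    rw [mul_smul, h1]
  · rw [mul_inv_rev, inv_eq_of_mul_eq_one_right hu2, ro_tinv hS, ← mul_assoc, hS.mul_self, one_mul]

omit [Finite G] in
/-- Involutions moving `a` correspond to `Q × K`. -/
theorem ro_card_moving : Nat.card {u : G // u * u = 1 ∧ u • a ≠ a} =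
    Nat.card Q * Nat.card (Cfsg.invertedBy (tps G a t) t) := by
  rw [← Nat.card_prod]
  refine (Nat.card_eq_of_bijective (fun p : Q × Cfsg.invertedBy (tps G a t) t =>
    (⟨p.1.1 * (t * p.2.1) * p.1.1⁻¹, ?_, ?_⟩ : {u : G // u * u = 1 ∧ u • a ≠ a})) ⟨?_, ?_⟩).symm
  · rw [show p.1.1 * (t * p.2.1) * p.1.1⁻¹ * (p.1.1 * (t * p.2.1) * p.1.1⁻¹) =
      p.1.1 * (t * p.2.1 * (t * p.2.1)) * p.1.1⁻¹ by group, (ro_swapping hS p.2.2).2.1]
    group
  · rw [mul_smul, mul_smul, (inv_mem (hS.le p.1.2) : p.1.1⁻¹ ∈ MulAction.stabilizer G a),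
      (ro_swapping hS p.2.2).2.2]
    intro e
    exact ro_ne hS (MulAction.injective p.1.1 (e.trans (hS.le p.1.2 : p.1.1 • a = a).symm))
  · intro p p' e
    have e0 := congrArg Subtype.val e
    have i1 : p.1.1⁻¹ • a = a := inv_mem (hS.le p.1.2)
    have i2 : p'.1.1⁻¹ • a = a := inv_mem (hS.le p'.1.2)
    have e1 := congrArg (· • a) e0
    have d1 : p.2.1 • a = a := p.2.2.1.1
    have d2 : p'.2.1 • a = a := p'.2.2.1.1
    simp only [mul_smul] at e1
    rw [i1, i2, d1, d2] at e1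
    have h1 := ro_inj hS p.1.2 p'.1.2 e1
    simp only [← h1] at e0
    exact Prod.ext (Subtype.ext h1) (Subtype.ext (mul_left_cancel (mul_left_cancel (mul_right_cancel e0))))
  · rintro ⟨u, hu2, hu⟩
    obtain ⟨q, hq, e⟩ := ro_reach hS hu
    have hqa : q • a = a := hS.le hq
    have h2 : (q⁻¹ * u * q) * (q⁻¹ * u * q) = 1 := by
      rw [show q⁻¹ * u * q * (q⁻¹ * u * q) = q⁻¹ * (u * u) * q by group, hu2]; group
    refine ⟨(⟨q, hq⟩, ⟨t * (q⁻¹ * u * q), ro_swap_mem hS h2 ?_⟩), Subtype.ext ?_⟩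
    · rw [mul_smul, mul_smul, hqa, ← e, inv_smul_smul]
    · show q * (t * (t * (q⁻¹ * u * q))) * q⁻¹ = u
      rw [← mul_assoc t t, hS.mul_self]; group

/-- `|K|` is the number of involutions fixing `a`. -/
theorem ro_card_K : Nat.card (Cfsg.invertedBy (tps G a t) t) =
    Nat.card (Cfsg.involutionsIn (MulAction.stabilizer G a : Set G)) := by
  classical
  have := ro_finite hS
  let := Fintype.ofFinite G
  let := Fintype.ofFinite Ω
  let Inv := {u : G // u ≠ 1 ∧ u * u = 1}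
  choose fp hfp hfpu using fun u : Inv => ro_fixed_point hS u.2.1 u.2.2
  -- fibre over each point
  have hfib : ∀ c, Nat.card {u : Inv // fp u = c} = Nat.card {u : Inv // fp u = a} := by
    intro c
    obtain ⟨g, rfl⟩ := ro_trans hS a c
    let cj : Inv → G → Inv := fun u x => ⟨x * u.1 * x⁻¹, fun e => u.2.1 (conj_eq_one_iff.1 e),
      by rw [show x * u.1 * x⁻¹ * (x * u.1 * x⁻¹) = x * (u.1 * u.1) * x⁻¹ by group, u.2.2]; group⟩
    have hcj : ∀ u x, fp (cj u x) = x • fp u := fun u x => (hfpu (cj u x) (x • fp u) (by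
      show (x * u.1 * x⁻¹) • x • fp u = x • fp u
      rw [mul_smul, mul_smul, inv_smul_smul, hfp u])).symm
    refine (Nat.card_congr
      { toFun := fun u => ⟨cj u.1 g, by rw [hcj, u.2]⟩
        invFun := fun u => ⟨cj u.1 g⁻¹, by rw [hcj, u.2, inv_smul_smul]⟩
        left_inv := fun u => Subtype.ext (Subtype.ext
          (show g⁻¹ * (g * u.1.1 * g⁻¹) * g⁻¹⁻¹ = u.1.1 by group))
        right_inv := fun u => Subtype.ext (Subtype.ext
          (show g * (g⁻¹ * u.1.1 * g⁻¹⁻¹) * g⁻¹ = u.1.1 by group)) }).symm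
  have hIa : Nat.card {u : Inv // fp u = a} =
      Nat.card (Cfsg.involutionsIn (MulAction.stabilizer G a : Set G)) := Nat.card_congr
    { toFun := fun u => ⟨u.1.1, by
        show u.1.1 • a = a
        have := hfp u.1
        rwa [u.2] at this, u.1.2.1, u.1.2.2⟩
      invFun := fun u => ⟨⟨u.1, u.2.2.1, u.2.2.2⟩, (hfpu ⟨u.1, u.2.2.1, u.2.2.2⟩ a u.2.1).symm⟩
      left_inv := fun u => rfl
      right_inv := fun u => rfl }
  have htot : Nat.card Inv =
      (Nat.card Q + 1) * Nat.card (Cfsg.involutionsIn (MulAction.stabilizer G a : Set G)) := by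
    rw [← Nat.card_congr (Equiv.sigmaFiberEquiv fp), Nat.card_sigma,
      Finset.sum_congr rfl (fun c _ => (hfib c).trans hIa), Finset.sum_const, Finset.card_univ,
      ← Nat.card_eq_fintype_card, ro_card_omega hS, smul_eq_mul]
  have hmove : Nat.card {u : Inv // fp u ≠ a} =
      Nat.card {u : G // u * u = 1 ∧ u • a ≠ a} := Nat.card_congr
    { toFun := fun u => ⟨u.1.1, u.1.2.2, fun e => u.2 (hfpu u.1 a e).symm⟩
      invFun := fun u => ⟨⟨u.1, fun e => u.2.2 (by rw [e, one_smul]), u.2.1⟩, fun e => u.2.2 (by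
        have := hfp ⟨u.1, fun e => u.2.2 (by rw [e, one_smul]), u.2.1⟩
        rwa [e] at this)⟩
      left_inv := fun u => rfl
      right_inv := fun u => rfl }
  have hsplit : Nat.card Inv = Nat.card {u : Inv // fp u = a} + Nat.card {u : Inv // fp u ≠ a} := by
    rw [← Nat.card_sum]; exact (Nat.card_congr (Equiv.sumCompl _)).symm
  rw [hIa, hmove, ro_card_moving hS, htot] at hsplit
  have hQ : 0 < Nat.card Q := Nat.card_pos
  nlinarith [hsplit]

theorem ro_structure : ∃! p : G × G, p.1 ∈ Cfsg.involutionsIn (MulAction.stabilizer G a : Set G) ∧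
    p.2 ∈ Q ∧ t * p.1 * t = p.2⁻¹ * t * p.2 := by
  obtain ⟨c, hc, huniq⟩ := ro_fixed_point hS hS.ne_one hS.mul_self
  have hca : c ≠ a := fun e => ro_ne hS (by simpa [e] using hc)
  obtain ⟨r, hr, hrc⟩ := ro_reach hS hca
  refine ⟨(t * r⁻¹ * t * r * t, r), ⟨⟨?_, ?_, ?_⟩, hr, ?_⟩, ?_⟩
  · show (t * r⁻¹ * t * r * t) • a = a
    have hc : t • c = c := hc
    rw [mul_smul _ t a, mul_smul _ r, hrc, mul_smul _ t c, hc, mul_smul, ← hrc, inv_smul_smul,
      ro_swap hS]
  · intro e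
    apply hS.ne_one
    calc t = (r * t) * (t * r⁻¹ * t * r * t) * (r * t)⁻¹ := by
          simp [mul_assoc, mul_inv_rev, ro_tinv hS, ← mul_assoc t t, hS.mul_self]
      _ = 1 := by
          have e : t * r⁻¹ * t * r * t = 1 := e
          rw [e]; group
  · simp [mul_assoc, ← mul_assoc t t, hS.mul_self]
  · simp [mul_assoc, ← mul_assoc t t, hS.mul_self]
  · rintro ⟨s, r'⟩ ⟨⟨hs, hs1, hs2⟩, hr', e⟩
    simp only at e hr' hs
    have hfix : t • r' • (t • a) = r' • (t • a) := by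
      have e2 : t * (r' * t) = (r' * t) * s := by
        calc t * (r' * t) = r' * (r'⁻¹ * t * r') * t := by group
          _ = r' * (t * s * t) * t := by rw [e]
          _ = _ := by simp [mul_assoc, hS.mul_self]
      rw [← mul_smul r' t a, ← mul_smul, e2, mul_smul, (hs : s • a = a)]
    have : r' = r := ro_inj hS hr' hr ((huniq _ hfix).trans hrc.symm)
    subst this
    refine Prod.ext ?_ rfl
    calc s = t * (t * s * t) * t := by simp [mul_assoc, ← mul_assoc t t, hS.mul_self]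
      _ = _ := by rw [e]; group

/-- `C_D(t) = C_D(s)` for the distinguished involution, and such elements commute with `r`. -/
theorem ro_centralizer_eq {s r : G} (hs : s ∈ Cfsg.involutionsIn (MulAction.stabilizer G a : Set G))
    (hr : r ∈ Q) (e : t * s * t = r⁻¹ * t * r) :
    tps G a t ⊓ Subgroup.centralizer {t} = tps G a t ⊓ Subgroup.centralizer {s} := by
  obtain ⟨hsa, hs1, hs2⟩ := hs
  have hts : t = (r * t) * s * (r * t)⁻¹ := by
    calc t = r * (r⁻¹ * t * r) * r⁻¹ := by group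
      _ = r * (t * s * t) * r⁻¹ := by rw [e]
      _ = _ := by simp [mul_assoc, mul_inv_rev, ro_tinv hS]
  have hfix : t • r • (t • a) = r • (t • a) := by
    conv_lhs => arg 1; rw [hts]
    simp only [← mul_smul, mul_inv_rev]
    rw [show r * t * s * (t⁻¹ * r⁻¹) * (r * t) = r * t * s by group, mul_smul,
      (hsa : s • a = a)]
  obtain ⟨c, -, huniq⟩ := ro_fixed_point hS hS.ne_one hS.mul_self
  have key : ∀ d ∈ tps G a t, d * t = t * d → d * (r * t) = (r * t) * d := by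
    intro d hd hdt
    have hdc : d • r • (t • a) = r • (t • a) :=
      (huniq _ (show t • d • r • (t • a) = d • r • (t • a) by
        rw [← mul_smul, ← hdt, mul_smul, hfix])).trans (huniq _ hfix).symm
    have hdr : d * r * d⁻¹ = r := ro_inj hS (hS.conj_mem d hd.1 r hr) hr (by
      rw [mul_smul, mul_smul, inv_smul_eq_iff.2 (hd.2 : d • (t • a) = t • a).symm, hdc])
    rw [mul_inv_eq_iff_eq_mul] at hdr
    rw [← mul_assoc, hdr, mul_assoc, hdt, ← mul_assoc]
  ext d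
  simp only [Subgroup.mem_inf, Subgroup.mem_centralizer_singleton_iff]
  constructor
  · rintro ⟨hd, hdt⟩
    refine ⟨hd, ?_⟩
    have h1 := key d hd hdt
    calc d * s = d * ((r * t)⁻¹ * t * (r * t)) := by
          conv_rhs => arg 2; arg 1; arg 2; rw [hts]
          group
      _ = (r * t)⁻¹ * ((r * t) * d) * (r * t)⁻¹ * t * (r * t) := by group
      _ = (r * t)⁻¹ * (d * (r * t)) * (r * t)⁻¹ * t * (r * t) := by rw [h1]
      _ = (r * t)⁻¹ * (d * t) * (r * t) := by group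
      _ = (r * t)⁻¹ * t * (d * (r * t)) := by rw [hdt]; group
      _ = ((r * t)⁻¹ * t * (r * t)) * d := by rw [h1]; group
      _ = s * d := by conv_lhs => arg 1; arg 1; arg 2; rw [hts]
                      group
  · rintro ⟨hd, hds⟩
    -- transport `d`
    set d' := (r * t) * d * (r * t)⁻¹ with hd'
    have hd't : d' * t = t * d' := by
      calc d' * t = d' * ((r * t) * s * (r * t)⁻¹) := by rw [← hts]
        _ = (r * t) * (d * s) * (r * t)⁻¹ := by rw [hd']; group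
        _ = (r * t) * (s * d) * (r * t)⁻¹ := by rw [hds]
        _ = ((r * t) * s * (r * t)⁻¹) * d' := by rw [hd']; group
        _ = t * d' := by rw [← hts]
    have h1 : d' • a = a := by
      have e1 : r⁻¹ • a = a := inv_mem (hS.le hr)
      have e2 : d • t • a = t • a := hd.2
      rw [hd', mul_inv_rev]
      simp only [mul_smul]
      rw [e1, ro_tinv hS, e2, ro_swap hS]
      exact hS.le hr
    have hd'mem : d' ∈ tps G a t := ⟨h1, by
      show d' • t • a = t • a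
      rw [← mul_smul, hd't, mul_smul, h1]⟩
    have h2 := key d' hd'mem hd't
    have : d' = d := mul_left_cancel (a := r * t) (h2.symm.trans (by rw [hd']; group))
    exact ⟨hd, this ▸ hd't⟩

end Cfsg.Agent.Suzuki
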