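import Cfsg.Agent.Suzuki.RankOne

/-!
The rank-one set-up: transitivity, fixed points and the odd core.
-/

set_option autoImplicit false

namespace Cfsg.Agent.Suzuki

variable {G Ω : Type*} [Group G] [MulAction G Ω] {a : Ω} {t : G} {Q : Subgroup G}
  (hS : Cfsg.IsRankOneSetup G Ω a t Q)
include hS

theorem ro_inv_of_conj {d s : G} (hd : d ∈ tps G a t)
    (hs : s ∈ Cfsg.involutionsIn (MulAction.stabilizer G a : Set G)) :
    d⁻¹ * s * d ∈ Cfsg.involutionsIn (MulAction.stabilizer G a : Set G) := by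
  obtain ⟨h1, h2, h3⟩ := hs
  refine ⟨(MulAction.stabilizer G a).mul_mem ((MulAction.stabilizer G a).mul_mem
    ((MulAction.stabilizer G a).inv_mem hd.1) h1) hd.1, fun e => h2 ?_, ?_⟩
  · calc s = d * (d⁻¹ * s * d) * d⁻¹ := by group
      _ = 1 := by rw [e]; group
  · rw [show d⁻¹ * s * d * (d⁻¹ * s * d) = d⁻¹ * (s * s) * d by group, h3]; group

variable [Finite G]

/-- The set `K` permutes the involutions of the point stabiliser transitively. -/
theorem ro_K_transitive :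
    ∀ s ∈ Cfsg.involutionsIn (MulAction.stabilizer G a : Set G),
      ∀ s' ∈ Cfsg.involutionsIn (MulAction.stabilizer G a : Set G),
        ∃ k ∈ Cfsg.invertedBy (tps G a t) t, k⁻¹ * s * k = s' := by
  classical
  obtain ⟨⟨s0, r⟩, ⟨hs0, hr, e⟩, -⟩ := ro_structure hS
  simp only at hs0 hr e
  have hV := ro_centralizer_eq hS hs0 hr e
  have htV : ∀ w ∈ tps G a t, w * s0 = s0 * w → w * t = t * w := fun w hw hws => by
    have hm : w ∈ tps G a t ⊓ Subgroup.centralizer {s0} :=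
      Subgroup.mem_inf.2 ⟨hw, Subgroup.mem_centralizer_singleton_iff.2 hws⟩
    rw [← hV, Subgroup.mem_inf, Subgroup.mem_centralizer_singleton_iff] at hm
    exact hm.2
  let K := Cfsg.invertedBy (tps G a t) t
  let Ia := Cfsg.involutionsIn (MulAction.stabilizer G a : Set G)
  have hcard : Nat.card K = Nat.card Ia := ro_card_K hS
  have hKmem : ∀ k ∈ K, t * k * t = k⁻¹ := fun k hk => by
    have := hk.2; rwa [ro_tinv hS] at this
  have inj : ∀ k1 ∈ K, ∀ k ∈ K, ∀ k' ∈ K,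
      k⁻¹ * (k1⁻¹ * s0 * k1) * k = k'⁻¹ * (k1⁻¹ * s0 * k1) * k' → k = k' := by
    intro k1 hk1 k hk k' hk' e1
    set w := k1 * (k' * k⁻¹) * k1⁻¹ with hw
    have hwD : w ∈ tps G a t :=
      mul_mem (mul_mem hk1.1 (mul_mem hk'.1 (inv_mem hk.1))) (inv_mem hk1.1)
    have hws : w * s0 = s0 * w := by
      calc w * s0 = k1 * k' * (k⁻¹ * (k1⁻¹ * s0 * k1) * k) * (k1 * k)⁻¹ := by rw [hw]; group
        _ = k1 * k' * (k'⁻¹ * (k1⁻¹ * s0 * k1) * k') * (k1 * k)⁻¹ := by rw [e1]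
        _ = s0 * w := by rw [hw]; group
    have hwt := htV w hwD hws
    have e2 : t * w * t = w := by rw [← hwt, mul_assoc, hS.mul_self, mul_one]
    have e3 : k * k1 * k1 * k = k' * k1 * k1 * k' := by
      have h1 : t * w * t = (t * k1 * t) * (t * k' * t) * (t * k * t)⁻¹ * (t * k1 * t)⁻¹ := by
        rw [hw]; simp [mul_assoc, mul_inv_rev, ro_tinv hS, ← mul_assoc t t, hS.mul_self]
      rw [hKmem k1 hk1, hKmem k' hk', hKmem k hk, e2] at h1
      rw [hw] at h1
      calc k * k1 * k1 * k = k' * k1 * (k1⁻¹ * k'⁻¹ * k⁻¹⁻¹ * k1⁻¹⁻¹) * k1 * k := by group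
        _ = k' * k1 * (k1 * (k' * k⁻¹) * k1⁻¹) * k1 * k := by rw [← h1]
        _ = _ := by group
    have e4 := sq_inj_odd hS.odd_card
      (show k1 * k * k1 ∈ tps G a t from mul_mem (mul_mem hk1.1 hk.1) hk1.1)
      (show k1 * k' * k1 ∈ tps G a t from mul_mem (mul_mem hk1.1 hk'.1) hk1.1) (by
        calc k1 * k * k1 * (k1 * k * k1) = k1 * (k * k1 * k1 * k) * k1 := by group
          _ = k1 * (k' * k1 * k1 * k') * k1 := by rw [e3]
          _ = _ := by group)
    exact mul_left_cancel (mul_right_cancel e4)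
  have surj : ∀ k1 ∈ K, ∀ s' ∈ Ia, ∃ k ∈ K, k⁻¹ * (k1⁻¹ * s0 * k1) * k = s' := by
    intro k1 hk1 s' hs'
    let f : K → Ia := fun k => ⟨k.1⁻¹ * (k1⁻¹ * s0 * k1) * k.1,
      ro_inv_of_conj hS k.2.1 (ro_inv_of_conj hS hk1.1 hs0)⟩
    have hf : Function.Injective f := fun x y exy =>
      Subtype.ext (inj k1 hk1 x.1 x.2 y.1 y.2 (congrArg Subtype.val exy))
    obtain ⟨k, hk⟩ := (hf.bijective_of_nat_card_le hcard.ge).2 ⟨s', hs'⟩
    exact ⟨k.1, k.2, congrArg Subtype.val hk⟩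
  have h1K : (1 : G) ∈ K := ⟨one_mem _, by simp⟩
  intro s hs s' hs'
  obtain ⟨k1, hk1, ek1⟩ := surj 1 h1K s hs
  simp only [inv_one, one_mul, mul_one] at ek1
  obtain ⟨k, hk, ek⟩ := surj k1 hk1 s' hs'
  exact ⟨k, hk, by rw [← ek1, ek]⟩

theorem ro_centralizer_K :
    tps G a t ⊓ Subgroup.centralizer {t} ⊓ Subgroup.centralizer (Cfsg.invertedBy (tps G a t) t) =
      tps G a t ⊓ Subgroup.centralizer (Cfsg.involutionsIn (MulAction.stabilizer G a : Set G)) := by
  obtain ⟨⟨s0, r⟩, ⟨hs0, hr, e⟩, -⟩ := ro_structure hS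
  simp only at hs0 hr e
  have hV := ro_centralizer_eq hS hs0 hr e
  ext d
  constructor
  · intro hd
    obtain ⟨hd1, hdK⟩ := Subgroup.mem_inf.1 hd
    have hds : d ∈ tps G a t ⊓ Subgroup.centralizer {s0} := hV ▸ hd1
    obtain ⟨hdD, hds⟩ := Subgroup.mem_inf.1 hds
    rw [Subgroup.mem_centralizer_singleton_iff] at hds
    rw [Subgroup.mem_centralizer_iff] at hdK
    refine Subgroup.mem_inf.2 ⟨hdD, Subgroup.mem_centralizer_iff.2 fun s hs => ?_⟩
    obtain ⟨k, hk, rfl⟩ := ro_K_transitive hS s0 hs0 s hs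
    have h1 : k * d = d * k := hdK k hk
    have h2 : k⁻¹ * d = d * k⁻¹ := (Commute.inv_left h1).eq
    calc k⁻¹ * s0 * k * d = k⁻¹ * s0 * d * k := by rw [mul_assoc, h1, ← mul_assoc]
      _ = k⁻¹ * d * s0 * k := by rw [mul_assoc k⁻¹ s0, ← hds, ← mul_assoc]
      _ = d * (k⁻¹ * s0 * k) := by rw [h2]; group
  · intro hd
    obtain ⟨hdD, hdI⟩ := Subgroup.mem_inf.1 hd
    rw [Subgroup.mem_centralizer_iff] at hdI
    have hsub : ∀ x ∈ tps G a t,
        (∀ s ∈ Cfsg.involutionsIn (MulAction.stabilizer G a : Set G), s * x = x * s) →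
        x * t = t * x := by
      intro x hx hxs
      have hm : x ∈ tps G a t ⊓ Subgroup.centralizer {s0} :=
        Subgroup.mem_inf.2 ⟨hx, Subgroup.mem_centralizer_singleton_iff.2 (hxs s0 hs0).symm⟩
      rw [← hV, Subgroup.mem_inf, Subgroup.mem_centralizer_singleton_iff] at hm
      exact hm.2
    have hdt := hsub d hdD hdI
    refine Subgroup.mem_inf.2 ⟨Subgroup.mem_inf.2 ⟨hdD,
      Subgroup.mem_centralizer_singleton_iff.2 hdt⟩, Subgroup.mem_centralizer_iff.2 fun k hk => ?_⟩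
    -- a conjugate also centralises the involutions
    have hd' : (k * d * k⁻¹) * t = t * (k * d * k⁻¹) := by
      refine hsub _ (mul_mem (mul_mem hk.1 hdD) (inv_mem hk.1)) fun s hs => ?_
      have h1 := hdI _ (ro_inv_of_conj hS hk.1 hs)
      calc s * (k * d * k⁻¹) = k * (k⁻¹ * s * k * d) * k⁻¹ := by group
        _ = k * (d * (k⁻¹ * s * k)) * k⁻¹ := by rw [h1]
        _ = _ := by group
    have hkk : d * (k * k) = k * k * d := by
      have h1 : t * (k * d * k⁻¹) * t = k * d * k⁻¹ := by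
        rw [← hd', mul_assoc, hS.mul_self, mul_one]
      have hk2 : t * k * t = k⁻¹ := by have := hk.2; rwa [ro_tinv hS] at this
      have h2 : t * (k * d * k⁻¹) * t = (t * k * t) * d * (t * k * t)⁻¹ := by
        calc t * (k * d * k⁻¹) * t = t * k * (d * t) * (t * k⁻¹ * t) := by
              simp [mul_assoc, ← mul_assoc t t, hS.mul_self]
          _ = t * k * (t * d) * (t * k⁻¹ * t) := by rw [hdt]
          _ = _ := by simp [mul_assoc, mul_inv_rev, ro_tinv hS]
      rw [h1, hk2] at h2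
      calc d * (k * k) = k * (k⁻¹ * d * k⁻¹⁻¹) * k := by group
        _ = k * (k * d * k⁻¹) * k := by rw [← h2]
        _ = _ := by group
    exact (commute_of_commute_sq hS.odd_card hk.1
      (mul_mem (mul_mem hdD hk.1) (inv_mem hdD)) hkk).symm

/-- A subset of the two-point stabiliser: the fixed points other than `a` are an orbit of `C_Q(X)`. -/
theorem ro_CQ_transitive {X : Set G} (hX : X ⊆ (tps G a t : Set G)) {c : Ω} (hc : c ≠ a)
    (hfix : ∀ x ∈ X, x • c = c) :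
    ∃ q ∈ Q, q ∈ Subgroup.centralizer X ∧ q • (t • a) = c := by
  obtain ⟨q, hq, rfl⟩ := ro_reach hS hc
  refine ⟨q, hq, Subgroup.mem_centralizer_iff.2 fun x hx => ?_, rfl⟩
  obtain ⟨hxa, hxb⟩ := Subgroup.mem_inf.1 (hX hx)
  have e : x * q * x⁻¹ = q := ro_inj hS (hS.conj_mem x hxa q hq) hq (by
    rw [mul_smul, mul_smul, inv_smul_eq_iff.2 (hxb : x • (t • a) = t • a).symm, hfix x hx])
  rwa [mul_inv_eq_iff_eq_mul] at e

omit [Finite G] in
/-- Centralisers of `X` are transitive on the fixed points different from a given fixed point. -/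
theorem ro_CX_step {X : Set G} {c d d' : Ω} (hfix : ∀ x ∈ X, x • c = c ∧ x • d = d ∧ x • d' = d')
    (hd : d ≠ c) (hd' : d' ≠ c) : ∃ g ∈ Subgroup.centralizer X, g • c = c ∧ g • d = d' := by
  obtain ⟨g, g1, g2⟩ := ro_two hS (ro_ne hS).symm hd.symm
  have hc' : g⁻¹ • c = a := inv_smul_eq_iff.2 g1.symm
  have hne : g⁻¹ • d' ≠ a := fun e => hd' (MulAction.injective g⁻¹ (e.trans hc'.symm))
  obtain ⟨q, hq, hq'⟩ := ro_reach hS hne
  refine ⟨g * q * g⁻¹, Subgroup.mem_centralizer_iff.2 fun x hx => ?_, ?_, ?_⟩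
  · obtain ⟨x1, x2, x3⟩ := hfix x hx
    have hy1 : (g⁻¹ * x * g) • a = a := by rw [mul_smul, mul_smul, g1, x1, hc']
    have hy2 : (g⁻¹ * x * g) • (t • a) = t • a := by
      rw [mul_smul, mul_smul, g2, x2, inv_smul_eq_iff, g2]
    have e : (g⁻¹ * x * g) * q * (g⁻¹ * x * g)⁻¹ = q := ro_inj hS (hS.conj_mem _ hy1 q hq) hq (by
      rw [mul_smul, mul_smul, inv_smul_eq_iff.2 hy2.symm, hq', mul_smul, mul_smul, smul_inv_smul, x3])
    rw [mul_inv_eq_iff_eq_mul] at e
    calc x * (g * q * g⁻¹) = g * (g⁻¹ * x * g * q) * g⁻¹ := by group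
      _ = g * (q * (g⁻¹ * x * g)) * g⁻¹ := by rw [e]
      _ = _ := by group
  · rw [mul_smul, mul_smul, hc', (hS.le hq : q • a = a), g1]
  · rw [mul_smul, mul_smul, inv_smul_eq_iff.2 g2.symm, hq', smul_inv_smul]

omit [Finite G] in
theorem ro_CX_two {X : Set G}
    (h3 : ∃ b c d : Ω, b ≠ c ∧ b ≠ d ∧ c ≠ d ∧ ∀ x ∈ X, x • b = b ∧ x • c = c ∧ x • d = d)
    {b₁ b₂ c₁ c₂ : Ω} (hfix : ∀ x ∈ X, x • b₁ = b₁ ∧ x • b₂ = b₂ ∧ x • c₁ = c₁ ∧ x • c₂ = c₂)
    (hb : b₁ ≠ b₂) (hc : c₁ ≠ c₂) :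
    ∃ g ∈ Subgroup.centralizer X, g • b₁ = c₁ ∧ g • b₂ = c₂ := by
  obtain ⟨p1, p2, p3, h12, h13, h23, hp⟩ := h3
  -- a third fixed point
  have hthird : ∀ u v : Ω, ∃ e, (∀ x ∈ X, x • e = e) ∧ e ≠ u ∧ e ≠ v := by
    intro u v
    by_cases e1 : p1 ≠ u ∧ p1 ≠ v
    · exact ⟨p1, fun x hx => (hp x hx).1, e1⟩
    by_cases e2 : p2 ≠ u ∧ p2 ≠ v
    · exact ⟨p2, fun x hx => (hp x hx).2.1, e2⟩
    refine ⟨p3, fun x hx => (hp x hx).2.2, ?_, ?_⟩ <;> intro e3 <;> subst e3 <;>
      simp only [not_and_or, not_not] at e1 e2 <;> rcases e1 with rfl | rfl <;>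
      rcases e2 with rfl | rfl <;> simp_all
  obtain ⟨e, he, he1, he2⟩ := hthird b₁ c₁
  obtain ⟨g, hg, -, g2⟩ := ro_CX_step hS (c := e) (d := b₁) (d' := c₁)
    (fun x hx => ⟨he x hx, (hfix x hx).1, (hfix x hx).2.2.1⟩) he1.symm he2.symm
  have hgfix : ∀ x ∈ X, x • g • b₂ = g • b₂ := fun x hx => by
    rw [← mul_smul, Subgroup.mem_centralizer_iff.1 hg x hx, mul_smul, (hfix x hx).2.1]
  obtain ⟨g', hg', g1', g2'⟩ := ro_CX_step hS (c := c₁) (d := g • b₂) (d' := c₂)
    (fun x hx => ⟨(hfix x hx).2.2.1, hgfix x hx, (hfix x hx).2.2.2⟩)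
    (fun e' => hb (MulAction.injective g (g2.trans e'.symm))) hc.symm
  exact ⟨g' * g, mul_mem hg' hg, by rw [mul_smul, g2, g1'], by rw [mul_smul, g2']⟩

/-- An involution centralising `X` and swapping the two base points. -/
theorem ro_CX_involution {X : Set G} (hX : X ⊆ (tps G a t : Set G))
    (h3 : ∃ b c d : Ω, b ≠ c ∧ b ≠ d ∧ c ≠ d ∧ ∀ x ∈ X, x • b = b ∧ x • c = c ∧ x • d = d) :
    ∃ k ∈ Cfsg.invertedBy (tps G a t) t, t * k ∈ Subgroup.centralizer X := by
  have hfx : ∀ x ∈ X, x • a = a ∧ x • (t • a) = t • a ∧ x • (t • a) = t • a ∧ x • a = a :=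
    fun x hx => ⟨(Subgroup.mem_inf.1 (hX hx)).1, (Subgroup.mem_inf.1 (hX hx)).2,
      (Subgroup.mem_inf.1 (hX hx)).2, (Subgroup.mem_inf.1 (hX hx)).1⟩
  obtain ⟨g, hg, g1, g2⟩ := ro_CX_two hS h3 hfx (ro_ne hS).symm (ro_ne hS)
  have hd : g * g ∈ tps G a t :=
    ⟨by show (g * g) • a = a; rw [mul_smul, g1, g2],
      by show (g * g) • t • a = t • a; rw [mul_smul, g2, g1]⟩
  obtain ⟨j, hj⟩ := hS.odd_card
  set u := g ^ (2 * j + 1) with hu
  have hu2 : u * u = 1 := by
    rw [hu, ← (Commute.refl g).mul_pow, ← hj]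
    have := pow_card_eq_one' (x := (⟨g * g, hd⟩ : tps G a t))
    exact congrArg Subtype.val this
  have hua : u • a = t • a := by
    rw [hu, pow_succ, mul_smul, g1, pow_mul, pow_two]
    have : (g * g) ^ j ∈ tps G a t := pow_mem hd j
    exact this.2
  exact ⟨t * u, ro_swap_mem hS hu2 hua, by
    rw [← mul_assoc, hS.mul_self, one_mul]; exact pow_mem hg _⟩

theorem ro_CX_even {X : Set G} (hX : X ⊆ (tps G a t : Set G))
    (h3 : ∃ b c d : Ω, b ≠ c ∧ b ≠ d ∧ c ≠ d ∧ ∀ x ∈ X, x • b = b ∧ x • c = c ∧ x • d = d) :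
    Even (Nat.card ↥(Subgroup.centralizer X ⊓ Q)) := by
  obtain ⟨k, hk, hkX⟩ := ro_CX_involution hS hX h3
  obtain ⟨hu1, hu2, hua⟩ := ro_swapping hS hk
  set u := t * k
  obtain ⟨c, hc, huniq⟩ := ro_fixed_point hS hu1 hu2
  have hc : u • c = c := hc
  have hca : c ≠ a := fun e => ro_ne hS (by rw [e] at hc; exact hua.symm.trans hc)
  have hXc : ∀ x ∈ X, x • c = c := fun x hx => huniq _ (show u • x • c = x • c by
    rw [← mul_smul, ← Subgroup.mem_centralizer_iff.1 hkX x hx, mul_smul, hc])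
  obtain ⟨r, hr, hrX, hrc⟩ := ro_CQ_transitive hS hX hca hXc
  let g := r * u
  have hgc : g • a = c := by simp only [g, mul_smul, hua, hrc]
  let s := g⁻¹ * u * g
  have hsa : s • a = a := by
    simp only [s, mul_smul, hgc, hc]
    rw [inv_smul_eq_iff, hgc]
  have hs2 : s * s = 1 := by
    rw [show s * s = g⁻¹ * (u * u) * g by simp only [s]; group, hu2]; group
  have hs1 : s ≠ 1 := fun e => hu1 (by
    calc u = g * s * g⁻¹ := by simp only [s]; group
      _ = 1 := by rw [e]; group)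
  have hsmem : s ∈ Subgroup.centralizer X ⊓ Q := Subgroup.mem_inf.2
    ⟨mul_mem (mul_mem (inv_mem (mul_mem hrX hkX)) hkX) (mul_mem hrX hkX), ro_inv_mem hS hsa hs2⟩
  rw [even_iff_two_dvd]
  have := orderOf_dvd_natCard (⟨s, hsmem⟩ : ↥(Subgroup.centralizer X ⊓ Q))
  rwa [← Subgroup.orderOf_coe, orderOf_eq_prime (p := 2) (by rw [pow_two]; exact hs2) hs1] at this

theorem ro_CX_sup {X : Set G} (hX : X ⊆ (tps G a t : Set G)) :
    (Subgroup.centralizer X ⊓ Q) ⊔ (Subgroup.centralizer X ⊓ tps G a t) =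
      Subgroup.centralizer X ⊓ MulAction.stabilizer G a := by
  refine le_antisymm (sup_le (inf_le_inf_left _ hS.le) (inf_le_inf_left _ inf_le_left)) ?_
  intro g hg
  obtain ⟨hgX, hga⟩ := Subgroup.mem_inf.1 hg
  have hne : g • (t • a) ≠ a := fun e =>
    ro_ne hS (MulAction.injective g (e.trans (hga : g • a = a).symm))
  obtain ⟨q, hq, hqX, hqb⟩ := ro_CQ_transitive hS hX hne (fun x hx => by
    rw [← mul_smul, Subgroup.mem_centralizer_iff.1 hgX x hx, mul_smul,
      (Subgroup.mem_inf.1 (hX hx)).2])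
  rw [show g = q * (q⁻¹ * g) by group]
  refine mul_mem (Subgroup.mem_sup_left (Subgroup.mem_inf.2 ⟨hqX, hq⟩))
    (Subgroup.mem_sup_right (Subgroup.mem_inf.2 ⟨mul_mem (inv_mem hqX) hgX,
      Subgroup.mem_inf.2 ⟨mul_mem (inv_mem (hS.le hq)) hga, ?_⟩⟩))
  show (q⁻¹ * g) • (t • a) = t • a
  rw [mul_smul, inv_smul_eq_iff, hqb]

theorem ro_CX_conj {X : Set G} (hX : X ⊆ (tps G a t : Set G))
    (h3 : ∃ b c d : Ω, b ≠ c ∧ b ≠ d ∧ c ≠ d ∧ ∀ x ∈ X, x • b = b ∧ x • c = c ∧ x • d = d) :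
    ∃ j ∈ tps G a t, ∀ x ∈ X, (j * x * j⁻¹) * t = t * (j * x * j⁻¹) := by
  obtain ⟨k, hk, hkX⟩ := ro_CX_involution hS hX h3
  obtain ⟨j, hj, hj2⟩ := exists_sqrt_odd hS.odd_card hk.1
  have hjt : t * j * t = j⁻¹ := by
    refine sq_inj_odd hS.odd_card (ro_tD hS hj) (inv_mem hj) ?_
    calc t * j * t * (t * j * t) = t * (j * (t * t) * j) * t := by group
      _ = t * k * t⁻¹ := by rw [hS.mul_self, mul_one, hj2, ro_tinv hS]
      _ = k⁻¹ := hk.2
      _ = j⁻¹ * j⁻¹ := by rw [← hj2, mul_inv_rev]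
  have hu : t * k = j⁻¹ * t * j := by
    calc t * k = (t * j * t) * t * j := by
          rw [← hj2]; simp [mul_assoc, ← mul_assoc t t, hS.mul_self]
      _ = j⁻¹ * t * j := by rw [hjt]
  refine ⟨j, hj, fun x hx => ?_⟩
  have h1 := Subgroup.mem_centralizer_iff.1 hkX x hx
  rw [hu] at h1
  calc j * x * j⁻¹ * t = j * (x * (j⁻¹ * t * j)) * j⁻¹ := by group
    _ = j * (j⁻¹ * t * j * x) * j⁻¹ := by rw [h1]
    _ = _ := by group

theorem ro_odd_core
    (h2 : ∃ x y : G, x ≠ 1 ∧ y ≠ 1 ∧ x ≠ y ∧ x * x = 1 ∧ y * y = 1 ∧ x * y = y * x) :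
    Cfsg.pPrimeCore 2 G = (MulAction.stabilizer G a).normalCore := by
  refine le_antisymm ?_ ?_
  · -- generated by centralisers of a fours group inside `Q`
    set O := Cfsg.pPrimeCore 2 G with hO
    have hOn : O.Normal := Subgroup.normal_of_characteristic _
    obtain ⟨x, y, hx1, hy1, hxy, hx2, hy2, hc⟩ := h2
    obtain ⟨s, hs, hs1, hs2⟩ := ro_exists_inv hS
    obtain ⟨g, hg⟩ := ro_conj hS hx1 hx2 hs1 hs2
    have hy' : (g * y * g⁻¹) * (g * y * g⁻¹) = 1 := by
      rw [show g * y * g⁻¹ * (g * y * g⁻¹) = g * (y * y) * g⁻¹ by group, hy2]; group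
    have hcomm : g * y * g⁻¹ * s = s * (g * y * g⁻¹) := by
      rw [← hg]
      calc g * y * g⁻¹ * (g * x * g⁻¹) = g * (y * x) * g⁻¹ := by group
        _ = g * (x * y) * g⁻¹ := by rw [hc]
        _ = _ := by group
    set u := g * y * g⁻¹
    have hu1 : u ≠ 1 := fun e => hy1 (conj_eq_one_iff.1 e)
    have hus : u ≠ s := fun e => hxy (mul_left_cancel (mul_right_cancel (hg.trans e.symm)))
    have huQ : u ∈ Q := ro_inv_mem hS (ro_centralizer hS hs hs1 hcomm) hy'
    -- the fours group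
    let E : Subgroup G :=
      { carrier := {z | z = 1 ∨ z = s ∨ z = u ∨ z = s * u}
        one_mem' := Or.inl rfl
        mul_mem' := by
          have e1 : ∀ z : G, s * (s * z) = z := fun z => by rw [← mul_assoc, hs2, one_mul]
          have e2 : ∀ z : G, u * (u * z) = z := fun z => by rw [← mul_assoc, hy', one_mul]
          have e3 : ∀ z : G, u * (s * z) = s * (u * z) := fun z => by
            rw [← mul_assoc, hcomm, mul_assoc]
          rintro p q (rfl | rfl | rfl | rfl) (rfl | rfl | rfl | rfl) <;>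
            simp [mul_assoc, hs2, hy', hcomm, e1, e2, e3]
        inv_mem' := by
          rintro p (rfl | rfl | rfl | rfl) <;>
            simp [inv_eq_of_mul_eq_one_right hs2, inv_eq_of_mul_eq_one_right hy', hcomm] }
    have hEQ : ∀ z ∈ E, z ∈ Q := by
      rintro z (rfl | rfl | rfl | rfl)
      exacts [one_mem _, hs, huQ, mul_mem hs huQ]
    have hEinv : ∀ z ∈ E, z * z = 1 := by
      rintro z (rfl | rfl | rfl | rfl)
      · simp
      · exact hs2
      · exact hy'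
      · calc s * u * (s * u) = s * (u * s) * u := by group
          _ = (s * s) * (u * u) := by rw [hcomm]; group
          _ = 1 := by rw [hs2, hy', one_mul]
    have : IsMulCommutative E := ⟨⟨fun p q => Subtype.ext (by
      have e := hEinv _ (E.mul_mem p.2 q.2)
      show p.1 * q.1 = q.1 * p.1
      rw [← inv_eq_of_mul_eq_one_right (hEinv _ (E.mul_mem p.2 q.2)), mul_inv_rev,
        inv_eq_of_mul_eq_one_right (hEinv _ p.2), inv_eq_of_mul_eq_one_right (hEinv _ q.2)])⟩⟩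
    have hnc : ¬ IsCyclic E := by
      intro hcy
      obtain ⟨z, hz⟩ := IsCyclic.exists_generator (α := E)
      have hz2 : z ^ (2 : ℤ) = 1 := Subtype.ext (by
        simp only [zpow_two, Subgroup.coe_mul, Subgroup.coe_one]; exact hEinv _ z.2)
      have hall : ∀ w : E, w = 1 ∨ w = z := fun w => by
        obtain ⟨i, rfl⟩ := hz w
        rcases Int.even_or_odd' i with ⟨l, rfl | rfl⟩
        · left; simp only [zpow_mul, hz2, one_zpow]
        · right; simp only [zpow_add, zpow_mul, hz2, one_zpow, one_mul, zpow_one]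
      rcases hall ⟨s, Or.inr (Or.inl rfl)⟩ with e | e
      · exact hs1 (congrArg Subtype.val e)
      rcases hall ⟨u, Or.inr (Or.inr (Or.inl rfl))⟩ with e' | e'
      · exact hu1 (congrArg Subtype.val e')
      exact hus (congrArg Subtype.val (e'.trans e.symm))
    have hcop : (Nat.card E).Coprime (Nat.card O) := by
      have hE : IsPGroup 2 E := fun z => ⟨1, Subtype.ext (by
        simp only [pow_one, pow_two, Subgroup.coe_mul, Subgroup.coe_one]; exact hEinv _ z.2)⟩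
      have := Fact.mk Nat.prime_two
      obtain ⟨i, hi⟩ := IsPGroup.iff_card.1 hE
      rw [hi]
      exact (Core.card_pPrimeCore_coprime 2 G).symm.pow_left _
    have hgen := Coprime.eq_centralizerJoin hnc
      (by rw [Subgroup.normalizer_eq_top]; exact le_top) hcop
    have hle : O ≤ MulAction.stabilizer G a := by
      rw [← hgen]
      refine iSup_le fun z w hw => ?_
      exact ro_centralizer hS (hEQ _ z.2.1) z.2.2
        (Subgroup.mem_centralizer_singleton_iff.1 (Subgroup.mem_inf.1 hw).2)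
    exact Subgroup.normal_le_normalCore.2 hle
  · refine Core.le_pPrimeCore inferInstance ?_
    have hle : (MulAction.stabilizer G a).normalCore ≤ tps G a t := by
      intro x hx
      refine Subgroup.mem_inf.2 ⟨Subgroup.normalCore_le _ hx, ?_⟩
      have h2 : t * x * t⁻¹ ∈ (MulAction.stabilizer G a).normalCore :=
        Subgroup.Normal.conj_mem inferInstance x hx t
      have h3 : (t * x * t⁻¹) • a = a := Subgroup.normalCore_le _ h2
      show x • (t • a) = t • a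
      rw [ro_tinv hS, mul_smul, mul_smul] at h3
      exact MulAction.injective t (h3.trans (ro_swap hS).symm)
    exact (Nat.coprime_two_right.2 hS.odd_card).coprime_dvd_left (Subgroup.card_dvd_of_le hle)

end Cfsg.Agent.Suzuki
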