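import Cfsg.Agent.Suzuki.RankOne2

/-!
The rank-one set-up: inverted elements act fixed-point-freely on `Q`; fusion in `C_D(t)`.
-/

set_option autoImplicit false

namespace Cfsg.Agent.Suzuki

variable {G Ω : Type*} [Group G] [MulAction G Ω] {a : Ω} {t : G} {Q : Subgroup G}
  (hS : Cfsg.IsRankOneSetup G Ω a t Q) [Finite G]
include hS

/-- An element of `K` with three fixed points is trivial. -/
theorem ro_K_three {x : G} (hx : x ∈ Cfsg.invertedBy (tps G a t) t)
    (h3 : ∃ c, c ≠ a ∧ c ≠ t • a ∧ x • c = c) : x = 1 := by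
  obtain ⟨c, hca, hcb, hxc⟩ := h3
  have hX : ({x} : Set G) ⊆ (tps G a t : Set G) := by
    rintro y rfl; exact hx.1
  obtain ⟨k, hk, hkX⟩ := ro_CX_involution hS hX ⟨a, t • a, c, (ro_ne hS).symm, hca.symm, hcb.symm,
    fun y hy => by rw [hy]; exact ⟨hx.1.1, hx.1.2, hxc⟩⟩
  have h1 : x * (t * k) = t * k * x := Subgroup.mem_centralizer_iff.1 hkX x rfl
  have h2 : t * x * t = x⁻¹ := by have := hx.2; rwa [ro_tinv hS] at this
  -- `k` inverts `x`
  have h3 : k * x * k⁻¹ = x⁻¹ := by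
    calc k * x * k⁻¹ = t * (t * k * x) * k⁻¹ := by simp [mul_assoc, ← mul_assoc t t, hS.mul_self]
      _ = t * (x * (t * k)) * k⁻¹ := by rw [h1]
      _ = t * x * t := by group
      _ = x⁻¹ := h2
  have h4 : x * (k * k) = k * k * x := by
    have h5 : k * x⁻¹ * k⁻¹ = x := by
      rw [show k * x⁻¹ * k⁻¹ = (k * x * k⁻¹)⁻¹ by group, h3, inv_inv]
    calc x * (k * k) = (k * (k * x * k⁻¹) * k⁻¹) * (k * k) := by rw [h3, h5]
      _ = _ := by group
  have h5 := commute_of_commute_sq hS.odd_card hk.1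
    (mul_mem (mul_mem hx.1 hk.1) (inv_mem hx.1)) h4
  rw [← h5, mul_inv_cancel_right] at h3
  exact sq_inj_odd hS.odd_card hx.1 (one_mem _) (by
    conv_lhs => arg 1; rw [h3]
    rw [inv_mul_cancel, one_mul])

theorem ro_K_fpf {x : G} (hx : x ∈ Cfsg.invertedBy (tps G a t) t) (hx1 : x ≠ 1) :
    Q ⊓ Subgroup.centralizer {x} = ⊥ := by
  rw [Subgroup.eq_bot_iff_forall]
  intro q hq
  obtain ⟨hqQ, hqx⟩ := Subgroup.mem_inf.1 hq
  rw [Subgroup.mem_centralizer_singleton_iff] at hqx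
  by_contra hq1
  refine hx1 (ro_K_three hS hx ⟨q • (t • a), fun e => ?_, fun e => hq1 (ro_free_b hS hqQ e), ?_⟩)
  · exact ro_ne hS (MulAction.injective q (e.trans (hS.le hqQ : q • a = a).symm))
  · rw [← mul_smul, ← hqx, mul_smul, (hx.1.2 : x • (t • a) = t • a)]

/-- Subsets of `C_D(t)` conjugate in `G` are conjugate in `C_D(t)`. -/
theorem ro_fusion_V (X : Set G)
    (hX : X ⊆ ((tps G a t ⊓ Subgroup.centralizer {t} : Subgroup G) : Set G)) (g : G)
    (hY : (fun x => g * x * g⁻¹) '' X ⊆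
      ((tps G a t ⊓ Subgroup.centralizer {t} : Subgroup G) : Set G)) :
    ∃ v ∈ tps G a t ⊓ Subgroup.centralizer {t},
      (fun x => v * x * v⁻¹) '' X = (fun x => g * x * g⁻¹) '' X := by
  have hXD : X ⊆ (tps G a t : Set G) := fun x hx => (Subgroup.mem_inf.1 (hX hx)).1
  have hXt : ∀ x ∈ X, x * t = t * x := fun x hx =>
    Subgroup.mem_centralizer_singleton_iff.1 (Subgroup.mem_inf.1 (hX hx)).2
  obtain ⟨c, hc, huniq⟩ := ro_fixed_point hS hS.ne_one hS.mul_self
  have hc : t • c = c := hc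
  have hca : c ≠ a := fun e => ro_ne hS (by rwa [e] at hc)
  have hcb : c ≠ t • a := fun e => by
    rw [e, ro_swap hS] at hc; exact ro_ne hS hc.symm
  have hXc : ∀ x ∈ X, x • c = c := fun x hx => huniq _ (show t • x • c = x • c by
    rw [← mul_smul, ← hXt x hx, mul_smul, hc])
  have hXg : ∀ x ∈ X, x • g⁻¹ • a = g⁻¹ • a ∧ x • g⁻¹ • (t • a) = g⁻¹ • (t • a) := by
    intro x hx
    obtain ⟨h1, h2⟩ := Subgroup.mem_inf.1 (Subgroup.mem_inf.1 (hY ⟨x, hx, rfl⟩)).1
    constructor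
    · rw [eq_inv_smul_iff, ← mul_smul, ← mul_smul]; exact h1
    · rw [eq_inv_smul_iff, ← mul_smul, ← mul_smul]; exact h2
  obtain ⟨h, hh, h1, h2⟩ := ro_CX_two hS
    ⟨a, t • a, c, (ro_ne hS).symm, hca.symm, hcb.symm,
      fun x hx => ⟨(hXD hx).1, (hXD hx).2, hXc x hx⟩⟩
    (b₁ := a) (b₂ := t • a) (c₁ := g⁻¹ • a) (c₂ := g⁻¹ • (t • a))
    (fun x hx => ⟨(hXD hx).1, (hXD hx).2, hXg x hx⟩) (ro_ne hS).symm
    (fun e => ro_ne hS (MulAction.injective g⁻¹ e).symm)
  have hd : g * h ∈ tps G a t :=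
    ⟨show (g * h) • a = a by rw [mul_smul, h1, smul_inv_smul],
      show (g * h) • t • a = t • a by rw [mul_smul, h2, smul_inv_smul]⟩
  obtain ⟨⟨v, k⟩, ⟨hv, hk, hdvk⟩, -⟩ :=
    unique_decomposition hS.mul_self hS.odd_card (ro_tD' hS) hd
  simp only at hv hk hdvk
  obtain ⟨hvD, hvt⟩ := Subgroup.mem_inf.1 hv
  rw [Subgroup.mem_centralizer_singleton_iff] at hvt
  have hk2 : t * k * t = k⁻¹ := by have := hk.2; rwa [ro_tinv hS] at this
  have hconj : ∀ x ∈ X, (g * h) * x * (g * h)⁻¹ = g * x * g⁻¹ := fun x hx => by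
    rw [show g * h * x * (g * h)⁻¹ = g * (h * x) * h⁻¹ * g⁻¹ by group,
      ← Subgroup.mem_centralizer_iff.1 hh x hx]
    group
  have key : ∀ x ∈ X, v * x * v⁻¹ = g * x * g⁻¹ := by
    intro x hx
    rw [← hconj x hx, hdvk]
    have h0 : t * (g * x * g⁻¹) = g * x * g⁻¹ * t := (Subgroup.mem_centralizer_singleton_iff.1
      (Subgroup.mem_inf.1 (hY ⟨x, hx, rfl⟩)).2).symm
    rw [← hconj x hx, hdvk] at h0
    have h4 : k⁻¹ * x * k = k * x * k⁻¹ := by
      apply mul_left_cancel (a := v)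
      apply mul_right_cancel (b := v⁻¹)
      calc v * (k⁻¹ * x * k) * v⁻¹
          = v * ((t * k * t) * x * (t * k * t)⁻¹) * v⁻¹ := by rw [hk2]; group
        _ = v * t * k * (t * x * t) * k⁻¹ * t * v⁻¹ := by
            simp [mul_assoc, mul_inv_rev, ro_tinv hS]
        _ = v * t * k * x * k⁻¹ * t * v⁻¹ := by
            rw [show t * x * t = x by rw [← hXt x hx, mul_assoc, hS.mul_self, mul_one]]
        _ = t * (v * k * x * (v * k)⁻¹) * t := by
            rw [hvt]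
            have : t * v⁻¹ = v⁻¹ * t := (Commute.inv_left (show Commute v t from hvt)).eq.symm
            simp only [mul_inv_rev, mul_assoc, this]
        _ = v * k * x * (v * k)⁻¹ * (t * t) := by rw [h0, mul_assoc]
        _ = _ := by rw [hS.mul_self]; group
    have h5 : x * (k * k) = k * k * x := by
      calc x * (k * k) = k * (k⁻¹ * x * k) * k := by group
        _ = k * (k * x * k⁻¹) * k := by rw [h4]
        _ = _ := by group
    have h6 := commute_of_commute_sq hS.odd_card hk.1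
      (mul_mem (mul_mem (hXD hx) hk.1) (inv_mem (hXD hx))) h5
    calc v * x * v⁻¹ = v * (x * k) * k⁻¹ * v⁻¹ := by group
      _ = v * k * x * (v * k)⁻¹ := by rw [h6]; group
  exact ⟨v, hv, Set.image_congr key⟩

end Cfsg.Agent.Suzuki
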