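import Cfsg.Agent.Suzuki.RankOne3
import Cfsg.Agent.Core.ThompsonFPF
import Cfsg.Agent.OddLocal.NilBasics

/-!
The rank-one set-up with two commuting involutions: the kernel is nilpotent, involutions are central.
-/

set_option autoImplicit false

namespace Cfsg.Agent.Suzuki

variable {G Ω : Type*} [Group G] [MulAction G Ω] {a : Ω} {t : G} {Q : Subgroup G}
  (hS : Cfsg.IsRankOneSetup G Ω a t Q) [Finite G]
  (h2 : ∃ x y : G, x ≠ 1 ∧ y ≠ 1 ∧ x ≠ y ∧ x * x = 1 ∧ y * y = 1 ∧ x * y = y * x)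
include hS h2

omit [Finite G] in
theorem ro_normal_Q : (Q.subgroupOf (MulAction.stabilizer G a)).Normal :=
  ⟨fun n hn g => hS.conj_mem g g.2 n hn⟩

/-- Two commuting involutions give a non-identity inverted element of prime order. -/
theorem ro_K_prime : ∃ x ∈ Cfsg.invertedBy (tps G a t) t, (orderOf x).Prime := by
  obtain ⟨x, y, hx1, hy1, hxy, hx2, hy2, hc⟩ := h2
  obtain ⟨s, hs, hs1, hs2⟩ := ro_exists_inv hS
  obtain ⟨g, hg⟩ := ro_conj hS hx1 hx2 hs1 hs2
  set u := g * y * g⁻¹ with hu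
  have hu1 : u ≠ 1 := fun e => hy1 (conj_eq_one_iff.1 e)
  have hu2 : u * u = 1 := by
    rw [hu, show g * y * g⁻¹ * (g * y * g⁻¹) = g * (y * y) * g⁻¹ by group, hy2]; group
  have hus : u ≠ s := fun e => hxy (mul_left_cancel (mul_right_cancel (hg.trans e.symm)))
  have hcomm : u * s = s * u := by
    rw [← hg, hu]
    calc g * y * g⁻¹ * (g * x * g⁻¹) = g * (y * x) * g⁻¹ := by group
      _ = g * (x * y) * g⁻¹ := by rw [hc]
      _ = _ := by group
  obtain ⟨k, hk, e⟩ := ro_K_transitive hS s ⟨hS.le hs, hs1, hs2⟩ u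
    ⟨ro_centralizer hS hs hs1 hcomm, hu1, hu2⟩
  have hk1 : k ≠ 1 := fun e1 => hus (by rw [← e, e1]; group)
  obtain ⟨p, hp, hpd⟩ := Nat.exists_prime_and_dvd
    (show orderOf k ≠ 1 from fun e1 => hk1 (orderOf_eq_one_iff.1 e1))
  refine ⟨k ^ (orderOf k / p), ⟨pow_mem hk.1 _, ?_⟩, ?_⟩
  · rw [← conj_pow, hk.2, inv_pow]
  · rw [orderOf_pow_orderOf_div (orderOf_pos k).ne' hpd]; exact hp

theorem ro_Q_nilpotent : Group.IsNilpotent Q := by
  obtain ⟨x, hx, hxp⟩ := ro_K_prime hS h2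
  have hx1 : x ≠ 1 := fun e => by rw [e, orderOf_one] at hxp; exact Nat.not_prime_one hxp
  have hxa : x ∈ MulAction.stabilizer G a := hx.1.1
  let φ : Q ≃* Q :=
    { toFun := fun q => ⟨x * q * x⁻¹, hS.conj_mem x hxa q q.2⟩
      invFun := fun q => ⟨x⁻¹ * q * x, by
        simpa using hS.conj_mem x⁻¹ (inv_mem hxa) q q.2⟩
      left_inv := fun q => Subtype.ext (by simp only; group)
      right_inv := fun q => Subtype.ext (by simp only; group)
      map_mul' := fun p q => Subtype.ext (by simp only [Subgroup.coe_mul]; group) }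
  have hiter : ∀ (i : ℕ) (q : Q), (((φ : Q → Q)^[i] q : Q) : G) = x ^ i * q * (x ^ i)⁻¹ := by
    intro i
    induction i with
    | zero => intro q; simp
    | succ i ih =>
      intro q
      rw [Function.iterate_succ_apply', show ((φ ((φ : Q → Q)^[i] q) : Q) : G) =
        x * ((φ : Q → Q)^[i] q : Q) * x⁻¹ from rfl, ih, pow_succ']
      group
  refine Core.ThompsonFPF.isNilpotent_of_fpf hxp φ (fun q e => ?_) fun q => ?_
  · have h : x * (q : G) * x⁻¹ = q := congrArg Subtype.val e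
    have hm : (q : G) ∈ Q ⊓ Subgroup.centralizer {x} := Subgroup.mem_inf.2
      ⟨q.2, Subgroup.mem_centralizer_singleton_iff.2 (mul_inv_eq_iff_eq_mul.1 h).symm⟩
    rw [ro_K_fpf hS hx hx1, Subgroup.mem_bot] at hm
    exact Subtype.ext hm
  · exact Subtype.ext (by rw [hiter, pow_orderOf_eq_one]; simp)

theorem ro_inv_central : ∀ s ∈ Cfsg.involutionsIn (MulAction.stabilizer G a : Set G),
    s ∈ Q ∧ ∀ x ∈ Q, s * x = x * s := by
  classical
  haveI := ro_Q_nilpotent hS h2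
  haveI := Fact.mk Nat.prime_two
  obtain ⟨S⟩ : Nonempty (Sylow 2 Q) := inferInstance
  have hSne : (S : Subgroup Q) ≠ ⊥ := S.ne_bot_of_dvd_card (even_iff_two_dvd.1 hS.even_card)
  obtain ⟨z, hzS, hz1, hzc⟩ := OddLocal.exists_ne_one_mem_center_of_normal (S : Subgroup Q) hSne
  obtain ⟨i, hi⟩ := S.2 ⟨z, hzS⟩
  obtain ⟨j, -, hj⟩ := (Nat.dvd_prime_pow Nat.prime_two).1
    (orderOf_dvd_of_pow_eq_one (show z ^ 2 ^ i = 1 from congrArg Subtype.val hi))
  have hj1 : j ≠ 0 := fun e => hz1 (orderOf_eq_one_iff.1 (by rw [hj, e, pow_zero]))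
  set w := z ^ (orderOf z / 2) with hw
  have hdvd : 2 ∣ orderOf z := hj ▸ dvd_pow_self 2 hj1
  have hwo : orderOf w = 2 := orderOf_pow_orderOf_div (orderOf_pos z).ne' hdvd
  have hwc : w ∈ Subgroup.center Q := pow_mem hzc _
  have hw1 : (w : G) ≠ 1 := fun e => by
    rw [show w = 1 from Subtype.ext e, orderOf_one] at hwo; omega
  have hw2 : (w : G) * w = 1 := by
    rw [← pow_two, ← Subgroup.coe_pow, ← hwo, pow_orderOf_eq_one]; rfl
  have hwI : (w : G) ∈ Cfsg.involutionsIn (MulAction.stabilizer G a : Set G) :=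
    ⟨hS.le w.2, hw1, hw2⟩
  intro s hs
  refine ⟨ro_inv_mem hS hs.1 hs.2.2, fun x hx => ?_⟩
  obtain ⟨k, hk, rfl⟩ := ro_K_transitive hS w hwI s hs
  have hm : k * x * k⁻¹ ∈ Q := hS.conj_mem k hk.1.1 x hx
  have e : k * x * k⁻¹ * w = w * (k * x * k⁻¹) :=
    congrArg Subtype.val (Subgroup.mem_center_iff.1 hwc ⟨_, hm⟩)
  calc k⁻¹ * w * k * x = k⁻¹ * (w * (k * x * k⁻¹)) * k := by group
    _ = k⁻¹ * (k * x * k⁻¹ * w) * k := by rw [e]
    _ = _ := by group

theorem ro_inv_closed : ∀ s ∈ Cfsg.involutionsIn (MulAction.stabilizer G a : Set G),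
    ∀ s' ∈ Cfsg.involutionsIn (MulAction.stabilizer G a : Set G),
      s * s' = 1 ∨ s * s' ∈ Cfsg.involutionsIn (MulAction.stabilizer G a : Set G) := by
  intro s hs s' hs'
  refine or_iff_not_imp_left.2 fun hne => ⟨(MulAction.stabilizer G a).mul_mem hs.1 hs'.1, hne, ?_⟩
  have hc := (ro_inv_central hS h2 s hs).2 s' (ro_inv_central hS h2 s' hs').1
  calc s * s' * (s * s') = s * (s' * s) * s' := by group
    _ = s * (s * s') * s' := by rw [hc]
    _ = (s * s) * (s' * s') := by group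
    _ = 1 := by rw [hs.2.2, hs'.2.2, one_mul]

/-- Involutions fixing a point commute with each other. -/
theorem ro_inv_comm {p : Ω} {s s' : G} (hs2 : s * s = 1) (hp : s • p = p) (hs2' : s' * s' = 1)
    (hp' : s' • p = p) : s * s' = s' * s := by
  by_cases hs1 : s = 1
  · rw [hs1, one_mul, mul_one]
  by_cases hs1' : s' = 1
  · rw [hs1', one_mul, mul_one]
  obtain ⟨g, hg⟩ := ro_trans hS p a
  have hga : g⁻¹ • a = p := inv_smul_eq_iff.2 hg.symm
  have key : ∀ r : G, r ≠ 1 → r * r = 1 → r • p = p →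
      g * r * g⁻¹ ∈ Cfsg.involutionsIn (MulAction.stabilizer G a : Set G) := fun r h1 h2' h3 =>
    ⟨show (g * r * g⁻¹) • a = a by rw [mul_smul, mul_smul, hga, h3, hg],
      fun e => h1 (conj_eq_one_iff.1 e),
      by rw [show g * r * g⁻¹ * (g * r * g⁻¹) = g * (r * r) * g⁻¹ by group, h2']; group⟩
  have h := (ro_inv_central hS h2 _ (key s hs1 hs2 hp)).2 _
    (ro_inv_central hS h2 _ (key s' hs1' hs2' hp')).1
  calc s * s' = g⁻¹ * (g * s * g⁻¹ * (g * s' * g⁻¹)) * g := by group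
    _ = g⁻¹ * (g * s' * g⁻¹ * (g * s * g⁻¹)) * g := by rw [h]
    _ = _ := by group

/-- The centraliser of an involution is transitive on the points other than its fixed point. -/
theorem ro_inv_trans {s : G} (hs1 : s ≠ 1) (hs2 : s * s = 1) {c u v : Ω} (hc : s • c = c)
    (hu : u ≠ c) (hv : v ≠ c) : ∃ g : G, g * s = s * g ∧ g • u = v := by
  obtain ⟨h, hh⟩ := ro_trans hS c a
  have hca : h⁻¹ • a = c := inv_smul_eq_iff.2 hh.symm
  have hs' : h * s * h⁻¹ ∈ Cfsg.involutionsIn (MulAction.stabilizer G a : Set G) :=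
    ⟨show (h * s * h⁻¹) • a = a by rw [mul_smul, mul_smul, hca, hc, hh],
      fun e => hs1 (conj_eq_one_iff.1 e),
      by rw [show h * s * h⁻¹ * (h * s * h⁻¹) = h * (s * s) * h⁻¹ by group, hs2]; group⟩
  obtain ⟨⟨q, hq⟩, hqe, -⟩ := ro_regular hS (h • u) (h • v)
    (fun e => hu (MulAction.injective h (e.trans hh.symm)))
    (fun e => hv (MulAction.injective h (e.trans hh.symm)))
  have e := (ro_inv_central hS h2 _ hs').2 q hq
  refine ⟨h⁻¹ * q * h, ?_, ?_⟩
  · calc h⁻¹ * q * h * s = h⁻¹ * (q * (h * s * h⁻¹)) * h := by group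
      _ = h⁻¹ * (h * s * h⁻¹ * q) * h := by rw [e]
      _ = _ := by group
  · rw [mul_smul, mul_smul, show q • h • u = h • v from hqe, inv_smul_smul]

theorem ro_strongly_real {u v : G} (hu1 : u ≠ 1) (hu2 : u * u = 1) (hv1 : v ≠ 1) (hv2 : v * v = 1)
    (hx : (u * v) * (u * v) ≠ 1) :
    (∃ g : G, ∃ u' ∈ Cfsg.involutionsIn (MulAction.stabilizer G a : Set G), g * (u * v) * g⁻¹ = u' * t) ∧
      Odd (Nat.card ↥(Subgroup.centralizer {u * v})) := by
  obtain ⟨p, hp : u • p = p, -⟩ := ro_fixed_point hS hu1 hu2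
  obtain ⟨q, hq : v • q = q, -⟩ := ro_fixed_point hS hv1 hv2
  obtain ⟨c, hc : t • c = c, hcu⟩ := ro_fixed_point hS hS.ne_one hS.mul_self
  obtain ⟨g1, hg1⟩ := ro_conj hS hv1 hv2 hS.ne_one hS.mul_self
  have hg1q : g1 • q = c := hcu _ (show t • g1 • q = g1 • q by
    rw [← hg1, mul_smul, mul_smul, inv_smul_smul, hq])
  have hpc : g1 • p ≠ c := fun e => by
    have hpq : p = q := MulAction.injective g1 (e.trans hg1q.symm)
    have hcom := ro_inv_comm hS h2 hu2 hp hv2 (hpq ▸ hq)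
    exact hx (by
      calc u * v * (u * v) = u * (v * u) * v := by group
        _ = u * (u * v) * v := by rw [hcom]
        _ = (u * u) * (v * v) := by group
        _ = 1 := by rw [hu2, hv2, one_mul])
  have hac : a ≠ c := fun e => ro_ne hS (by rw [e]; exact hc)
  obtain ⟨g2, hg2, hg2p⟩ := ro_inv_trans hS h2 hS.ne_one hS.mul_self hc hpc hac
  set g := g2 * g1 with hg
  set u' := g * u * g⁻¹ with hu'
  have hgp : g⁻¹ • a = p := by rw [inv_smul_eq_iff, hg, mul_smul, hg2p]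
  have hu'1 : u' ≠ 1 := fun e => hu1 (conj_eq_one_iff.1 e)
  have hu'2 : u' * u' = 1 := by
    rw [hu', show g * u * g⁻¹ * (g * u * g⁻¹) = g * (u * u) * g⁻¹ by group, hu2]; group
  have hu'a : u' • a = a := by rw [hu', mul_smul, mul_smul, hgp, hp, hg, mul_smul, hg2p]
  have hgv : g * v * g⁻¹ = t := by
    calc g * v * g⁻¹ = g2 * (g1 * v * g1⁻¹) * g2⁻¹ := by rw [hg]; group
      _ = t * g2 * g2⁻¹ := by rw [hg1, hg2]
      _ = t := mul_inv_cancel_right t g2
  have hxg : g * (u * v) * g⁻¹ = u' * t := by rw [← hgv, hu']; group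
  refine ⟨⟨g, u', ⟨hu'a, hu'1, hu'2⟩, hxg⟩, ?_⟩
  rw [← Nat.not_even_iff_odd, even_iff_two_dvd]
  intro hdvd
  haveI := Fact.mk Nat.prime_two
  obtain ⟨w0, hw0⟩ := exists_prime_orderOf_dvd_card' 2 hdvd
  rw [← Subgroup.orderOf_coe] at hw0
  set x := u' * t with hxdef
  set w := g * (w0 : G) * g⁻¹ with hw
  have hw1 : w ≠ 1 := fun e => by rw [conj_eq_one_iff.1 e, orderOf_one] at hw0; omega
  have hw2 : w * w = 1 := by
    rw [hw, show g * (w0 : G) * g⁻¹ * (g * w0 * g⁻¹) = g * ((w0 : G) * w0) * g⁻¹ by group,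
      ← pow_two (w0 : G), ← hw0, pow_orderOf_eq_one]; group
  have hwx : w * x = x * w := by
    rw [← hxg, hw]
    calc g * (w0 : G) * g⁻¹ * (g * (u * v) * g⁻¹) = g * ((w0 : G) * (u * v)) * g⁻¹ := by group
      _ = g * ((u * v) * w0) * g⁻¹ := by rw [Subgroup.mem_centralizer_singleton_iff.1 w0.2]
      _ = _ := by group
  obtain ⟨r, hr : w • r = r, hru⟩ := ro_fixed_point hS hw1 hw2
  have hxr : x • r = r := hru _ (show w • x • r = x • r by rw [← mul_smul, hwx, mul_smul, hr])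
  have htxt : t * x * t = x⁻¹ := by
    rw [hxdef, mul_inv_rev, ro_tinv hS, inv_eq_of_mul_eq_one_right hu'2, mul_assoc, mul_assoc,
      hS.mul_self, mul_one]
  have hxtr : x • t • r = t • r := by
    have h : (t * x * t) • r = r := by rw [htxt, inv_smul_eq_iff, hxr]
    rw [mul_smul, mul_smul] at h
    exact MulAction.injective t (h.trans ((by rw [← mul_smul, hS.mul_self, one_smul] : t • t • r = r)).symm)
  have hrt : t • r ≠ r := fun e => by
    have hrc : r = c := hcu r e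
    have h : u' • c = c := by
      have := hxr
      rwa [hxdef, mul_smul, e, hrc] at this
    obtain ⟨o, -, ho⟩ := ro_fixed_point hS hu'1 hu'2
    exact hac ((ho a hu'a).trans (ho c h).symm)
  obtain ⟨m, hm1, hm2⟩ := ro_two hS hrt.symm (ro_ne hS).symm
  have hm1' : m⁻¹ • a = r := inv_smul_eq_iff.2 hm1.symm
  have hm2' : m⁻¹ • (t • a) = t • r := inv_smul_eq_iff.2 hm2.symm
  set x' := m * x * m⁻¹ with hx'
  have hx'D : x' ∈ tps G a t :=
    ⟨show x' • a = a by rw [hx', mul_smul, mul_smul, hm1', hxr, hm1],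
      show x' • t • a = t • a by rw [hx', mul_smul, mul_smul, hm2', hxtr, hm2]⟩
  have ht'2 : m * t * m⁻¹ * (m * t * m⁻¹) = 1 := by
    rw [show m * t * m⁻¹ * (m * t * m⁻¹) = m * (t * t) * m⁻¹ by group, hS.mul_self]; group
  have ht'a : (m * t * m⁻¹) • a = t • a := by rw [mul_smul, mul_smul, hm1', hm2]
  obtain ⟨j, hj, hj2⟩ := exists_sqrt_odd hS.odd_card (ro_swap_mem hS ht'2 ht'a).1
  have hk := ro_swap_mem hS ht'2 ht'a
  have hjt : t * j * t = j⁻¹ := by
    refine sq_inj_odd hS.odd_card (ro_tD hS hj) (inv_mem hj) ?_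
    calc t * j * t * (t * j * t) = t * (j * (t * t) * j) * t := by group
      _ = t * (t * (m * t * m⁻¹)) * t⁻¹ := by rw [hS.mul_self, mul_one, hj2, ro_tinv hS]
      _ = (t * (m * t * m⁻¹))⁻¹ := hk.2
      _ = j⁻¹ * j⁻¹ := by rw [← hj2, mul_inv_rev]
  have hjm : j * (m * t * m⁻¹) * j⁻¹ = t := by
    have h1 : m * t * m⁻¹ = t * (j * j) := by rw [hj2, ← mul_assoc, hS.mul_self, one_mul]
    calc j * (m * t * m⁻¹) * j⁻¹ = j * t * j := by rw [h1]; group
      _ = t * ((t * j * t) * j) := by simp [mul_assoc, ← mul_assoc t t, hS.mul_self]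
      _ = t := by rw [hjt, inv_mul_cancel, mul_one]
  set y := j * x' * j⁻¹ with hy
  have hy1 : y ≠ 1 := fun e => hx (by
    have hx1 : u * v = 1 := conj_eq_one_iff.1 (hxg.trans (conj_eq_one_iff.1 (conj_eq_one_iff.1 e)))
    rw [hx1, one_mul])
  have hyK : y ∈ Cfsg.invertedBy (tps G a t) t := by
    refine ⟨mul_mem (mul_mem hj hx'D) (inv_mem hj), ?_⟩
    calc t * y * t⁻¹ = (j * (m * t * m⁻¹) * j⁻¹) * y * (j * (m * t * m⁻¹) * j⁻¹)⁻¹ := by rw [hjm]
      _ = j * (m * (t * x * t⁻¹) * m⁻¹) * j⁻¹ := by rw [hy, hx']; group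
      _ = j * (m * x⁻¹ * m⁻¹) * j⁻¹ := by rw [ro_tinv hS, htxt]
      _ = y⁻¹ := by rw [hy, hx']; group
  set w' := j * (m * w * m⁻¹) * j⁻¹ with hw'
  have hw'Q : w' ∈ Q := by
    refine ro_inv_mem hS ?_ ?_
    · have hja : j⁻¹ • a = a := (tps G a t).inv_mem hj |>.1
      rw [hw', mul_smul, mul_smul, hja, mul_smul, mul_smul, hm1', hr, hm1]
      exact hj.1
    · rw [hw', show j * (m * w * m⁻¹) * j⁻¹ * (j * (m * w * m⁻¹) * j⁻¹) =
        j * (m * (w * w) * m⁻¹) * j⁻¹ by group, hw2]; group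
  have hmem : w' ∈ Q ⊓ Subgroup.centralizer {y} := Subgroup.mem_inf.2
    ⟨hw'Q, Subgroup.mem_centralizer_singleton_iff.2 (by
      calc w' * y = j * (m * (w * x) * m⁻¹) * j⁻¹ := by rw [hw', hy, hx']; group
        _ = j * (m * (x * w) * m⁻¹) * j⁻¹ := by rw [hwx]
        _ = y * w' := by rw [hw', hy, hx']; group)⟩
  rw [ro_K_fpf hS hyK hy1, Subgroup.mem_bot] at hmem
  exact hw1 (conj_eq_one_iff.1 (conj_eq_one_iff.1 hmem))

end Cfsg.Agent.Suzuki
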