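import Cfsg.Agent.Suzuki.FHOps

/-!
The theorem of Feit and Higman for Tits systems of rank two.
-/

set_option autoImplicit false

namespace Cfsg.Agent.Suzuki.FH

open Cfsg.Agent.Suzuki.BN Real

/-- An idempotent real matrix has natural trace. -/
theorem trace_idempotent {X : Type*} [Fintype X] [DecidableEq X] (E : Matrix X X ℝ)
    (hE : E * E = E) : ∃ k : ℕ, E.trace = k := by
  have h : IsIdempotentElem (Matrix.toLin' E) := by
    show Matrix.toLin' E * Matrix.toLin' E = Matrix.toLin' E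
    rw [Module.End.mul_eq_comp, ← Matrix.toLin'_mul, hE]
  obtain hp := LinearMap.IsProj.trace (LinearMap.isProj_range_iff_isIdempotentElem _ |>.2 h)
  rw [Matrix.trace_toLin'_eq] at hp
  exact ⟨_, hp⟩

theorem prod_smul {X : Type*} [Fintype X] [DecidableEq X] (c : Bool → ℝ)
    (M : Bool → Matrix X X ℝ) (L : List Bool) :
    (L.map fun a => c a • M a).prod = (L.map c).prod • (L.map M).prod := by
  induction L with
  | nil => simp
  | cons a L ih =>
    simp only [List.map_cons, List.prod_cons, ih]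
    rw [smul_mul_assoc, mul_smul_comm, smul_smul]

theorem prod_inv_sqrt (c : Bool → ℝ) (hc : ∀ a, 0 ≤ c a) (L : List Bool) :
    (L.map fun a => (√(c a))⁻¹).prod = (√((L.map c).prod))⁻¹ := by
  induction L with
  | nil => simp
  | cons a L ih =>
    simp only [List.map_cons, List.prod_cons, ih, Real.sqrt_mul (hc a), mul_inv]

variable {W : Type*} [Group W] [Fintype W] {σ : Bool → W} {ℓ : W → ℕ}

theorem alt_reduced (h : Sys W σ ℓ) {k : ℕ} (hk : orderOf (rot σ) = 2 * k + 1) (a : Bool) :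
    ℓ ((alt a (2 * k + 1)).map σ).prod = (alt a (2 * k + 1)).length := by
  set w := ((alt a (2 * k + 1)).map σ).prod with hw
  obtain ⟨L, hL, hl⟩ := h.ex w
  have hr : ℓ (L.map σ).prod = L.length := by rw [hL, hl]
  have hle : L.length ≤ 2 * k + 1 := by
    rw [hl]; simpa [alt_length] using h.le (alt a (2 * k + 1))
  rw [alt_length, ← hl]
  obtain ⟨b, hb⟩ := h.eq_alt L hr
  rw [hb, hw] at hL
  by_contra hne
  rcases Nat.even_or_odd' L.length with ⟨l, e | e⟩ <;> rw [e] at hL
  · rw [(h.alt_elem b l).1, (h.alt_elem a k).2] at hL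
    simpa using (h.elemOf_inj hL).1
  · rw [(h.alt_elem b l).2, (h.alt_elem a k).2] at hL
    have := (h.elemOf_inj hL).2
    rw [hk, Int.modEq_iff_dvd] at this
    obtain ⟨z, hz⟩ := this
    have hlk : l < k := by omega
    have hz0 : -1 < z ∧ z < 2 := by
      constructor <;> by_contra hc <;> push Not at hc <;> cases a <;> cases b <;>
        simp at hz <;> nlinarith
    obtain ⟨hz1, hz2⟩ := hz0
    interval_cases z <;> cases a <;> cases b <;> simp at hz <;> omega

/-- The rationality of the Schur elements. -/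
theorem schur_rational (h : Sys W σ ℓ) {X : Type*} [Fintype X] [DecidableEq X] [Nonempty X]
    {α : Bool → ℝ} (x : Bool → Matrix X X ℝ) (hx : Rep σ ℓ α x)
    (htr : ∀ w, w ≠ 1 → (img h x w).trace = 0)
    {μ : ℝ} (hμ : 0 < μ) (hα : α false = μ - μ⁻¹) (heq : Odd (orderOf (rot σ)) → α false = α true)
    {j : ℕ} (h1 : 1 ≤ j) (h2 : 2 * j < orderOf (rot σ)) :
    ∃ r : ℚ, (α false ^ 2 + α true ^ 2 +
        2 * (α false * α true) * cos (2 * π * j / orderOf (rot σ))) /
      sin (2 * π * j / orderOf (rot σ)) ^ 2 = r := by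
  set θ := 2 * π * j / orderOf (rot σ) with hθ
  obtain ⟨ρ, hp⟩ := exists_pair hμ α hα θ
  have hs := sin_ne h1 h2 hθ
  have hρ : Rep σ ℓ α ρ := h.rep_of_braid ρ hp.quad (hp.braid h.two_le hθ hs heq)
  obtain ⟨c, hc, hval⟩ := schur_element h hp h1 h2 hθ hρ
  have hsq := zel_sq h hx hρ hc
  set Z := zel h x ρ 1
  have htrZ : Z.trace = 2 * (Fintype.card X : ℝ) := by
    simp only [Z, zel, Matrix.trace_sum, Matrix.trace_smul, smul_eq_mul, mul_one]
    rw [Finset.sum_eq_single (1 : W) (fun w _ hw => by rw [htr w hw, mul_zero])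
      (fun hn => absurd (Finset.mem_univ _) hn), inv_one, img_one h hρ, img_one h hx,
      Matrix.trace_one, Matrix.trace_one, Fintype.card_fin]
    norm_num
  have hc0 : c ≠ 0 := by
    intro e
    rw [e, zero_smul] at hsq
    have hn : IsNilpotent Z := ⟨2, by rw [pow_two, hsq]⟩
    have := (Matrix.isNilpotent_trace_of_isNilpotent hn).eq_zero
    rw [htrZ] at this
    have : (0 : ℝ) < Fintype.card X := by exact_mod_cast Fintype.card_pos
    linarith
  obtain ⟨k, hk⟩ := trace_idempotent (c⁻¹ • Z) (by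
    rw [smul_mul_assoc, mul_smul_comm, hsq, smul_smul, smul_smul]
    congr 1
    field_simp)
  rw [Matrix.trace_smul, htrZ, smul_eq_mul] at hk
  have hk0 : (k : ℝ) ≠ 0 := by
    rw [← hk]
    have : (0 : ℝ) < Fintype.card X := by exact_mod_cast Fintype.card_pos
    positivity
  have hcval : c = 2 * (Fintype.card X : ℝ) / k := by
    field_simp at hk ⊢; linarith
  have hn : (orderOf (rot σ) : ℝ) ≠ 0 := by exact_mod_cast (show orderOf (rot σ) ≠ 0 by omega)
  refine ⟨2 * (2 * (2 * (Fintype.card X : ℚ) / k) - 2 * (orderOf (rot σ) : ℚ)) /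
    (orderOf (rot σ) : ℚ), ?_⟩
  push_cast
  rw [← hcval, hval]
  field_simp
  ring

/-- The arithmetic: rationality forces small `n`. -/
theorem small_of_rational {n : ℕ} (hn : 2 ≤ n) {α β : ℝ} (hA : ∃ r : ℚ, α ^ 2 = r)
    (hB : ∃ r : ℚ, β ^ 2 = r) (hα : α ≠ 0) (hβ : β ≠ 0) (heq : Odd n → α = β)
    (hrat : ∀ j : ℕ, 1 ≤ j → 2 * j < n → ∃ r : ℚ,
      (α ^ 2 + β ^ 2 + 2 * (α * β) * cos (2 * π * j / n)) / sin (2 * π * j / n) ^ 2 = r) :
    n ∈ ({2, 3, 4, 6, 8} : Set ℕ) := by
  obtain ⟨a, ha⟩ := hA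
  obtain ⟨b, hb⟩ := hB
  simp only [Set.mem_insert_iff, Set.mem_singleton_iff]
  by_cases hn4 : n ≤ 4
  · omega
  have hnR : (n : ℝ) ≠ 0 := by positivity
  have hniven : ∀ m : ℕ, 2 ≤ m → (∃ q : ℚ, cos ((((2 : ℚ) / m : ℚ) : ℝ) * π) = q) →
      m = 2 ∨ m = 3 ∨ m = 4 ∨ m = 6 := by
    intro m hm hq
    have hm' : (2 : ℚ) ≤ m := by exact_mod_cast hm
    have hm0 : (0 : ℚ) < m := by linarith
    have := niven_angle_div_pi_eq hq ⟨by positivity, by rw [div_le_one hm0]; exact hm'⟩
    simp only [Set.mem_insert_iff, Set.mem_singleton_iff] at this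
    rcases this with e | e | e | e | e <;> field_simp at e <;>
      norm_cast at e <;> omega
  rcases Nat.even_or_odd' n with ⟨k, rfl | rfl⟩
  · -- even
    obtain ⟨p, hp⟩ := hrat 1 le_rfl (by omega)
    obtain ⟨p', hp'⟩ := hrat (k - 1) (by omega) (by omega)
    set θ := 2 * π * ((1 : ℕ) : ℝ) / ((2 * k : ℕ) : ℝ) with hθ
    have hk : (k : ℝ) ≠ 0 := by exact_mod_cast (show k ≠ 0 by omega)
    have hθ' : 2 * π * ((k - 1 : ℕ) : ℝ) / ((2 * k : ℕ) : ℝ) = π - θ := by
      rw [hθ, Nat.cast_sub (by omega)]; push_cast; field_simp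
    rw [hθ', cos_pi_sub, sin_pi_sub] at hp'
    have hs : sin θ ≠ 0 := sin_ne (n := 2 * k) (j := 1) le_rfl (by omega) hθ
    rw [div_eq_iff (pow_ne_zero 2 hs), sin_sq] at hp hp'
    -- `u² = 1 - 2A/(p + p')`
    have e1 : 2 * ((a : ℝ) + b) = ((p : ℝ) + p') * (1 - cos θ ^ 2) := by
      rw [← ha, ← hb]; linear_combination hp + hp'
    have e2 : 4 * (α * β) * cos θ = ((p : ℝ) - p') * (1 - cos θ ^ 2) := by
      linear_combination hp - hp'
    have hAB : (0 : ℝ) < (a : ℝ) + b := by rw [← ha, ← hb]; positivity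
    have hpp : ((p : ℝ) + p') ≠ 0 := fun e => by rw [e, zero_mul] at e1; linarith
    have hu2 : ∃ q : ℚ, cos θ ^ 2 = q := ⟨1 - 2 * (a + b) / (p + p'), by
      push_cast; field_simp; linear_combination e1⟩
    have hk' : k = 2 ∨ k = 3 ∨ k = 4 ∨ k = 6 := by
      refine hniven k (by omega) ?_
      obtain ⟨q, hq⟩ := hu2
      refine ⟨2 * q - 1, ?_⟩
      rw [show (((2 : ℚ) / k : ℚ) : ℝ) * π = 2 * θ by rw [hθ]; push_cast; field_simp,
        cos_two_mul, hq]
      push_cast; ring
    rcases hk' with rfl | rfl | rfl | rfl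
    · norm_num
    · norm_num
    · norm_num
    · exfalso
      -- twelve
      obtain ⟨r, hr⟩ := hrat 2 (by norm_num) (by norm_num)
      have hθ2 : 2 * π * ((2 : ℕ) : ℝ) / ((2 * 6 : ℕ) : ℝ) = π / 3 := by push_cast; ring
      have hθ1 : θ = π / 6 := by rw [hθ]; push_cast; ring
      rw [hθ2, cos_pi_div_three, sin_pi_div_three, div_pow, Real.sq_sqrt (by norm_num), ha, hb] at hr
      rw [hθ1, cos_pi_div_six] at e2
      have e3 : α * β = 3 / 4 * r - a - b := by
        field_simp at hr; linarith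
      have e4 : (3 / 4 * r - a - b : ℝ) * (2 * √3) = ((p : ℝ) - p') * (1 / 4) := by
        have h3 : √3 ^ 2 = 3 := Real.sq_sqrt (by norm_num)
        rw [div_pow, h3] at e2
        rw [← e3]; linear_combination e2
      have hne : (3 / 4 * r - a - b : ℚ) ≠ 0 := by
        intro e
        have : ((3 / 4 * r - a - b : ℚ) : ℝ) = 0 := by rw [e]; norm_num
        push_cast at this
        exact mul_ne_zero hα hβ (e3.trans this)
      have hirr := (Nat.prime_three.irrational_sqrt)
      refine hirr ⟨(p - p') * (1 / 4) / (2 * (3 / 4 * r - a - b)), ?_⟩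
      have hneR : (3 / 4 * (r : ℝ) - a - b) ≠ 0 := e3 ▸ mul_ne_zero hα hβ
      push_cast
      rw [div_eq_iff (mul_ne_zero two_ne_zero hneR)]
      linear_combination -e4
  · -- odd
    obtain rfl := heq ⟨k, rfl⟩
    obtain ⟨p, hp⟩ := hrat 1 le_rfl (by omega)
    set θ := 2 * π * ((1 : ℕ) : ℝ) / ((2 * k + 1 : ℕ) : ℝ) with hθ
    have hs : sin θ ≠ 0 := sin_ne (n := 2 * k + 1) (j := 1) le_rfl (by omega) hθ
    rw [div_eq_iff (pow_ne_zero 2 hs), sin_sq] at hp
    have h1 : 1 + cos θ ≠ 0 := fun e => hs (by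
      have h2 := sin_sq θ
      rw [show cos θ = -1 by linarith] at h2
      simpa using h2)
    have e1 : 2 * (a : ℝ) = (p : ℝ) * (1 - cos θ) := by
      apply mul_right_cancel₀ h1
      rw [← ha]; linear_combination hp
    have hp0 : (p : ℝ) ≠ 0 := fun e => by
      rw [e, zero_mul, ← ha] at e1
      exact hα (pow_eq_zero_iff (two_ne_zero) |>.1 (by linarith))
    have := hniven (2 * k + 1) (by omega) ⟨1 - 2 * a / p, by
      rw [show (((2 : ℚ) / (2 * k + 1 : ℕ) : ℚ) : ℝ) * π = θ by rw [hθ]; push_cast; ring]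
      push_cast; field_simp; linear_combination e1⟩
    omega

section Main

variable {G : Type*} [Group G] [Finite G] (P : Cfsg.BNPair G)

open Classical in
theorem feit_higman (h2 : P.rank = 2) :
    ((P.B ⊓ P.N).subgroupOf P.N).index ∈ ({4, 6, 8, 12, 16} : Set ℕ) := by
  have hnorm : ((P.B ⊓ P.N).subgroupOf P.N).Normal := ⟨fun x hx g => by
    rw [Subgroup.mem_subgroupOf] at hx ⊢
    exact Subgroup.mem_inf.2 ⟨P.conj_mem g.1 g.2 x.1 hx, (g * x * g⁻¹).2⟩⟩
  let W := P.N ⧸ (P.B ⊓ P.N).subgroupOf P.N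
  let := Fintype.ofFinite W
  let := Fintype.ofFinite (G ⧸ P.B)
  obtain ⟨⟨s, hsS⟩, ⟨t, htS⟩, hne, huniv⟩ := Nat.card_eq_two_iff.1 h2
  let sg : Bool → G := fun a => if a then t else s
  have hsg : ∀ a, sg a ∈ P.S := fun a => by cases a <;> simp [sg, hsS, htS]
  have hsurj : ∀ x ∈ P.S, ∃ a, sg a = x := fun x hx => by
    have : (⟨x, hx⟩ : P.S) ∈ ({⟨s, hsS⟩, ⟨t, htS⟩} : Set P.S) := huniv ▸ Set.mem_univ _
    simp only [Set.mem_insert_iff, Set.mem_singleton_iff, Subtype.mk.injEq] at this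
    rcases this with e | e
    · exact ⟨false, e.symm⟩
    · exact ⟨true, e.symm⟩
  let σ : Bool → W := fun a => QuotientGroup.mk (⟨sg a, P.subset (hsg a)⟩ : P.N)
  let ℓ : W → ℕ := fun w => len P (w.out : P.N).1
  have hsim : ∀ u v : P.N, (QuotientGroup.mk u : W) = QuotientGroup.mk v ↔ Sim P u.1 v.1 := by
    intro u v
    rw [QuotientGroup.eq, Subgroup.mem_subgroupOf, Subgroup.mem_inf]
    exact ⟨fun hh => hh.1, fun hh => ⟨hh, (u⁻¹ * v).2⟩⟩
  have hmemN : ∀ L : List Bool, (L.map sg).prod ∈ P.N := fun L => prod_mem (by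
    intro x hx; obtain ⟨b, -, rfl⟩ := List.mem_map.1 hx; exact hsg b)
  have hword : ∀ L : List Bool,
      (L.map σ).prod = QuotientGroup.mk (⟨(L.map sg).prod, hmemN L⟩ : P.N) := by
    intro L
    induction L with
    | nil => rfl
    | cons a L ih => simp only [List.map_cons, List.prod_cons, ih]; rfl
  have hmk : ∀ u : P.N, ℓ (QuotientGroup.mk u) = len P u.1 := fun u =>
    len_congr ((hsim _ u).1 (QuotientGroup.out_eq' _))
  have hℓw : ∀ L : List Bool, ℓ (L.map σ).prod = len P (L.map sg).prod := fun L => by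
    rw [hword, hmk]
  have hS : Sys W σ ℓ := by
    refine ⟨fun a => ?_, fun a e => ?_, fun e => ?_, fun L => ?_, fun w => ?_, fun a w => ?_⟩
    · show QuotientGroup.mk (_ * _ : P.N) = QuotientGroup.mk 1
      exact (hsim _ _).2 (ss_sim (hsg a))
    · exact s_not_mem (hsg a) (sim_one.1 ((hsim _ 1).1 e).symm)
    · exact hne (Subtype.ext (P.inj s hsS t htS ((hsim _ _).1 e)))
    · rw [hℓw]
      simpa using len_prod_le (P := P) (L := L.map sg) (by
        intro x hx; obtain ⟨b, -, rfl⟩ := List.mem_map.1 hx; exact hsg b)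
    · obtain ⟨M, hM, hl, hsm⟩ := exists_reduced (w.out : P.N).2
      have hex : ∀ M : List G, (∀ x ∈ M, x ∈ P.S) → ∃ L : List Bool, L.map sg = M := by
        intro M
        induction M with
        | nil => exact fun _ => ⟨[], rfl⟩
        | cons x M ih =>
          intro hM
          rw [List.forall_mem_cons] at hM
          obtain ⟨a, rfl⟩ := hsurj x hM.1
          obtain ⟨L, rfl⟩ := ih hM.2
          exact ⟨a :: L, rfl⟩
      obtain ⟨L, rfl⟩ := hex M hM
      refine ⟨L, ?_, by simpa using hl⟩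
      rw [hword, ← QuotientGroup.out_eq' w]
      exact (hsim _ _).2 hsm
    · induction w using QuotientGroup.induction_on with | _ u => ?_
      show ℓ (QuotientGroup.mk (_ * u : P.N)) ≠ _
      rw [hmk, hmk]
      exact len_mul_ne (hsg a) u.2
  -- the operators
  let q : Bool → ℝ := fun a => val' P (sg a)
  have hq2 : ∀ a, (2 : ℝ) ≤ q a := fun a => by
    simp only [q]; exact_mod_cast two_le_val (hsg a)
  let α : Bool → ℝ := fun a => √(q a) - (√(q a))⁻¹
  let x : Bool → Matrix (G ⧸ P.B) (G ⧸ P.B) ℝ := fun a => (√(q a))⁻¹ • op P (sg a)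
  have hsq : ∀ a, 0 < √(q a) := fun a => Real.sqrt_pos.2 (by linarith [hq2 a])
  have hqs : ∀ a, √(q a) * √(q a) = q a := fun a => Real.mul_self_sqrt (by linarith [hq2 a])
  have hprod : ∀ L : List Bool, ℓ (L.map σ).prod = L.length →
      (L.map x).prod = (√(val' P (L.map sg).prod : ℝ))⁻¹ • op P (L.map sg).prod := by
    intro L hL
    rw [hℓw] at hL
    rw [prod_smul (fun a => (√(q a))⁻¹) (fun a => op P (sg a)),
      prod_inv_sqrt q (fun a => by linarith [hq2 a]), op_prod sg hsg L hL]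
    congr 3
    exact val'_prod sg hsg L hL
  have hvcongr : ∀ {m m' : G}, Sim P m m' → val' P m = val' P m' := fun {m m'} hh => by
    simp only [val']
    refine congrArg Finset.card (Finset.filter_congr fun y _ => ?_)
    rw [Rel, Rel, hh.dc_eq]
  have hx : Rep σ ℓ α x := by
    refine ⟨fun a => ?_, fun L L' hL hL' e => ?_⟩
    · simp only [x, smul_mul_assoc, mul_smul_comm, op_sq (hsg a), smul_smul, smul_add]
      congr 1
      · congr 1
        simp only [α]
        have := hsq a
        field_simp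
        linear_combination -(hqs a)
      · convert one_smul ℝ (1 : Matrix (G ⧸ P.B) (G ⧸ P.B) ℝ) using 2
        have := hsq a
        field_simp
        linear_combination -(hqs a)
    · rw [hword, hword] at e
      have hh := (hsim _ _).1 e
      rw [hprod L hL, hprod L' hL', hvcongr hh, op_congr hh]
  have htr : ∀ w, w ≠ 1 → (img hS x w).trace = 0 := by
    intro w hw
    obtain ⟨e1, e2⟩ := red_spec hS w
    rw [img, hprod _ (by rw [e1, e2]), Matrix.trace_smul, op_trace, smul_zero]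
    intro hB
    refine hw ?_
    rw [← e1, hword]
    exact (hsim _ 1).2 (sim_one.2 hB).symm
  set n := orderOf (rot σ) with hn
  have heq : Odd n → α false = α true := by
    rintro ⟨k, hk⟩
    have h0 := alt_reduced hS hk false
    have h1 := alt_reduced hS hk true
    rw [hℓw] at h0 h1
    have e0 := val'_prod sg hsg _ h0
    have e1 := val'_prod sg hsg _ h1
    have hh : Sim P ((alt false (2 * k + 1)).map sg).prod ((alt true (2 * k + 1)).map sg).prod := by
      refine (hsim ⟨_, hmemN (alt false (2 * k + 1))⟩ ⟨_, hmemN (alt true (2 * k + 1))⟩).1 ?_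
      rw [← hword, ← hword, (hS.alt_elem false k).2, (hS.alt_elem true k).2]
      simp only [elemOf, if_true, Bool.false_eq_true, if_false]
      congr 1
      refine zpow_eq_zpow_iff_modEq.2 (Int.modEq_iff_dvd.2 ⟨-1, ?_⟩)
      rw [← hn, hk]; push_cast; ring
    rw [hvcongr hh, ← e1, alt_odd_prod (fun a => (val' P (sg a) : ℝ)),
      alt_odd_prod (fun a => (val' P (sg a) : ℝ))] at e0
    simp only [Bool.not_false, Bool.not_true] at e0
    rw [mul_comm (val' P (sg true) : ℝ) (val' P (sg false))] at e0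
    have hne0 : ((val' P (sg false) : ℝ) * val' P (sg true)) ^ k ≠ 0 := by
      have h3 := hq2 false
      have h4 := hq2 true
      simp only [q] at h3 h4
      positivity
    have := mul_left_cancel₀ hne0 e0
    simp only [α, q, this]
  have hα0 : ∀ a, α a ≠ 0 := fun a e => by
    simp only [α, sub_eq_zero] at e
    have := hsq a
    have h3 : q a = 1 := by
      rw [← hqs a]; nth_rw 2 [e]; field_simp
    linarith [hq2 a]
  have hαsq : ∀ a, ∃ r : ℚ, α a ^ 2 = r := fun a =>
    ⟨((val' P (sg a) : ℚ) - 1) ^ 2 / val' P (sg a), by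
      push_cast
      simp only [α]
      have := hsq a
      have hqa : (val' P (sg a) : ℝ) ≠ 0 := by exact_mod_cast (val'_pos (P := P) (sg a)).ne'
      field_simp
      linear_combination ((q a) * (√(q a) * √(q a) + q a - 2) - (q a - 1) ^ 2) * hqs a⟩
  have hnon : Nonempty (G ⧸ P.B) := ⟨QuotientGroup.mk 1⟩
  have := small_of_rational hS.two_le (hαsq false) (hαsq true) (hα0 false) (hα0 true) heq
    (fun j h1 h2' => schur_rational hS x hx htr (hsq false) rfl heq h1 h2')
  have hcard : ((P.B ⊓ P.N).subgroupOf P.N).index = 2 * n := hS.card_eq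
  simp only [Set.mem_insert_iff, Set.mem_singleton_iff] at this ⊢
  rw [← hn] at this
  omega

end Main

end Cfsg.Agent.Suzuki.FH
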