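import Cfsg.Agent.Suzuki.PNormalTwo

/-!
`p`-groups with point stabilisers of constant order on a module of coprime characteristic.
-/

set_option autoImplicit false

namespace Cfsg.Agent.Suzuki

open MulAction

variable {P E : Type*} [Group P] [Finite P] [AddCommGroup E] [Finite E] [DistribMulAction P E]
  [FaithfulSMul P E] {p q : ℕ} [hp : Fact p.Prime]

/-- The sum over the powers of an element. -/
def powSum (p : ℕ) (b : P) (u : E) : E := ∑ i ∈ Finset.range p, b ^ i • u

omit [Finite P] [Finite E] [FaithfulSMul P E] in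
theorem smul_powSum {b : P} (hb : b ^ p = 1) (u : E) : b • powSum p b u = powSum p b u := by
  rw [powSum, Finset.smul_sum]
  have h := Finset.sum_range_succ' (fun i => b ^ i • u) p
  rw [Finset.sum_range_succ, hb, pow_zero] at h
  simp only [smul_smul, ← pow_succ']
  exact add_right_cancel h.symm

omit [Finite P] [Finite E] [FaithfulSMul P E] in
theorem powSum_of_fixed {b : P} {u : E} (h : b • u = u) : powSum p b u = p • u := by
  have hi : ∀ i : ℕ, b ^ i • u = u := by
    intro i
    induction i with
    | zero => rw [pow_zero, one_smul]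
    | succ i ih => rw [pow_succ, mul_smul, h, ih]
  rw [powSum, Finset.sum_congr rfl fun i _ => hi i, Finset.sum_const, Finset.card_range]

omit [Finite P] [Finite E] [FaithfulSMul P E] in
theorem powSum_comm {b g : P} (h : g * b = b * g) (u : E) : g • powSum p b u = powSum p b (g • u) := by
  rw [powSum, powSum, Finset.smul_sum]
  refine Finset.sum_congr rfl fun i _ => ?_
  rw [smul_smul, smul_smul, ((show Commute g b from h).pow_right i).eq]

omit [Finite P] [Finite E] [FaithfulSMul P E] in
theorem powSum_add {b : P} (u v : E) : powSum p b (u + v) = powSum p b u + powSum p b v := by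
  simp only [powSum, smul_add, Finset.sum_add_distrib]

theorem const_stab_cyclic (hp2 : p ≠ 2) (hP : IsPGroup p P) (hq : q.Prime) (hE : ∀ e : E, q • e = 0)
    (hconst : ∀ a b : E, a ≠ 0 → b ≠ 0 → Nat.card (stabilizer P a) = Nat.card (stabilizer P b)) :
    IsCyclic P ∧ ∀ g : P, g ≠ 1 → ∀ a : E, g • a = a → a = 0 := by
  classical
  by_cases hfix : ∀ g : P, ∀ a : E, g • a = a
  · have h1 : ∀ g : P, g = 1 := fun g => eq_of_smul_eq_smul (α := E) fun a => by rw [hfix g a, one_smul]
    haveI : Subsingleton P := ⟨fun g h => by rw [h1 g, h1 h]⟩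
    exact ⟨isCyclic_of_subsingleton, fun g hg => absurd (h1 g) hg⟩
  push Not at hfix
  obtain ⟨g0, e0, hge0⟩ := hfix
  have he0 : e0 ≠ 0 := fun e => hge0 (by rw [e, smul_zero])
  -- `q ≠ p`
  have hqp : q ≠ p := by
    rintro rfl
    have hdvd : q ∣ Nat.card E := by
      have h : addOrderOf e0 = q := addOrderOf_eq_prime (hE e0) he0
      exact h ▸ addOrderOf_dvd_natCard e0
    obtain ⟨b, hb, hb0⟩ := hP.exists_fixed_point_of_prime_dvd_card_of_fixed_point E hdvd
      (a := (0 : E)) (fun g => smul_zero g)
    have h := hconst e0 b he0 (Ne.symm hb0)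
    have htop : stabilizer P b = ⊤ := eq_top_iff.2 fun g _ => hb g
    rw [htop, Subgroup.card_top] at h
    have hg : g0 ∈ stabilizer P e0 := (Subgroup.eq_top_of_card_eq _ h) ▸ Subgroup.mem_top g0
    exact hge0 hg
  have hpinj : ∀ u v : E, p • u = p • v → u = v := by
    intro u v h
    rw [← sub_eq_zero, ← smul_sub] at h
    have h1 : addOrderOf (u - v) ∣ p := addOrderOf_dvd_of_nsmul_eq_zero h
    have h2 : addOrderOf (u - v) ∣ q := addOrderOf_dvd_of_nsmul_eq_zero (hE _)
    have := Nat.dvd_gcd h1 h2
    rw [(Nat.coprime_primes hp.out hq).2 (Ne.symm hqp), Nat.dvd_one,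
      AddMonoid.addOrderOf_eq_one_iff, sub_eq_zero] at this
    exact this
  -- two vectors with stabiliser of the sum inside both
  have hsame : ∀ v w : E, v ≠ 0 → w ≠ 0 →
      (∀ g : P, g • (v + w) = v + w → g • v = v ∧ g • w = w) → v + w ≠ 0 →
      stabilizer P v = stabilizer P w := by
    intro v w hv hw h hvw
    have h1 : stabilizer P (v + w) = stabilizer P v :=
      Subgroup.eq_of_le_of_card_ge (fun g hg => (h g hg).1) (hconst v _ hv hvw).le
    have h2 : stabilizer P (v + w) = stabilizer P w :=
      Subgroup.eq_of_le_of_card_ge (fun g hg => (h g hg).2) (hconst w _ hw hvw).le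
    exact h1.symm.trans h2
  -- central elements of order `p` have no fixed vector
  have hcen : ∀ z : P, z ∈ Subgroup.center P → z ^ p = 1 → z ≠ 1 → ∀ v : E, z • v = v → v = 0 := by
    intro z hz hzp hz1 v hv
    by_contra hv0
    have hzc : ∀ g, g * z = z * g := Subgroup.mem_center_iff.1 hz
    have key : ∀ v w : E, v ≠ 0 → z • v = v → w ≠ 0 → powSum p z w = 0 →
        stabilizer P v = stabilizer P w := by
      intro v w hv hzv hw hTw
      have hT : powSum p z (v + w) = p • v := by rw [powSum_add, powSum_of_fixed hzv, hTw, add_zero]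
      refine hsame v w hv hw (fun g hg => ?_) (fun e => hv (hpinj v 0 ?_))
      · have h1 : g • v = v := hpinj _ _ (by
          rw [← smul_comm g p v, ← hT, powSum_comm (hzc g), hg])
        refine ⟨h1, ?_⟩
        rw [smul_add, h1] at hg
        exact add_left_cancel hg
      · rw [← hT, e, smul_zero]
        simp [powSum]
    obtain ⟨w, hw⟩ : ∃ w : E, z • w ≠ w := by
      by_contra! hno
      exact hz1 (eq_of_smul_eq_smul (α := E) fun a => by rw [hno a, one_smul])
    set w0 := z • w - w with hw0
    have hw0' : w0 ≠ 0 := fun e => hw (sub_eq_zero.1 e)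
    have hTw0 : powSum p z w0 = 0 := by
      rw [hw0, sub_eq_add_neg, powSum_add, ← powSum_comm rfl, smul_powSum hzp]
      simp [powSum, smul_neg, Finset.sum_neg_distrib]
    refine hz1 (eq_of_smul_eq_smul (α := E) fun u => ?_)
    rw [one_smul]
    -- z fixes every vector
    have hker : ∀ k : E, powSum p z k = 0 → z • k = k := by
      intro k hk
      by_cases hk0 : k = 0
      · rw [hk0, smul_zero]
      · have : z ∈ stabilizer P k := key v k hv0 hv hk0 hk ▸ (hv : z ∈ stabilizer P v)
        exact this
    have hu : powSum p z (p • u - powSum p z u) = 0 := by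
      rw [sub_eq_add_neg, powSum_add]
      have h1 : powSum p z (p • u) = p • powSum p z u := by
        simp only [powSum, Finset.smul_sum, smul_comm p]
      have h2 : powSum p z (-powSum p z u) = -(p • powSum p z u) := by
        rw [← powSum_of_fixed (smul_powSum hzp u)]
        simp [powSum, smul_neg, Finset.sum_neg_distrib]
      rw [h1, h2, add_neg_cancel]
    have h3 := hker _ hu
    rw [smul_sub, smul_powSum hzp, smul_comm z p u, sub_left_inj] at h3
    exact hpinj _ _ h3
  -- cyclicity
  have hcyc : IsCyclic P := by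
    by_contra hnc
    haveI : Nontrivial P := ⟨⟨g0, 1, fun e => hge0 (by rw [e, one_smul])⟩⟩
    haveI := hP.center_nontrivial
    obtain ⟨z1, hz1⟩ := exists_prime_orderOf_dvd_card' (G := Subgroup.center P) p (by
      obtain ⟨k, hk⟩ := IsPGroup.iff_card.mp (hP.to_subgroup (Subgroup.center P))
      rw [hk]; refine dvd_pow_self p ?_
      rintro rfl
      exact Finite.one_lt_card.ne' (by rw [hk, pow_zero]))
    set z : P := z1.1 with hzdef
    have hzo : orderOf z = p := by rw [hzdef, Subgroup.orderOf_coe, hz1]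
    have hz : z ∈ Subgroup.center P := z1.2
    have hzc : ∀ g, g * z = z * g := Subgroup.mem_center_iff.1 hz
    obtain ⟨y, hyz, hyp, hyc⟩ := exists_second_central hp2 hP hnc hz hzo
    have hzy : Commute z y := (hzc y).symm
    let zk : ZMod p → P := fun k => z ^ k.val
    have hzp1 : z ^ p = 1 := hzo ▸ pow_orderOf_eq_one z
    have hzm : ∀ n : ℕ, z ^ (n % p) = z ^ n := fun n => hzo ▸ pow_mod_orderOf z n
    have zk_add : ∀ a b, zk (a + b) = zk a * zk b := fun a b => by
      simp only [zk, ← pow_add, ZMod.val_add]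
      rw [hzm]
    have zk_cast : ∀ i : ℕ, z ^ i = zk (i : ZMod p) := fun i => by
      simp only [zk, ZMod.val_natCast]; rw [hzm]
    have zk_comm : ∀ a g, g * zk a = zk a * g := fun a g =>
      ((show Commute g z from hzc g).pow_right _).eq
    have zk_ne : ∀ a, a ≠ 0 → zk a ≠ 1 := fun a ha e => ha (by
      have h := Nat.le_of_dvd (Nat.pos_of_ne_zero (fun h0 => ha ((ZMod.val_eq_zero a).1 h0)))
        (hzo ▸ orderOf_dvd_of_pow_eq_one e)
      have := ZMod.val_lt a
      omega)
    have zk_p : ∀ a, zk a ^ p = 1 := fun a => by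
      simp only [zk, ← pow_mul]; rw [mul_comm, pow_mul, hzp1, one_pow]
    let b : ZMod p → P := fun k => zk k * y
    have hbp : ∀ k, b k ^ p = 1 := fun k => by
      rw [(show Commute (zk k) y from (zk_comm k y).symm).mul_pow, zk_p, hyp, one_mul]
    have hbb : ∀ k l, b k * b l = b l * b k := fun k l => by
      simp only [b]
      calc zk k * y * (zk l * y) = zk k * (y * zk l) * y := by group
        _ = zk l * (zk k * y) * y := by rw [zk_comm l y, ← mul_assoc, zk_comm l (zk k)]; group
        _ = zk l * (y * zk k) * y := by rw [zk_comm k y]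
        _ = _ := by group
    have hb1 : ∀ k, b k ≠ 1 := fun k e => hyz (by
      rw [eq_inv_of_mul_eq_one_right e]
      exact inv_mem (pow_mem (Subgroup.mem_zpowers z) _))
    -- two lines have no common fixed vector
    have hdisj : ∀ k l, k ≠ l → ∀ v : E, b k • v = v → b l • v = v → v = 0 := by
      intro k l hkl v hk hl
      refine hcen (zk (k - l)) (pow_mem hz _) (zk_p _) (zk_ne _ (sub_ne_zero.2 hkl)) v ?_
      have e : zk (k - l) * b l = b k := by simp only [b, ← mul_assoc, ← zk_add, sub_add_cancel]
      conv_lhs => rw [← hl, ← mul_smul, e, hk]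
    have hkill : ∀ k l, k ≠ l → ∀ v : E, b l • v = v → powSum p (b k) v = 0 := fun k l hkl v hl =>
      hdisj k l hkl _ (smul_powSum (hbp k) v) (by rw [powSum_comm (hbb l k), hl])
    -- decomposition
    have hdec : ∀ u : E, ∑ k : ZMod p, powSum p (b k) u = p • u := by
      intro u
      simp only [powSum]
      rw [Finset.sum_comm, Finset.sum_eq_single 0]
      · simp
      · intro i hi hi0
        have e : ∀ k : ZMod p, b k ^ i • u = y ^ i • zk (i * k) • u := fun k => by
          rw [smul_smul, (show Commute (zk k) y from (zk_comm k y).symm).mul_pow]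
          congr 1
          have h1 : zk k ^ i = zk (i * k) := by
            simp only [zk, ← pow_mul]
            rw [mul_comm k.val i, zk_cast, Nat.cast_mul, ZMod.natCast_zmod_val]
          rw [h1, zk_comm]
        rw [Finset.sum_congr rfl fun k _ => e k, ← Finset.smul_sum]
        have hi' : (i : ZMod p) ≠ 0 := fun h => hi0 (Nat.eq_zero_of_dvd_of_lt
          ((ZMod.natCast_eq_zero_iff i p).1 h) (Finset.mem_range.1 hi))
        suffices h0 : z • (∑ k : ZMod p, zk (i * k) • u) = ∑ k : ZMod p, zk (i * k) • u by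
          rw [hcen z hz hzp1 (fun e => by rw [e, orderOf_one] at hzo; exact hp.out.ne_one hzo.symm) _ h0,
            smul_zero]
        rw [Finset.smul_sum]
        refine Fintype.sum_equiv (Equiv.addRight (i : ZMod p)⁻¹) _ _ fun k => ?_
        rw [Equiv.coe_addRight, mul_add, mul_inv_cancel₀ hi', add_comm, zk_add, smul_smul]
        congr 2
        rw [show zk 1 = z by simp only [zk, ZMod.val_one, pow_one]]
      · intro h; exact absurd (Finset.mem_range.2 hp.out.pos) h
    -- `y` is not central
    have hperm : ∀ g : P, ∃ j : ZMod p, ∀ k, g * b k * g⁻¹ = b (k + j) := fun g => by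
      obtain ⟨i, hi⟩ := Subgroup.mem_zpowers_iff.1 (hyc g)
      obtain ⟨i', hi'⟩ : ∃ i' : ℕ, z ^ i' = z ^ i :=
        (mem_powers_iff_mem_zpowers).2 ⟨i, rfl⟩
      refine ⟨(i' : ZMod p), fun k => ?_⟩
      simp only [b, zk_add, ← zk_cast, hi', hi]
      rw [← mul_assoc g, zk_comm k g]
      group
    obtain ⟨g1, j1, hj1, hg1⟩ : ∃ (g : P) (j : ZMod p), j ≠ 0 ∧ ∀ k, g * b k * g⁻¹ = b (k + j) := by
      by_contra! hno
      have hbc : ∀ k, b k ∈ Subgroup.center P := fun k => Subgroup.mem_center_iff.2 fun g => by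
        obtain ⟨j, hj⟩ := hperm g
        obtain rfl : j = 0 := by
          by_contra hj0
          obtain ⟨k', hk'⟩ := hno g j hj0
          exact hk' (hj k')
        have := hj k
        rwa [add_zero, mul_inv_eq_iff_eq_mul] at this
      refine he0 (hpinj e0 0 ?_)
      rw [← hdec, smul_zero]
      exact Finset.sum_eq_zero fun k _ => hcen _ (hbc k) (hbp k) (hb1 k) _ (smul_powSum (hbp k) e0)
    have hV : ∀ l, ∃ v : E, v ≠ 0 ∧ b l • v = v := by
      obtain ⟨k, hk⟩ : ∃ k, powSum p (b k) e0 ≠ 0 := by
        by_contra! hno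
        exact he0 (hpinj e0 0 (by rw [← hdec, smul_zero]; exact Finset.sum_eq_zero fun k _ => hno k))
      have hn : ∀ n : ℕ, g1 ^ n * b k * (g1 ^ n)⁻¹ = b (k + n * j1) := by
        intro n
        induction n with
        | zero => simp
        | succ n ih =>
          calc g1 ^ (n + 1) * b k * (g1 ^ (n + 1))⁻¹ = g1 * (g1 ^ n * b k * (g1 ^ n)⁻¹) * g1⁻¹ := by
                rw [pow_succ']; group
            _ = b (k + n * j1 + j1) := by rw [ih, hg1]
            _ = _ := by congr 1; push_cast; ring
      intro l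
      obtain ⟨n, hn'⟩ : ∃ n : ℕ, k + (n : ZMod p) * j1 = l :=
        ⟨((l - k) * j1⁻¹).val, by rw [ZMod.natCast_zmod_val, mul_assoc, inv_mul_cancel₀ hj1]; ring⟩
      refine ⟨g1 ^ n • powSum p (b k) e0, (smul_ne_zero_iff_ne _).2 hk, ?_⟩
      rw [← hn', ← hn n, mul_smul, mul_smul, inv_smul_smul, smul_powSum (hbp k)]
    have hpair : ∀ k l, k ≠ l → ∀ v w : E, v ≠ 0 → w ≠ 0 → b k • v = v → b l • w = w →
        stabilizer P v = stabilizer P w := by
      intro k l hkl v w hv hw hbv hbw
      refine hsame v w hv hw (fun g hg => ?_) (fun e => hv ?_)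
      · obtain ⟨j, hj⟩ := hperm g
        have hgv : ∀ m (x : E), b m • x = x → b (m + j) • g • x = g • x := fun m x hx => by
          rw [← hj m, mul_smul, mul_smul, inv_smul_smul, hx]
        rw [smul_add] at hg
        have hk := congrArg (powSum p (b k)) hg
        have hl := congrArg (powSum p (b l)) hg
        rw [powSum_add, powSum_add, powSum_of_fixed hbv, hkill k l hkl w hbw, add_zero] at hk
        rw [powSum_add, powSum_add, powSum_of_fixed hbw, hkill l k hkl.symm v hbv, zero_add] at hl
        by_cases hj0 : j = 0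
        · subst hj0
          have h1 := hgv k v hbv
          have h2 := hgv l w hbw
          rw [add_zero] at h1 h2
          rw [powSum_of_fixed h1, hkill k l hkl _ h2, add_zero] at hk
          rw [powSum_of_fixed h2, hkill l k hkl.symm _ h1, zero_add] at hl
          exact ⟨hpinj _ _ hk, hpinj _ _ hl⟩
        exfalso
        rw [hkill k (k + j) (fun e => hj0 (left_eq_add.1 e)) _ (hgv k v hbv), zero_add] at hk
        rw [hkill l (l + j) (fun e => hj0 (left_eq_add.1 e)) _ (hgv l w hbw), add_zero] at hl
        by_cases e1 : k = l + j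
        · by_cases e2 : l = k + j
          · have h2 : ((2 : ℕ) : ZMod p) * j = 0 := by rw [e2] at e1; push_cast; linear_combination -e1
            rcases mul_eq_zero.1 h2 with h | h
            · rw [ZMod.natCast_eq_zero_iff] at h
              exact hp2 ((Nat.prime_dvd_prime_iff_eq hp.out Nat.prime_two).1 h)
            · exact hj0 h
          · rw [hkill l (k + j) e2 _ (hgv k v hbv)] at hl
            exact hw (hpinj w 0 (by rw [smul_zero]; exact hl.symm))
        · rw [hkill k (l + j) e1 _ (hgv l w hbw)] at hk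
          exact hv (hpinj v 0 (by rw [smul_zero]; exact hk.symm))
      · refine hdisj k l hkl v hbv ?_
        rw [eq_neg_of_add_eq_zero_left e, smul_neg, hbw]
    obtain ⟨v0, hv0, hbv0⟩ := hV 0
    obtain ⟨v1, hv1, hbv1⟩ := hV 1
    have h01 : (0 : ZMod p) ≠ 1 := zero_ne_one
    refine hb1 0 (eq_of_smul_eq_smul (α := E) fun u => ?_)
    rw [one_smul]
    apply hpinj
    rw [← smul_comm (b 0) p u, ← hdec u, Finset.smul_sum]
    refine Finset.sum_congr rfl fun k _ => ?_
    set w := powSum p (b k) u with hwdef
    by_cases hw0 : w = 0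
    · rw [hw0, smul_zero]
    by_cases hk : k = 0
    · subst hk; exact smul_powSum (hbp 0) u
    have h := hpair 0 k (Ne.symm hk) v0 w hv0 hw0 hbv0 (smul_powSum (hbp k) u)
    exact (h ▸ (hbv0 : b 0 ∈ stabilizer P v0) : b 0 ∈ stabilizer P w)
  refine ⟨hcyc, fun g hg a ha => ?_⟩
  obtain ⟨k, hk⟩ := IsPGroup.iff_orderOf.mp hP g
  obtain ⟨l, rfl⟩ : ∃ l, k = l + 1 := Nat.exists_eq_succ_of_ne_zero fun e =>
    hg (orderOf_eq_one_iff.1 (by rw [hk, e, pow_zero]))
  haveI := hcyc
  refine hcen (g ^ p ^ l) (Subgroup.mem_center_iff.2 fun x => ?_) ?_ ?_ a ?_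
  · letI := IsCyclic.commGroup (α := P)
    exact mul_comm x _
  · rw [← pow_mul, ← pow_succ, ← hk, pow_orderOf_eq_one]
  · exact pow_ne_one_of_lt_orderOf (pow_ne_zero _ hp.out.ne_zero)
      (by rw [hk]; exact Nat.pow_lt_pow_succ hp.out.one_lt)
  · exact (stabilizer P a).pow_mem ha _

end Cfsg.Agent.Suzuki
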