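import Cfsg.Agent.FGS2.SchurTransfer
import Cfsg.Agent.Linear.SylowSL2

/-!
The Schur multiplier of `SL_2(q)` is trivial for `q ≠ 4, 9`.
-/

set_option autoImplicit false

namespace Cfsg.Agent.Suzuki

open scoped commutatorElement

section Weight

variable {F : Type*} [Field F] [Finite F] {M : Type*} [AddCommGroup M]

/-- A biadditive map on a finite field, invariant under squares, vanishes for `q ∉ {prime, 4, 9}`. -/
theorem square_invariant_eq_zero (p : ℕ) [hp : Fact p.Prime] [CharP F p] (f : F →+ F →+ M)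
    (hinv : ∀ k : F, k ≠ 0 → ∀ a b, f (k ^ 2 * a) (k ^ 2 * b) = f a b)
    (hbig : p = 2 ∧ 4 < Nat.card F ∨ p ≠ 2 ∧ 9 < Nat.card F) (a b : F) : f a b = 0 := by
  classical
  let := Fintype.ofFinite F
  have hsq : ∀ k w : F, k ≠ 0 → f (k ^ 2) w = f 1 (w / k ^ 2) := fun k w hk => by
    rw [← hinv k hk 1 (w / k ^ 2), mul_one, mul_div_cancel₀ _ (pow_ne_zero 2 hk)]
  have hg : ∀ w, f 1 w = 0 := by
    rcases hbig with ⟨rfl, hcard⟩ | ⟨hp2, hcard⟩
    · have hsqr : ∀ x : F, ∃ k : F, k ^ 2 = x := fun x => by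
        obtain ⟨k, hk⟩ := FiniteField.isSquare_of_char_two (ringChar.eq F 2) x
        exact ⟨k, by rw [hk, pow_two]⟩
      obtain ⟨x, hx⟩ : ∃ x : F, Polynomial.eval x
          (Polynomial.X * (Polynomial.X + 1) * (Polynomial.X ^ 2 + Polynomial.X + 1)) ≠ 0 := by
        by_contra hc
        push Not at hc
        have h0 := Polynomial.eq_zero_of_natDegree_lt_card_of_eval_eq_zero _
          (f := fun x : F => x) Function.injective_id hc (by
            rw [← Nat.card_eq_fintype_card]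
            refine lt_of_le_of_lt ?_ hcard
            compute_degree
            all_goals simp)
        have h1 := congrArg Polynomial.natDegree h0
        rw [Polynomial.natDegree_zero] at h1
        revert h1
        have : (Polynomial.X * (Polynomial.X + 1) * (Polynomial.X ^ 2 + Polynomial.X + 1) :
            Polynomial F).natDegree = 4 := by
          compute_degree
          all_goals simp
        omega
      simp only [Polynomial.eval_mul, Polynomial.eval_add, Polynomial.eval_X, Polynomial.eval_pow,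
        Polynomial.eval_one, mul_ne_zero_iff] at hx
      obtain ⟨⟨hx0, hx1⟩, hx2⟩ := hx
      obtain ⟨k, hk⟩ := hsqr x
      obtain ⟨l, hl⟩ := hsqr (x + 1)
      have hk0 : k ≠ 0 := fun e => hx0 (by rw [← hk, e]; simp)
      have hl0 : l ≠ 0 := fun e => hx1 (by rw [← hl, e]; simp)
      have key : ∀ w, f 1 (w * (1 + 1 / x - 1 / (x + 1))) = 0 := fun w => by
        have h1 : f 1 (w / (x + 1)) = f 1 (w / x) + f 1 w := by
          rw [← hl, ← hsq l w hl0, hl, map_add, AddMonoidHom.add_apply, ← hk, hsq k w hk0]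
        rw [mul_sub, mul_add, mul_one, mul_one_div, mul_one_div, map_sub, map_add, h1]
        abel
      intro w
      have hv : (1 + 1 / x - 1 / (x + 1) : F) ≠ 0 := by
        intro e
        apply hx2
        field_simp at e
        linear_combination e
      have := key (w / (1 + 1 / x - 1 / (x + 1)))
      rwa [div_mul_cancel₀ _ hv] at this
    · have h2 : (2 : F) ≠ 0 := fun e => hp2 ((Nat.prime_dvd_prime_iff_eq hp.out Nat.prime_two).1
        ((CharP.cast_eq_zero_iff F p 2).1 (by exact_mod_cast e)))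
      obtain ⟨t, ht⟩ : ∃ t : F, Polynomial.eval t
          (Polynomial.X * (Polynomial.X - 1) * (Polynomial.X + 1) * (Polynomial.X ^ 2 + 1) *
            ((Polynomial.X ^ 2 - 1) ^ 2 - Polynomial.X ^ 2)) ≠ 0 := by
        by_contra hc
        push Not at hc
        have h0 := Polynomial.eq_zero_of_natDegree_lt_card_of_eval_eq_zero _
          (f := fun x : F => x) Function.injective_id hc (by
            rw [← Nat.card_eq_fintype_card]
            refine lt_of_le_of_lt ?_ hcard
            compute_degree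
            all_goals simp)
        have : (Polynomial.X * (Polynomial.X - 1) * (Polynomial.X + 1) * (Polynomial.X ^ 2 + 1) *
            ((Polynomial.X ^ 2 - 1) ^ 2 - Polynomial.X ^ 2) : Polynomial F).natDegree = 9 := by
          compute_degree
          all_goals simp
        rw [h0, Polynomial.natDegree_zero] at this
        omega
      simp only [Polynomial.eval_mul, Polynomial.eval_add, Polynomial.eval_sub, Polynomial.eval_X,
        Polynomial.eval_pow, Polynomial.eval_one, mul_ne_zero_iff] at ht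
      obtain ⟨⟨⟨⟨ht0, ht1⟩, ht2⟩, ht3⟩, ht4⟩ := ht
      have key : ∀ w, f 1 (w * (1 / (t + 1) ^ 2 + 1 / (t - 1) ^ 2 - 1 / t ^ 2 - 1 / t ^ 2 - 1 - 1)) = 0 :=
        fun w => by
        have h1 : f ((t + 1) ^ 2) w + f ((t - 1) ^ 2) w = f (t ^ 2) w + f (t ^ 2) w + f 1 w + f 1 w := by
          rw [← AddMonoidHom.add_apply, ← map_add, ← AddMonoidHom.add_apply, ← map_add,
            ← AddMonoidHom.add_apply, ← map_add, ← AddMonoidHom.add_apply, ← map_add]
          congr 2
          ring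
        rw [hsq _ w ht2, hsq _ w ht1, hsq _ w ht0] at h1
        simp only [mul_sub, mul_add, mul_one, mul_one_div, map_sub, map_add]
        rw [h1]
        abel
      intro w
      have hv : (1 / (t + 1) ^ 2 + 1 / (t - 1) ^ 2 - 1 / t ^ 2 - 1 / t ^ 2 - 1 - 1 : F) ≠ 0 := by
        intro e
        apply mul_ne_zero (mul_ne_zero h2 ht3) ht4
        field_simp at e
        linear_combination -e
      have := key (w / (1 / (t + 1) ^ 2 + 1 / (t - 1) ^ 2 - 1 / t ^ 2 - 1 / t ^ 2 - 1 - 1))
      rwa [div_mul_cancel₀ _ hv] at this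
  have hs : ∀ k w : F, f (k ^ 2) w = 0 := fun k w => by
    by_cases hk : k = 0
    · simp [hk]
    · rw [hsq k w hk, hg]
  rcases hbig with ⟨rfl, -⟩ | ⟨hp2, -⟩
  · obtain ⟨k, hk⟩ := FiniteField.isSquare_of_char_two (ringChar.eq F 2) a
    rw [hk, ← pow_two, hs]
  · have h2 : (2 : F) ≠ 0 := fun e => hp2 ((Nat.prime_dvd_prime_iff_eq hp.out Nat.prime_two).1
      ((CharP.cast_eq_zero_iff F p 2).1 (by exact_mod_cast e)))
    rw [show a = ((a + 1) / 2) ^ 2 - ((a - 1) / 2) ^ 2 by field_simp; ring, map_sub,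
      AddMonoidHom.sub_apply, hs, hs, sub_zero]

end Weight

section Central

variable {Γ Q : Type*} [Group Γ] [Group Q] {σ : Γ →* Q}

theorem commutator_congr_of_central (hc : σ.ker ≤ Subgroup.center Γ) {x x' y y' : Γ}
    (hx : σ x = σ x') (hy : σ y = σ y') : ⁅x, y⁆ = ⁅x', y'⁆ := by
  have key : ∀ {u u' : Γ}, σ u = σ u' → ∃ z ∈ Subgroup.center Γ, u = u' * z := fun {u u'} e =>
    ⟨u'⁻¹ * u, hc (by rw [MonoidHom.mem_ker, map_mul, map_inv, e, inv_mul_cancel]), by simp⟩
  obtain ⟨z, hz, rfl⟩ := key hx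
  obtain ⟨w, hw, rfl⟩ := key hy
  rw [Subgroup.mem_center_iff] at hz hw
  rw [commutatorElement_def, commutatorElement_def]
  calc x' * z * (y' * w) * (x' * z)⁻¹ * (y' * w)⁻¹
      = x' * (z * (y' * w) * z⁻¹) * x'⁻¹ * (y' * w)⁻¹ := by group
    _ = x' * (y' * w) * x'⁻¹ * (y' * w)⁻¹ := by rw [← hz, mul_inv_cancel_right]
    _ = x' * y' * (w * x'⁻¹ * w⁻¹) * y'⁻¹ := by group
    _ = _ := by rw [← hw, mul_inv_cancel_right]

/-- Central extensions of a generalised quaternion group do not meet their commutator subgroup. -/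
theorem quaternion_commutator_inter_ker [Finite Γ] {n : ℕ} [NeZero n] (τ : Γ →* QuaternionGroup n)
    (hs : Function.Surjective τ) (hc : τ.ker ≤ Subgroup.center Γ) {z : Γ}
    (hz : z ∈ commutator Γ) (hz1 : τ z = 1) : z = 1 := by
  obtain ⟨A, hA⟩ := hs (QuaternionGroup.a 1)
  obtain ⟨X, hX⟩ := hs (QuaternionGroup.xa 0)
  -- `⁅X, A⁆` has order dividing `n`
  obtain ⟨w, hw, hXA⟩ : ∃ w ∈ τ.ker, X * A * X⁻¹ = A⁻¹ * w :=
    ⟨A * (X * A * X⁻¹), by
      have hrel : τ (X * A * X⁻¹) = (τ A)⁻¹ := by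
        rw [map_mul, map_mul, map_inv, hA, hX, mul_inv_eq_iff_eq_mul, eq_inv_mul_iff_mul_eq]
        simp
      rw [MonoidHom.mem_ker, map_mul, hrel, mul_inv_cancel], by group⟩
  have hwc := Subgroup.mem_center_iff.1 (hc hw)
  have hn : Commute (A ^ n) X := by
    obtain ⟨u, hu, hAu⟩ : ∃ u ∈ τ.ker, A ^ n = X * X * u :=
      ⟨(X * X)⁻¹ * A ^ n, by
        rw [MonoidHom.mem_ker, map_mul, map_inv, map_mul, map_pow, hA, hX,
          QuaternionGroup.a_one_pow, QuaternionGroup.xa_mul_xa]
        simp, by group⟩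
    rw [hAu]
    exact ((Commute.refl X).mul_left (Commute.refl X)).mul_left
      ((Subgroup.mem_center_iff.1 (hc hu) X).symm)
  have hcdef : ⁅X, A⁆ = A⁻¹ * w * A⁻¹ := by rw [commutatorElement_def, hXA]
  have hcA : ⁅X, A⁆ = A⁻¹ * A⁻¹ * w := by rw [hcdef, mul_assoc, ← hwc, ← mul_assoc]
  have hcn : ⁅X, A⁆ ^ n = 1 := by
    have hcw : Commute A⁻¹ w := hwc _
    have h1 : (A⁻¹ * w) ^ n = A ^ n := by
      rw [← hXA, conj_pow, ← hn.eq, mul_inv_cancel_right]
    rw [hcw.mul_pow] at h1
    rw [hcA, mul_assoc, Commute.mul_pow ((Commute.refl A⁻¹).mul_right hcw), hcw.mul_pow, h1,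
      inv_pow, inv_mul_cancel]
  -- the commutator subgroup
  let K : Subgroup Γ := Subgroup.closure {A, X}
  have hcK : ⁅X, A⁆ ∈ K := by
    have hA' : A ∈ K := Subgroup.subset_closure (by simp)
    have hX' : X ∈ K := Subgroup.subset_closure (by simp)
    exact mul_mem (mul_mem (mul_mem hX' hA') (inv_mem hX')) (inv_mem hA')
  have hKs : ∀ g : Γ, ∃ k ∈ K, τ k = τ g := by
    have htop : Subgroup.map τ K = ⊤ := by
      rw [MonoidHom.map_closure, Set.image_pair, hA, hX, eq_top_iff]
      have ha : ∀ i : ZMod (2 * n), QuaternionGroup.a i ∈ Subgroup.closure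
          ({QuaternionGroup.a 1, QuaternionGroup.xa 0} : Set (QuaternionGroup n)) := by
        intro i
        rw [← ZMod.natCast_zmod_val i, ← QuaternionGroup.a_one_pow]
        exact pow_mem (Subgroup.subset_closure (by simp)) _
      rintro (i | i) -
      · exact ha i
      · have h : QuaternionGroup.xa i = QuaternionGroup.xa 0 * QuaternionGroup.a i := by simp
        rw [h]
        exact mul_mem (Subgroup.subset_closure (by simp)) (ha i)
    intro g
    obtain ⟨k, hk, hkg⟩ := (htop ▸ Subgroup.mem_top (τ g) : τ g ∈ Subgroup.map τ K)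
    exact ⟨k, hk, hkg⟩
  have hle : commutator Γ ≤ (commutator K).map K.subtype := by
    rw [commutator_def, Subgroup.commutator_le]
    intro x _ y _
    obtain ⟨k, hk, hkx⟩ := hKs x
    obtain ⟨l, hl, hly⟩ := hKs y
    rw [commutator_congr_of_central hc hkx.symm hly.symm]
    exact ⟨⁅(⟨k, hk⟩ : K), ⟨l, hl⟩⁆, Subgroup.commutator_mem_commutator (Subgroup.mem_top _)
      (Subgroup.mem_top _), rfl⟩
  have hAK : A ∈ K := Subgroup.subset_closure (by simp)
  have hXK : X ∈ K := Subgroup.subset_closure (by simp)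
  have hgenK : Subgroup.closure ({⟨A, hAK⟩, ⟨X, hXK⟩} : Set K) = ⊤ := by
    apply Subgroup.map_injective K.subtype_injective
    rw [MonoidHom.map_closure, Set.image_pair, ← MonoidHom.range_eq_map, Subgroup.range_subtype]
    rfl
  have hKz : commutator K ≤ Subgroup.zpowers ⁅(⟨X, hXK⟩ : K), ⟨A, hAK⟩⁆ := by
    refine FGS2.commutator_le_zpowers hgenK ?_ ?_
    · convert Subgroup.mem_zpowers (⁅(⟨X, hXK⟩ : K), (⟨A, hAK⟩ : K)⁆) using 1
      apply Subtype.ext
      show A * ⁅X, A⁆ * A⁻¹ = ⁅X, A⁆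
      rw [hcA]
      calc A * (A⁻¹ * A⁻¹ * w) * A⁻¹ = A⁻¹ * (w * A⁻¹) := by group
        _ = A⁻¹ * (A⁻¹ * w) := by rw [hwc A⁻¹]
        _ = _ := by group
    · convert Subgroup.inv_mem _ (Subgroup.mem_zpowers (⁅(⟨X, hXK⟩ : K), (⟨A, hAK⟩ : K)⁆)) using 1
      apply Subtype.ext
      show X * ⁅X, A⁆ * X⁻¹ = ⁅X, A⁆⁻¹
      rw [hcA]
      have hwi : ∀ y : Γ, y * w⁻¹ = w⁻¹ * y := fun y => (Commute.inv_right (hwc y)).eq
      calc X * (A⁻¹ * A⁻¹ * w) * X⁻¹ = (X * A * X⁻¹)⁻¹ * (X * A * X⁻¹)⁻¹ * (X * w * X⁻¹) := by group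
        _ = (w⁻¹ * A) * (w⁻¹ * A) * w := by rw [hXA, hwc X]; group
        _ = w⁻¹ * (A * w⁻¹) * (A * w) := by group
        _ = w⁻¹ * (w⁻¹ * A) * (w * A) := by rw [hwi A, hwc A]
        _ = w⁻¹ * w⁻¹ * (A * w) * A := by group
        _ = w⁻¹ * w⁻¹ * (w * A) * A := by rw [hwc A]
        _ = _ := by simp [mul_assoc]
  have hzz : z ∈ Subgroup.zpowers ⁅X, A⁆ := by
    obtain ⟨k, hk, rfl⟩ := hle hz
    obtain ⟨i, rfl⟩ := Subgroup.mem_zpowers_iff.1 (hKz hk)
    exact Subgroup.mem_zpowers_iff.2 ⟨i, rfl⟩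
  have hord : orderOf (τ ⁅X, A⁆) = n := by
    rw [hcA, map_mul, MonoidHom.mem_ker.1 hw, mul_one, map_mul, map_inv, hA, ← mul_inv_rev,
      orderOf_inv, ← pow_two,
      orderOf_pow' _ (by norm_num : (2 : ℕ) ≠ 0), QuaternionGroup.orderOf_a_one,
      Nat.gcd_eq_right ⟨n, rfl⟩]
    omega
  have := FGS2.mem_zpowers_pow_of_map_eq_one τ hzz hz1 hord
  rw [hcn, Subgroup.zpowers_one_eq_bot, Subgroup.mem_bot] at this
  exact this

end Central

section SL2

open Matrix

variable {F : Type*} [Field F] [Fintype F] {Γ : Type*} [Group Γ]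
  {σ : Γ →* SpecialLinearGroup (Fin 2) F}

theorem uHom_conj (k : Fˣ) (a : F) :
    Linear.splitTorus k * Linear.uHom (Multiplicative.ofAdd a) * (Linear.splitTorus k)⁻¹ =
      Linear.uHom (Multiplicative.ofAdd ((k : F) ^ 2 * a)) := by
  have hT : (Linear.splitTorus k).1 = !![(k : F), 0; 0, ((k⁻¹ : Fˣ) : F)] := rfl
  rw [mul_inv_eq_iff_eq_mul]
  ext i j
  fin_cases i <;> fin_cases j <;>
    simp [SpecialLinearGroup.coe_mul, hT, Linear.uHom_val, Matrix.mul_apply, Fin.sum_univ_two] <;>
    field_simp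

/-- The preimage of the unipotent subgroup is abelian. -/
theorem comap_U2_abelian (p : ℕ) [Fact p.Prime] [CharP F p]
    (h4 : Fintype.card F ≠ 4) (h9 : Fintype.card F ≠ 9) (hσ : Function.Surjective σ)
    (hc : σ.ker ≤ Subgroup.center Γ) {x y : Γ} (hx : σ x ∈ Linear.U2) (hy : σ y ∈ Linear.U2) :
    ⁅x, y⁆ = 1 := by
  obtain ⟨a, hx⟩ := hx
  obtain ⟨b, hy⟩ := hy
  let l : F → Γ := fun a => Function.surjInv hσ (Linear.uHom (Multiplicative.ofAdd a))
  have hl : ∀ a, σ (l a) = Linear.uHom (Multiplicative.ofAdd a) := fun a =>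
    Function.surjInv_eq hσ _
  obtain ⟨k, hk⟩ := Linear.card_eq_prime_pow (F := F) p
  rcases Nat.lt_or_ge k 2 with hk2 | hk2
  · -- prime field: the unipotent group is cyclic
    let H : Subgroup Γ := (Linear.U2 (F := F)).comap σ
    let τ : ↥H →* Linear.U2 (F := F) := (σ.comp H.subtype).codRestrict _ fun x => x.2
    have hcard : Nat.card F = p := by
      have : 1 < Fintype.card F := Fintype.one_lt_card
      rw [Nat.card_eq_fintype_card, hk]
      interval_cases k <;> simp_all
    have : IsCyclic (Linear.U2 (F := F)) := isCyclic_of_prime_card (p := p) (by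
      rw [← hcard]
      exact (Nat.card_congr (MonoidHom.ofInjective Linear.uHom_injective).toEquiv).symm.trans rfl)
    have hτ : τ.ker ≤ Subgroup.center _ := fun u hu => Subgroup.mem_center_iff.2 fun v =>
      Subtype.ext (Subgroup.mem_center_iff.1 (hc
        (show σ u.1 = 1 from congrArg Subtype.val (MonoidHom.mem_ker.1 hu))) v.1)
    have hab := MonoidHom.isMulCommutative_of_isCyclic_of_ker_le_center τ hτ
    rw [commutatorElement_eq_one_iff_mul_comm]
    exact congrArg Subtype.val (hab.is_comm.comm (⟨x, a, hx⟩ : H) ⟨y, b, hy⟩)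
  have hbig : p = 2 ∧ 4 < Nat.card F ∨ p ≠ 2 ∧ 9 < Nat.card F := by
    rw [Nat.card_eq_fintype_card]
    rcases eq_or_ne p 2 with hp2 | hp2
    · subst hp2
      have : k ≠ 2 := fun e => h4 (by rw [hk, e]; rfl)
      have : 2 ^ 3 ≤ 2 ^ k := Nat.pow_le_pow_right two_pos (by omega)
      exact Or.inl ⟨rfl, by omega⟩
    · have hp3 : 3 ≤ p := by
        have := (Fact.out : p.Prime).two_le
        omega
      have : p ≠ 3 ∨ k ≠ 2 := by
        by_contra hh
        push Not at hh
        exact h9 (by rw [hk, hh.1, hh.2]; rfl)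
      refine Or.inr ⟨hp2, ?_⟩
      rw [hk]
      rcases this with h | h
      · calc 9 < 4 ^ 2 := by norm_num
          _ ≤ p ^ 2 := Nat.pow_le_pow_left (by omega) 2
          _ ≤ p ^ k := Nat.pow_le_pow_right (by omega) hk2
      · calc 9 < 3 ^ 3 := by norm_num
          _ ≤ p ^ 3 := Nat.pow_le_pow_left hp3 3
          _ ≤ p ^ k := Nat.pow_le_pow_right (by omega) (by omega)
  have hcomm : ∀ a b, ⁅l a, l b⁆ ∈ Subgroup.center Γ := fun a b => hc (by
    rw [MonoidHom.mem_ker, map_commutatorElement, hl, hl, ← map_commutatorElement,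
      commutatorElement_eq_one_iff_mul_comm.2 (mul_comm _ _), map_one])
  have hladd : ∀ a a', σ (l (a + a')) = σ (l a * l a') := fun a a' => by
    rw [map_mul, hl, hl, hl, ← map_mul, ← ofAdd_add]
  let : CommGroup (Subgroup.center Γ) := IsMulCommutative.instCommGroup
  let f : F →+ F →+ Additive (Subgroup.center Γ) :=
    AddMonoidHom.mk' (fun a => AddMonoidHom.mk' (fun b => Additive.ofMul ⟨⁅l a, l b⁆, hcomm a b⟩)
      (fun b b' => Additive.toMul.injective (Subtype.ext (by
        show ⁅l a, l (b + b')⁆ = ⁅l a, l b⁆ * ⁅l a, l b'⁆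
        rw [commutator_congr_of_central hc rfl (hladd b b'),
          show ⁅l a, l b * l b'⁆ = ⁅l a, l b⁆ * (l b * ⁅l a, l b'⁆ * (l b)⁻¹) by
            simp [commutatorElement_def, mul_assoc],
          Subgroup.mem_center_iff.1 (hcomm a b') (l b), mul_inv_cancel_right]))))
      (fun a a' => AddMonoidHom.ext fun b => Additive.toMul.injective (Subtype.ext (by
        show ⁅l (a + a'), l b⁆ = ⁅l a, l b⁆ * ⁅l a', l b⁆
        rw [commutator_congr_of_central hc (hladd a a') rfl,
          show ⁅l a * l a', l b⁆ = l a * ⁅l a', l b⁆ * (l a)⁻¹ * ⁅l a, l b⁆ by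
            simp [commutatorElement_def, mul_assoc],
          Subgroup.mem_center_iff.1 (hcomm a' b) (l a), mul_inv_cancel_right,
          Subgroup.mem_center_iff.1 (hcomm a' b)])))
  have hinv : ∀ k : F, k ≠ 0 → ∀ a b, f (k ^ 2 * a) (k ^ 2 * b) = f a b := fun k hk a b =>
    Additive.toMul.injective (Subtype.ext (by
      obtain ⟨t, ht⟩ := hσ (Linear.splitTorus (Units.mk0 k hk))
      show ⁅l (k ^ 2 * a), l (k ^ 2 * b)⁆ = ⁅l a, l b⁆
      have hh : ∀ a, σ (l (k ^ 2 * a)) = σ (t * l a * t⁻¹) := fun a => by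
        rw [map_mul, map_mul, map_inv, ht, hl, hl, uHom_conj, Units.val_mk0]
      rw [commutator_congr_of_central hc (hh a) (hh b),
        show ⁅t * l a * t⁻¹, t * l b * t⁻¹⁆ = t * ⁅l a, l b⁆ * t⁻¹ by
          simp [commutatorElement_def, mul_assoc],
        Subgroup.mem_center_iff.1 (hcomm a b) t, mul_inv_cancel_right]))
  have h0 := congrArg (fun z => ((Additive.toMul z : Subgroup.center Γ) : Γ))
    (square_invariant_eq_zero p f hinv hbig a.toAdd b.toAdd)
  rw [commutator_congr_of_central hc (hx.symm.trans (hl a.toAdd).symm)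
    (hy.symm.trans (hl b.toAdd).symm)]
  exact h0

/-- Every finite stem extension of `SL_2(q)`, `q ≠ 4, 9`, is an isomorphism. -/
theorem sl2_stem_trivial [Finite Γ] (h4 : Fintype.card F ≠ 4) (h9 : Fintype.card F ≠ 9)
    (hst : Cfsg.IsStemExtension σ) : σ.ker = ⊥ := by
  obtain ⟨p, hpc⟩ := CharP.exists F
  have := Fact.mk (CharP.char_is_prime F p)
  rw [Subgroup.eq_bot_iff_forall]
  intro z hz
  by_contra hz1
  obtain ⟨r, hr, hrd⟩ := Nat.exists_prime_and_dvd (n := orderOf z)
    (fun e => hz1 (orderOf_eq_one_iff.1 e))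
  have := Fact.mk hr
  obtain ⟨P, hP⟩ : ∃ P : Sylow r (SpecialLinearGroup (Fin 2) F),
      ∀ w : ↥((P : Subgroup (SpecialLinearGroup (Fin 2) F)).comap σ),
        w ∈ commutator ↥((P : Subgroup (SpecialLinearGroup (Fin 2) F)).comap σ) →
        σ w.1 = 1 → w = 1 := by
    by_cases hrp : r = p
    · subst hrp
      refine ⟨Linear.sylowU2 r, fun w hw _ => ?_⟩
      have hbot : commutator ↥((Linear.sylowU2 r : Sylow r (SpecialLinearGroup (Fin 2) F)).toSubgroup.comap σ) = ⊥ := by
        rw [commutator_def, Subgroup.commutator_eq_bot_iff_le_centralizer]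
        intro x _
        refine Subgroup.mem_centralizer_iff.2 fun y _ => Subtype.ext ?_
        have hx : σ x.1 ∈ Linear.U2 (F := F) := Linear.coe_sylowU2 (F := F) r ▸ Subgroup.mem_comap.1 x.2
        have hy : σ y.1 ∈ Linear.U2 (F := F) := Linear.coe_sylowU2 (F := F) r ▸ Subgroup.mem_comap.1 y.2
        exact commutatorElement_eq_one_iff_mul_comm.1 (comap_U2_abelian r h4 h9 hst.1 hst.2.1 hy hx)
      exact Subgroup.mem_bot.1 (hbot ▸ hw)
    · obtain ⟨P⟩ : Nonempty (Sylow r (SpecialLinearGroup (Fin 2) F)) := inferInstance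
      refine ⟨P, ?_⟩
      let H := (P : Subgroup (SpecialLinearGroup (Fin 2) F)).comap σ
      let τ : ↥H →* (P : Subgroup (SpecialLinearGroup (Fin 2) F)) :=
        (σ.comp H.subtype).codRestrict _ (fun x => x.2)
      have hτ : τ.ker ≤ Subgroup.center _ := fun x hx => Subgroup.mem_center_iff.2 fun y =>
        Subtype.ext (Subgroup.mem_center_iff.1 (hst.2.1
          (show σ x.1 = 1 from congrArg Subtype.val (MonoidHom.mem_ker.1 hx))) y.1)
      by_cases hr2 : r = 2
      · subst hr2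
        obtain ⟨k, -, ⟨e⟩⟩ := Linear.sylow_two_SL2 p (fun h => hrp h.symm) P
        intro w hw hw1
        refine quaternion_commutator_inter_ker (e.toMonoidHom.comp τ) ?_ ?_ hw ?_
        · refine e.surjective.comp fun u => ?_
          obtain ⟨x, hx⟩ := hst.1 u
          exact ⟨⟨x, show σ x ∈ (P : Subgroup _) from hx ▸ u.2⟩, Subtype.ext hx⟩
        · exact fun u hu => hτ (e.injective ((MonoidHom.mem_ker.1 hu).trans (map_one e).symm))
        · show e (τ w) = 1
          rw [show τ w = 1 from Subtype.ext hw1, map_one]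
      · have := Linear.isCyclic_sylow_SL2 p r hr2 hrp P
        have hab := MonoidHom.isMulCommutative_of_isCyclic_of_ker_le_center τ hτ
        intro w hw _
        have hbot : commutator ↥H = ⊥ := by
          rw [commutator_def, Subgroup.commutator_eq_bot_iff_le_centralizer]
          intro x _
          exact Subgroup.mem_centralizer_iff.2 fun y _ => hab.is_comm.comm y x
        exact Subgroup.mem_bot.1 (hbot ▸ hw)
  obtain ⟨hH, hcm⟩ := FGS2.pow_index_mem_commutator
    ((P : Subgroup (SpecialLinearGroup (Fin 2) F)).comap σ) (hst.2.1 hz) (hst.2.2 hz)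
  have hone := congrArg Subtype.val (hP ⟨_, hH⟩ hcm (by
    rw [map_pow, MonoidHom.mem_ker.1 hz, one_pow]))
  have hone' : z ^ ((P : Subgroup (SpecialLinearGroup (Fin 2) F)).comap σ).index = 1 := hone
  rw [Subgroup.index_comap_of_surjective _ hst.1] at hone'
  exact P.not_dvd_index (hrd.trans (orderOf_dvd_of_pow_eq_one hone'))

end SL2

end Cfsg.Agent.Suzuki
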