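import Cfsg.Agent.Suzuki.SLPresentation
import Cfsg.Agent.Suzuki.StLiftMultiplier
import Mathlib

/-!
Central extensions of the special linear groups split, apart from the small exceptions.
-/

set_option autoImplicit false

universe u v

namespace Cfsg.Agent.Suzuki.SLSt

open Matrix
open Cfsg.Agent.Suzuki.StLift
open scoped commutatorElement

section Field

variable {K : Type*} [Field K]

/-- a finite field has a unit with nontrivial cube, unless it is small -/
theorem exists_cube_ne [Finite K] (h2 : Nat.card K ≠ 2) (h4 : Nat.card K ≠ 4) : ∃ w : K, w ≠ 0 ∧ w ^ 3 ≠ 1 := by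
  classical
  let := Fintype.ofFinite K
  rw [Nat.card_eq_fintype_card] at h2 h4
  by_contra hc
  push Not at hc
  have hsub : (Finset.univ : Finset K).erase 0 ⊆ (Polynomial.nthRoots 3 (1 : K)).toFinset := fun w hw => by
    rw [Multiset.mem_toFinset, Polynomial.mem_nthRoots (by norm_num)]
    exact hc w (Finset.mem_erase.1 hw).1
  have h := (Finset.card_le_card hsub).trans ((Multiset.toFinset_card_le _).trans (Polynomial.card_nthRoots 3 _))
  rw [Finset.card_erase_of_mem (Finset.mem_univ _), Finset.card_univ] at h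
  have h1 := Fintype.one_lt_card (α := K)
  have h3 : Fintype.card K = 3 := by omega
  have e := hc (-1) (neg_ne_zero.2 one_ne_zero)
  have e2 : (2 : K) = 0 := by linear_combination -e
  have e3 : (3 : K) = 0 := by
    have := Nat.cast_card_eq_zero K
    rw [h3] at this
    exact_mod_cast this
  exact one_ne_zero (by linear_combination e3 - e2 : (1 : K) = 0)

/-- outside the field with two elements there is a scalar other than zero and one -/
theorem exists_ne_zero_one [Finite K] (h2 : Nat.card K ≠ 2) : ∃ w : K, w ≠ 0 ∧ w ≠ 1 := by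
  classical
  let := Fintype.ofFinite K
  rw [Nat.card_eq_fintype_card] at h2
  by_contra hc
  push Not at hc
  have hsub : (Finset.univ : Finset K) ⊆ {0, 1} := fun w _ => by
    by_cases h : w = 0
    · simp [h]
    · simp [hc w h]
  have h := (Finset.card_le_card hsub).trans Finset.card_le_two
  rw [Finset.card_univ] at h
  have h1 := Fintype.one_lt_card (α := K)
  omega

/-- a set closed under the ring operations containing all cubes is everything, outside the field with four elements -/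
theorem eq_univ_of_cubes [Finite K] (h4 : Nat.card K ≠ 4) (T : Subring K) (hT : ∀ w : K, w ≠ 0 → w ^ 3 ∈ T) (x : K) :
    x ∈ T := by
  classical
  let := Fintype.ofFinite K
  rw [Nat.card_eq_fintype_card] at h4
  by_contra hx
  let F : Finset K := Finset.univ.filter (· ∈ T)
  have hF : ∀ {a}, a ∈ F ↔ a ∈ T := fun {a} => by simp [F]
  have hinv : ∀ a ∈ T, a⁻¹ ∈ T := fun a ha => by
    by_cases h0 : a = 0
    · simp [h0, zero_mem]
    · have := pow_mem ha (Fintype.card K - 2)
      rwa [show a⁻¹ = a ^ (Fintype.card K - 2) from ?_]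
      refine inv_eq_of_mul_eq_one_right ?_
      rw [← pow_succ', show Fintype.card K - 2 + 1 = Fintype.card K - 1 by
        have := Fintype.one_lt_card (α := K); omega]
      exact FiniteField.pow_card_sub_one_eq_one a h0
  have hsq : F.card * F.card ≤ Fintype.card K := by
    rw [← Finset.card_product]
    refine Finset.card_le_card_of_injOn (fun p : K × K => p.1 + p.2 * x) (fun p _ => Finset.mem_univ _) ?_
    intro p hp q hq e
    simp only [Finset.coe_product, Set.mem_prod, Finset.mem_coe, hF] at hp hq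
    by_cases hb : p.2 = q.2
    · exact Prod.ext (by simpa [hb] using e) hb
    · exfalso
      apply hx
      have : x = (q.1 - p.1) * (p.2 - q.2)⁻¹ := by
        rw [eq_mul_inv_iff_mul_eq₀ (sub_ne_zero.2 hb)]
        simp only at e
        linear_combination e
      rw [this]
      exact mul_mem (sub_mem hq.1 hp.1) (hinv _ (sub_mem hp.2 hq.2))
  have hcube : ((Finset.univ : Finset K).erase 0).card ≤ 3 * (F.erase 0).card := by
    refine le_trans (Finset.card_le_mul_card_image (f := fun w : K => w ^ 3) _ 3 fun a _ => ?_) ?_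
    · refine le_trans (Finset.card_le_card (t := (Polynomial.nthRoots 3 a).toFinset) fun w hw => ?_)
        ((Multiset.toFinset_card_le _).trans (Polynomial.card_nthRoots 3 _))
      rw [Multiset.mem_toFinset, Polynomial.mem_nthRoots (by norm_num)]
      exact (Finset.mem_filter.1 hw).2
    · refine Nat.mul_le_mul_left 3 (Finset.card_le_card fun a ha => ?_)
      obtain ⟨w, hw, rfl⟩ := Finset.mem_image.1 ha
      have hw0 := (Finset.mem_erase.1 hw).1
      exact Finset.mem_erase.2 ⟨pow_ne_zero _ hw0, hF.2 (hT w hw0)⟩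
  have h0 : (0 : K) ∈ F := hF.2 (zero_mem T)
  have h1 : 2 ≤ F.card := Finset.one_lt_card.2 ⟨0, h0, 1, hF.2 (one_mem T), zero_ne_one⟩
  rw [Finset.card_erase_of_mem (Finset.mem_univ _), Finset.card_erase_of_mem h0, Finset.card_univ] at hcube
  have hle : F.card ≤ 2 := by
    by_contra hgt
    have : 3 * F.card ≤ F.card * F.card := Nat.mul_le_mul_right _ (by omega)
    omega
  have he : F.card = 2 := le_antisymm hle h1
  rw [he] at hcube hsq
  omega

end Field

section Lift

variable {K : Type u} [Field K] {n : ℕ} {E : Type v} [Group E] {π : E →* SpecialLinearGroup (Fin n) K}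
  (hπ : Function.Surjective π) (hk : π.ker ≤ Subgroup.center E)


/-- the commutator lifting a root element through a third index -/
noncomputable def M (i h j : Fin n) (t v : K) : E := lc hπ ((slRels K n).x i h t) ((slRels K n).x h j v)

theorem map_M {i h j : Fin n} (h1 : i ≠ h) (h2 : h ≠ j) (h3 : i ≠ j) (t v : K) :
    π (M hπ i h j t v) = (slRels K n).x i j (t * v) := by
  rw [M, map_lc]
  exact (slRels K n).comm3 i h j h1 h2 h3 t v

theorem slH_eq {i j : Fin n} (hij : i ≠ j) {w : K} (hw : w ≠ 0) :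
    (slRels K n).H i j w = Matrix.SpecialLinearGroup.diag2n hij w hw := by
  rw [Cfsg.Agent.Linear.diag2n_decompose hij w hw]
  simp [Rels.H, Rels.W, slRels_x hij, slRels_x hij.symm, mul_assoc, inv_neg]

theorem Rels.H_conj_self {G : Type*} [Group G] {ι : Type*} {F : Type*} [Field F] (R : Rels G ι F) {i j k : ι}
    (hij : i ≠ j) (hjk : j ≠ k) (hik : i ≠ k) {w : F} (hw : w ≠ 0) (v : F) :
    R.H i j w * R.x i j v * (R.H i j w)⁻¹ = R.x i j (w ^ 2 * v) :=
  mul_inv_eq_iff_eq_mul.2 ((R.data hij hjk hik).h_x hw v)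

theorem Rels.H_conj_opp {G : Type*} [Group G] {ι : Type*} {F : Type*} [Field F] (R : Rels G ι F) {i j k : ι}
    (hij : i ≠ j) (hjk : j ≠ k) (hik : i ≠ k) {w : F} (hw : w ≠ 0) (v : F) :
    R.H i j w * R.x j i v * (R.H i j w)⁻¹ = R.x j i (w⁻¹ ^ 2 * v) :=
  mul_inv_eq_iff_eq_mul.2 ((R.data hij hjk hik).h_y hw v)

include hk in
theorem lc_conj_invariant {X Y : SpecialLinearGroup (Fin n) K} (h : X * Y = Y * X) (g : SpecialLinearGroup (Fin n) K) :
    lc hπ (g * X * g⁻¹) (g * Y * g⁻¹) = lc hπ X Y := by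
  have := lc_conj hπ hk (lift hπ g) X Y
  rw [map_lift, lc_central hπ hk h] at this
  exact this.symm

include hk in
theorem lc_add_right {X Y Y' : SpecialLinearGroup (Fin n) K} (h : X * Y' = Y' * X) :
    lc hπ X (Y * Y') = lc hπ X Y * lc hπ X Y' := by
  rw [lc_mul_right hπ hk, lc_central hπ hk h]

include hk in
theorem lc_comm_central {X Y : SpecialLinearGroup (Fin n) K} (h : X * Y = Y * X) (x : E) :
    lc hπ X Y * x = x * lc hπ X Y :=
  (central_of_map_one hk (by rw [map_lc, commutatorElement_eq_one_iff_mul_comm.2 h]) x).symm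

include hk in
theorem zero_of_third {i j k l h : Fin n} (hij : i ≠ j) (hkl : k ≠ l) (hil : i ≠ l) (hjk : j ≠ k)
    (hi : h ≠ i) (hj : h ≠ j) (hhk : h ≠ k) (hhl : h ≠ l) (a b : K) : lc hπ ((slRels K n).x i j a) ((slRels K n).x k l b) = 1 := by
  have e : (slRels K n).x k l b = π (lc hπ ((slRels K n).x k h b) ((slRels K n).x h l 1)) := by
    rw [map_lc, (slRels K n).comm3 k h l hhk.symm hhl hkl, mul_one]
  rw [e, ← map_lift hπ ((slRels K n).x i j a), ← lc_map hπ hk, commutatorElement_eq_one_iff_mul_comm, ← mul_inv_eq_iff_eq_mul,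
    lc_conj hπ hk, map_lift, (slRels K n).conj_comm hij hhk.symm hi.symm hjk,
    (slRels K n).conj_comm hij hhl hil hj.symm]

include hπ hk in
theorem pair_three [Finite K] (hK2 : Nat.card K ≠ 2) (hK4 : Nat.card K ≠ 4) {i j k l : Fin n}
    (hij : i ≠ j) (hkl : k ≠ l) (hil : i ≠ l) (hjk : j ≠ k)
    (hs : ∀ w : K, w ≠ 0 → ∀ a b, ∃ g, g * (slRels K n).x i j a * g⁻¹ = (slRels K n).x i j (w * a) ∧ g * (slRels K n).x k l b * g⁻¹ = (slRels K n).x k l (w⁻¹ * b))
    (ht : ∀ w : K, w ≠ 0 → ∀ a b, ∃ g, g * (slRels K n).x i j a * g⁻¹ = (slRels K n).x i j (w ^ 2 * a) ∧ g * (slRels K n).x k l b * g⁻¹ = (slRels K n).x k l (w * b))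
    (a b : K) : lc hπ ((slRels K n).x i j a) ((slRels K n).x k l b) = 1 := by
  have hc : ∀ a b, (slRels K n).x i j a * (slRels K n).x k l b = (slRels K n).x k l b * (slRels K n).x i j a := (slRels K n).comm i j k l hij hkl hil hjk
  obtain ⟨w, hw, hw3⟩ := exists_cube_ne hK2 hK4
  refine biadd_zero_of_weight (fun a b => lc hπ ((slRels K n).x i j a) ((slRels K n).x k l b))
    (fun a b b' => by rw [← (slRels K n).add k l hkl, lc_add_right hπ hk (hc a b')])
    (fun a b b' => lc_comm_central hπ hk (hc a b) _) hw3 (fun a b => ?_) a b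
  obtain ⟨g, g1, g2⟩ := hs (w ^ 2) (pow_ne_zero _ hw) a (w ^ 3 * b)
  obtain ⟨g', g1', g2'⟩ := ht w hw a b
  have e1 := lc_conj_invariant hπ hk (hc a (w ^ 3 * b)) g
  have e2 := lc_conj_invariant hπ hk (hc a b) g'
  rw [g1, g2, show (w ^ 2)⁻¹ * (w ^ 3 * b) = w * b by field_simp] at e1
  rw [g1', g2'] at e2
  exact e1.symm.trans e2

include hπ hk in
theorem pair_four [Finite K] (hK2 : Nat.card K ≠ 2) {i j k l : Fin n}
    (hij : i ≠ j) (hkl : k ≠ l) (hil : i ≠ l) (hjk : j ≠ k) (hik : i ≠ k) (hjl : j ≠ l) (a b : K) :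
    lc hπ ((slRels K n).x i j a) ((slRels K n).x k l b) = 1 := by
  have hc : ∀ a b, (slRels K n).x i j a * (slRels K n).x k l b = (slRels K n).x k l b * (slRels K n).x i j a := (slRels K n).comm i j k l hij hkl hil hjk
  let f := fun a b => lc hπ ((slRels K n).x i j a) ((slRels K n).x k l b)
  have hr : ∀ a b b', f a (b + b') = f a b * f a b' := fun a b b' => by
    simp only [f]; rw [← (slRels K n).add k l hkl, lc_add_right hπ hk (hc a b')]
  have hcm : ∀ a b b', f a b * f a b' = f a b' * f a b := fun a b b' => lc_comm_central hπ hk (hc a b) _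
  by_cases hw : ∃ w : K, w ≠ 0 ∧ w ^ 2 ≠ 1
  · obtain ⟨w, hw0, hw2⟩ := hw
    refine biadd_zero_of_weight f hr hcm hw2 (fun a b => ?_) a b
    have e := lc_conj_invariant hπ hk (hc a b) ((slRels K n).H k l w)
    rw [(slRels K n).H_conj_other hkl hij hik hil hjk hjl,
      Rels.H_conj_self (slRels K n) hkl hil.symm hik.symm hw0] at e
    exact e
  push Not at hw
  obtain ⟨w, hw0, hw1⟩ := exists_ne_zero_one hK2
  have hall : ∀ x : K, x = 0 ∨ x = 1 ∨ x = -1 := fun x => by
    by_cases h : x = 0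
    · exact Or.inl h
    · exact Or.inr (sq_eq_one_iff.1 (hw x h))
  obtain rfl : w = -1 := ((hall w).resolve_left hw0).resolve_left hw1
  have hswap : ∀ a b, f a b = (f b a)⁻¹ := fun a b => by
    have e := lc_conj_invariant hπ hk (hc a b) ((slRels K n).W j l 1 * (slRels K n).W i k 1)
    rw [Rels.conj_two, Rels.conj_two, (slRels K n).W_conj_ik hik hjk.symm hij one_ne_zero,
      (slRels K n).W_conj_jk hik hkl hil one_ne_zero, (slRels K n).W_conj_ki hjl hkl.symm hjk one_ne_zero,
      (slRels K n).W_conj_kj hjl hil.symm hij.symm one_ne_zero, lc_swap] at e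
    simpa [f] using e.symm
  have hf0 : ∀ a, f a 0 = 1 := fun a => by
    have := hr a 0 0
    rw [add_zero] at this
    exact left_eq_mul.1 this
  have hneg : ∀ a b, f a (-b) = (f a b)⁻¹ := fun a b =>
    eq_inv_of_mul_eq_one_left (by rw [← hr, neg_add_cancel, hf0])
  have h3 : (3 : K) = 0 := by
    rcases hall 2 with h | h | h
    · exact absurd (by linear_combination -h : (-1 : K) = 1) hw1
    · exact absurd (by linear_combination h : (1 : K) = 0) one_ne_zero
    · linear_combination h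
  have h11 : f 1 1 = 1 := by
    have e : f 1 (1 + 1) = (f 1 1)⁻¹ := by
      rw [← hneg]; congr 1; linear_combination h3
    rw [hr] at e
    have es : f 1 1 = (f 1 1)⁻¹ := hswap 1 1
    rw [← es] at e
    exact mul_eq_left.1 e
  have h1 : ∀ b, f 1 b = 1 := fun b => by
    rcases hall b with rfl | rfl | rfl
    · exact hf0 1
    · exact h11
    · rw [hneg, h11, inv_one]
  show f a b = 1
  rcases hall a with rfl | rfl | rfl
  · rw [hswap, hf0, inv_one]
  · exact h1 b
  · rw [hswap, hneg, hswap b 1, h1, inv_one, inv_one, inv_one]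

include hk in
/-- lifts of commuting root elements commute -/
theorem zero_pair [Finite K] (hn : 3 ≤ n) (e3 : n = 3 → Nat.card K ≠ 2 ∧ Nat.card K ≠ 4)
    (e4 : n = 4 → Nat.card K ≠ 2) {i j k l : Fin n} (hij : i ≠ j) (hkl : k ≠ l) (hil : i ≠ l) (hjk : j ≠ k)
    (a b : K) : lc hπ ((slRels K n).x i j a) ((slRels K n).x k l b) = 1 := by
  classical
  by_cases hh : ∃ h, h ≠ i ∧ h ≠ j ∧ h ≠ k ∧ h ≠ l
  · obtain ⟨h, h1, h2, h3, h4⟩ := hh
    exact zero_of_third hπ hk hij hkl hil hjk h1 h2 h3 h4 a b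
  have hsub : (Finset.univ : Finset (Fin n)) ⊆ {i, j, k, l} := fun h _ => by
    simp only [Finset.mem_insert, Finset.mem_singleton]
    by_contra hc
    push Not at hc
    exact hh ⟨h, hc⟩
  have hcard := Finset.card_le_card hsub
  rw [Finset.card_univ, Fintype.card_fin] at hcard
  by_cases hik : i = k
  · subst hik
    by_cases hjl : j = l
    · subst hjl
      have : ({i, j, i, j} : Finset (Fin n)).card ≤ 2 := by
        refine le_trans (Finset.card_le_card (t := {i, j}) fun x hx => ?_) Finset.card_le_two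
        simp only [Finset.mem_insert, Finset.mem_singleton] at hx ⊢; tauto
      omega
    have : ({i, j, i, l} : Finset (Fin n)).card ≤ 3 := by
      refine le_trans (Finset.card_le_card (t := {i, j, l}) fun x hx => ?_) Finset.card_le_three
      simp only [Finset.mem_insert, Finset.mem_singleton] at hx ⊢; tauto
    obtain ⟨h2, h4⟩ := e3 (by omega)
    refine pair_three hπ hk h2 h4 hij hkl hil hjk (fun w hw a b => ?_) (fun w hw a b => ?_) a b
    · refine ⟨(slRels K n).H j l w⁻¹, ?_, ?_⟩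
      · rw [(slRels K n).H_conj_ki hjl hil.symm hij.symm (inv_ne_zero hw), inv_inv]
      · rw [(slRels K n).H_conj_kj hjl hil.symm hij.symm (inv_ne_zero hw)]
    · refine ⟨(slRels K n).H i j w, ?_, ?_⟩
      · exact mul_inv_eq_iff_eq_mul.2 (((slRels K n).data hij hjl hil).h_x hw a)
      · rw [(slRels K n).H_conj_ik hij hjl hil hw]
  by_cases hjl : j = l
  · subst hjl
    have : ({i, j, k, j} : Finset (Fin n)).card ≤ 3 := by
      refine le_trans (Finset.card_le_card (t := {i, j, k}) fun x hx => ?_) Finset.card_le_three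
      simp only [Finset.mem_insert, Finset.mem_singleton] at hx ⊢; tauto
    obtain ⟨h2, h4⟩ := e3 (by omega)
    refine pair_three hπ hk h2 h4 hij hkl hil hjk (fun w hw a b => ?_) (fun w hw a b => ?_) a b
    · refine ⟨(slRels K n).H i k w, ?_, ?_⟩
      · rw [(slRels K n).H_conj_ik hik hkl hij hw]
      · rw [(slRels K n).H_conj_jk hik hkl hij hw]
    · refine ⟨(slRels K n).H i j w, ?_, ?_⟩
      · exact mul_inv_eq_iff_eq_mul.2 (((slRels K n).data hij hjk hik).h_x hw a)
      · rw [(slRels K n).H_conj_kj hij hjk hik hw]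
  have h4 : ({i, j, k, l} : Finset (Fin n)).card = 4 := by simp [hij, hkl, hil, hjk, hik, hjl]
  have : n ≤ 4 := by omega
  refine pair_four hπ hk ?_ hij hkl hil hjk hik hjl a b
  refine e4 (le_antisymm this ?_)
  have := Finset.card_le_univ ({i, j, k, l} : Finset (Fin n))
  rwa [h4, Fintype.card_fin] at this

variable [Finite K] (hn : 3 ≤ n) (e3 : n = 3 → Nat.card K ≠ 2 ∧ Nat.card K ≠ 4) (e4 : n = 4 → Nat.card K ≠ 2)

include hπ hk hn e3 e4 in
theorem lift_comm {i j k l : Fin n} (hij : i ≠ j) (hkl : k ≠ l) (hil : i ≠ l) (hjk : j ≠ k) {a b : K} {e e' : E}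
    (he : π e = (slRels K n).x i j a) (he' : π e' = (slRels K n).x k l b) : e * e' = e' * e :=
  lift_commute hπ hk (by rw [he, he']; exact zero_pair hπ hk hn e3 e4 hij hkl hil hjk a b)

include hk hn e3 e4 in
theorem M_add_right {i h j : Fin n} (h1 : i ≠ h) (h2 : h ≠ j) (h3 : i ≠ j) (t v v' : K) :
    M hπ i h j t (v + v') = M hπ i h j t v * M hπ i h j t v' := by
  rw [M, ← (slRels K n).add h j h2, lc_mul_right hπ hk]
  congr 1
  show lift hπ _ * M hπ i h j t v' * _ = _
  rw [lift_comm hπ hk hn e3 e4 h2 h3 h2 h3.symm (map_lift hπ _) (map_M hπ h1 h2 h3 t v'), mul_inv_cancel_right]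

include hk hn e3 e4 in
theorem M_add_left {i h j : Fin n} (h1 : i ≠ h) (h2 : h ≠ j) (h3 : i ≠ j) (t t' v : K) :
    M hπ i h j (t + t') v = M hπ i h j t v * M hπ i h j t' v := by
  rw [M, ← (slRels K n).add i h h1, lc_mul_left hπ hk]
  show lift hπ _ * M hπ i h j t' v * _ * M hπ i h j t v = _
  rw [lift_comm hπ hk hn e3 e4 h1 h3 h3 h1.symm (map_lift hπ _) (map_M hπ h1 h2 h3 t' v), mul_inv_cancel_right]
  exact lift_comm hπ hk hn e3 e4 h3 h3 h3 h3.symm (map_M hπ h1 h2 h3 _ _) (map_M hπ h1 h2 h3 _ _)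

include hk hn e3 e4 in
theorem M_cross {i h g j : Fin n} (hih : i ≠ h) (hig : i ≠ g) (hij : i ≠ j) (hhg : h ≠ g) (hhj : h ≠ j) (hgj : g ≠ j)
    (t u v : K) : M hπ i h j t (u * v) = M hπ i g j (t * u) v := by
  set a := lift hπ ((slRels K n).x i h t) with ha
  set b := lift hπ ((slRels K n).x h g u) with hb
  set c := lift hπ ((slRels K n).x g j v) with hc
  have hd : π ⁅a, b⁆ = (slRels K n).x i g (t * u) := map_M hπ hih hhg hig t u
  have hbc : π ⁅b, c⁆ = (slRels K n).x h j (u * v) := map_M hπ hhg hgj hhj u v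
  have eL : M hπ i h j t (u * v) = ⁅a, ⁅b, c⁆⁆ := by
    rw [M, lc]; exact comm_congr hk rfl ((map_lift hπ _).trans hbc.symm)
  have eR : M hπ i g j (t * u) v = ⁅⁅a, b⁆, c⁆ := by
    rw [M, lc]; exact comm_congr hk ((map_lift hπ _).trans hd.symm) rfl
  have hac : a * c = c * a := lift_comm hπ hk hn e3 e4 hih hgj hij hhg (map_lift hπ _) (map_lift hπ _)
  have hdbc : ⁅a, b⁆ * ⁅b, c⁆ = ⁅b, c⁆ * ⁅a, b⁆ := lift_comm hπ hk hn e3 e4 hig hhj hij hhg.symm hd hbc
  have hdc : π ⁅⁅a, b⁆, c⁆ = (slRels K n).x i j (t * u * v) := by rw [← eR]; exact map_M hπ hig hgj hij _ _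
  have hRbc : ⁅b, c⁆ * ⁅⁅a, b⁆, c⁆ = ⁅⁅a, b⁆, c⁆ * ⁅b, c⁆ := lift_comm hπ hk hn e3 e4 hhj hij hhj hij.symm hbc hdc
  rw [eL, eR]
  calc ⁅a, ⁅b, c⁆⁆ = ⁅a * b * a⁻¹, a * c * a⁻¹⁆ * ⁅b, c⁆⁻¹ := by simp [commutatorElement_def, mul_assoc]
    _ = ⁅⁅a, b⁆ * b, c⁆ * ⁅b, c⁆⁻¹ := by
      rw [hac, mul_inv_cancel_right, show a * b * a⁻¹ = ⁅a, b⁆ * b by simp [commutatorElement_def]]
    _ = ⁅a, b⁆ * ⁅b, c⁆ * ⁅a, b⁆⁻¹ * ⁅⁅a, b⁆, c⁆ * ⁅b, c⁆⁻¹ := by simp [commutatorElement_def, mul_assoc]
    _ = ⁅⁅a, b⁆, c⁆ := by rw [hdbc, mul_inv_cancel_right, hRbc, mul_inv_cancel_right]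

include hk hn e3 e4 in
theorem M_assoc {i h j : Fin n} (h1 : i ≠ h) (h2 : h ≠ j) (h3 : i ≠ j) (t u v : K) :
    M hπ i h j (t * u) v = M hπ i h j t (u * v) := by
  classical
  by_cases hg : ∃ g, g ≠ i ∧ g ≠ h ∧ g ≠ j
  · obtain ⟨g, g1, g2, g3⟩ := hg
    have e := M_cross hπ hk hn e3 e4 h1 g1.symm h3 g2.symm h2 g3 t u v
    have e' := M_cross hπ hk hn e3 e4 h1 g1.symm h3 g2.symm h2 g3 (t * u) 1 v
    rw [one_mul, mul_one] at e'
    rw [e', ← e]
  have hsub : (Finset.univ : Finset (Fin n)) ⊆ {i, h, j} := fun x _ => by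
    simp only [Finset.mem_insert, Finset.mem_singleton]
    by_contra hc
    push Not at hc
    exact hg ⟨x, hc⟩
  have hcard := (Finset.card_le_card hsub).trans Finset.card_le_three
  rw [Finset.card_univ, Fintype.card_fin] at hcard
  obtain ⟨hK2, hK4⟩ := e3 (le_antisymm hcard hn)
  obtain ⟨μ, hμ0, hμ1⟩ := exists_ne_zero_one hK2
  let T : Subring K :=
    { carrier := {u | ∀ t v, M hπ i h j (t * u) v = M hπ i h j t (u * v)}
      one_mem' := fun t v => by rw [mul_one, one_mul]
      zero_mem' := fun t v => by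
        have e1 := M_add_left hπ hk hn e3 e4 h1 h2 h3 0 0 v
        have e2 := M_add_right hπ hk hn e3 e4 h1 h2 h3 t 0 0
        rw [add_zero] at e1 e2
        rw [mul_zero, zero_mul, left_eq_mul.1 e1, left_eq_mul.1 e2]
      mul_mem' := fun {p q} hp hq t v => by
        rw [← mul_assoc, hq (t * p) v, hp t (q * v), mul_assoc]
      add_mem' := fun {p q} hp hq t v => by
        rw [mul_add, add_mul, M_add_left hπ hk hn e3 e4 h1 h2 h3, M_add_right hπ hk hn e3 e4 h1 h2 h3, hp t v, hq t v]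
      neg_mem' := fun {p} hp t v => by
        have z1 : M hπ i h j 0 v = 1 := by
          have e := M_add_left hπ hk hn e3 e4 h1 h2 h3 0 0 v
          rw [add_zero] at e
          exact left_eq_mul.1 e
        have z2 : M hπ i h j t 0 = 1 := by
          have e := M_add_right hπ hk hn e3 e4 h1 h2 h3 t 0 0
          rw [add_zero] at e
          exact left_eq_mul.1 e
        have e1 := M_add_left hπ hk hn e3 e4 h1 h2 h3 (t * -p) (t * p) v
        have e2 := M_add_right hπ hk hn e3 e4 h1 h2 h3 t (-p * v) (p * v)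
        rw [mul_neg, neg_add_cancel, z1] at e1
        rw [neg_mul, neg_add_cancel, z2] at e2
        rw [mul_neg, neg_mul, eq_inv_of_mul_eq_one_left e1.symm, eq_inv_of_mul_eq_one_left e2.symm, hp t v] }
  refine eq_univ_of_cubes hK4 T (fun w hw => ?_) u t v
  show ∀ t v, M hπ i h j (t * w ^ 3) v = M hπ i h j t (w ^ 3 * v)
  have hg0 : ∀ s, ((slRels K n).H i h w * (slRels K n).H j h w) * (slRels K n).x i j s * ((slRels K n).H i h w * (slRels K n).H j h w)⁻¹ = (slRels K n).x i j s := fun s => by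
    rw [Rels.conj_two, (slRels K n).H_conj_ki h2.symm h1.symm h3.symm hw,
      (slRels K n).H_conj_ik h1 h2 h3 hw, ← mul_assoc, mul_inv_cancel₀ hw, one_mul]
  have hd : ∀ s, (slRels K n).H i h μ * (slRels K n).x i j s * ((slRels K n).H i h μ)⁻¹ = (slRels K n).x i j (μ * s) := fun s =>
    (slRels K n).H_conj_ik h1 h2 h3 hμ0 s
  have hgd : (slRels K n).H i h μ * ((slRels K n).H i h w * (slRels K n).H j h w) * ((slRels K n).H i h μ)⁻¹ = (slRels K n).H i h w * (slRels K n).H j h w := by
    rw [mul_inv_eq_iff_eq_mul, slH_eq h1 hμ0, slH_eq h1 hw, slH_eq h2.symm hw]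
    apply Subtype.ext
    simp only [Matrix.SpecialLinearGroup.coe_mul, Matrix.SpecialLinearGroup.diag2n_coe, Matrix.diagonal_mul_diagonal]
    congr 1
    ext r
    ring
  have hcg : ∀ s, ((slRels K n).H i h w * (slRels K n).H j h w) * (slRels K n).x i j s = (slRels K n).x i j s * ((slRels K n).H i h w * (slRels K n).H j h w) := fun s =>
    mul_inv_eq_iff_eq_mul.1 (hg0 s)
  have hχ : ∀ s, lc hπ ((slRels K n).H i h w * (slRels K n).H j h w) ((slRels K n).x i j s) = 1 := fun s => by
    refine biadd_zero_of_weight (fun _ b : K => lc hπ ((slRels K n).H i h w * (slRels K n).H j h w) ((slRels K n).x i j b))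
      (fun _ b b' => by rw [← (slRels K n).add i j h3, lc_add_right hπ hk (hcg b')])
      (fun _ b b' => lc_comm_central hπ hk (hcg b) _) hμ1 (fun _ b => ?_) 0 s
    have e := lc_conj_invariant hπ hk (hcg b) ((slRels K n).H i h μ)
    rw [hgd, hd] at e
    exact e
  have hinv : ∀ t v, M hπ i h j (w ^ 3 * t) ((w ^ 3)⁻¹ * v) = M hπ i h j t v := fun t v => by
    have hfix := lift_commute hπ hk (a := lift hπ ((slRels K n).H i h w * (slRels K n).H j h w)) (b := M hπ i h j t v)
      (by rw [map_lift, map_M hπ h1 h2 h3]; exact hχ _)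
    have e := lc_conj hπ hk (lift hπ ((slRels K n).H i h w * (slRels K n).H j h w)) ((slRels K n).x i h t) ((slRels K n).x h j v)
    change _ * M hπ i h j t v * _ = _ at e
    rw [hfix, mul_inv_cancel_right, map_lift, Rels.conj_two, Rels.conj_two,
      (slRels K n).H_conj_kj h2.symm h1.symm h3.symm hw,
      Rels.H_conj_self (slRels K n) h1 h2 h3 hw, Rels.H_conj_opp (slRels K n) h2.symm h1.symm h3.symm hw,
      (slRels K n).H_conj_jk h1 h2 h3 hw] at e
    rw [e, M]
    congr 2
    · ring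
    · field_simp
  intro t v
  rw [← hinv t (w ^ 3 * v), inv_mul_cancel_left₀ (pow_ne_zero _ hw), mul_comm]

include hπ hk hn e3 e4 in
theorem exists_rels : ∃ R : Rels E (Fin n) K, ∀ i j t, i ≠ j → π (R.x i j t) = (slRels K n).x i j t := by
  classical
  have h3 : ∀ i j : Fin n, ∃ k, k ≠ i ∧ k ≠ j := Cfsg.Agent.Linear.exists_ne_ne_of_card (by simpa using hn)
  choose mid hm1 hm2 using h3
  let y : Fin n → Fin n → K → E := fun i j t => M hπ i (mid i j) j t 1
  have hy : ∀ {i j}, i ≠ j → ∀ t, π (y i j t) = (slRels K n).x i j t := fun {i j} h t => by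
    rw [map_M hπ (hm1 i j).symm (hm2 i j) h, mul_one]
  refine ⟨⟨y, fun i j h t u => (M_add_left hπ hk hn e3 e4 (hm1 i j).symm (hm2 i j) h t u 1).symm,
    fun i j k l h1 h2 h5 h6 t u => lift_comm hπ hk hn e3 e4 h1 h2 h5 h6 (hy h1 t) (hy h2 u),
    fun i h j h1 h2 h5 t u => ?_⟩, fun i j t h => hy h t⟩
  rw [comm_congr hk ((hy h1 t).trans (map_lift hπ _).symm) ((hy h2 u).trans (map_lift hπ _).symm)]
  show M hπ i h j t u = M hπ i (mid i j) j (t * u) 1
  by_cases he : h = mid i j
  · subst he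
    rw [M_assoc hπ hk hn e3 e4 h1 h2 h5, mul_one]
  · have e := M_cross hπ hk hn e3 e4 h1 (hm1 i j).symm h5 he h2 (hm2 i j) t u 1
    rwa [mul_one] at e

end Lift

/-- the special linear groups split every central extension -/
theorem splits_SL {K : Type u} [Field K] [Finite K] {n : ℕ} (hn : 3 ≤ n)
    (e3 : n = 3 → Nat.card K ≠ 2 ∧ Nat.card K ≠ 4) (e4 : n = 4 → Nat.card K ≠ 2) :
    StLift.Splits.{u, v} (SpecialLinearGroup (Fin n) K) := by
  intro E _ π hπ hk
  obtain ⟨R, hR⟩ := exists_rels hπ hk hn e3 e4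
  obtain ⟨s, hs⟩ := exists_section hn R
  have : Nontrivial (Fin n) := Fin.nontrivial_iff_two_le.2 (le_trans (by norm_num) hn)
  refine ⟨s, fun x => Cfsg.Agent.Linear.transvection_induction (fun x => π (s x) = x) (fun i j h c => ?_)
    (fun A B hA hB => by rw [map_mul, map_mul, hA, hB]) x⟩
  rw [hs i j h, hR i j c h, slRels_x h]

end Cfsg.Agent.Suzuki.SLSt
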