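import Cfsg.Agent.Suzuki.SpStep
import Mathlib

/-!
Sections from lifted root elements.
-/

set_option autoImplicit false

namespace Cfsg.Agent.Suzuki.SpSt

universe u v

variable {m : ℕ} {F : Type u} [Field F] {E : Type v} [Group E]

theorem exists_section_of_rels {π : E →* Matrix.symplecticGroup (Fin m) F} (R : Rels π) :
    ∃ s : Matrix.symplecticGroup (Fin m) F →* E, ∀ x, π (s x) = x := by
  let φ : R.U Finset.univ →* Matrix.symplecticGroup (Fin m) F := π.comp (R.U Finset.univ).subtype
  have hinj : Function.Injective φ :=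
    (injective_iff_map_eq_one φ).2 fun g hg => Subtype.ext (R.eq_one_of_map_eq_one g.2 hg)
  have hsurj : Function.Surjective φ := fun x => by
    obtain ⟨g, hg, e'⟩ := R.exists_lift_U (t := Finset.univ) (g := x) (by rw [Ys_univ]; trivial)
    exact ⟨⟨g, hg⟩, e'⟩
  let e := MulEquiv.ofBijective φ ⟨hinj, hsurj⟩
  exact ⟨(R.U Finset.univ).subtype.comp e.symm.toMonoidHom, fun x => e.apply_symm_apply x⟩

end Cfsg.Agent.Suzuki.SpSt
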