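import Mathlib

/-!
Groups generated by a chain of involutions with braid relations have at most factorial order.
-/

set_option autoImplicit false

namespace Cfsg.Agent.Suzuki

variable {G : Type*} [Group G]

/-- the product of a segment of the chain -/
def chainSeg (s : ℕ → G) (k : ℕ) (l : ℕ) : G :=
  if h : l ≤ k then s l * chainSeg s k (l + 1) else 1
  termination_by k + 1 - l
  decreasing_by omega

theorem chainSeg_le (s : ℕ → G) {k l : ℕ} (h : l ≤ k) : chainSeg s k l = s l * chainSeg s k (l + 1) := by
  rw [chainSeg, dif_pos h]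

theorem chainSeg_gt (s : ℕ → G) {k l : ℕ} (h : k < l) : chainSeg s k l = 1 := by
  rw [chainSeg, dif_neg (by omega)]

theorem chain_card (s : ℕ → G) : ∀ n : ℕ, (∀ i, i < n → s i * s i = 1) →
    (∀ i j, i + 1 < j → j < n → s i * s j = s j * s i) →
    (∀ i, i + 1 < n → s i * s (i + 1) * s i = s (i + 1) * s i * s (i + 1)) →
    Finite ↥(Subgroup.closure (s '' {i | i < n})) ∧
      Nat.card ↥(Subgroup.closure (s '' {i | i < n})) ≤ (n + 1).factorial := by
  intro n
  induction n with
  | zero =>
    intro _ _ _
    have e : s '' {i | i < 0} = (∅ : Set G) := by simp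
    rw [e, Subgroup.closure_empty]
    exact ⟨inferInstance, by simp⟩
  | succ k ih =>
    intro hsq hcm hbr
    obtain ⟨hfin, hcard⟩ := ih (fun i hi => hsq i (by omega)) (fun i j h1 h2 => hcm i j h1 (by omega))
      (fun i hi => hbr i (by omega))
    set W := Subgroup.closure (s '' {i | i < k}) with hW
    have hsW : ∀ i, i < k → s i ∈ W := fun i hi => Subgroup.subset_closure ⟨i, hi, rfl⟩
    have low : ∀ d l i, k + 1 - l ≤ d → i + 1 < l → s i * chainSeg s k l = chainSeg s k l * s i := by
      intro d
      induction d with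
      | zero => intro l i h1 _; rw [chainSeg_gt s (by omega), mul_one, one_mul]
      | succ d ihd =>
        intro l i h1 h2
        by_cases h : l ≤ k
        · rw [chainSeg_le s h, ← mul_assoc, hcm i l h2 (by omega), mul_assoc, ihd (l + 1) i (by omega) (by omega),
            mul_assoc]
        · rw [chainSeg_gt s (by omega), mul_one, one_mul]
    have high : ∀ d l i, i - l ≤ d → l < i → i ≤ k → s i * chainSeg s k l = chainSeg s k l * s (i - 1) := by
      intro d
      induction d with
      | zero => intro l i h1 h2 _; omega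
      | succ d ihd =>
        intro l i h1 h2 h3
        by_cases h : l + 1 = i
        · subst h
          rw [chainSeg_le s (by omega : l ≤ k), chainSeg_le s h3, Nat.add_sub_cancel]
          have e1 := low (k + 1) (l + 1 + 1) l (by omega) (by omega)
          calc s (l + 1) * (s l * (s (l + 1) * chainSeg s k (l + 1 + 1)))
              = (s (l + 1) * s l * s (l + 1)) * chainSeg s k (l + 1 + 1) := by group
            _ = (s l * s (l + 1) * s l) * chainSeg s k (l + 1 + 1) := by rw [hbr l (by omega)]
            _ = s l * s (l + 1) * (s l * chainSeg s k (l + 1 + 1)) := by group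
            _ = _ := by rw [e1]; group
        · rw [chainSeg_le s (by omega : l ≤ k), ← mul_assoc, ← hcm l i (by omega) (by omega), mul_assoc,
            ihd (l + 1) i (by omega) (by omega) h3, mul_assoc]
    have closed : ∀ i, i < k + 1 → ∀ l, l ≤ k + 1 → ∃ l', l' ≤ k + 1 ∧ ∃ w ∈ W, s i * chainSeg s k l = chainSeg s k l' * w := by
      intro i hi l hl
      by_cases h1 : i + 1 < l
      · exact ⟨l, hl, s i, hsW i (by omega), low (k + 1) l i (by omega) h1⟩
      by_cases h2 : i + 1 = l
      · subst h2
        exact ⟨i, by omega, 1, one_mem _, by rw [mul_one, chainSeg_le s (by omega : i ≤ k)]⟩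
      by_cases h3 : i = l
      · subst h3
        exact ⟨i + 1, by omega, 1, one_mem _, by
          rw [mul_one, chainSeg_le s (by omega : i ≤ k), ← mul_assoc, hsq i hi, one_mul]⟩
      exact ⟨l, hl, s (i - 1), hsW _ (by omega), high (k + 1) l i (by omega) (by omega) (by omega)⟩
    set V := Subgroup.closure (s '' {i | i < k + 1}) with hV
    have hmem : ∀ g ∈ V, ∃ l, l ≤ k + 1 ∧ ∃ w ∈ W, g = chainSeg s k l * w := by
      intro g hg
      induction hg using Subgroup.closure_induction_left with
      | one => exact ⟨k + 1, le_rfl, 1, one_mem _, by rw [chainSeg_gt s (by omega), one_mul]⟩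
      | mul_left x hx y _ ihy =>
        obtain ⟨i, hi, rfl⟩ := hx
        obtain ⟨l, hl, w, hw, rfl⟩ := ihy
        obtain ⟨l', hl', w', hw', e⟩ := closed i hi l hl
        exact ⟨l', hl', w' * w, mul_mem hw' hw, by rw [← mul_assoc, e, mul_assoc]⟩
      | inv_mul_cancel x hx y _ ihy =>
        obtain ⟨i, hi, rfl⟩ := hx
        rw [inv_eq_of_mul_eq_one_right (hsq i hi)]
        obtain ⟨l, hl, w, hw, rfl⟩ := ihy
        obtain ⟨l', hl', w', hw', e⟩ := closed i hi l hl
        exact ⟨l', hl', w' * w, mul_mem hw' hw, by rw [← mul_assoc, e, mul_assoc]⟩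
    have hWV : W ≤ V := Subgroup.closure_mono (Set.image_mono fun i (hi : i < k) => Nat.lt_succ_of_lt hi)
    have hseg : ∀ d l, k + 1 - l ≤ d → chainSeg s k l ∈ V := by
      intro d
      induction d with
      | zero => intro l h; rw [chainSeg_gt s (by omega)]; exact one_mem _
      | succ d ihd =>
        intro l h
        by_cases hl : l ≤ k
        · rw [chainSeg_le s hl]
          exact mul_mem (Subgroup.subset_closure ⟨l, by simp; omega, rfl⟩) (ihd (l + 1) (by omega))
        · rw [chainSeg_gt s (by omega)]; exact one_mem _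
    let f : Fin (k + 2) × W → V := fun p => ⟨chainSeg s k p.1.val * p.2.1, mul_mem (hseg (k + 1) _ (by omega)) (hWV p.2.2)⟩
    have hf : Function.Surjective f := by
      rintro ⟨g, hg⟩
      obtain ⟨l, hl, w, hw, rfl⟩ := hmem g hg
      exact ⟨(⟨l, by omega⟩, ⟨w, hw⟩), rfl⟩
    refine ⟨Finite.of_surjective f hf, (Nat.card_le_card_of_surjective f hf).trans ?_⟩
    rw [Nat.card_prod, Nat.card_fin, Nat.factorial_succ (k + 1)]
    exact Nat.mul_le_mul_left _ hcard

end Cfsg.Agent.Suzuki
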