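import Cfsg.Agent.Suzuki.SpInjective
import Cfsg.Agent.Suzuki.SpBlock
import Cfsg.Agent.Suzuki.SpLift
import Cfsg.Agent.Suzuki.CoxeterBound
import Cfsg.Agent.S0247
import Mathlib

/-!
Lifting the symplectic transvections through central extensions over the field with two elements.
-/

set_option autoImplicit false

namespace Cfsg.Agent.Suzuki.SpSt

open Matrix
open Cfsg.Agent.KnownB.Proj.Symp
open scoped commutatorElement

universe u v

variable {m : ℕ} {F : Type u} [Field F] {E : Type v} [Group E]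

local notation "Vm" => (Fin m ⊕ Fin m → F)
local notation "Spm" => Matrix.symplecticGroup (Fin m) F
local notation "B" => Cfsg.sympForm m F

theorem comm_fixes {π : E →* Matrix.symplecticGroup (Fin m) F} (hk : π.ker ≤ Subgroup.center E) {A A' t : E}
    (hA : π A * π t = π t * π A) (hA' : π A' * π t = π t * π A') : ⁅A, A'⁆ * t = t * ⁅A, A'⁆ := by
  have hc : ∀ A : E, π A * π t = π t * π A → ∀ x, x * ⁅A, t⁆ = ⁅A, t⁆ * x := fun A hA =>
    StLift.central_of_map_one hk (by rw [map_commutatorElement, commutatorElement_eq_one_iff_mul_comm.2 hA])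
  have hi : ∀ A : E, π A * π t = π t * π A → π A⁻¹ * π t = π t * π A⁻¹ := fun A hA => by
    rw [map_inv]
    exact ((show Commute (π A) (π t) from hA).inv_left).eq
  have cj : ∀ A u : E, π A * π t = π t * π A → (∀ x, x * u = u * x) → A * (u * t) * A⁻¹ = u * ⁅A, t⁆ * t := by
    intro A u hA hu
    rw [← mul_assoc A u t, hu A]
    simp [commutatorElement_def, mul_assoc]
  have hinv : ∀ A : E, π A * π t = π t * π A → ⁅A⁻¹, t⁆ = ⁅A, t⁆⁻¹ := fun A hA => by
    apply eq_inv_of_mul_eq_one_left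
    calc ⁅A⁻¹, t⁆ * ⁅A, t⁆ = A⁻¹ * (t * (A * (t⁻¹ * ⁅A, t⁆))) := by simp [commutatorElement_def, mul_assoc]
      _ = A⁻¹ * (⁅A, t⁆ * (t * (A * t⁻¹))) := by
          rw [hc A hA t⁻¹, ← mul_assoc A ⁅A, t⁆, hc A hA A, mul_assoc, ← mul_assoc t ⁅A, t⁆, hc A hA t, mul_assoc]
      _ = 1 := by rw [commutatorElement_def]; group
  have u1 : ∀ x, x * ⁅A', t⁆⁻¹ = ⁅A', t⁆⁻¹ * x := fun x => by rw [← hinv A' hA']; exact hc _ (hi _ hA') x
  have u2 : ∀ x, x * (⁅A', t⁆⁻¹ * ⁅A, t⁆⁻¹) = ⁅A', t⁆⁻¹ * ⁅A, t⁆⁻¹ * x := fun x => by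
    rw [← mul_assoc, u1 x, mul_assoc, ← hinv A hA, hc _ (hi _ hA) x, mul_assoc]
  have u3 : ∀ x, x * (⁅A', t⁆⁻¹ * ⁅A, t⁆⁻¹ * ⁅A', t⁆) = ⁅A', t⁆⁻¹ * ⁅A, t⁆⁻¹ * ⁅A', t⁆ * x := fun x => by
    rw [← mul_assoc, u2 x, mul_assoc, hc _ hA' x]; simp only [mul_assoc]
  have : ⁅A, A'⁆ * t * ⁅A, A'⁆⁻¹ = t := by
    calc ⁅A, A'⁆ * t * ⁅A, A'⁆⁻¹ = A * (A' * (A⁻¹ * (A'⁻¹ * (1 * t) * A'⁻¹⁻¹) * A⁻¹⁻¹) * A'⁻¹) * A⁻¹ := by
          simp [commutatorElement_def, mul_assoc]
      _ = _ := by
          rw [cj A'⁻¹ 1 (hi _ hA') (by simp), one_mul, hinv A' hA', cj A⁻¹ _ (hi _ hA) u1, hinv A hA,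
            cj A' _ hA' u2, cj A _ hA u3]
          rw [mul_assoc (⁅A', t⁆⁻¹ : E) ⁅A, t⁆⁻¹ ⁅A', t⁆, hc A' hA' ⁅A, t⁆⁻¹]
          group
  exact mul_inv_eq_iff_eq_mul.1 this

theorem e_two (hF2 : ∀ x : F, x = 0 ∨ x = 1) : (2 : F) = 0 ∧ ∀ p : Fin m ⊕ Fin m, (sg p : F) = 1 := by
  have h2 : (2 : F) = 0 := (hF2 2).resolve_right fun h => one_ne_zero (by linear_combination h : (1 : F) = 0)
  refine ⟨h2, fun p => ?_⟩
  exact (hF2 (sg p)).resolve_left (sg_ne p)

theorem T_two (hF2 : ∀ x : F, x = 0 ∨ x = 1) (v : Vm) : T v (-1 : F) = (T v 1 : Spm) := by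
  rw [show (-1 : F) = 1 by linear_combination -(e_two (m := m) hF2).1]

/-- the product of three transvections in a short root -/
theorem S_two (hF2 : ∀ x : F, x = 0 ∨ x = 1) (u w : Vm) : (S u w 1 : Spm) = T (u + w) 1 * T u 1 * T w 1 := by
  rw [S, T_two hF2, T_two hF2]

theorem e_add_ne {p r : Fin m ⊕ Fin m} (h : p ≠ r) : (e p + e r : Vm) ≠ 0 := by
  intro h0
  have := congrFun h0 p
  rw [Pi.add_apply, e_self, e_ne h, add_zero, Pi.zero_apply] at this
  exact one_ne_zero this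

theorem supp_pull {t : Finset (Fin m)} {g : Spm} {w : Vm}
    (h : ∀ k : Fin m ⊕ Fin m, cls k ∉ t → B (g.1 *ᵥ e (bar k)) w = 0) : Supp t ((g⁻¹).1 *ᵥ w) := by
  intro k hk
  rw [coord_eq ((g⁻¹).1 *ᵥ w) k, ← sp_B g, sp_mulVec_inv, h k hk, mul_zero]

theorem exists_rels_two [Fintype F] (hm : 4 ≤ m) (hq : Fintype.card F = 2) (π : E →* Matrix.symplecticGroup (Fin m) F)
    (hπ : Function.Surjective π) (hk : π.ker ≤ Subgroup.center E) : Nonempty (Rels π) := by
  classical
  obtain ⟨k, rfl⟩ : ∃ k, m = k + 1 := ⟨m - 1, by omega⟩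
  have hF2 : ∀ x : F, x = 0 ∨ x = 1 := fun x => by
    by_contra hc
    push Not at hc
    have : ({0, 1, x} : Finset F).card = 3 := by simp [hc.1.symm, hc.2.symm]
    have := Finset.card_le_univ ({0, 1, x} : Finset F)
    omega
  obtain ⟨h2, hsg⟩ := e_two (m := k + 1) hF2
  let T1 : (Fin (k + 1) ⊕ Fin (k + 1) → F) → Matrix.symplecticGroup (Fin (k + 1)) F := fun v => T v 1
  let A : Fin (k + 1) ⊕ Fin (k + 1) := Sum.inl 0
  obtain ⟨t0, ht0⟩ := hπ (T1 (e A))
  let C : Subgroup (Matrix.symplecticGroup (Fin (k + 1)) F) := (Subgroup.centralizer {t0}).map π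
  have hC : ∀ {g : E}, π g ∈ C → g * t0 = t0 * g := by
    rintro g ⟨x, hx, e'⟩
    have hz := StLift.central_of_map_one hk (z := x⁻¹ * g) (by rw [map_mul, map_inv, e', inv_mul_cancel])
    rw [show g = x * (x⁻¹ * g) by group, mul_assoc, ← hz, ← mul_assoc, Subgroup.mem_centralizer_singleton_iff.1 hx, mul_assoc]
  have hCcomm : ∀ a b, a * T1 (e A) = T1 (e A) * a → b * T1 (e A) = T1 (e A) * b → ⁅a, b⁆ ∈ C := by
    intro a b ha hb
    obtain ⟨a', rfl⟩ := hπ a
    obtain ⟨b', rfl⟩ := hπ b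
    exact ⟨⁅a', b'⁆, Subgroup.mem_centralizer_singleton_iff.2 (comm_fixes hk (by rw [ht0]; exact ha) (by rw [ht0]; exact hb)),
      map_commutatorElement π a' b'⟩
  have hfix : ∀ g : E, (π g).1 *ᵥ e A = e A → g * t0 = t0 * g := by
    intro g hg
    apply hC
    have hA : cls A ∈ (Finset.univ : Finset (Fin (k + 1))) := Finset.mem_univ _
    obtain ⟨n, hn, h, hh, e'⟩ := stab_split hA (g := π g) (fun p hp => absurd (Finset.mem_univ _) hp) hg
    rw [e']
    refine mul_mem ?_ ?_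
    · revert n
      intro n hn _
      refine (Subgroup.closure_le _).2 ?_ hn
      rintro _ ⟨r, c, -, hne, rfl⟩
      rcases hF2 c with rfl | rfl
      · rw [Y_zero hne]; exact one_mem _
      by_cases hrA : A = r
      · subst hrA
        exact ⟨t0, Subgroup.mem_centralizer_singleton_iff.2 rfl, by rw [ht0, Y_long]⟩
      have hcl : cls A ≠ cls r := fun h => (eq_or_bar h).elim hrA (fun h' => hne (by rw [h', bar_bar]))
      obtain ⟨i, hi1, hi2⟩ : ∃ i : Fin (k + 1), i ≠ cls A ∧ i ≠ cls r := by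
        obtain ⟨i, hi⟩ := Finset.exists_mem_notMem_of_card_lt_card (s := ({cls A, cls r} : Finset (Fin (k + 1))))
          (t := Finset.univ) (lt_of_le_of_lt Finset.card_le_two (by rw [Finset.card_univ, Fintype.card_fin]; omega))
        exact ⟨i, fun h => hi.2 (by simp [h]), fun h => hi.2 (by simp [h])⟩
      let q : Fin (k + 1) ⊕ Fin (k + 1) := Sum.inl i
      have hq1 : cls A ≠ cls q := hi1.symm
      have hq2 : cls q ≠ cls r := hi2
      have hcm := Y_comm3 (F := F) hq1 hq2 hcl 1 1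
      rw [hsg, one_mul, one_mul] at hcm
      rw [← hcm]
      refine hCcomm _ _ ?_ ?_ <;> rw [← mul_inv_eq_iff_eq_mul, T_conj]
      · rw [Y_fix_e (ne_bar_of_cls hq1) 1 (bar_ne A).symm (fun h => hq1 (by rw [h, cls_bar]))]
      · rw [Y_fix_e (ne_bar_of_cls (by rw [cls_bar]; exact hq2)) 1 (by rw [bar_bar]; exact ne_of_cls hq1)
          (fun h => hcl (by rw [h, cls_bar]))]
    · have hperf : commutator (Matrix.symplecticGroup (Fin k) F) = ⊤ := Cfsg.Agent.S0269.result k (Or.inl (by omega))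
      have himg : Finset.univ.image (Fin.succ : Fin k → Fin (k + 1)) = Finset.univ.erase (cls A) := by
        ext x
        simp only [Finset.mem_image, Finset.mem_univ, true_and, Finset.mem_erase, and_true]
        exact ⟨fun ⟨y, hy⟩ => hy ▸ Fin.succ_ne_zero y, fun hx => Fin.exists_succ_eq_of_ne_zero hx⟩
      rw [← himg, ← range_ext (F := F) Fin.succ (Fin.succ_injective k)] at hh
      obtain ⟨x, rfl⟩ := hh
      have hx : x ∈ commutator (Matrix.symplecticGroup (Fin k) F) := by rw [hperf]; trivial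
      have hfixA : ∀ y, (ext (F := F) Fin.succ (Fin.succ_injective k) y).1 *ᵥ e A = e A := fun y => by
        have : ext (F := F) Fin.succ (Fin.succ_injective k) y ∈ spOn (Finset.univ.image (Fin.succ : Fin k → Fin (k + 1))) := by
          rw [← range_ext (F := F) Fin.succ (Fin.succ_injective k)]; exact ⟨y, rfl⟩
        exact this A (by rw [himg]; exact Finset.notMem_erase _ _)
      suffices commutator (Matrix.symplecticGroup (Fin k) F) ≤ C.comap (ext (F := F) Fin.succ (Fin.succ_injective k)) from this hx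
      rw [commutator_def, Subgroup.commutator_le]
      intro a _ b _
      show ext (F := F) Fin.succ (Fin.succ_injective k) ⁅a, b⁆ ∈ C
      rw [map_commutatorElement]
      refine hCcomm _ _ ?_ ?_ <;> rw [← mul_inv_eq_iff_eq_mul, T_conj, hfixA]
  have hg : ∀ v : Fin (k + 1) ⊕ Fin (k + 1) → F, v ≠ 0 → ∃ G : E, (π G).1 *ᵥ e A = v := fun v hv => by
    obtain ⟨g, -, eg⟩ := trans_vec (b := A) (t := Finset.univ) (Finset.mem_univ _)
      (fun p hp => absurd (Finset.mem_univ _) hp) hv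
    obtain ⟨G, rfl⟩ := hπ g
    exact ⟨G, eg⟩
  choose G hG using hg
  let y0 : (Fin (k + 1) ⊕ Fin (k + 1) → F) → E := fun v => if hv : v = 0 then 1 else G v hv * t0 * (G v hv)⁻¹
  have y0map : ∀ v, v ≠ 0 → π (y0 v) = T1 v := fun v hv => by
    simp only [y0, dif_neg hv]
    rw [map_mul, map_mul, map_inv, ht0, T_conj, hG v hv]
  have y0conj : ∀ (x : E) v, v ≠ 0 → x * y0 v * x⁻¹ = y0 ((π x).1 *ᵥ v) := by
    intro x v hv
    have hv' : (π x).1 *ᵥ v ≠ 0 := sp_mulVec_ne _ hv
    simp only [y0, dif_neg hv, dif_neg hv']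
    have := hfix ((G _ hv')⁻¹ * (x * G v hv)) (by
      rw [map_mul, map_inv, map_mul, sp_mul_mulVec, sp_mul_mulVec, hG v hv]
      have e1 := congrArg (fun u => ((π (G _ hv'))⁻¹).1 *ᵥ u) (hG _ hv')
      simp only [sp_inv_mulVec] at e1
      exact e1.symm)
    rw [← mul_inv_eq_iff_eq_mul] at this
    conv_rhs => rw [← this]
    group
  let z0 := t0 * t0
  have hz0 : ∀ x : E, x * z0 = z0 * x := StLift.central_of_map_one hk (by
    rw [map_mul, ht0, T_add, show (1 : F) + 1 = 0 by linear_combination h2, T_zero])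
  have y0sq : ∀ v, v ≠ 0 → y0 v * y0 v = z0 := fun v hv => by
    simp only [y0, dif_neg hv]
    rw [show G v hv * t0 * (G v hv)⁻¹ * (G v hv * t0 * (G v hv)⁻¹) = G v hv * z0 * (G v hv)⁻¹ by
      simp only [z0]; group, hz0, mul_inv_cancel_right]
  have y0comm : ∀ u v, u ≠ 0 → v ≠ 0 → Cfsg.sympForm (k + 1) F u v = 0 → y0 u * y0 v = y0 v * y0 u := by
    intro u v hu hv huv
    rw [← mul_inv_eq_iff_eq_mul, y0conj _ v hv, y0map u hu, T_mulVec, B_swap, huv, neg_zero, mul_zero, zero_smul, add_zero]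
  let p1 : Fin (k + 1) ⊕ Fin (k + 1) := A
  let r1 : Fin (k + 1) ⊕ Fin (k + 1) := Sum.inl ⟨1, by omega⟩
  let s1 : Fin (k + 1) ⊕ Fin (k + 1) := Sum.inl ⟨2, by omega⟩
  have c12 : cls p1 ≠ cls r1 := by simp [p1, r1, A, cls, Fin.ext_iff]
  have c23 : cls r1 ≠ cls s1 := by simp [r1, s1, cls, Fin.ext_iff]
  have c13 : cls p1 ≠ cls s1 := by simp [p1, s1, A, cls, Fin.ext_iff]
  have c23' : cls (bar r1) ≠ cls s1 := by rwa [cls_bar]
  let X0 : Fin (k + 1) ⊕ Fin (k + 1) → Fin (k + 1) ⊕ Fin (k + 1) → E := fun p r => y0 (e p + e r) * y0 (e p) * y0 (e r)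
  have X0map : ∀ {p r}, cls p ≠ cls r → π (X0 p r) = Y p r 1 := fun {p r} h => by
    rw [Y_short (ne_of_cls h), S_two hF2]
    simp only [X0, map_mul, y0map _ (e_add_ne (ne_of_cls h)), y0map _ (e_ne_zero _)]
    rfl
  let M := ⁅X0 p1 r1, X0 (bar r1) s1⁆
  let z := M * (X0 p1 s1)⁻¹
  have hz : ∀ x : E, x * z = z * x := StLift.central_of_map_one hk (by
    simp only [z, M]
    rw [map_mul, map_inv, map_commutatorElement, X0map c12, X0map c23', X0map c13, Y_comm3 c12 c23 c13, hsg, one_mul,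
      one_mul, mul_inv_cancel])
  have orth : ∀ {p r}, r ≠ bar p → Cfsg.sympForm (k + 1) F (e p) (e r : Fin (k + 1) ⊕ Fin (k + 1) → F) = 0 := fun h => B_e_e h
  have Xcomm : ∀ {p r s}, cls p ≠ cls r → cls r ≠ cls s → cls p ≠ cls s → Commute (X0 p r) (X0 p s) := by
    intro p r s h1 h2 h3
    have o : ∀ {u v}, u ≠ 0 → v ≠ 0 → Cfsg.sympForm (k + 1) F u v = 0 → Commute (y0 u) (y0 v) := fun hu hv h => y0comm _ _ hu hv h
    have b1 := orth (ne_bar_of_cls h1)
    have b2 := orth (ne_bar_of_cls h1.symm)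
    have b3 := orth (ne_bar_of_cls h2)
    have b4 := orth (ne_bar_of_cls h3)
    have b5 := B_self (e p : Fin (k + 1) ⊕ Fin (k + 1) → F)
    have n1 := e_add_ne (F := F) (ne_of_cls h1)
    have n2 := e_add_ne (F := F) (ne_of_cls h3)
    have n3 := e_ne_zero (F := F) p
    have n4 := e_ne_zero (F := F) r
    have n5 := e_ne_zero (F := F) s
    have q1 : Commute (y0 (e p + e r)) (X0 p s) :=
      ((o n1 n2 (by simp [B_add_left, B_add_right, b2, b3, b4, b5])).mul_right
        (o n1 n3 (by simp [B_add_left, b2, b5]))).mul_right (o n1 n5 (by simp [B_add_left, b3, b4]))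
    have q2 : Commute (y0 (e p)) (X0 p s) :=
      ((o n3 n2 (by simp [B_add_right, b4, b5])).mul_right (o n3 n3 b5)).mul_right (o n3 n5 b4)
    have q3 : Commute (y0 (e r)) (X0 p s) :=
      ((o n4 n2 (by simp [B_add_right, b2, b3])).mul_right (o n4 n3 b2)).mul_right (o n4 n5 b3)
    exact (q1.mul_left q2).mul_left q3
  have M2 : M * M = 1 := by
    have hM : M = z * X0 p1 s1 := (inv_mul_cancel_right _ _).symm
    have hAM : X0 p1 r1 * M = M * X0 p1 r1 := by
      have hh := ((show Commute (X0 p1 r1) z from hz _).mul_right (Xcomm c12 c23 c13)).eq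
      rwa [← hM] at hh
    have hcen : ∀ x : E, x * (X0 p1 r1 * X0 p1 r1) = (X0 p1 r1 * X0 p1 r1) * x := StLift.central_of_map_one hk (by
      rw [map_mul, X0map c12, Y_add (ne_bar_of_cls c12), show (1 : F) + 1 = 0 by linear_combination h2,
        Y_zero (ne_bar_of_cls c12)])
    have e1 : ⁅X0 p1 r1 * X0 p1 r1, X0 (bar r1) s1⁆ = 1 := by
      rw [commutatorElement_eq_one_iff_mul_comm, hcen]
    rw [show ⁅X0 p1 r1 * X0 p1 r1, X0 (bar r1) s1⁆ = X0 p1 r1 * M * (X0 p1 r1)⁻¹ * M by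
      simp [M, commutatorElement_def, mul_assoc], hAM, mul_inv_cancel_right] at e1
    exact e1
  have zz : z * z * (z0 * z0 * z0) = 1 := by
    have b : ∀ {p r}, r ≠ bar p → Cfsg.sympForm (k + 1) F (e p) (e r : Fin (k + 1) ⊕ Fin (k + 1) → F) = 0 := fun h => B_e_e h
    have hne := ne_bar_of_cls c13
    have o1 : Commute (y0 (e p1 + e s1)) (y0 (e p1)) := y0comm _ _ (e_add_ne (ne_of_cls c13)) (e_ne_zero _)
      (by rw [B_add_left, B_self, b (ne_bar_of_cls c13.symm), add_zero])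
    have o2 : Commute (y0 (e p1 + e s1)) (y0 (e s1)) := y0comm _ _ (e_add_ne (ne_of_cls c13)) (e_ne_zero _)
      (by rw [B_add_left, B_self, b hne, add_zero])
    have o3 : Commute (y0 (e p1)) (y0 (e s1)) := y0comm _ _ (e_ne_zero _) (e_ne_zero _) (b hne)
    have hX : X0 p1 s1 * X0 p1 s1 = z0 * z0 * z0 := by
      calc X0 p1 s1 * X0 p1 s1 = y0 (e p1 + e s1) * y0 (e p1) * (y0 (e s1) * y0 (e p1 + e s1)) * y0 (e p1) * y0 (e s1) := by
            simp only [X0]; group
        _ = y0 (e p1 + e s1) * (y0 (e p1) * y0 (e p1 + e s1)) * (y0 (e s1) * y0 (e p1)) * y0 (e s1) := by rw [← o2.eq]; group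
        _ = y0 (e p1 + e s1) * y0 (e p1 + e s1) * (y0 (e p1) * y0 (e p1)) * (y0 (e s1) * y0 (e s1)) := by
            rw [← o1.eq, ← o3.eq]; group
        _ = _ := by rw [y0sq _ (e_add_ne (ne_of_cls c13)), y0sq _ (e_ne_zero _), y0sq _ (e_ne_zero _)]
    rw [← hX, show z * z * (X0 p1 s1 * X0 p1 s1) = z * (z * X0 p1 s1) * X0 p1 s1 by group, ← hz (X0 p1 s1)]
    rw [show z * (X0 p1 s1 * z) * X0 p1 s1 = (z * X0 p1 s1) * (z * X0 p1 s1) by group,
      show z * X0 p1 s1 = M from inv_mul_cancel_right _ _]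
    exact M2
  let w := z * z0
  have hw : ∀ x : E, x * w = w * x := fun x => ((show Commute x z from hz x).mul_right (hz0 x)).eq
  let yv : (Fin (k + 1) ⊕ Fin (k + 1) → F) → E := fun v => y0 v * w
  have yvconj : ∀ (x : E) v, v ≠ 0 → x * yv v * x⁻¹ = yv ((π x).1 *ᵥ v) := fun x v hv => by
    simp only [yv]
    rw [← y0conj x v hv, show x * (y0 v * w) * x⁻¹ = x * y0 v * (w * x⁻¹) by group, ← hw]; group
  have hw1 : π w = 1 := by
    simp only [w, z, M, z0]
    rw [map_mul, map_mul, map_mul, map_inv, map_commutatorElement, X0map c12, X0map c23', X0map c13,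
      Y_comm3 c12 c23 c13, hsg, one_mul, one_mul, mul_inv_cancel, one_mul, ht0, T_add,
      show (1 : F) + 1 = 0 by linear_combination h2, T_zero]
  have yvmap : ∀ v, v ≠ 0 → π (yv v) = T1 v := fun v hv => by
    simp only [yv]; rw [map_mul, y0map v hv, hw1, mul_one]
  have yvsq : ∀ v, v ≠ 0 → yv v * yv v = 1 := fun v hv => by
    simp only [yv]
    rw [show y0 v * w * (y0 v * w) = y0 v * (w * y0 v) * w by group, ← hw,
      show y0 v * (y0 v * w) * w = y0 v * y0 v * (w * w) by group, y0sq v hv]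
    simp only [w]
    rw [show z * z0 * (z * z0) = z * (z0 * z) * z0 by group, ← hz0 z,
      show z0 * (z * (z * z0) * z0) = (z0 * (z * z)) * (z0 * z0) by group, ← hz0 (z * z),
      show z * z * z0 * (z0 * z0) = z * z * (z0 * z0 * z0) by group]
    exact zz
  have yvcomm : ∀ u v, u ≠ 0 → v ≠ 0 → Cfsg.sympForm (k + 1) F u v = 0 → Commute (yv u) (yv v) := fun u v hu hv h =>
    ((show Commute (y0 u) (y0 v) from y0comm u v hu hv h).mul_right (hw _)).mul_left
      ((show Commute w (y0 v) from (hw _).symm).mul_right (Commute.refl w))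
  let X : Fin (k + 1) ⊕ Fin (k + 1) → Fin (k + 1) ⊕ Fin (k + 1) → E := fun p r => yv (e p + e r) * yv (e p) * yv (e r)
  have hXX0 : ∀ p r, X p r = X0 p r * (w * w * w) := fun p r => by
    simp only [X, X0, yv]
    rw [show y0 (e p + e r) * w * (y0 (e p) * w) * (y0 (e r) * w) = y0 (e p + e r) * (w * y0 (e p)) * (w * y0 (e r)) * w by group,
      ← hw (y0 (e p)), ← hw (y0 (e r)), show y0 (e p + e r) * (y0 (e p) * w) * (y0 (e r) * w) * w =
        y0 (e p + e r) * y0 (e p) * (w * y0 (e r)) * (w * w) by group, ← hw (y0 (e r))]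
    group
  have hw3 : ∀ x : E, x * (w * w * w) = (w * w * w) * x := fun x =>
    (((show Commute x w from hw x).mul_right (hw x)).mul_right (hw x)).eq
  have hw13 : π (w * w * w) = 1 := by rw [map_mul, map_mul, hw1]; simp
  have rel1 : ⁅X p1 r1, X (bar r1) s1⁆ = X p1 s1 := by
    rw [StLift.comm_congr hk (a' := X0 p1 r1) (b' := X0 (bar r1) s1) (by rw [hXX0, map_mul, hw13, mul_one])
      (by rw [hXX0, map_mul, hw13, mul_one]), hXX0]
    show M = X0 p1 s1 * (w * w * w)
    rw [hw3, show M = z * X0 p1 s1 from (inv_mul_cancel_right _ _).symm]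
    congr 1
    simp only [w]
    have a : Commute z z0 := hz0 z
    rw [show z * z0 * (z * z0) * (z * z0) = z * z0 * (z * z0) * z * z0 by group]
    have e3 : z * z0 * (z * z0) * z * z0 = z * (z * z * (z0 * z0 * z0)) := by
      calc z * z0 * (z * z0) * z * z0 = z * (z0 * z) * (z0 * z) * z0 := by group
        _ = z * (z * z0) * (z * z0) * z0 := by rw [← a.eq]
        _ = z * z * (z0 * z) * (z0 * z0) := by group
        _ = z * z * (z * z0) * (z0 * z0) := by rw [← a.eq]
        _ = _ := by group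
    rw [e3, zz, mul_one]
  have Xmap : ∀ {p r}, cls p ≠ cls r → π (X p r) = Y p r 1 := fun {p r} h => by
    rw [hXX0, map_mul, hw13, mul_one, X0map h]
  have Xsymm : ∀ {p r}, cls p ≠ cls r → X p r = X r p := fun {p r} h => by
    show yv (e p + e r) * yv (e p) * yv (e r) = yv (e r + e p) * yv (e r) * yv (e p)
    have hh : yv (e p) * yv (e r) = yv (e r) * yv (e p) :=
      (yvcomm _ _ (e_ne_zero p) (e_ne_zero r) (orth (ne_bar_of_cls h))).eq
    calc yv (e p + e r) * yv (e p) * yv (e r) = yv (e p + e r) * (yv (e p) * yv (e r)) := mul_assoc _ _ _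
      _ = yv (e p + e r) * (yv (e r) * yv (e p)) := by rw [hh]
      _ = yv (e r + e p) * (yv (e r) * yv (e p)) := by rw [add_comm (e p) (e r)]
      _ = _ := (mul_assoc _ _ _).symm
  let y : Fin (k + 1) ⊕ Fin (k + 1) → Fin (k + 1) ⊕ Fin (k + 1) → F → E := fun p r c =>
    if c = 0 then 1 else if p = r then yv (e p) else X p r
  have y0' : ∀ p r, y p r 0 = 1 := fun p r => if_pos rfl
  have yS : ∀ {p r}, p ≠ r → y p r 1 = X p r := fun h => (if_neg one_ne_zero).trans (if_neg h)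
  have yL : ∀ p, y p p 1 = yv (e p) := fun p => (if_neg one_ne_zero).trans (if_pos rfl)
  have diff : ∀ {p r : Fin (k + 1) ⊕ Fin (k + 1)}, r ≠ bar p → p ≠ r → cls p ≠ cls r := fun hne hpr h =>
    (eq_or_bar h).elim hpr (fun h' => hne (by rw [h', bar_bar]))
  have hmap : ∀ p r, r ≠ bar p → ∀ c, π (y p r c) = Y p r c := by
    intro p r hne c
    rcases hF2 c with rfl | rfl
    · rw [y0', map_one, Y_zero hne]
    by_cases hpr : p = r
    · subst hpr; rw [yL, yvmap _ (e_ne_zero p), Y_long]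
    · rw [yS hpr, Xmap (diff hne hpr)]
  have symm : ∀ p r, r ≠ bar p → ∀ c, y p r c = y r p c := by
    intro p r hne c
    rcases hF2 c with rfl | rfl
    · rw [y0', y0']
    by_cases hpr : p = r
    · rw [hpr]
    · rw [yS hpr, yS (Ne.symm hpr), Xsymm (diff hne hpr)]
  have comm : ∀ p r p' r', r ≠ bar p → r' ≠ bar p' → Free p r p' r' → ∀ c d, y p r c * y p' r' d = y p' r' d * y p r c := by
    intro p r p' r' hne hne' hf c d
    obtain ⟨f1, f2, f3, f4⟩ := hf
    rcases hF2 c with rfl | rfl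
    · rw [y0', one_mul, mul_one]
    rcases hF2 d with rfl | rfl
    · rw [y0', one_mul, mul_one]
    have gen : ∀ p' r', r' ≠ bar p' → ∀ u, u ≠ 0 → Cfsg.sympForm (k + 1) F u (e p') = 0 → Cfsg.sympForm (k + 1) F u (e r') = 0 →
        Commute (yv u) (y p' r' 1) := by
      intro p' r' hne' u hu b1 b2
      by_cases h : p' = r'
      · subst h; rw [yL]; exact yvcomm _ _ hu (e_ne_zero _) b1
      · rw [yS h]
        exact ((yvcomm _ _ hu (e_add_ne h) (by rw [B_add_right, b1, b2, add_zero])).mul_right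
          (yvcomm _ _ hu (e_ne_zero _) b1)).mul_right (yvcomm _ _ hu (e_ne_zero _) b2)
    by_cases h : p = r
    · subst h; rw [yL]
      exact gen p' r' hne' _ (e_ne_zero _) (orth f1) (orth f3)
    · rw [yS h]
      exact (((gen p' r' hne' _ (e_add_ne h) (by rw [B_add_left, orth f1, orth f2, add_zero])
        (by rw [B_add_left, orth f3, orth f4, add_zero])).mul_left (gen p' r' hne' _ (e_ne_zero _) (orth f1) (orth f3))).mul_left
        (gen p' r' hne' _ (e_ne_zero _) (orth f2) (orth f4))).eq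
  have comm3 : ∀ p r s, cls p ≠ cls r → cls r ≠ cls s → cls p ≠ cls s → ∀ c d,
      ⁅y p r c, y (bar r) s d⁆ = y p s (sg (bar r) * c * d) := by
    intro p r s hpr hrs hps c d
    rcases hF2 c with rfl | rfl
    · rw [y0', mul_zero, zero_mul, y0', commutatorElement_one_left]
    rcases hF2 d with rfl | rfl
    · rw [y0', mul_zero, y0', commutatorElement_one_right]
    have hrs' : cls (bar r) ≠ cls s := by rwa [cls_bar]
    rw [hsg, one_mul, one_mul, yS (ne_of_cls hpr), yS (ne_of_cls hrs'), yS (ne_of_cls hps)]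
    have univS : ∀ {v : Fin (k + 1) ⊕ Fin (k + 1) → F}, Supp Finset.univ v := fun p hp => absurd (Finset.mem_univ _) hp
    obtain ⟨g1, -, a1, a2⟩ := exists_pair (t := Finset.univ) (b := p1) (F := F) (v := e p) (w := e (bar p))
      (Finset.mem_univ _) univS univS (by rw [B_e_left, e_self, mul_one, hsg, hsg])
    have q1 : cls r ≠ cls p := hpr.symm
    have q2 : cls s ≠ cls p := hps.symm
    have q3 : cls s ≠ cls r := hrs.symm
    have sup1 : ∀ x, cls x ≠ cls p → Supp (Finset.univ.erase (cls p1)) ((g1⁻¹).1 *ᵥ (e x : Fin (k + 1) ⊕ Fin (k + 1) → F)) := by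
      intro x hx
      refine supp_pull fun i hi => ?_
      simp only [Finset.mem_erase, Finset.mem_univ, and_true, not_not] at hi
      rcases eq_or_bar hi with rfl | rfl
      · rw [a2]; exact orth (ne_bar_of_cls (by rw [cls_bar]; exact hx.symm))
      · rw [bar_bar, a1]; exact orth (ne_bar_of_cls hx.symm)
    obtain ⟨g2, hg2, b1, b2⟩ := exists_pair (t := Finset.univ.erase (cls p1)) (b := r1) (F := F)
      (v := (g1⁻¹).1 *ᵥ e r) (w := (g1⁻¹).1 *ᵥ e (bar r))
      (by simp [c12.symm]) (sup1 r q1) (sup1 (bar r) (by rwa [cls_bar]))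
      (by rw [← sp_B g1, sp_mulVec_inv, sp_mulVec_inv, B_e_left, e_self, mul_one, hsg, hsg])
    have f2' := Ys_le_spOn _ hg2
    have d1 : (g1 * g2).1 *ᵥ e p1 = e p := by rw [sp_mul_mulVec, f2' p1 (Finset.notMem_erase _ _), a1]
    have d2 : (g1 * g2).1 *ᵥ e (bar p1) = e (bar p) := by
      rw [sp_mul_mulVec, f2' (bar p1) (by rw [cls_bar]; exact Finset.notMem_erase _ _), a2]
    have d3 : (g1 * g2).1 *ᵥ e r1 = e r := by rw [sp_mul_mulVec, b1, sp_mulVec_inv]
    have d4 : (g1 * g2).1 *ᵥ e (bar r1) = e (bar r) := by rw [sp_mul_mulVec, b2, sp_mulVec_inv]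
    have sup2 : Supp ((Finset.univ.erase (cls p1)).erase (cls r1)) (((g1 * g2)⁻¹).1 *ᵥ (e s : Fin (k + 1) ⊕ Fin (k + 1) → F)) := by
      refine supp_pull fun i hi => ?_
      simp only [Finset.mem_erase, Finset.mem_univ, and_true, not_and_or, not_not] at hi
      rcases hi with hi | hi <;> rcases eq_or_bar hi with rfl | rfl
      · rw [d4]; exact orth (ne_bar_of_cls (by rw [cls_bar]; exact q3.symm))
      · rw [bar_bar, d3]; exact orth (ne_bar_of_cls q3.symm)
      · rw [d2]; exact orth (ne_bar_of_cls (by rw [cls_bar]; exact q2.symm))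
      · rw [bar_bar, d1]; exact orth (ne_bar_of_cls q2.symm)
    obtain ⟨g3, hg3, c3⟩ := trans_vec (b := s1) (t := (Finset.univ.erase (cls p1)).erase (cls r1))
      (by simp [c13.symm, c23.symm]) sup2 (sp_mulVec_ne _ (e_ne_zero s))
    have f3' := Ys_le_spOn _ hg3
    obtain ⟨H, hH⟩ := hπ (g1 * g2 * g3)
    have i1 : (π H).1 *ᵥ e p1 = e p := by rw [hH, sp_mul_mulVec, f3' p1 (by simp), d1]
    have i2 : (π H).1 *ᵥ e r1 = e r := by rw [hH, sp_mul_mulVec, f3' r1 (by simp), d3]
    have i3 : (π H).1 *ᵥ e (bar r1) = e (bar r) := by rw [hH, sp_mul_mulVec, f3' (bar r1) (by simp [cls_bar]), d4]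
    have i4 : (π H).1 *ᵥ e s1 = e s := by rw [hH, sp_mul_mulVec, c3, sp_mulVec_inv]
    have hX : ∀ {a b a' b'}, a ≠ b → (π H).1 *ᵥ e a = e a' → (π H).1 *ᵥ e b = e b' → H * X a b * H⁻¹ = X a' b' := by
      intro a b a' b' hab ea eb
      simp only [X]
      rw [show H * (yv (e a + e b) * yv (e a) * yv (e b)) * H⁻¹ =
        (H * yv (e a + e b) * H⁻¹) * (H * yv (e a) * H⁻¹) * (H * yv (e b) * H⁻¹) by group,
        yvconj _ _ (e_add_ne hab), yvconj _ _ (e_ne_zero _), yvconj _ _ (e_ne_zero _), Matrix.mulVec_add, ea, eb]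
    rw [← hX (ne_of_cls c12) i1 i2, ← hX (ne_of_cls c23') i3 i4, ← hX (ne_of_cls c13) i1 i4, ← rel1]
    simp [commutatorElement_def, mul_assoc]
  have inj2 : ∀ a b : Fin (k + 1), ∀ g ∈ Subgroup.closure {g | ∃ p r c, cls p ∈ ({a, b} : Finset (Fin (k + 1))) ∧
      cls r ∈ ({a, b} : Finset (Fin (k + 1))) ∧ r ≠ bar p ∧ g = y p r c}, π g = 1 → g = 1 := by
    intro a0 b0 g hg h1
    obtain ⟨a, b, hab, hsub⟩ : ∃ a b, ∃ _ : a ≠ b, ({a0, b0} : Finset (Fin (k + 1))) ⊆ {a, b} := by
      by_cases h : a0 = b0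
      · have : Nontrivial (Fin (k + 1)) := Fin.nontrivial_iff_two_le.2 (by omega)
        obtain ⟨c, hc⟩ := exists_ne a0
        exact ⟨a0, c, hc.symm, by simp [h]⟩
      · exact ⟨a0, b0, h, Finset.Subset.refl _⟩
    let P : Fin (k + 1) ⊕ Fin (k + 1) := Sum.inl a
    let Q : Fin (k + 1) ⊕ Fin (k + 1) := Sum.inl b
    let vs : ℕ → (Fin (k + 1) ⊕ Fin (k + 1) → F) := fun i => match i with
      | 0 => e P | 1 => e (bar P) | 2 => e P + e Q | 3 => e (bar Q) | _ => e Q
    have hPQ : cls P ≠ cls Q := hab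
    have vne : ∀ i, vs i ≠ 0 := fun i => by
      match i with
      | 0 => exact e_ne_zero _
      | 1 => exact e_ne_zero _
      | 2 => exact e_add_ne (ne_of_cls hPQ)
      | 3 => exact e_ne_zero _
      | _ + 4 => exact e_ne_zero _
    have B1 : ∀ p : Fin (k + 1) ⊕ Fin (k + 1), Cfsg.sympForm (k + 1) F (e p) (e (bar p) : Fin (k + 1) ⊕ Fin (k + 1) → F) = 1 :=
      fun p => by rw [B_e_left, e_self, mul_one, hsg]
    have B1' : ∀ p : Fin (k + 1) ⊕ Fin (k + 1), Cfsg.sympForm (k + 1) F (e (bar p)) (e p : Fin (k + 1) ⊕ Fin (k + 1) → F) = 1 :=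
      fun p => by have := B1 (bar p); rwa [bar_bar] at this
    have o12 := orth (ne_bar_of_cls hPQ)
    have o21 := orth (ne_bar_of_cls hPQ.symm)
    have o13 := orth (ne_bar_of_cls (p := P) (r := bar Q) (by rwa [cls_bar]))
    have o31 := orth (ne_bar_of_cls (p := bar Q) (r := P) (by rw [cls_bar]; exact hPQ.symm))
    have o42 := orth (ne_bar_of_cls (p := bar P) (r := Q) (by rwa [cls_bar]))
    have o24 := orth (ne_bar_of_cls (p := Q) (r := bar P) (by rw [cls_bar]; exact hPQ.symm))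
    have o43 := orth (ne_bar_of_cls (p := bar P) (r := bar Q) (by rwa [cls_bar, cls_bar]))
    let s : ℕ → E := fun i => yv (vs i)
    have hTfix : ∀ u v, u ≠ 0 → v ≠ 0 → Cfsg.sympForm (k + 1) F v u = 1 → yv u * yv v * yv u = yv (v + u) := by
      intro u v hu hv huv
      have h := yvconj (yv u) v hv
      rw [yvmap u hu, T_mulVec, huv, mul_one, one_smul, inv_eq_of_mul_eq_one_right (yvsq u hu)] at h
      exact h
    have hbraid : ∀ u v, u ≠ 0 → v ≠ 0 → Cfsg.sympForm (k + 1) F u v = 1 → yv u * yv v * yv u = yv v * yv u * yv v := by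
      intro u v hu hv huv
      have huv' : Cfsg.sympForm (k + 1) F v u = 1 := by rw [B_swap, huv]; linear_combination -h2
      rw [hTfix u v hu hv huv', hTfix v u hv hu huv, add_comm]
    have sqr : ∀ i, i < 5 → s i * s i = 1 := fun i _ => yvsq _ (vne i)
    have far : ∀ i j, i + 1 < j → j < 5 → s i * s j = s j * s i := by
      intro i j h1 h2
      refine (yvcomm _ _ (vne i) (vne j) ?_).eq
      rcases (show (i = 0 ∧ j = 2) ∨ (i = 0 ∧ j = 3) ∨ (i = 0 ∧ j = 4) ∨ (i = 1 ∧ j = 3) ∨ (i = 1 ∧ j = 4) ∨ (i = 2 ∧ j = 4) by omega) with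
        ⟨rfl, rfl⟩ | ⟨rfl, rfl⟩ | ⟨rfl, rfl⟩ | ⟨rfl, rfl⟩ | ⟨rfl, rfl⟩ | ⟨rfl, rfl⟩ <;>
        simp [vs, B_add_left, B_add_right, B_self, o12, o13, o42, o43]
    have adj : ∀ i, i + 1 < 5 → s i * s (i + 1) * s i = s (i + 1) * s i * s (i + 1) := by
      intro i hi
      refine hbraid _ _ (vne i) (vne (i + 1)) ?_
      rcases (show i = 0 ∨ i = 1 ∨ i = 2 ∨ i = 3 by omega) with rfl | rfl | rfl | rfl <;>
        simp [vs, B_add_left, B_add_right, B1, B1', o13, o42]
    obtain ⟨hfin, hcard⟩ := chain_card s 5 sqr far adj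
    set K := Subgroup.closure (s '' {i | i < 5}) with hK
    have hs : ∀ i, i < 5 → yv (vs i) ∈ K := fun i hi => Subgroup.subset_closure ⟨i, hi, rfl⟩
    have step : ∀ u v, u ≠ 0 → v ≠ 0 → Cfsg.sympForm (k + 1) F v u = 1 → yv u ∈ K → yv v ∈ K → yv (v + u) ∈ K :=
      fun u v hu hv huv h1 h2 => hTfix u v hu hv huv ▸ mul_mem (mul_mem h1 h2) h1
    have kP : yv (e P) ∈ K := hs 0 (by norm_num)
    have kP' : yv (e (bar P)) ∈ K := hs 1 (by norm_num)
    have kPQ : yv (e P + e Q) ∈ K := hs 2 (by norm_num)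
    have kQ' : yv (e (bar Q)) ∈ K := hs 3 (by norm_num)
    have kQ : yv (e Q) ∈ K := hs 4 (by norm_num)
    have two' : ∀ v : Fin (k + 1) ⊕ Fin (k + 1) → F, v + v = 0 := fun v => by
      funext i; show v i + v i = 0; linear_combination v i * h2
    have kPQ' : yv (e P + e (bar Q)) ∈ K := by
      have a := step (e (bar Q)) (e P + e Q) (e_ne_zero _) (e_add_ne (ne_of_cls hPQ))
        (by simp [B_add_left, B1, o13]) kQ' kPQ
      have hne : (e P + e Q + e (bar Q) : Fin (k + 1) ⊕ Fin (k + 1) → F) ≠ 0 := fun h0 => by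
        have := congrFun h0 P
        simp [e_self, e_ne (ne_of_cls hPQ), e_ne (show P ≠ bar Q from fun h => hPQ (by rw [h, cls_bar]))] at this
      have b := step (e Q) _ (e_ne_zero _) hne (by simp [B_add_left, B_self, B1', o12]) kQ a
      rwa [show e P + e Q + e (bar Q) + e Q = e P + e (bar Q) + (e Q + e Q) by abel, two', add_zero] at b
    have kP'Q : yv (e (bar P) + e Q) ∈ K := by
      have a := step (e P + e Q) (e (bar P)) (e_add_ne (ne_of_cls hPQ)) (e_ne_zero _)
        (by simp [B_add_right, B1', o42]) kPQ kP'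
      have hne : (e (bar P) + (e P + e Q) : Fin (k + 1) ⊕ Fin (k + 1) → F) ≠ 0 := fun h0 => by
        have := congrFun h0 P
        simp [e_self, e_ne (ne_of_cls hPQ), e_ne (bar_ne P).symm] at this
      have b := step (e P) _ (e_ne_zero _) hne (by simp [B_add_left, B_self, B1', o21]) kP a
      rwa [show e (bar P) + (e P + e Q) + e P = e (bar P) + e Q + (e P + e P) by abel, two', add_zero] at b
    have kP'Q' : yv (e (bar P) + e (bar Q)) ∈ K := by
      have hne0 : bar P ≠ Q := fun h => hPQ (by rw [← h, cls_bar])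
      have a := step (e (bar Q)) (e (bar P) + e Q) (e_ne_zero _) (e_add_ne hne0)
        (by simp [B_add_left, B1, o43]) kQ' kP'Q
      have hne : (e (bar P) + e Q + e (bar Q) : Fin (k + 1) ⊕ Fin (k + 1) → F) ≠ 0 := fun h0 => by
        have := congrFun h0 (bar P)
        simp [e_self, e_ne hne0, e_ne (show bar P ≠ bar Q from fun h => hPQ (by rw [bar_inj.1 h]))] at this
      have b := step (e Q) _ (e_ne_zero _) hne (by simp [B_add_left, B_self, B1', o42]) kQ a
      rwa [show e (bar P) + e Q + e (bar Q) + e Q = e (bar P) + e (bar Q) + (e Q + e Q) by abel, two', add_zero] at b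
    have hy : ∀ p r c, cls p ∈ ({a, b} : Finset (Fin (k + 1))) → cls r ∈ ({a, b} : Finset (Fin (k + 1))) → r ≠ bar p →
        y p r c ∈ K := by
      intro p r c hp hr hne
      rcases hF2 c with rfl | rfl
      · rw [y0']; exact one_mem _
      have one : ∀ p, cls p ∈ ({a, b} : Finset (Fin (k + 1))) → yv (e p) ∈ K := by
        intro p hp
        rcases mem_two.1 hp with h | h
        · rcases eq_or_bar (h.trans (show a = cls P from rfl)) with rfl | rfl <;> assumption
        · rcases eq_or_bar (h.trans (show b = cls Q from rfl)) with rfl | rfl <;> assumption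
      by_cases hpr : p = r
      · subst hpr; rw [yL]; exact one p hp
      rw [yS hpr]
      have hc := diff hne hpr
      refine mul_mem (mul_mem ?_ (one p hp)) (one r hr)
      rcases mem_two.1 hp with h | h <;> rcases mem_two.1 hr with h' | h'
      · exact absurd (h.trans h'.symm) hc
      · rcases eq_or_bar (h.trans (show a = cls P from rfl)) with rfl | rfl <;>
          rcases eq_or_bar (h'.trans (show b = cls Q from rfl)) with rfl | rfl <;> assumption
      · rw [add_comm (e p) (e r)]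
        rcases eq_or_bar (h.trans (show b = cls Q from rfl)) with rfl | rfl <;>
          rcases eq_or_bar (h'.trans (show a = cls P from rfl)) with rfl | rfl <;> assumption
      · exact absurd (h.trans h'.symm) hc
    have hgK : g ∈ K := by
      refine (Subgroup.closure_le _).2 ?_ hg
      rintro _ ⟨p, r, c, hp, hr, hne, rfl⟩
      exact hy p r c (hsub hp) (hsub hr) hne
    let f := ext (F := F) ![a, b] (pair_inj hab)
    have hle : f.range ≤ K.map π := by
      rw [range_ext, image_pair]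
      refine (spOn_le_Ys _).trans ?_
      rw [Ys, Subgroup.closure_le]
      rintro _ ⟨p, r, c, hp, hr, hne, rfl⟩
      exact ⟨y p r c, hy p r c hp hr hne, hmap p r hne c⟩
    have h720 : 720 ≤ Nat.card ↥(K.map π) := by
      obtain ⟨iso⟩ := Cfsg.Agent.S0247.result (F := F) hq
      have : Nat.card f.range = 720 := by
        rw [← Nat.card_congr (MonoidHom.ofInjective (f := f) (ext_injective _ _)).toEquiv, Nat.card_congr iso.toEquiv,
          Nat.card_eq_fintype_card, Fintype.card_perm, Fintype.card_fin]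
        decide
      rw [← this]
      exact Nat.card_le_card_of_injective _ (Subgroup.inclusion_injective hle)
    have hcardK : Nat.card ↥K ≤ Nat.card ↥(K.map π) :=
      le_trans hcard (le_trans (by decide : (5 + 1).factorial ≤ 720) h720)
    have : Finite ↥K := hfin
    have : Finite ↥(K.map π) := Finite.of_surjective _ (MonoidHom.subgroupMap_surjective π K)
    have hbij := (MonoidHom.subgroupMap_surjective π K).bijective_of_nat_card_le hcardK
    exact congrArg Subtype.val (hbij.1 (a₁ := ⟨g, hgK⟩) (a₂ := 1) (Subtype.ext (h1.trans (map_one π).symm)))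
  exact ⟨⟨y, hmap, symm, inj2, comm, comm3⟩⟩

end Cfsg.Agent.Suzuki.SpSt
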