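import Cfsg.Agent.Suzuki.StLiftExponents

/-!
Central extensions of the Steinberg groups of type G2, F4 split.
-/

set_option autoImplicit false

universe u v

namespace Cfsg.Agent.Suzuki.StLift

open Cfsg.Lie

variable {K : Type u} [Field K]

theorem comm_g2 : commCheck chevG2 (upTo 3) 1 (fun g => g == 1) = true := by decide +kernel
theorem term_g2 : termCheck chevG2 (upTo 3) = true := by decide +kernel
theorem root_g2 : rootCheck chevG2 (upTo 3) = true := by decide +kernel

theorem exists_ne_zero_one (hK : ∃ s : Finset K, 2 < s.card) : ∃ x : K, x ≠ 0 ∧ x ≠ 1 := by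
  classical
  obtain ⟨s, hs⟩ := hK
  obtain ⟨x, hx, hx'⟩ := Finset.exists_mem_notMem_of_card_lt_card (s := ({0, 1} : Finset K)) (t := s)
    (lt_of_le_of_lt Finset.card_le_two hs)
  exact ⟨x, by simpa using hx'⟩

theorem splits_g2' (hK : ∃ s : Finset K, 4 < s.card) : Splits.{u, v} (chevG2.SteinbergCover K) := by
  intro E _ π hπ hk
  obtain ⟨C⟩ := Cfsg.Agent.Chev.nonempty_cert.{u} (D := chevG2) (by simp)
  obtain ⟨M, hM⟩ := Cfsg.Agent.Chev.exists_cox (D := chevG2) (by simp)
  have hc := Cfsg.Agent.KnownA.Cover.corner_of_mem (D := chevG2) (by simp)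
  have hperf : commutator (chevG2.SteinbergCover K) = ⊤ := Cfsg.Agent.KnownA.CoverPerfect.cover_perfect (by simp) (fun _ => exists_ne_zero_one (hK.imp fun s hs => by omega))
  exact exists_section hk C hc hM (ok_upTo' (g := 3) hK) (ok_upTo' (g := 3) hK) (ok_upTo' (g := 3) hK)
    coef_one' (sc_one hK) comm_g2 term_g2 root_g2 hperf hπ

theorem splits_g2 [Fintype K] (hK : 5 ≤ Fintype.card K) : Splits.{u, v} (chevG2.SteinbergCover K) :=
  splits_g2' (big_of_card hK)

theorem comm_f4 : commCheck chevF4 (upTo 2) 1 (fun _ => false) = true := by decide +kernel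
theorem comm_f4' : commCheck chevF4 (fun m => m % 2 == 1) 2 (fun _ => false) = true := by decide +kernel
theorem term_f4 : termCheck chevF4 (upTo 2) = true := by decide +kernel
theorem term_f4' : termCheck chevF4 (fun m => m % 2 == 1) = true := by decide +kernel
theorem root_f4 : rootCheck chevF4 (upTo 1) = true := by decide +kernel

theorem splits_f4_big (hK : ∃ s : Finset K, 3 < s.card) : Splits.{u, v} (chevF4.SteinbergCover K) := by
  intro E _ π hπ hk
  obtain ⟨C⟩ := Cfsg.Agent.Chev.nonempty_cert.{u} (D := chevF4) (by simp)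
  obtain ⟨M, hM⟩ := Cfsg.Agent.Chev.exists_cox (D := chevF4) (by simp)
  have hc := Cfsg.Agent.KnownA.Cover.corner_of_mem (D := chevF4) (by simp)
  have hperf : commutator (chevF4.SteinbergCover K) = ⊤ := Cfsg.Agent.KnownA.CoverPerfect.cover_perfect (by simp) (fun h => absurd h (fun h => by
      have : chevF4.rank = 2 := by
        simp only [List.mem_cons, List.not_mem_nil, or_false] at h
        rcases h with e | e <;> rw [e] <;> rfl
      exact absurd this (by decide +kernel)))
  exact exists_section hk C hc hM (sc := fun _ => false) (ok_upTo' (g := 2) hK) (ok_upTo' (g := 2) hK)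
    (ok_upTo' (g := 1) (hK.imp fun s hs => by omega)) coef_one' (fun g hn => absurd hn Bool.false_ne_true)
    comm_f4 term_f4 root_f4 hperf hπ

theorem splits_f4 [Fintype K] (hK : 3 ≤ Fintype.card K) : Splits.{u, v} (chevF4.SteinbergCover K) := by
  rcases Nat.lt_or_ge 3 (Fintype.card K) with h | h
  · exact splits_f4_big (big_of_card h)
  · intro E _ π hπ hk
    obtain ⟨C⟩ := Cfsg.Agent.Chev.nonempty_cert.{u} (D := chevF4) (by simp)
    obtain ⟨M, hM⟩ := Cfsg.Agent.Chev.exists_cox (D := chevF4) (by simp)
    have hc := Cfsg.Agent.KnownA.Cover.corner_of_mem (D := chevF4) (by simp)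
    have hperf : commutator (chevF4.SteinbergCover K) = ⊤ := Cfsg.Agent.KnownA.CoverPerfect.cover_perfect (by simp) (fun h => absurd h (fun h => by
        have : chevF4.rank = 2 := by
          simp only [List.mem_cons, List.not_mem_nil, or_false] at h
          rcases h with e | e <;> rw [e] <;> rfl
        exact absurd this (by decide +kernel)))
    exact exists_section hk C hc hM (sc := fun _ => false) (ok_odd hK (by omega)) (ok_odd hK (by omega))
      (ok_upTo (g := 1) (by omega)) (coef_two (by omega)) (fun g hn => absurd hn Bool.false_ne_true)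
      comm_f4' term_f4' root_f4 hperf hπ

end Cfsg.Agent.Suzuki.StLift
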