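import Cfsg.Agent.Suzuki.StLiftExponents

/-!
Central extensions of the Steinberg groups of type E7 split.
-/

set_option autoImplicit false

universe u v

namespace Cfsg.Agent.Suzuki.StLift

open Cfsg.Lie

variable {K : Type u} [Field K]

theorem comm_e7 : commCheck chevE7 (fun _ => false) 1 (fun _ => false) = true := by decide +kernel
theorem term_e7 : termCheck chevE7 (upTo 1) = true := by decide +kernel
theorem root_e7 : rootCheck chevE7 (upTo 1) = true := by decide +kernel
theorem link_e7 : decLinked chevE7 = true := by decide +kernel
theorem rows_e7 : rowsShort chevE7 = true := by decide +kernel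
theorem sing_e7 : termsSingle chevE7 = true := by decide +kernel

theorem splits_e7 : Splits.{u, v} (chevE7.SteinbergCover K) := by
  intro E _ π hπ hk
  obtain ⟨C⟩ := Cfsg.Agent.Chev.nonempty_cert.{u} (D := chevE7) (by simp)
  obtain ⟨M, hM⟩ := Cfsg.Agent.Chev.exists_cox (D := chevE7) (by simp)
  have hc := Cfsg.Agent.KnownA.Cover.corner_of_mem (D := chevE7) (by simp)
  have hperf : commutator (chevE7.SteinbergCover K) = ⊤ := Cfsg.Agent.KnownA.CoverPerfect.cover_perfect (by simp) (fun h => absurd h (fun h => by
      have : chevE7.rank = 2 := by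
        simp only [List.mem_cons, List.not_mem_nil, or_false] at h
        rcases h with e | e <;> rw [e] <;> rfl
      exact absurd this (by decide +kernel)))
  classical
  by_cases h : ∀ a : K, a = 0 ∨ a = 1
  · exact exists_section_two h C hπ hk hc link_e7 rows_e7 sing_e7 comm_e7
  · push Not at h
    obtain ⟨a, ha0, ha1⟩ := h
    have h3 : ∃ s : Finset K, 1 + 1 < s.card := ⟨{0, 1, a}, by
      rw [Finset.card_insert_of_notMem (by simp [ha0.symm]), Finset.card_insert_of_notMem (by simp [ha1.symm]),
        Finset.card_singleton]
      decide⟩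
    exact exists_section hk C hc hM (okc := fun _ => false) (coef := 1) (sc := fun _ => false)
      (fun n hn => absurd hn Bool.false_ne_true) (ok_upTo' h3) (ok_upTo' h3)
      coef_one' (fun g hn => absurd hn Bool.false_ne_true) comm_e7 term_e7 root_e7 hperf hπ

end Cfsg.Agent.Suzuki.StLift
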