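import Cfsg.Agent.Suzuki.StLiftExponents

/-!
Central extensions of the Steinberg groups of type E8 split.
-/

set_option autoImplicit false
set_option Elab.async false

universe u v

namespace Cfsg.Agent.Suzuki.StLift

open Cfsg.Lie

variable {K : Type u} [Field K]

theorem comm_e8 : commCheck chevE8 (fun _ => false) 1 (fun _ => false) = true := by decide +kernel
theorem term_e8 : termCheck chevE8 (upTo 1) = true := by decide +kernel
theorem root_e8 : rootCheck chevE8 (upTo 1) = true := by decide +kernel
theorem rank_e8 : chevE8.rank = 8 := by decide +kernel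

theorem all_range_eight (f : ℕ → Bool) (h0 : f 0 = true) (h1 : f 1 = true) (h2 : f 2 = true) (h3 : f 3 = true)
    (h4 : f 4 = true) (h5 : f 5 = true) (h6 : f 6 = true) (h7 : f 7 = true) :
    (List.range chevE8.rank).all f = true := by
  rw [rank_e8, List.all_eq_true]
  intro i hi
  rw [List.mem_range] at hi
  interval_cases i <;> assumption

set_option maxHeartbeats 4000000 in
theorem link_e8 : decLinked chevE8 = true := by
  unfold decLinked
  refine all_range_eight _ ?_ ?_ ?_ ?_ ?_ ?_ ?_ ?_ <;> decide +kernel
theorem rows_e8 : rowsShort chevE8 = true := by decide +kernel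
set_option maxHeartbeats 4000000 in
theorem sing_e8 : termsSingle chevE8 = true := by
  unfold termsSingle
  refine all_range_eight _ ?_ ?_ ?_ ?_ ?_ ?_ ?_ ?_ <;> decide +kernel

theorem splits_e8 : Splits.{u, v} (chevE8.SteinbergCover K) := by
  intro E _ π hπ hk
  obtain ⟨C⟩ := Cfsg.Agent.Chev.nonempty_cert.{u} (D := chevE8) (by simp)
  obtain ⟨M, hM⟩ := Cfsg.Agent.Chev.exists_cox (D := chevE8) (by simp)
  have hc := Cfsg.Agent.KnownA.Cover.corner_of_mem (D := chevE8) (by simp)
  have hperf : commutator (chevE8.SteinbergCover K) = ⊤ := Cfsg.Agent.KnownA.CoverPerfect.cover_perfect (by simp) (fun h => absurd h (fun h => by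
      have : chevE8.rank = 2 := by
        simp only [List.mem_cons, List.not_mem_nil, or_false] at h
        rcases h with e | e <;> rw [e] <;> rfl
      exact absurd this (by decide +kernel)))
  classical
  by_cases h : ∀ a : K, a = 0 ∨ a = 1
  · exact exists_section_two h C hπ hk hc link_e8 rows_e8 sing_e8 comm_e8
  · push Not at h
    obtain ⟨a, ha0, ha1⟩ := h
    have h3 : ∃ s : Finset K, 1 + 1 < s.card := ⟨{0, 1, a}, by
      rw [Finset.card_insert_of_notMem (by simp [ha0.symm]), Finset.card_insert_of_notMem (by simp [ha1.symm]),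
        Finset.card_singleton]
      decide⟩
    exact exists_section hk C hc hM (okc := fun _ => false) (coef := 1) (sc := fun _ => false)
      (fun n hn => absurd hn Bool.false_ne_true) (ok_upTo' h3) (ok_upTo' h3)
      coef_one' (fun g hn => absurd hn Bool.false_ne_true) comm_e8 term_e8 root_e8 hperf hπ

end Cfsg.Agent.Suzuki.StLift
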