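import Cfsg.Agent.Suzuki.SzAut
import Cfsg.Agent.FGS2.SchurTransfer

/-!
The Schur multiplier of `Sz(q)` is trivial for `q ≥ 32`.
-/

set_option autoImplicit false

namespace Cfsg.Agent.Suzuki

open scoped commutatorElement

section Lemmas

theorem commutator_mul_left' {Γ : Type*} [Group Γ] (x y c : Γ) :
    ⁅x * y, c⁆ = x * ⁅y, c⁆ * x⁻¹ * ⁅x, c⁆ := by simp [commutatorElement_def, mul_assoc]

theorem commutator_mul_right' {Γ : Type*} [Group Γ] (x c d : Γ) :
    ⁅x, c * d⁆ = ⁅x, c⁆ * (c * ⁅x, d⁆ * c⁻¹) := by simp [commutatorElement_def, mul_assoc]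

theorem conj_commutator' {Γ : Type*} [Group Γ] (t x y : Γ) :
    t * ⁅x, y⁆ * t⁻¹ = ⁅t * x * t⁻¹, t * y * t⁻¹⁆ := by simp [commutatorElement_def, mul_assoc]

/-- A biadditive map invariant under a weight `φ` which is not additive is trivial. -/
theorem weight_trivial {F M : Type*} [Field F] [Group M] (f : F → F → M) (φ : F → F)
    (h2 : (2 : F) = 0) (hl : ∀ a c b, f (a + c) b = f a b * f c b)
    (hr : ∀ a b d, f a (b + d) = f a b * f a d)
    (hinv : ∀ k : F, k ≠ 0 → ∀ a b, f (k * a) (φ k * b) = f a b)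
    (hφ : ∀ k : F, k ≠ 0 → φ k ≠ 0) (hφ1 : φ 1 = 1)
    (hx : ∃ x : F, x ≠ 0 ∧ x + 1 ≠ 0 ∧ (φ (x + 1))⁻¹ + (φ x)⁻¹ + 1 ≠ 0) (a b : F) :
    f a b = 1 := by
  have h0 : ∀ a, f a 0 = 1 := fun a => by
    have := hr a 0 0
    rw [add_zero] at this
    exact left_eq_mul.1 this
  have hg : ∀ a b, a ≠ 0 → f a b = f 1 (b / φ a) := fun a b ha => by
    rw [← hinv a ha 1 (b / φ a), mul_one, mul_div_cancel₀ _ (hφ a ha)]
  have hg1 : ∀ u, f 1 u = 1 := by
    obtain ⟨x, hx0, hx1, hs⟩ := hx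
    intro u
    have key : ∀ c, f 1 (c / φ (x + 1)) = f 1 (c / φ x + c) := fun c => by
      rw [← hg _ _ hx1, hl, hg _ _ hx0, hr]
    have := key (u / ((φ (x + 1))⁻¹ + (φ x)⁻¹ + 1))
    set c := u / ((φ (x + 1))⁻¹ + (φ x)⁻¹ + 1) with hc
    have e : u = c / φ (x + 1) + (c / φ x + c) := by
      have e' := div_mul_cancel₀ u hs
      rw [← hc] at e'
      rw [div_eq_mul_inv, div_eq_mul_inv]
      linear_combination -e'
    rw [e, hr, this, ← hr, ← two_mul, h2, zero_mul, h0]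
  by_cases ha : a = 0
  · subst ha
    have := hl 0 0 b
    rw [add_zero] at this
    exact left_eq_mul.1 this
  · rw [hg a b ha, hg1]

variable {F : Type*} [Field F] {m : ℕ}

theorem exists_weight_linear (h : Ctx F m) :
    ∃ x : F, x ≠ 0 ∧ x + 1 ≠ 0 ∧ (x + 1)⁻¹ + x⁻¹ + 1 ≠ 0 := by
  obtain ⟨x, hx0, hx1⟩ := h.exists_ne_zero_one
  have hx1' : x + 1 ≠ 0 := fun e => hx1 (by rw [← h.neg_eq (1 : F)]; linear_combination e)
  refine ⟨x, hx0, hx1', fun e => ?_⟩
  have := h.finite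
  have e2 : x ^ 2 + x + 1 = 0 := by
    field_simp at e
    linear_combination e - x * h.two_eq_zero
  have e3 : x ^ 3 = 1 := by linear_combination (x - 1) * e2
  have hmod : (2 ^ (2 * m + 1) - 1) % 3 = 1 := by
    have : 2 ^ (2 * m + 1) % 3 = 2 := by
      rw [pow_succ, pow_mul, Nat.mul_mod, Nat.pow_mod]
      norm_num
    generalize 2 ^ (2 * m + 1) = Q at this ⊢
    omega
  let := Fintype.ofFinite F
  have e4 := FiniteField.pow_card_sub_one_eq_one x hx0
  rw [← Nat.card_eq_fintype_card, h.card, ← Nat.div_add_mod (2 ^ (2 * m + 1) - 1) 3, hmod,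
    pow_add, pow_mul, e3, one_pow, one_mul, pow_one] at e4
  exact hx1 e4

theorem exists_weight_th (h : Ctx F m) (hm : 2 ≤ m) : ∃ x : F, x ≠ 0 ∧ x + 1 ≠ 0 ∧
    ((x + 1) * th m (x + 1))⁻¹ + (x * th m x)⁻¹ + 1 ≠ 0 := by
  classical
  have := h.finite
  let := Fintype.ofFinite F
  by_contra hc
  push Not at hc
  let t := 2 ^ (m + 1)
  open Polynomial in
  let P : F[X] := (X ^ (1 + t)) ^ 2 + (X + X ^ t + 1) * X ^ (1 + t) + (X + X ^ t + 1)
  have ht : 8 ≤ t := by
    calc 8 = 2 ^ 3 := rfl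
      _ ≤ t := Nat.pow_le_pow_right (by norm_num) (by omega)
  have hdeg : P.natDegree ≤ 2 + 2 * t := by
    simp only [P]
    compute_degree
    all_goals omega
  have hne : P ≠ 0 := by
    intro e
    have := congrArg (fun Q => Polynomial.eval 0 Q) e
    simp [P, show t ≠ 0 by omega] at this
  have hsub : ((Finset.univ.erase (0 : F)).erase 1).card ≤ P.roots.toFinset.card := by
    refine Finset.card_le_card fun x hx => ?_
    simp only [Finset.mem_erase, Finset.mem_univ, and_true] at hx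
    obtain ⟨hx1, hx0⟩ := hx
    have hx1' : x + 1 ≠ 0 := fun e => hx1 (by rw [← h.neg_eq (1 : F)]; linear_combination e)
    have e := hc x hx0 hx1'
    have hth : th m (x + 1) = x ^ t + 1 := by
      rw [show th m (x + 1) = th m x + th m 1 from h.th_add x 1, th_one]; rfl
    rw [hth, show th m x = x ^ t from rfl] at e
    have hxt : x ^ t ≠ 0 := pow_ne_zero _ hx0
    have hxt1 : x ^ t + 1 ≠ 0 := by
      rw [← hth]; exact pow_ne_zero _ hx1'
    field_simp at e
    rw [Multiset.mem_toFinset, Polynomial.mem_roots hne, Polynomial.IsRoot]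
    simp only [P, Polynomial.eval_add, Polynomial.eval_mul, Polynomial.eval_pow, Polynomial.eval_X,
      Polynomial.eval_one]
    linear_combination e - (x * x ^ t) * h.two_eq_zero
  rw [Finset.card_erase_of_mem (by simp), Finset.card_erase_of_mem (by simp), Finset.card_univ,
    ← Nat.card_eq_fintype_card, h.card] at hsub
  have h2 := (P.roots.toFinset_card_le.trans P.card_roots').trans hdeg
  have h3 : 2 ^ (2 * m + 1) = 2 * t * 2 ^ (m - 1) := by
    simp only [t]
    rw [← pow_succ', ← pow_add]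
    congr 1
    omega
  have h4 : 2 ≤ 2 ^ (m - 1) := Nat.le_self_pow (by omega) 2
  have h5 : 4 * t ≤ 2 * t * 2 ^ (m - 1) := by nlinarith
  omega

end Lemmas

section Ext

variable {F : Type*} [Field F] {m : ℕ} (h : Ctx F m) {Γ : Type*} [Group Γ]
  {σ : Γ →* Cfsg.Sz F m} (hσ : Function.Surjective σ) (hc : σ.ker ≤ Subgroup.center Γ)

include h in
omit [Group Γ] in
theorem uEl_zero_comm (a e b : F) : uEl h a e * uEl h 0 b = uEl h 0 b * uEl h a e := by
  rw [uEl_mul, uEl_mul]; simp [th_zero, add_comm]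

include h in
omit [Group Γ] in
theorem uEl_split (a e : F) : uEl h a e = uEl h a 0 * uEl h 0 e := by
  rw [uEl_mul]; simp

/-- The commutator of two lifts. -/
noncomputable def liftComm (g g' : Cfsg.Sz F m) : Γ :=
  ⁅Function.surjInv hσ g, Function.surjInv hσ g'⁆

include hc in
theorem commutator_congr {x x' y y' : Γ} (hx : σ x = σ x') (hy : σ y = σ y') :
    ⁅x, y⁆ = ⁅x', y'⁆ := by
  have key : ∀ {u u' : Γ}, σ u = σ u' → ∃ z ∈ Subgroup.center Γ, u = u' * z := fun {u u'} e =>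
    ⟨u'⁻¹ * u, hc (by rw [MonoidHom.mem_ker, map_mul, map_inv, e, inv_mul_cancel]), by simp⟩
  obtain ⟨z, hz, rfl⟩ := key hx
  obtain ⟨w, hw, rfl⟩ := key hy
  rw [Subgroup.mem_center_iff] at hz hw
  have e1 : ∀ a : Γ, a * z = z * a := hz
  have e2 : ∀ a : Γ, a * w = w * a := hw
  rw [commutatorElement_def, commutatorElement_def]
  calc x' * z * (y' * w) * (x' * z)⁻¹ * (y' * w)⁻¹
      = x' * (z * (y' * w) * z⁻¹) * x'⁻¹ * (y' * w)⁻¹ := by group
    _ = x' * (y' * w) * x'⁻¹ * (y' * w)⁻¹ := by rw [← e1, mul_inv_cancel_right]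
    _ = x' * y' * (w * x'⁻¹ * w⁻¹) * y'⁻¹ := by group
    _ = _ := by rw [← e2, mul_inv_cancel_right]

include hc in
theorem liftComm_map (x y : Γ) : ⁅x, y⁆ = liftComm hσ (σ x) (σ y) :=
  commutator_congr hc (Function.surjInv_eq hσ _).symm (Function.surjInv_eq hσ _).symm

theorem map_liftComm (g g' : Cfsg.Sz F m) : σ (liftComm hσ g g') = ⁅g, g'⁆ := by
  rw [liftComm, map_commutatorElement, Function.surjInv_eq hσ, Function.surjInv_eq hσ]

include hc in
theorem liftComm_mul_left (g g' k : Cfsg.Sz F m) : liftComm hσ (g * g') k =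
    Function.surjInv hσ g * liftComm hσ g' k * (Function.surjInv hσ g)⁻¹ * liftComm hσ g k := by
  rw [liftComm, liftComm, liftComm, ← commutator_mul_left']
  exact commutator_congr hc (by simp [Function.surjInv_eq hσ]) rfl

include hc in
theorem liftComm_mul_right (g k k' : Cfsg.Sz F m) : liftComm hσ g (k * k') =
    liftComm hσ g k * (Function.surjInv hσ k * liftComm hσ g k' * (Function.surjInv hσ k)⁻¹) := by
  rw [liftComm, liftComm, liftComm, ← commutator_mul_right']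
  exact commutator_congr hc rfl (by simp [Function.surjInv_eq hσ])

include hc in
theorem liftComm_conj {t : Γ} {s : Cfsg.Sz F m} (ht : σ t = s) (g k : Cfsg.Sz F m) :
    t * liftComm hσ g k * t⁻¹ = liftComm hσ (s * g * s⁻¹) (s * k * s⁻¹) := by
  rw [liftComm, liftComm, conj_commutator']
  exact commutator_congr hc (by simp [ht, Function.surjInv_eq hσ])
    (by simp [ht, Function.surjInv_eq hσ])

include hc in
theorem liftComm_central {g k : Cfsg.Sz F m} (hgk : g * k = k * g) :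
    liftComm hσ g k ∈ Subgroup.center Γ := by
  refine hc ?_
  rw [MonoidHom.mem_ker, map_liftComm, commutatorElement_eq_one_iff_mul_comm]
  exact hgk

include h hc in
/-- The preimage of the centre commutes with the preimage of the unipotent subgroup. -/
theorem central_liftComm (hm : 2 ≤ m) (a e b : F) :
    liftComm hσ (uEl h a e) (uEl h 0 b) = 1 := by
  have hcen : ∀ a e b, liftComm hσ (uEl h a e) (uEl h 0 b) ∈ Subgroup.center Γ := fun a e b =>
    liftComm_central hσ hc (uEl_zero_comm h a e b)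
  have hconj : ∀ a e b (x : Γ), x * liftComm hσ (uEl h a e) (uEl h 0 b) * x⁻¹ =
      liftComm hσ (uEl h a e) (uEl h 0 b) := fun a e b x => by
    rw [Subgroup.mem_center_iff.1 (hcen a e b) x, mul_inv_cancel_right]
  have hcomm : ∀ a e b (x : Γ), x * liftComm hσ (uEl h a e) (uEl h 0 b) =
      liftComm hσ (uEl h a e) (uEl h 0 b) * x := fun a e b x =>
    Subgroup.mem_center_iff.1 (hcen a e b) x
  have hr : ∀ a e b d, liftComm hσ (uEl h a e) (uEl h 0 (b + d)) =
      liftComm hσ (uEl h a e) (uEl h 0 b) * liftComm hσ (uEl h a e) (uEl h 0 d) := fun a e b d => by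
    rw [show uEl h 0 (b + d) = uEl h 0 b * uEl h 0 d by rw [uEl_mul]; simp [th_zero],
      liftComm_mul_right hσ hc, hconj]
  have hl : ∀ a e c e' b, liftComm hσ (uEl h a e * uEl h c e') (uEl h 0 b) =
      liftComm hσ (uEl h a e) (uEl h 0 b) * liftComm hσ (uEl h c e') (uEl h 0 b) := fun a e c e' b => by
    rw [liftComm_mul_left hσ hc, hconj, hcomm]
  have hT : ∀ (k : Fˣ) a e b, liftComm hσ (uEl h ((k : F) * a) ((k : F) * th m (k : F) * e))
      (uEl h 0 ((k : F) * th m (k : F) * b)) = liftComm hσ (uEl h a e) (uEl h 0 b) := fun k a e b => by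
    obtain ⟨t, ht⟩ := hσ (hEl h k)
    have := liftComm_conj hσ hc ht (uEl h a e) (uEl h 0 b)
    rw [hconj, hEl_conj, hEl_conj, mul_zero] at this
    exact this.symm
  have h1 := h.one_le
  -- on the centre
  have hC : ∀ b d, liftComm hσ (uEl h 0 b) (uEl h 0 d) = 1 := by
    refine fun b d => weight_trivial (fun b d => liftComm hσ (uEl h 0 b) (uEl h 0 d)) (fun k => k)
      h.two_eq_zero ?_ (fun a b d => hr 0 a b d) ?_ (fun k hk => hk) rfl (exists_weight_linear h) b d
    · intro a c b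
      rw [← hl, uEl_mul]
      simp [th_zero]
    · intro k hk a b
      obtain ⟨l, hl'⟩ := exists_th_mul h k
      have hl0 : l ≠ 0 := fun e => hk (by rw [← hl', e, mul_zero])
      have := hT (Units.mk0 l hl0) 0 a b
      rw [Units.val_mk0, mul_zero, mul_comm l, hl'] at this
      exact this
  have hindep : ∀ a e b, liftComm hσ (uEl h a e) (uEl h 0 b) =
      liftComm hσ (uEl h a 0) (uEl h 0 b) := fun a e b => by
    rw [uEl_split h a e, hl, hC, mul_one]
  rw [hindep]
  refine weight_trivial (fun a b => liftComm hσ (uEl h a 0) (uEl h 0 b)) (fun k => k * th m k)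
    h.two_eq_zero ?_ (fun a b d => hr a 0 b d) ?_ (fun k hk => mul_ne_zero hk (pow_ne_zero _ hk))
    (by simp [th_one]) (exists_weight_th h hm) a b
  · intro a c b
    rw [← hl, uEl_mul, hindep (a + c) (0 + 0 + th m a * c)]
  · intro k hk a b
    have := hT (Units.mk0 k hk) a 0 b
    rw [Units.val_mk0, mul_zero] at this
    exact this

include h hσ hc in
/-- A Sylow 2-subgroup lifts. -/
theorem commutator_inter_ker
    (hcl : ∀ a e b, liftComm hσ (uEl h a e) (uEl h 0 b) = 1) :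
    commutator ↥((uGrp h).comap σ) ≤ Subgroup.center ↥((uGrp h).comap σ) ∧
    ∀ x : ↥((uGrp h).comap σ), x ∈ commutator ↥((uGrp h).comap σ) → σ x.1 = 1 → x = 1 := by
  let Wsub : Subgroup (Cfsg.Sz F m) :=
    { carrier := {g | ∃ b, g = uEl h 0 b}
      one_mem' := ⟨0, (uEl_zero h).symm⟩
      mul_mem' := by
        rintro _ _ ⟨b, rfl⟩ ⟨d, rfl⟩
        exact ⟨b + d, by rw [uEl_mul]; simp [th_zero]⟩
      inv_mem' := by
        rintro _ ⟨b, rfl⟩
        exact ⟨b, by rw [uEl_inv]; simp⟩ }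
  let W := Wsub.comap σ
  have hW : ∀ x, x ∈ W ↔ ∃ b, σ x = uEl h 0 b := fun x => Iff.rfl
  have hWc : ∀ x w : Γ, σ x ∈ uGrp h → w ∈ W → ⁅x, w⁆ = 1 := by
    intro x w hx hw
    obtain ⟨a, e, hx⟩ := hx
    obtain ⟨b, hw⟩ := (hW w).1 hw
    rw [liftComm_map hσ hc, hx, hw]
    exact hcl a e b
  have hWH : ∀ w ∈ W, σ w ∈ uGrp h := fun w hw => by
    obtain ⟨b, hw⟩ := (hW w).1 hw
    exact hw ▸ uEl_mem h 0 b
  have hWab : ∀ w w' : Γ, w ∈ W → w' ∈ W → w * w' = w' * w := fun w w' hw hw' =>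
    commutatorElement_eq_one_iff_mul_comm.1 (hWc w w' (hWH w hw) hw')
  -- the torus
  obtain ⟨l, hl1⟩ : ∃ l : Fˣ, l ≠ 1 := by
    obtain ⟨x, hx0, hx1⟩ := h.exists_ne_zero_one
    exact ⟨Units.mk0 x hx0, fun e => hx1 (congrArg Units.val e)⟩
  obtain ⟨t0, ht0⟩ := hσ (hEl h l)
  have hlam : (l : F) * th m (l : F) - 1 ≠ 0 := fun e =>
    hl1 (Units.ext (h.mul_th_eq_one (sub_eq_zero.1 e)))
  have himg : ∀ w b, σ w = uEl h 0 b → σ ⁅t0, w⁆ = uEl h 0 (((l : F) * th m (l : F) - 1) * b) := by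
    intro w b hw
    rw [map_commutatorElement, ht0, hw, commutatorElement_def, hEl_conj, uEl_inv, uEl_mul]
    simp only [mul_zero, th_zero, add_zero]
    congr 1
    linear_combination b * h.two_eq_zero
  have hmemW : ∀ w ∈ W, ⁅t0, w⁆ ∈ W := fun w hw => by
    obtain ⟨b, hw⟩ := (hW w).1 hw
    exact (hW _).2 ⟨_, himg w b hw⟩
  let V : Subgroup Γ :=
    { carrier := {v | ∃ w ∈ W, v = ⁅t0, w⁆}
      one_mem' := ⟨1, one_mem W, by simp⟩
      mul_mem' := by
        rintro _ _ ⟨w, hw, rfl⟩ ⟨w', hw', rfl⟩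
        refine ⟨w * w', mul_mem hw hw', ?_⟩
        rw [commutator_mul_right', hWab w _ hw (hmemW w' hw'), mul_inv_cancel_right]
      inv_mem' := by
        rintro _ ⟨w, hw, rfl⟩
        refine ⟨w⁻¹, inv_mem hw, inv_eq_of_mul_eq_one_right ?_⟩
        have e : w * ⁅t0, w⁻¹⁆ * w⁻¹ = ⁅t0, w⁻¹⁆ := by
          rw [hWab w _ hw (hmemW _ (inv_mem hw)), mul_inv_cancel_right]
        calc ⁅t0, w⁆ * ⁅t0, w⁻¹⁆ = ⁅t0, w⁆ * (w * ⁅t0, w⁻¹⁆ * w⁻¹) := by rw [e]
          _ = ⁅t0, w * w⁻¹⁆ := (commutator_mul_right' _ _ _).symm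
          _ = 1 := by simp }
  have hVW : V ≤ W := by
    rintro _ ⟨w, hw, rfl⟩; exact hmemW w hw
  have hVker : ∀ v ∈ V, σ v = 1 → v = 1 := by
    rintro _ ⟨w, hw, rfl⟩ hv
    obtain ⟨b, hb⟩ := (hW w).1 hw
    rw [himg w b hb, ← uEl_zero h] at hv
    have hb0 := (mul_eq_zero.1 (uEl_inj h hv).2).resolve_left hlam
    rw [hb0, uEl_zero] at hb
    exact commutatorElement_eq_one_iff_mul_comm.2
      (Subgroup.mem_center_iff.1 (hc hb) t0)
  have hVdec : ∀ w ∈ W, ∃ v ∈ V, v⁻¹ * w ∈ σ.ker := by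
    intro w hw
    obtain ⟨b, hb⟩ := (hW w).1 hw
    obtain ⟨w', hw'⟩ := hσ (uEl h 0 (b / ((l : F) * th m (l : F) - 1)))
    refine ⟨⁅t0, w'⁆, ⟨w', (hW w').2 ⟨_, hw'⟩, rfl⟩, ?_⟩
    rw [MonoidHom.mem_ker, map_mul, map_inv, himg w' _ hw', hb, mul_div_cancel₀ _ hlam,
      inv_mul_cancel]
  have hVt : ∀ (k : Fˣ) (t : Γ), σ t = hEl h k → ∀ v ∈ V, t * v * t⁻¹ ∈ V := by
    rintro k t ht _ ⟨w, hw, rfl⟩
    obtain ⟨b, hb⟩ := (hW w).1 hw
    refine ⟨t * w * t⁻¹, (hW _).2 ⟨(k : F) * th m (k : F) * b, by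
      rw [map_mul, map_mul, map_inv, ht, hb, hEl_conj, mul_zero]⟩, ?_⟩
    rw [conj_commutator']
    refine commutator_congr hc ?_ rfl
    rw [map_mul, map_mul, map_inv, ht, ht0, hEl_inv, ← hEl_mul, ← hEl_mul]
    congr 1
    rw [mul_comm k l, mul_inv_cancel_right]
  have hKW : ∀ a e c e', liftComm hσ (uEl h a e) (uEl h c e') ∈ W := by
    intro a e c e'
    refine (hW _).2 ?_
    rw [map_liftComm, commutatorElement_def, uEl_inv, uEl_inv, uEl_mul, uEl_mul, uEl_mul]
    refine ⟨_, congrArg (fun z => uEl h z _) ?_⟩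
    linear_combination (a + c) * h.two_eq_zero
  let D : F → F → ↥W := fun a c => ⟨liftComm hσ (uEl h a 0) (uEl h c 0), hKW a 0 c 0⟩
  have hindep : ∀ a e c e', liftComm hσ (uEl h a e) (uEl h c e') = (D a c).1 := by
    intro a e c e'
    have hcz : ∀ a e b, liftComm hσ (uEl h 0 b) (uEl h a e) = 1 := fun a e b => by
      rw [liftComm, commutatorElement_eq_one_iff_mul_comm]
      exact (commutatorElement_eq_one_iff_mul_comm.1 (hcl a e b)).symm
    rw [uEl_split h a e, liftComm_mul_left hσ hc, hcz, mul_one, mul_inv_cancel, one_mul,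
      uEl_split h c e', liftComm_mul_right hσ hc, hcl, mul_one,
      mul_inv_cancel, mul_one]
  have hsurjU : ∀ a e, σ (Function.surjInv hσ (uEl h a e)) ∈ uGrp h := fun a e => by
    rw [Function.surjInv_eq hσ]; exact uEl_mem h a e
  have hconjW : ∀ a e, ∀ w ∈ W,
      Function.surjInv hσ (uEl h a e) * w * (Function.surjInv hσ (uEl h a e))⁻¹ = w := by
    intro a e w hw
    rw [commutatorElement_eq_one_iff_mul_comm.1 (hWc _ w (hsurjU a e) hw), mul_inv_cancel_right]
  have hDl : ∀ a a' c, D (a + a') c = D a c * D a' c := fun a a' c => Subtype.ext (by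
    rw [← hindep (a + a') (th m a * a') c 0, show uEl h (a + a') (th m a * a') = uEl h a 0 * uEl h a' 0
      by rw [uEl_mul]; simp, liftComm_mul_left hσ hc, hconjW a 0 _ (hKW a' 0 c 0),
      Subgroup.coe_mul]
    exact hWab _ _ (D a' c).2 (D a c).2)
  have hDr : ∀ a c c', D a (c + c') = D a c * D a c' := fun a c c' => Subtype.ext (by
    rw [← hindep a 0 (c + c') (th m c * c'), show uEl h (c + c') (th m c * c') = uEl h c 0 * uEl h c' 0
      by rw [uEl_mul]; simp, liftComm_mul_right hσ hc, hconjW c 0 _ (hKW a 0 c' 0),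
      Subgroup.coe_mul])
  have : (V.subgroupOf W).Normal := ⟨fun v hv g => by
    rw [Subgroup.mem_subgroupOf] at hv ⊢
    rw [Subgroup.coe_mul, Subgroup.coe_mul, Subgroup.coe_inv, hWab _ _ g.2 (hVW hv),
      mul_inv_cancel_right]
    exact hv⟩
  have hDV : ∀ a c, (D a c).1 ∈ V := by
    intro a c
    have hE := weight_trivial
      (fun a c => (QuotientGroup.mk (D a c) : ↥W ⧸ V.subgroupOf W)) (fun k => k)
      h.two_eq_zero (fun a a' c => by simp only [hDl, QuotientGroup.mk_mul])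
      (fun a c c' => by simp only [hDr, QuotientGroup.mk_mul]) ?_ (fun k hk => hk) rfl
      (exists_weight_linear h) a c
    · exact Subgroup.mem_subgroupOf.1 ((QuotientGroup.eq_one_iff _).1 hE)
    intro k hk a c
    obtain ⟨t, ht⟩ := hσ (hEl h (Units.mk0 k hk))
    have e : (D (k * a) (k * c)).1 = t * (D a c).1 * t⁻¹ := by
      rw [liftComm_conj hσ hc ht, hEl_conj, hEl_conj, Units.val_mk0, hindep]
    obtain ⟨v, hv, hvz⟩ := hVdec _ (D a c).2
    set x := (D a c).1 with hx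
    have hz : t * (v⁻¹ * x) * t⁻¹ = v⁻¹ * x := by
      rw [Subgroup.mem_center_iff.1 (hc hvz) t, mul_inv_cancel_right]
    refine QuotientGroup.eq.2 (Subgroup.mem_subgroupOf.2 ?_)
    show ((D (k * a) (k * c)).1)⁻¹ * x ∈ V
    rw [e, show t * x * t⁻¹ = (t * v * t⁻¹) * (t * (v⁻¹ * x) * t⁻¹) by group, hz,
      show ((t * v * t⁻¹) * (v⁻¹ * x))⁻¹ * x = (v⁻¹ * x)⁻¹ * ((t * v * t⁻¹)⁻¹ * v) * (v⁻¹ * x)
        by group]
    have hmem : (t * v * t⁻¹)⁻¹ * v ∈ V := mul_mem (inv_mem (hVt _ t ht v hv)) hv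
    rw [← Subgroup.mem_center_iff.1 (inv_mem (hc hvz)) _, inv_mul_cancel_right]
    exact hmem
  have hle : commutator ↥((uGrp h).comap σ) ≤ V.subgroupOf ((uGrp h).comap σ) := by
    rw [commutator_def, Subgroup.commutator_le]
    intro x _ y _
    rw [Subgroup.mem_subgroupOf]
    obtain ⟨a, e, hx⟩ := x.2
    obtain ⟨c, e', hy⟩ := y.2
    show ⁅x.1, y.1⁆ ∈ V
    rw [liftComm_map hσ hc, hx, hy, hindep]
    exact hDV a c
  refine ⟨fun x hx => Subgroup.mem_center_iff.2 fun y => Subtype.ext ?_, fun x hx hx1 =>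
    Subtype.ext (hVker x.1 (hle hx) hx1)⟩
  exact commutatorElement_eq_one_iff_mul_comm.1 (hWc y.1 x.1 y.2 (hVW (hle hx)))

include h in
/-- A finite stem extension in which the lifted unipotent subgroup has central lifted centre is an
isomorphism. -/
theorem stem_trivial_of [Finite Γ] (hst : Cfsg.IsStemExtension σ)
    (hcl : ∀ a e b, liftComm hst.1 (uEl h a e) (uEl h 0 b) = 1) : σ.ker = ⊥ := by
  have := finite_sz h
  rw [Subgroup.eq_bot_iff_forall]
  intro z hz
  by_contra hz1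
  obtain ⟨p, hp, hpd⟩ := Nat.exists_prime_and_dvd (n := orderOf z)
    (fun e => hz1 (orderOf_eq_one_iff.1 e))
  have := Fact.mk hp
  let P : Sylow p (Cfsg.Sz F m) := if hp2 : p = 2 then hp2 ▸ uSylow h else default
  suffices hone : z ^ (P : Subgroup (Cfsg.Sz F m)).index = 1 by
    exact P.not_dvd_index (hpd.trans (orderOf_dvd_of_pow_eq_one hone))
  obtain ⟨hH, hcomm⟩ := Cfsg.Agent.FGS2.pow_index_mem_commutator
    ((P : Subgroup (Cfsg.Sz F m)).comap σ) (hst.2.1 hz) (hst.2.2 hz)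
  have hidx := (P : Subgroup (Cfsg.Sz F m)).index_comap_of_surjective hst.1
  rw [← hidx]
  have hker : σ (z ^ ((P : Subgroup (Cfsg.Sz F m)).comap σ).index) = 1 := by
    rw [map_pow, MonoidHom.mem_ker.1 hz, one_pow]
  by_cases hp2 : p = 2
  · subst hp2
    have hPU : (P : Subgroup (Cfsg.Sz F m)) = uGrp h := by simp [P, uSylow_coe]
    have key : ∀ U : Subgroup (Cfsg.Sz F m), U = uGrp h → ∀ w : ↥(U.comap σ),
        w ∈ commutator ↥(U.comap σ) → σ w.1 = 1 → w.1 = 1 := by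
      rintro U rfl w hw hw1
      exact congrArg Subtype.val ((commutator_inter_ker h hst.1 hst.2.1 hcl).2 w hw hw1)
    exact key _ hPU ⟨_, hH⟩ hcomm hker
  · have hcyc : IsCyclic (P : Subgroup (Cfsg.Sz F m)) := sylow_cyclic h hp2 P
    let τ : ↥((P : Subgroup (Cfsg.Sz F m)).comap σ) →* (P : Subgroup (Cfsg.Sz F m)) :=
      (σ.comp (Subgroup.subtype _)).codRestrict _ (fun x => x.2)
    have hτ : τ.ker ≤ Subgroup.center _ := fun x hx => Subgroup.mem_center_iff.2 fun y =>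
      Subtype.ext (Subgroup.mem_center_iff.1 (hst.2.1
        (show σ x.1 = 1 from congrArg Subtype.val (MonoidHom.mem_ker.1 hx))) y.1)
    have hab := MonoidHom.isMulCommutative_of_isCyclic_of_ker_le_center τ hτ
    have hbot : commutator ↥((P : Subgroup (Cfsg.Sz F m)).comap σ) = ⊥ := by
      rw [commutator_def, Subgroup.commutator_eq_bot_iff_le_centralizer]
      intro x _
      exact Subgroup.mem_centralizer_iff.2 fun y _ => hab.is_comm.comm y x
    rw [hbot, Subgroup.mem_bot] at hcomm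
    exact congrArg Subtype.val hcomm

include h in
/-- Every finite stem extension of `Sz(q)`, `q ≥ 32`, is an isomorphism. -/
theorem stem_trivial (hm : 2 ≤ m) [Finite Γ] (hst : Cfsg.IsStemExtension σ) : σ.ker = ⊥ :=
  stem_trivial_of h hst (central_liftComm h hst.1 hst.2.1 hm)

end Ext

end Cfsg.Agent.Suzuki
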