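import Cfsg.Agent.Suzuki.SzEightUpper
import Cfsg.Agent.Suzuki.SzAction

/-! # A covering group of `Sz(8)`

A central extension of the point stabiliser is corestricted to the whole group: the cocycle is the sum
over the points of the cocycle at the components in the stabiliser. -/

set_option autoImplicit false

namespace Cfsg.Agent.Suzuki.SzEight

open scoped commutatorElement

universe u v

/-- A normalised two-cocycle with trivial action. -/
structure Coc (G : Type u) [Group G] (A : Type v) [AddCommGroup A] where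
  c : G → G → A
  one_left : ∀ g, c 1 g = 0
  one_right : ∀ g, c g 1 = 0
  assoc : ∀ g g' g'', c g g' + c (g * g') g'' = c g' g'' + c g (g' * g'')

/-- The central extension by a cocycle. -/
@[ext]
structure CocExt {G : Type u} [Group G] {A : Type v} [AddCommGroup A] (κ : Coc G A) : Type max u v where
  base : G
  fib : A

namespace CocExt

variable {G : Type u} [Group G] {A : Type v} [AddCommGroup A] {κ : Coc G A}

instance cocExtGroup : Group (CocExt κ) where
  mul x y := ⟨x.base * y.base, x.fib + y.fib + κ.c x.base y.base⟩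
  one := ⟨1, 0⟩
  inv x := ⟨x.base⁻¹, -x.fib - κ.c x.base⁻¹ x.base⟩
  mul_assoc x y z := by
    refine CocExt.ext (mul_assoc _ _ _) ?_
    show x.fib + y.fib + κ.c x.base y.base + z.fib + κ.c (x.base * y.base) z.base =
      x.fib + (y.fib + z.fib + κ.c y.base z.base) + κ.c x.base (y.base * z.base)
    have := κ.assoc x.base y.base z.base
    calc _ = x.fib + y.fib + z.fib + (κ.c x.base y.base + κ.c (x.base * y.base) z.base) := by abel
      _ = _ := by rw [this]; abel
  one_mul x := by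
    refine CocExt.ext (one_mul _) ?_
    show 0 + x.fib + κ.c 1 x.base = x.fib
    rw [κ.one_left, zero_add, add_zero]
  mul_one x := by
    refine CocExt.ext (mul_one _) ?_
    show x.fib + 0 + κ.c x.base 1 = x.fib
    rw [κ.one_right, add_zero, add_zero]
  inv_mul_cancel x := by
    refine CocExt.ext (inv_mul_cancel _) ?_
    show -x.fib - κ.c x.base⁻¹ x.base + x.fib + κ.c x.base⁻¹ x.base = 0
    abel

theorem base_mul (x y : CocExt κ) : (x * y).base = x.base * y.base := rfl
theorem fib_mul (x y : CocExt κ) : (x * y).fib = x.fib + y.fib + κ.c x.base y.base := rfl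

/-- The projection. -/
def proj : CocExt κ →* G where
  toFun := CocExt.base
  map_one' := rfl
  map_mul' _ _ := rfl

/-- The inclusion of the kernel. -/
def inl : Multiplicative A →* CocExt κ where
  toFun a := ⟨1, a.toAdd⟩
  map_one' := rfl
  map_mul' a b := CocExt.ext (one_mul 1).symm (by
    show (a * b).toAdd = a.toAdd + b.toAdd + κ.c 1 1
    rw [κ.one_left, add_zero]; rfl)

/-- The kernel of the projection. -/
noncomputable def kerEquiv : (proj (κ := κ)).ker ≃* Multiplicative A :=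
  (MulEquiv.ofBijective ((inl (κ := κ)).codRestrict (proj (κ := κ)).ker fun _ => rfl)
    ⟨fun a b hab => congrArg (fun z : (proj (κ := κ)).ker => Multiplicative.ofAdd z.1.fib) hab,
      fun z => ⟨Multiplicative.ofAdd z.1.fib,
        Subtype.ext (CocExt.ext (show 1 = z.1.base from z.2.symm) rfl)⟩⟩).symm

theorem proj_ker_central : (proj (κ := κ)).ker ≤ Subgroup.center (CocExt κ) := by
  intro z hz
  rw [Subgroup.mem_center_iff]
  intro x
  have hz' : z.base = 1 := hz
  refine CocExt.ext ?_ ?_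
  · rw [base_mul, base_mul, hz', one_mul, mul_one]
  · rw [fib_mul, fib_mul, hz', κ.one_left, κ.one_right, add_zero, add_zero, add_comm]

theorem commutator_lifts {g g' : G} (e : g * g' = g' * g) :
    ⁅(⟨g, 0⟩ : CocExt κ), (⟨g', 0⟩ : CocExt κ)⁆ = inl (Multiplicative.ofAdd (κ.c g g' - κ.c g' g)) := by
  rw [commutatorElement_def, mul_inv_eq_iff_eq_mul, mul_inv_eq_iff_eq_mul]
  refine CocExt.ext ?_ ?_
  · show g * g' = 1 * g' * g
    rw [one_mul, e]
  · show 0 + 0 + κ.c g g' = κ.c g g' - κ.c g' g + 0 + κ.c 1 g' + 0 + κ.c (1 * g') g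
    rw [κ.one_left, one_mul]
    abel

instance cocExt_finite [Finite G] [Finite A] : Finite (CocExt κ) :=
  Finite.of_injective (fun x => (x.base, x.fib)) fun x y h => by
    obtain ⟨h1, h2⟩ := Prod.mk.inj h; exact CocExt.ext h1 h2

end CocExt

variable {F : Type u} [Field F]

/-- The cocycle of the unipotent group, on coordinates. -/
def beta (X Y : F × F) : Aq F :=
  ((X.1 ^ 2 * Y.2 + X.1 * Y.1 ^ 6 + X.1 ^ 5 * Y.1 ^ 2 : F) : Aq F)

/-- The product of coordinates. -/
def umul (X Y : F × F) : F × F := (X.1 + Y.1, X.2 + Y.2 + X.1 ^ 4 * Y.1)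

/-- The action of the torus on coordinates. -/
def tact (k : F) (X : F × F) : F × F := (k * X.1, k * k ^ 4 * X.2)

theorem trace_mem (h : Ctx F 1) (y : F) : ((y + y ^ 2 + y ^ 4 : F) : Aq F) = 0 := by
  rw [QuotientAddGroup.eq_zero_iff]
  set D := y + y ^ 2 + y ^ 4 with hD
  have hDD : D * D = D := by
    rw [hD]
    linear_combination (y ^ 3 + y ^ 5 + y ^ 6) * h.two_eq_zero + pow_eight h y
  rcases eq_or_ne D 0 with e | e
  · rw [e]; exact zero_mem _
  · rw [show D = 1 from mul_left_cancel₀ e (by rw [hDD, mul_one])]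
    exact AddSubgroup.mem_zmultiples 1

theorem beta_assoc (h : Ctx F 1) (X Y Z : F × F) :
    beta X Y + beta (umul X Y) Z = beta Y Z + beta X (umul Y Z) := by
  obtain ⟨a, e⟩ := X
  obtain ⟨c, f⟩ := Y
  obtain ⟨d, g⟩ := Z
  set y := a ^ 4 * c * d ^ 2 with hy
  have e2 : y ^ 2 = a * c ^ 2 * d ^ 4 := by
    rw [hy, show (a ^ 4 * c * d ^ 2) ^ 2 = a ^ 8 * c ^ 2 * d ^ 4 by ring, pow_eight h]
  have e4 : y ^ 4 = a ^ 2 * c ^ 4 * d := by
    rw [show y ^ 4 = (y ^ 2) ^ 2 by ring, e2,
      show (a * c ^ 2 * d ^ 4) ^ 2 = a ^ 2 * c ^ 4 * d ^ 8 by ring, pow_eight h]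
  rw [← sub_eq_zero, ← trace_mem h y]
  simp only [beta, umul, ← QuotientAddGroup.mk_add, ← QuotientAddGroup.mk_sub]
  congr 1
  rw [e2, e4, hy]
  linear_combination (a * c * g + 2 * a ^ 4 * c * d ^ 2 + 5 * a ^ 3 * c ^ 2 * d ^ 2 +
    5 * a ^ 2 * c ^ 3 * d ^ 2 - 5 * a * c ^ 4 * d ^ 2 - a ^ 2 * c ^ 4 * d - 3 * a * c ^ 5 * d -
    10 * a * c ^ 3 * d ^ 3 - 8 * a * c ^ 2 * d ^ 4 - 3 * a * c * d ^ 5 - a ^ 5 * c * d) * h.two_eq_zero

theorem beta_tact (h : Ctx F 1) {k : F} (hk : k ≠ 0) (X Y : F × F) :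
    beta (tact k X) (tact k Y) = beta X Y := by
  refine congrArg (fun z : F => (z : Aq F)) ?_
  simp only [tact]
  linear_combination (X.1 ^ 2 * Y.2 + X.1 * Y.1 ^ 6 + X.1 ^ 5 * Y.1 ^ 2) * pow_seven h hk

theorem tact_umul (h : Ctx F 1) (k : F) (X Y : F × F) :
    tact k (umul X Y) = umul (tact k X) (tact k Y) := by
  refine Prod.ext ?_ ?_ <;> simp only [tact, umul] <;> ring

theorem tact_tact (k l : F) (X : F × F) : tact k (tact l X) = tact (k * l) X := by
  refine Prod.ext ?_ ?_ <;> simp only [tact] <;> ring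

variable (h : Ctx F 1)

/-- The parametrisation of the stabiliser. -/
def par (t : (F × F) × Fˣ) : Cfsg.Sz F 1 := uEl h t.1.1 t.1.2 * hEl h t.2

theorem par_injective : Function.Injective (par h) := by
  rintro ⟨⟨a, b⟩, k⟩ ⟨⟨c, d⟩, l⟩ e
  obtain ⟨rfl, rfl, rfl⟩ := uhEl_inj h e
  rfl

theorem par_mul (t s : (F × F) × Fˣ) :
    par h t * par h s = par h (umul t.1 (tact (t.2 : F) s.1), t.2 * s.2) := by
  simp only [par]
  rw [uhEl_mul]
  rfl

theorem par_one : par h ((0, 0), 1) = 1 := by
  simp only [par]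
  rw [uEl_zero, hEl_one, one_mul]

/-- The coordinates of an element of the stabiliser. -/
noncomputable def coord : Cfsg.Sz F 1 → (F × F) × Fˣ := Function.invFun (par h)

theorem coord_par (t : (F × F) × Fˣ) : coord h (par h t) = t :=
  Function.leftInverse_invFun (par_injective h) t

/-- The cocycle on the stabiliser. -/
noncomputable def cB (g g' : Cfsg.Sz F 1) : Aq F :=
  beta (coord h g).1 (tact ((coord h g).2 : F) (coord h g').1)

theorem cB_par (t s : (F × F) × Fˣ) :
    cB h (par h t) (par h s) = beta t.1 (tact (t.2 : F) s.1) := by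
  rw [cB, coord_par, coord_par]

theorem cB_assoc (t s r : (F × F) × Fˣ) :
    cB h (par h t) (par h s) + cB h (par h t * par h s) (par h r) =
      cB h (par h s) (par h r) + cB h (par h t) (par h s * par h r) := by
  rw [par_mul, par_mul, cB_par, cB_par, cB_par, cB_par]
  dsimp only
  rw [Units.val_mul, tact_umul h, tact_tact, ← tact_tact, beta_assoc h, beta_tact h t.2.ne_zero]

theorem beta_zero_left (Y : F × F) : beta (0, 0) Y = 0 := by simp [beta]

theorem beta_zero_right (X : F × F) : beta X (0, 0) = 0 := by simp [beta]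

theorem cB_one_left (t : (F × F) × Fˣ) : cB h 1 (par h t) = 0 := by
  rw [← par_one h, cB_par]; exact beta_zero_left _

theorem cB_one_right (t : (F × F) × Fˣ) : cB h (par h t) 1 = 0 := by
  rw [← par_one h, cB_par]
  simp only [tact, mul_zero]
  exact beta_zero_right _

/-- A transversal: the unipotent group times the reflection, and the identity at infinity. -/
noncomputable def tr (p : Cfsg.suzukiOvoid F 1) : Cfsg.Sz F 1 := by
  classical
  exact if e : ∃ x y, p = pt 1 x y then uEl h e.choose e.choose_spec.choose * wEl h else 1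

theorem tr_inf : tr h (inf' F 1) = 1 := by
  rw [tr, dif_neg]
  rintro ⟨x, y, e⟩
  exact pt_ne_inf x y e.symm

theorem tr_pt (x y : F) : tr h (pt 1 x y) = uEl h x y * wEl h := by
  have e : ∃ a b, pt 1 x y = pt 1 a b := ⟨x, y, rfl⟩
  rw [tr, dif_pos e]
  obtain ⟨h1, h2⟩ := pt_inj e.choose_spec.choose_spec
  rw [← h2, ← h1]

theorem tr_smul (p : Cfsg.suzukiOvoid F 1) : tr h p • inf' F 1 = p := by
  rcases pt_cases p with rfl | ⟨x, y, rfl⟩
  · rw [tr_inf, one_smul]
  · rw [tr_pt, mul_smul, wEl_smul_inf, uEl_smul_zero]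

/-- The component of `g` at a point. -/
noncomputable def loc (g : Cfsg.Sz F 1) (p : Cfsg.suzukiOvoid F 1) : Cfsg.Sz F 1 :=
  (tr h (g • p))⁻¹ * g * tr h p

theorem loc_mul (g g' : Cfsg.Sz F 1) (p : Cfsg.suzukiOvoid F 1) :
    loc h (g * g') p = loc h g (g' • p) * loc h g' p := by
  simp only [loc, mul_smul]; group

theorem loc_one (p : Cfsg.suzukiOvoid F 1) : loc h 1 p = 1 := by
  simp [loc]

theorem loc_par (g : Cfsg.Sz F 1) (p : Cfsg.suzukiOvoid F 1) : ∃ t, loc h g p = par h t := by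
  obtain ⟨a, b, k, e⟩ := fix_inf h (g := loc h g p) (by
    rw [loc, mul_smul, mul_smul, tr_smul, inv_smul_eq_iff, tr_smul])
  exact ⟨((a, b), k), e⟩

theorem loc_uEl (a b x y : F) : loc h (uEl h a b) (pt 1 x y) = 1 := by
  rw [loc, uEl_smul_pt, tr_pt, tr_pt, mul_inv_rev, mul_assoc, mul_assoc, ← mul_assoc (uEl h a b),
    uEl_mul, show a + x = x + a from add_comm _ _,
    show b + y + th 1 a * x = y + th 1 a * x + b by ring, ← mul_assoc (uEl h (x + a) _)⁻¹,
    inv_mul_cancel, one_mul, inv_mul_cancel]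

theorem loc_uEl_inf (a b : F) : loc h (uEl h a b) (inf' F 1) = uEl h a b := by
  rw [loc, uEl_smul_inf, tr_inf, inv_one, one_mul, mul_one]

/-- The corestricted cocycle. -/
noncomputable def cores [Fintype (Cfsg.suzukiOvoid F 1)] : Coc (Cfsg.Sz F 1) (Aq F) where
  c g g' := ∑ p, cB h (loc h g (g' • p)) (loc h g' p)
  one_left g := Finset.sum_eq_zero fun p _ => by
    rw [loc_one]
    obtain ⟨t, e⟩ := loc_par h g p
    rw [e, cB_one_left]
  one_right g := Finset.sum_eq_zero fun p _ => by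
    rw [loc_one]
    obtain ⟨t, e⟩ := loc_par h g ((1 : Cfsg.Sz F 1) • p)
    rw [e, cB_one_right]
  assoc g g' g'' := by
    rw [← Equiv.sum_comp (MulAction.toPerm g'') (fun p => cB h (loc h g (g' • p)) (loc h g' p)),
      ← Finset.sum_add_distrib, ← Finset.sum_add_distrib]
    refine Finset.sum_congr rfl fun p _ => ?_
    simp only [MulAction.toPerm_apply]
    rw [loc_mul, loc_mul, mul_smul]
    obtain ⟨t, et⟩ := loc_par h g (g' • g'' • p)
    obtain ⟨s, es⟩ := loc_par h g' (g'' • p)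
    obtain ⟨r, er⟩ := loc_par h g'' p
    rw [et, es, er]
    exact cB_assoc h t s r

theorem cores_uEl [Fintype (Cfsg.suzukiOvoid F 1)] (a b c d : F) :
    (cores h).c (uEl h a b) (uEl h c d) = beta (a, b) (c, d) := by
  have e1 : ∀ x y : F, uEl h x y = par h ((x, y), 1) := fun x y => by
    simp only [par]; rw [hEl_one, mul_one]
  show ∑ p, cB h (loc h (uEl h a b) (uEl h c d • p)) (loc h (uEl h c d) p) = _
  rw [Finset.sum_eq_single (inf' F 1)]
  · rw [uEl_smul_inf, loc_uEl_inf, loc_uEl_inf, e1, e1 c d, cB_par]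
    simp [tact]
  · intro p _ hp
    rcases pt_cases p with rfl | ⟨x, y, rfl⟩
    · exact absurd rfl hp
    · have e0 := cB_one_left h ((0, 0), 1)
      rw [par_one] at e0
      rw [uEl_smul_pt, loc_uEl, loc_uEl, e0]
  · exact fun hn => absurd (Finset.mem_univ _) hn

include h in
/-- A covering group exists. -/
theorem exists_cover [Finite F] :
    ∃ (Γ : Type u) (_ : Group Γ) (_ : Finite Γ) (σ : Γ →* Cfsg.Sz F 1),
      Cfsg.IsStemExtension σ ∧ Nonempty (σ.ker ≃* Multiplicative (Aq F)) := by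
  have := finite_sz h
  have := finite_ovoid h
  let _ : Fintype (Cfsg.suzukiOvoid F 1) := Fintype.ofFinite _
  have : Finite (Aq F) := Finite.of_surjective _ QuotientAddGroup.mk_surjective
  refine ⟨CocExt (cores h), inferInstance, inferInstance, CocExt.proj,
    ⟨fun g => ⟨⟨g, 0⟩, rfl⟩, CocExt.proj_ker_central, ?_⟩, ⟨CocExt.kerEquiv⟩⟩
  intro z hz
  obtain ⟨b, hb⟩ := QuotientAddGroup.mk_surjective z.fib
  have hz' : z = CocExt.inl (Multiplicative.ofAdd (z.fib)) :=
    CocExt.ext (show z.base = 1 from hz) rfl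
  have e : CocExt.inl (κ := cores h) (Multiplicative.ofAdd (z.fib)) =
      ⁅(⟨uEl h 1 0, 0⟩ : CocExt (cores h)), (⟨uEl h 0 b, 0⟩ : CocExt (cores h))⁆ := by
    rw [CocExt.commutator_lifts (uEl_zero_comm h 1 0 b), cores_uEl, cores_uEl, ← hb]
    simp [beta]
  rw [hz', e]
  exact Subgroup.commutator_mem_commutator (Subgroup.mem_top _) (Subgroup.mem_top _)

end Cfsg.Agent.Suzuki.SzEight
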