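import Cfsg.Agent.Suzuki.ReeAut
import Cfsg.Agent.Suzuki.ReeEllData
import Cfsg.Agent.Suzuki.SL2Multiplier

/-!
The Schur multiplier of the small Ree groups is trivial.
-/

set_option autoImplicit false

universe u

namespace Cfsg.Agent.Suzuki.Ree

open Cfsg.Lie Cfsg.Agent.Chev
open scoped Matrix MatrixGroups Pointwise commutatorElement

/-- homomorphisms from perfect groups to commutative groups vanish -/
theorem hom_perfect_trivial {P C : Type*} [Group P] [Group C] (hP : commutator P = ⊤)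
    (hC : ∀ a b : C, a * b = b * a) (ψ : P →* C) : ψ = 1 := by
  refine MonoidHom.ext fun x => ?_
  have hk : commutator P ≤ ψ.ker := Subgroup.commutator_le.2 fun a _ b _ => by
    rw [MonoidHom.mem_ker, map_commutatorElement]
    exact commutatorElement_eq_one_iff_mul_comm.2 (hC _ _)
  rw [hP] at hk
  exact MonoidHom.mem_ker.1 (hk (Subgroup.mem_top x))

section LiftComm

variable {Γ Q : Type*} [Group Γ] [Group Q] {σ : Γ →* Q} (hσ : Function.Surjective σ)
  (hc : σ.ker ≤ Subgroup.center Γ)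

/-- the commutator of two lifts -/
noncomputable def lc (g k : Q) : Γ := ⁅Function.surjInv hσ g, Function.surjInv hσ k⁆

include hc in
theorem lc_map (x y : Γ) : ⁅x, y⁆ = lc hσ (σ x) (σ y) :=
  commutator_congr_of_central hc (Function.surjInv_eq hσ _).symm (Function.surjInv_eq hσ _).symm

theorem map_lc (g k : Q) : σ (lc hσ g k) = ⁅g, k⁆ := by
  rw [lc, map_commutatorElement, Function.surjInv_eq hσ, Function.surjInv_eq hσ]

include hc in
theorem lc_mul_left (g g' k : Q) : lc hσ (g * g') k =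
    Function.surjInv hσ g * lc hσ g' k * (Function.surjInv hσ g)⁻¹ * lc hσ g k := by
  rw [lc, lc, lc, show Function.surjInv hσ g * ⁅Function.surjInv hσ g', Function.surjInv hσ k⁆ *
    (Function.surjInv hσ g)⁻¹ * ⁅Function.surjInv hσ g, Function.surjInv hσ k⁆ =
      ⁅Function.surjInv hσ g * Function.surjInv hσ g', Function.surjInv hσ k⁆ by
        simp [commutatorElement_def, mul_assoc]]
  exact commutator_congr_of_central hc (by simp [Function.surjInv_eq hσ]) rfl

include hc in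
theorem lc_mul_right (g k k' : Q) : lc hσ g (k * k') =
    lc hσ g k * (Function.surjInv hσ k * lc hσ g k' * (Function.surjInv hσ k)⁻¹) := by
  rw [lc, lc, lc, show ⁅Function.surjInv hσ g, Function.surjInv hσ k⁆ *
    (Function.surjInv hσ k * ⁅Function.surjInv hσ g, Function.surjInv hσ k'⁆ * (Function.surjInv hσ k)⁻¹) =
      ⁅Function.surjInv hσ g, Function.surjInv hσ k * Function.surjInv hσ k'⁆ by
        simp [commutatorElement_def, mul_assoc]]
  exact commutator_congr_of_central hc rfl (by simp [Function.surjInv_eq hσ])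

include hc in
theorem lc_conj {t : Γ} {s : Q} (ht : σ t = s) (g k : Q) :
    t * lc hσ g k * t⁻¹ = lc hσ (s * g * s⁻¹) (s * k * s⁻¹) := by
  rw [lc, lc, show t * ⁅Function.surjInv hσ g, Function.surjInv hσ k⁆ * t⁻¹ =
    ⁅t * Function.surjInv hσ g * t⁻¹, t * Function.surjInv hσ k * t⁻¹⁆ by simp [commutatorElement_def, mul_assoc]]
  exact commutator_congr_of_central hc (by simp [ht, Function.surjInv_eq hσ]) (by simp [ht, Function.surjInv_eq hσ])

include hc in
theorem lc_central {g k : Q} (hgk : g * k = k * g) : lc hσ g k ∈ Subgroup.center Γ := by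
  refine hc ?_
  rw [MonoidHom.mem_ker, map_lc, commutatorElement_eq_one_iff_mul_comm]
  exact hgk

theorem lc_swap (g k : Q) : lc hσ k g = (lc hσ g k)⁻¹ := by
  rw [lc, lc, commutatorElement_inv]

end LiftComm

section Forms

variable {K : Type u} [Field K]

/-- values of biadditive maps of odd parity vanish -/
theorem parity_zero [CharP K 3] {M : Type*} [Group M] (f : K → M) (hadd : ∀ a b, f (a + b) = f a * f b)
    (hneg : ∀ a, f (-a) = f a) (a : K) : f a = 1 := by
  have h0 : f 0 = 1 := by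
    have := hadd 0 0; rw [add_zero] at this; exact left_eq_mul.1 this
  have h2 : f a * f a = 1 := by
    conv_lhs => arg 2; rw [← hneg a]
    rw [← hadd, add_neg_cancel, h0]
  have h3 : f a * f a * f a = 1 := by
    rw [← hadd, ← hadd, show a + a + a = 0 by
      have h3 : (3 : K) = 0 := by exact_mod_cast CharP.cast_eq_zero K 3
      linear_combination a * h3, h0]
  rwa [h2, one_mul] at h3

/-- biadditive maps invariant under a weight with a nondegenerate point vanish -/
theorem weight_zero {M : Type*} [Group M] (f : K → K → M) (φ : K → K)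
    (hl : ∀ a c b, f (a + c) b = f a b * f c b) (hr : ∀ a b d, f a (b + d) = f a b * f a d)
    (hinv : ∀ k : K, k ≠ 0 → ∀ a b, f (k * a) (φ k * b) = f a b)
    (hφ : ∀ k : K, k ≠ 0 → φ k ≠ 0)
    (hx : ∃ x : K, x ≠ 0 ∧ x + 1 ≠ 0 ∧ (φ (x + 1))⁻¹ - (φ x)⁻¹ - 1 ≠ 0) (a b : K) : f a b = 1 := by
  have h0 : ∀ a, f a 0 = 1 := fun a => by
    have := hr a 0 0
    rw [add_zero] at this
    exact left_eq_mul.1 this
  have hg : ∀ a b, a ≠ 0 → f a b = f 1 (b / φ a) := fun a b ha => by
    rw [← hinv a ha 1 (b / φ a), mul_one, mul_div_cancel₀ _ (hφ a ha)]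
  obtain ⟨x, hx0, hx1, hs⟩ := hx
  have hg1 : ∀ u, f 1 u = 1 := by
    intro u
    have key : ∀ c, f 1 (c * ((φ (x + 1))⁻¹ - (φ x)⁻¹ - 1)) = 1 := by
      intro c
      have e1 : f (x + 1) c = f x c * f 1 c := hl x 1 c
      rw [hg _ _ hx1, hg _ _ hx0, ← hr] at e1
      have e2 : f 1 (c * ((φ (x + 1))⁻¹ - (φ x)⁻¹ - 1)) * f 1 (c / φ x + c) = f 1 (c / φ (x + 1)) := by
        rw [← hr]; congr 1; rw [div_eq_mul_inv, div_eq_mul_inv]; ring
      rw [e1] at e2
      exact mul_eq_right.1 e2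
    have := key (u / ((φ (x + 1))⁻¹ - (φ x)⁻¹ - 1))
    rwa [div_mul_cancel₀ _ hs] at this
  by_cases ha : a = 0
  · subst ha
    have := hl 0 0 b
    rw [add_zero] at this
    exact left_eq_mul.1 this
  · rw [hg a b ha, hg1]

/-- biadditive maps invariant under the squares vanish -/
theorem square_zero [Finite K] [CharP K 3] (hcard : 9 < Nat.card K) {M : Type*} [Group M]
    (f : K → K → M) (hmem : ∀ a b, f a b ∈ Subgroup.center M)
    (hl : ∀ a c b, f (a + c) b = f a b * f c b) (hr : ∀ a b d, f a (b + d) = f a b * f a d)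
    (hinv : ∀ k : K, k ≠ 0 → ∀ a b, f (k ^ 2 * a) (k ^ 2 * b) = f a b) (a b : K) : f a b = 1 := by
  have : Fact (Nat.Prime 3) := ⟨Nat.prime_three⟩
  let : CommGroup ↥(Subgroup.center M) := IsMulCommutative.instCommGroup
  let F : K →+ K →+ Additive ↥(Subgroup.center M) :=
    AddMonoidHom.mk' (fun a => AddMonoidHom.mk' (fun b => Additive.ofMul ⟨f a b, hmem a b⟩)
      (fun b d => Additive.toMul.injective (Subtype.ext (hr a b d))))
      (fun a c => AddMonoidHom.ext fun b => Additive.toMul.injective (Subtype.ext (hl a c b)))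
  have := Cfsg.Agent.Suzuki.square_invariant_eq_zero 3 F
    (fun k hk a b => Additive.toMul.injective (Subtype.ext (hinv k hk a b))) (Or.inr ⟨by norm_num, hcard⟩) a b
  exact congrArg (fun z => (Additive.toMul z).1) this

end Forms

variable {K : Type u} [Field K] {m : ℕ} (h : Ctx K m)

/-- `G¹` -/
local notation "G₁" => twistedG2 K (3 ^ m)
/-- `H¹` -/
local notation "H₁" => chevG2.diagonalSubgroup K ⊓ twistedG2 K (3 ^ m)
/-- `U¹` -/
local notation "U₁" => chevG2.posUnipotent K ⊓ twistedG2 K (3 ^ m)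

include h in
theorem exists_mult_u (k : K) : ∃ l : K, th3 m l * l = k ^ 2 := by
  have := h.finite
  let := Fintype.ofFinite K
  have hns : ¬ IsSquare (-1 : K) := by
    rw [FiniteField.isSquare_neg_one_iff, ← Nat.card_eq_fintype_card, h.card]
    obtain ⟨j, hj, -⟩ := arith m
    omega
  let S := {x : K // ∃ y, x = y ^ 2}
  let F : S → S := fun x => ⟨th3 m x.1 * x.1, by
    obtain ⟨y, hy⟩ := x.2
    exact ⟨th3 m y * y, by rw [hy, pow_two, th3_mul]; ring⟩⟩
  have hF : Function.Injective F := by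
    rintro ⟨a, ha⟩ ⟨b, hb⟩ e
    have e' : th3 m a * a = th3 m b * b := congrArg Subtype.val e
    apply Subtype.ext
    show a = b
    by_cases hb0 : b = 0
    · subst hb0
      rw [mul_zero, mul_eq_zero] at e'
      rcases e' with e' | e'
      · simpa [th3] using e'
      · exact e'
    have h1 : ((a / b) ^ 3 ^ m) ^ 3 * (a / b) = 1 := by
      rw [div_pow, div_pow, div_mul_div_comm, div_eq_one_iff_eq (mul_ne_zero (pow_ne_zero _ (pow_ne_zero _ hb0)) hb0)]
      exact e'
    rcases sq_eq_one_iff.1 (mult_u h h1) with e2 | e2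
    · exact (div_eq_one_iff_eq hb0).1 e2
    · exfalso
      obtain ⟨ya, rfl⟩ := ha
      obtain ⟨yb, rfl⟩ := hb
      refine hns ⟨ya / yb, ?_⟩
      rw [← e2, ← pow_two, div_pow]
  obtain ⟨⟨x, hx⟩, e⟩ := (Finite.injective_iff_surjective.1 hF) ⟨k ^ 2, k, rfl⟩
  exact ⟨x, congrArg Subtype.val e⟩

include h in
theorem exists_mult_v (k : K) : ∃ l : K, th3 m l * l ^ 2 = k := by
  have := h.finite
  suffices hi : Function.Injective (fun k : K => th3 m k * k ^ 2) from Finite.injective_iff_surjective.1 hi k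
  intro a b e
  simp only at e
  by_cases hb0 : b = 0
  · subst hb0
    rw [show th3 m (0 : K) * 0 ^ 2 = 0 by simp, mul_eq_zero] at e
    rcases e with e | e
    · simpa [th3] using e
    · exact (pow_eq_zero_iff two_ne_zero).1 e
  refine (div_eq_one_iff_eq hb0).1 (mult_v h ?_)
  rw [div_pow, div_pow, div_pow, div_mul_div_comm,
    div_eq_one_iff_eq (mul_ne_zero (pow_ne_zero _ (pow_ne_zero _ hb0)) (pow_ne_zero _ hb0))]
  exact e

include h in
theorem exists_weight_point (hm : 1 ≤ m) : ∃ x : K, x ≠ 0 ∧ x + 1 ≠ 0 ∧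
    (th3 m (x + 1) * (x + 1) ^ 2)⁻¹ - (th3 m x * x ^ 2)⁻¹ - 1 ≠ 0 := by
  classical
  have := h.finite
  have := h.char
  let := Fintype.ofFinite K
  by_contra hc
  push Not at hc
  let r := 3 ^ (m + 1)
  have hr : 9 ≤ r := by
    calc 9 = 3 ^ 2 := rfl
      _ ≤ r := Nat.pow_le_pow_right (by norm_num) (by omega)
  open Polynomial in
  let P : K[X] := X ^ r * X ^ 2 - (X ^ r + 1) * (X + 1) ^ 2 - (X ^ r + 1) * (X + 1) ^ 2 * (X ^ r * X ^ 2)
  have hdeg : P.natDegree ≤ 2 * r + 4 := by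
    simp only [P]
    compute_degree
    all_goals omega
  have hne : P ≠ 0 := by
    intro e
    have := congrArg (fun Q => Polynomial.eval 0 Q) e
    simp [P, show r ≠ 0 by omega] at this
  have hsub : ((Finset.univ.erase (0 : K)).erase (-1)).card ≤ P.roots.toFinset.card := by
    refine Finset.card_le_card fun x hx => ?_
    simp only [Finset.mem_erase, Finset.mem_univ, and_true] at hx
    obtain ⟨hx1, hx0⟩ := hx
    have hx1' : x + 1 ≠ 0 := fun e => hx1 (by linear_combination e)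
    have e := hc x hx0 hx1'
    have hth : ∀ y : K, th3 m y = y ^ r := fun y => by rw [th3, ← pow_mul, ← pow_succ]
    have h1 : th3 m (x + 1) = x ^ r + 1 := by
      rw [th3_add h, hth, hth, one_pow]
    rw [h1, hth] at e
    have hxt : x ^ r ≠ 0 := pow_ne_zero _ hx0
    have hxt1 : x ^ r + 1 ≠ 0 := by
      rw [← h1, hth]; exact pow_ne_zero _ hx1'
    field_simp at e
    rw [Multiset.mem_toFinset, Polynomial.mem_roots hne, Polynomial.IsRoot]
    simp only [P, Polynomial.eval_add, Polynomial.eval_sub, Polynomial.eval_mul, Polynomial.eval_pow, Polynomial.eval_X,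
      Polynomial.eval_one]
    linear_combination e
  rw [Finset.card_erase_of_mem (by simp), Finset.card_erase_of_mem (by simp), Finset.card_univ,
    ← Nat.card_eq_fintype_card, h.card] at hsub
  have h2 := (P.roots.toFinset_card_le.trans P.card_roots').trans hdeg
  have h3 : 3 ^ (2 * m + 1) = r * 3 ^ m := by
    simp only [r]
    rw [← pow_add]
    congr 1
    omega
  have h4 : 3 ≤ 3 ^ m := Nat.le_self_pow (by omega) 3
  have h5 : r * 3 ≤ r * 3 ^ m := Nat.mul_le_mul_left _ h4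
  omega

include h in
theorem card_gt_nine (hm : 1 ≤ m) : 9 < Nat.card K := by
  rw [h.card]
  calc 9 < 3 ^ 3 := by norm_num
    _ ≤ 3 ^ (2 * m + 1) := Nat.pow_le_pow_right (by norm_num) (by omega)

include h in
theorem th3_zero : th3 m (0 : K) = 0 := by simp [th3]

include h in
/-- first coordinates add -/
theorem comm_shape (t u v t' u' v' : K) :
    ∃ c d, ⁅uE m t u v, uE m t' u' v'⁆ = uE m 0 c d ∧ (t' = 0 → u + u' - th3 m t' * t = u' + u - th3 m t * t' → c = 0) := by
  refine ⟨(u + u' - th3 m t' * t) - (u' + u - th3 m t * t'),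
    (v + v' - t' * u - th3 m t' * t ^ 2 + t' * th3 m t' * t) -
      (v' + v - t * u' - th3 m t * t' ^ 2 + t * th3 m t * t') +
      (t' + t) * ((u + u' - th3 m t' * t) - (u' + u - th3 m t * t')), ?_, fun _ e => sub_eq_zero.2 e⟩
  rw [commutatorElement_def, mul_inv_eq_iff_eq_mul, mul_inv_eq_iff_eq_mul, mul_assoc, uE_mul h, uE_mul h, uE_mul h]
  congr 1 <;> (try simp only [th3_zero h]) <;> ring

include h in
theorem exists_layer_split (t u v : K) : uE m t u v = uE m t 0 0 * uE m 0 u 0 * uE m 0 0 v := by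
  rw [uE_mul h, uE_mul h, th3_zero h]
  simp

section Ext

attribute [local irreducible] uE

variable {Γ : Type*} [Group Γ] {σ : Γ →* ↥(twistedG2 K (3 ^ m))} (hσ : Function.Surjective σ)
  (hc : σ.ker ≤ Subgroup.center Γ)

include h hσ hc in
set_option maxHeartbeats 400000 in
/-- an involution lifts to an element commuting with the lifts of its centraliser -/
theorem lc_involution (hm : 1 ≤ m) {t g : ↥G₁} (ht : orderOf t = 2) (hg : g * t = t * g) :
    lc hσ t g = 1 := by
  have := h.finite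
  let := Fintype.ofFinite K
  obtain ⟨ι, hinj, hr, hι⟩ := card_centralizer_involution h hm ht
  have hcen : ∀ x : ↥(Subgroup.centralizer {t}), lc hσ t x.1 ∈ Subgroup.center Γ := fun x =>
    lc_central hσ hc (Subgroup.mem_centralizer_singleton_iff.1 x.2).symm
  let χ : ↥(Subgroup.centralizer {t}) →* ↥(Subgroup.center Γ) :=
    MonoidHom.mk' (fun x => ⟨lc hσ t x.1, hcen x⟩) (fun x y => Subtype.ext (by
      show lc hσ t (x.1 * y.1) = lc hσ t x.1 * lc hσ t y.1
      rw [lc_mul_right hσ hc, Subgroup.mem_center_iff.1 (hcen y), mul_inv_cancel_right]))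
  obtain ⟨⟨z, v⟩, hv⟩ : g ∈ ι.range := by rw [hr]; exact Subgroup.mem_centralizer_singleton_iff.2 hg
  have hmem : ∀ x, ι x ∈ Subgroup.centralizer {t} := fun x => hr ▸ ⟨x, rfl⟩
  let ι' := ι.codRestrict _ hmem
  have hperf : commutator (Matrix.ProjectiveSpecialLinearGroup (Fin 2) K) = ⊤ := by
    have h4 : 4 ≤ Fintype.card K := by
      have := card_gt_nine h hm; rw [Nat.card_eq_fintype_card] at this; omega
    have hm' := Subgroup.map_commutator ⊤ ⊤ (Linear.toPSL (F := K))
    rw [← commutator_def, Linear.sl2_perfect h4, ← MonoidHom.range_eq_map,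
      MonoidHom.range_eq_top.2 Linear.toPSL_surjective] at hm'
    rw [commutator_def]
    exact hm'.symm
  have h1 : χ.comp (ι'.comp (MonoidHom.inr _ _)) = 1 :=
    hom_perfect_trivial hperf (fun a b => Subtype.ext ((Subgroup.mem_center_iff.1 b.2 a.1))) _
  have hself : χ ⟨t, Subgroup.mem_centralizer_singleton_iff.2 rfl⟩ = 1 :=
    Subtype.ext (by show lc hσ t t = 1; rw [lc]; exact commutatorElement_self _)
  have hz : χ (ι' (z, 1)) = 1 := by
    rcases z2_cases z with rfl | rfl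
    · rw [Prod.mk_one_one, map_one, map_one]
    · rw [← hself]; congr 1; exact Subtype.ext hι
  have : χ (ι' (z, v)) = 1 := by
    rw [show ((z, v) : Multiplicative (ZMod 2) × Matrix.ProjectiveSpecialLinearGroup (Fin 2) K) = (z, 1) * (1, v) by
      simp, map_mul, map_mul, hz, one_mul]
    exact DFunLike.congr_fun h1 v
  have e := congrArg Subtype.val this
  rw [← hv]
  exact e

include h hσ hc in
/-- Sylow two-subgroups lift to abelian groups -/
theorem two_lift (hm : 1 ≤ m) (S : Sylow 2 ↥G₁) {x y : Γ} (hx : σ x ∈ (S : Subgroup ↥G₁)) (hy : σ y ∈ (S : Subgroup ↥G₁)) :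
    ⁅x, y⁆ = 1 := by
  obtain ⟨-, hsq⟩ := card_sylow_two h hm S
  rw [lc_map hσ hc]
  by_cases h1 : σ x = 1
  · rw [h1, ← map_one σ, ← lc_map hσ hc, commutatorElement_one_left]
  refine lc_involution h hσ hc hm (orderOf_eq_prime (by rw [pow_two]; exact hsq _ hx) h1) ?_
  have e := hsq _ (mul_mem hx hy)
  calc σ y * σ x = (σ x * σ x) * (σ y * σ x) * (σ y * σ y) := by rw [hsq _ hx, hsq _ hy, one_mul, mul_one]
    _ = σ x * ((σ x * σ y) * (σ x * σ y)) * σ y := by group
    _ = σ x * σ y := by rw [e, mul_one]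

include h hσ hc in
set_option maxHeartbeats 400000 in
/-- the Sylow three-subgroup lifts -/
theorem three_lift (hm : 1 ≤ m) :
    ∀ x : ↥(((U₁).subgroupOf G₁).comap σ), x ∈ commutator ↥(((U₁).subgroupOf G₁).comap σ) → σ x.1 = 1 → x = 1 := by
  classical
  have := h.finite
  have := h.char
  have h9 := card_gt_nine h hm
  set U := (U₁).subgroupOf G₁ with hU
  have hcen : ∀ z, σ z = 1 → z ∈ Subgroup.center Γ := fun z hz => hc (MonoidHom.mem_ker.2 hz)
  -- torus elements
  have htor : ∀ k : K, k ≠ 0 → ∃ T : Γ, ∀ t u v,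
      σ T * uE m t u v * (σ T)⁻¹ = uE m (k * t) (th3 m k * k * u) (th3 m k * k ^ 2 * v) := by
    intro k hk
    obtain ⟨d, hd, hdk⟩ := exists_torus_elem h hk
    obtain ⟨T, hT⟩ := hσ d
    exact ⟨T, fun t u v => by rw [hT, torus_uE h hd, hdk]⟩
  have hneg : ∀ u : K, th3 m (-1) * -1 * u = u := fun u => by rw [th3_neg_one]; ring
  have hneg2 : ∀ v : K, th3 m (-1) * (-1) ^ 2 * v = -v := fun v => by rw [th3_neg_one]; ring
  -- the last layer is central
  have hVc : ∀ t u v b : K, uE m t u v * uE m 0 0 b = uE m 0 0 b * uE m t u v := by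
    intro t u v b
    rw [uE_mul h, uE_mul h, th3_zero h]
    congr 1 <;> ring
  have hWc : ∀ u v u' v' : K, uE m (0 : K) u v * uE m 0 u' v' = uE m 0 u' v' * uE m 0 u v := by
    intro u v u' v'
    rw [uE_mul h, uE_mul h, th3_zero h]
    congr 1 <;> ring
  have hWadd : ∀ u v u' v' : K, uE m (0 : K) u v * uE m 0 u' v' = uE m 0 (u + u') (v + v') := by
    intro u v u' v'
    rw [uE_mul h, th3_zero h]
    congr 1 <;> ring
  have hfix : ∀ {c : Γ}, c ∈ Subgroup.center Γ → ∀ x : Γ, x * c * x⁻¹ = c := fun {c} hcc x => by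
    rw [Subgroup.mem_center_iff.1 hcc x, mul_inv_cancel_right]
  -- additivity when the values are central
  have cR : ∀ g k k', g * k' = k' * g → lc hσ g (k * k') = lc hσ g k * lc hσ g k' := fun g k k' e => by
    rw [lc_mul_right hσ hc, hfix (lc_central hσ hc e)]
  have cL : ∀ g g' k, g' * k = k * g' → lc hσ (g * g') k = lc hσ g k * lc hσ g' k := fun g g' k e => by
    rw [lc_mul_left hσ hc, hfix (lc_central hσ hc e), ← Subgroup.mem_center_iff.1 (lc_central hσ hc e)]
  have cT : ∀ k : K, k ≠ 0 → ∀ t u v t' u' v', uE m t u v * uE m t' u' v' = uE m t' u' v' * uE m t u v →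
      lc hσ (uE m (k * t) (th3 m k * k * u) (th3 m k * k ^ 2 * v))
        (uE m (k * t') (th3 m k * k * u') (th3 m k * k ^ 2 * v')) = lc hσ (uE m t u v) (uE m t' u' v') := by
    intro k hk t u v t' u' v' e
    obtain ⟨T, hT⟩ := htor k hk
    rw [← hT, ← hT, ← lc_conj hσ hc rfl, hfix (lc_central hσ hc e)]
  -- the abelian normal subgroup
  have C1 : ∀ a b, lc hσ (uE m 0 a 0) (uE m 0 b 0) = 1 := by
    intro a b
    refine square_zero h9 (fun a b => lc hσ (uE m 0 a 0) (uE m 0 b 0)) (fun a b => lc_central hσ hc (hWc _ _ _ _)) ?_ ?_ ?_ a b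
    · intro a c b
      rw [← cL _ _ _ (hWc _ _ _ _), hWadd, add_zero]
    · intro a b d
      rw [← cR _ _ _ (hWc _ _ _ _), hWadd, add_zero]
    · intro k hk a b
      obtain ⟨l, hl⟩ := exists_mult_u h k
      have hl0 : l ≠ 0 := fun e => pow_ne_zero 2 hk (by rw [← hl, e, mul_zero])
      have := cT l hl0 0 a 0 0 b 0 (hWc _ _ _ _)
      rw [mul_zero, mul_zero, hl] at this
      exact this
  have C2 : ∀ a b, lc hσ (uE m (0 : K) 0 a) (uE m 0 0 b) = 1 := by
    intro a b
    refine square_zero h9 (fun a b => lc hσ (uE m (0 : K) 0 a) (uE m 0 0 b)) (fun a b => lc_central hσ hc (hWc _ _ _ _)) ?_ ?_ ?_ a b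
    · intro a c b
      rw [← cL _ _ _ (hWc _ _ _ _), hWadd, add_zero]
    · intro a b d
      rw [← cR _ _ _ (hWc _ _ _ _), hWadd, add_zero]
    · intro k hk a b
      obtain ⟨l, hl⟩ := exists_mult_v h (k ^ 2)
      have hl0 : l ≠ 0 := fun e => pow_ne_zero 2 hk (by rw [← hl, e]; simp)
      have := cT l hl0 0 0 a 0 0 b (hWc _ _ _ _)
      rw [mul_zero, mul_zero, hl] at this
      exact this
  have C3 : ∀ a b, lc hσ (uE m (0 : K) a 0) (uE m 0 0 b) = 1 := by
    intro a b
    refine parity_zero (fun b => lc hσ (uE m (0 : K) a 0) (uE m 0 0 b)) ?_ ?_ b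
    · intro b d
      rw [← cR _ _ _ (hWc _ _ _ _), hWadd, add_zero]
    · intro b
      have := cT (-1) (neg_ne_zero.2 one_ne_zero) 0 a 0 0 0 b (hWc _ _ _ _)
      simpa only [mul_zero, hneg, hneg2, neg_zero] using this
  have hWW : ∀ u v u' v', lc hσ (uE m (0 : K) u v) (uE m 0 u' v') = 1 := by
    intro u v u' v'
    have e1 : uE m (0 : K) u v = uE m 0 u 0 * uE m 0 0 v := by rw [hWadd, add_zero, zero_add]
    have e2 : uE m (0 : K) u' v' = uE m 0 u' 0 * uE m 0 0 v' := by rw [hWadd, add_zero, zero_add]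
    rw [e1, e2, cL _ _ _ (by rw [hWadd u' 0 0 v']; exact hWc _ _ _ _), cR _ _ _ (hWc _ _ _ _), cR _ _ _ (hWc _ _ _ _),
      C1, C2, C3, lc_swap hσ (uE m 0 u' 0) (uE m 0 0 v), C3]
    simp
  -- the centre of the unipotent group
  have hUV : ∀ t u v b, lc hσ (uE m t u v) (uE m 0 0 b) = 1 := by
    intro t u v b
    rw [exists_layer_split h t u v, cL _ _ _ (hVc _ _ _ _), cL _ _ _ (hVc _ _ _ _), hWW, hWW, mul_one, mul_one]
    refine weight_zero (fun a b => lc hσ (uE m a 0 0) (uE m 0 0 b)) (fun k => th3 m k * k ^ 2) ?_ ?_ ?_ ?_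
      (exists_weight_point h hm) t b
    · intro a c b
      rw [← cL _ _ _ (hVc _ _ _ _), uE_mul h]
      conv_rhs => rw [exists_layer_split h (a + c)]
      rw [cL _ _ _ (hVc _ _ _ _), cL _ _ _ (hVc _ _ _ _), hWW, hWW, mul_one, mul_one]
    · intro a b d
      rw [← cR _ _ _ (hVc _ _ _ _), hWadd, add_zero]
    · intro k hk a b
      have := cT k hk a 0 0 0 0 b (hVc _ _ _ _)
      simpa only [mul_zero] using this
    · exact fun k hk => mul_ne_zero (pow_ne_zero _ (pow_ne_zero _ hk)) (pow_ne_zero _ hk)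
  -- the preimage of the abelian normal subgroup
  let IsW : ↥G₁ → Prop := fun g => ∃ u v, g = uE m 0 u v
  have hWWab : ∀ w w' : Γ, IsW (σ w) → IsW (σ w') → w * w' = w' * w := by
    rintro w w' ⟨u, v, e⟩ ⟨u', v', e'⟩
    refine commutatorElement_eq_one_iff_mul_comm.1 ?_
    rw [lc_map hσ hc, e, e', hWW]
  have hIsW0 : ∀ z, σ z = 1 → IsW (σ z) := fun z hz => ⟨0, 0, by rw [hz, uE_zero h]⟩
  obtain ⟨k0, hk00, hk01, hk0, -⟩ := exists_th3_ne h hm
  obtain ⟨s, hs, hsk⟩ := exists_torus_elem h hk00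
  obtain ⟨Ts, hTs⟩ := hσ s
  set mu := th3 m k0 * k0 - 1 with hmu
  set mv := th3 m k0 * k0 ^ 2 - 1 with hmv
  have hmu0 : mu ≠ 0 := fun e => by
    rcases sq_eq_one_iff.1 (mult_u h (show (k0 ^ 3 ^ m) ^ 3 * k0 = 1 by rw [hmu] at e; exact sub_eq_zero.1 e)) with e' | e'
    · exact hk01 e'
    · rw [e', th3_neg_one] at hk0; exact hk0 rfl
  have hmv0 : mv ≠ 0 := fun e => hk01 (mult_v h (show (k0 ^ 3 ^ m) ^ 3 * k0 ^ 2 = 1 by rw [hmv] at e; exact sub_eq_zero.1 e))
  let sec : K → K → Γ := fun u v => lc hσ s (uE m 0 (u / mu) (v / mv))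
  have hsec : ∀ u v, σ (sec u v) = uE m 0 u v := by
    intro u v
    simp only [sec]
    rw [map_lc, commutatorElement_def, torus_uE h hs, hsk, mul_inv_eq_iff_eq_mul, hWadd, mul_zero]
    have e1 : u = (th3 m k0 * k0 - 1) * (u / mu) := by rw [← hmu, mul_div_cancel₀ _ hmu0]
    have e2 : v = (th3 m k0 * k0 ^ 2 - 1) * (v / mv) := by rw [← hmv, mul_div_cancel₀ _ hmv0]
    congr 1
    · linear_combination -e1
    · linear_combination -e2
  have hsecadd : ∀ u v u' v', sec (u + u') (v + v') = sec u v * sec u' v' := by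
    intro u v u' v'
    simp only [sec, add_div]
    rw [← hWadd, lc_mul_right hσ hc, hWWab _ _ ⟨_, _, Function.surjInv_eq hσ _⟩ ⟨_, _, hsec u' v'⟩,
      mul_inv_cancel_right]
  have hsec0 : sec 0 0 = 1 := by
    have := hsecadd 0 0 0 0
    rw [add_zero] at this
    exact left_eq_mul.1 this
  have hcoord : ∀ g : ↥G₁, ∃ u v, IsW g → g = uE m 0 u v := fun g => by
    by_cases hg : IsW g
    · obtain ⟨u, v, e⟩ := hg; exact ⟨u, v, fun _ => e⟩
    · exact ⟨0, 0, fun e => absurd e hg⟩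
  choose cu cv hcoord using hcoord
  let pi : Γ → Γ := fun w => w * (sec (cu (σ w)) (cv (σ w)))⁻¹
  have hpi : ∀ w u v, σ w = uE m 0 u v → pi w = w * (sec u v)⁻¹ := by
    intro w u v e
    obtain ⟨-, e1, e2⟩ := uE_inj (e.symm.trans (hcoord (σ w) ⟨u, v, e⟩)) h
    simp only [pi]
    rw [← e1, ← e2]
  have hpiker : ∀ w, IsW (σ w) → σ (pi w) = 1 := by
    rintro w ⟨u, v, e⟩
    rw [hpi w u v e, map_mul, map_inv, e, hsec, mul_inv_cancel]
  have hpimul : ∀ w w', IsW (σ w) → IsW (σ w') → pi (w * w') = pi w * pi w' := by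
    rintro w w' ⟨u, v, e⟩ ⟨u', v', e'⟩
    rw [hpi w u v e, hpi w' u' v' e', hpi (w * w') (u + u') (v + v') (by rw [map_mul, e, e', hWadd]), hsecadd,
      mul_inv_rev]
    have hcm : (sec u v)⁻¹ * (w' * (sec u' v')⁻¹) = w' * (sec u' v')⁻¹ * (sec u v)⁻¹ :=
      (Subgroup.mem_center_iff.1 (hcen _ (by rw [map_mul, map_inv, e', hsec, mul_inv_cancel])) _)
    calc w * w' * ((sec u' v')⁻¹ * (sec u v)⁻¹) = w * (w' * (sec u' v')⁻¹ * (sec u v)⁻¹) := by group
      _ = w * ((sec u v)⁻¹ * (w' * (sec u' v')⁻¹)) := by rw [hcm]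
      _ = _ := by group
  have hpione : ∀ z, σ z = 1 → pi z = z := fun z hz => by
    rw [hpi z 0 0 (by rw [hz, uE_zero h]), hsec0, inv_one, mul_one]
  have hpiinv : ∀ w, IsW (σ w) → pi w⁻¹ = (pi w)⁻¹ := by
    intro w hw
    have hw' : IsW (σ w⁻¹) := by
      obtain ⟨u, v, e⟩ := hw
      exact ⟨-u, -v, by rw [map_inv, e, inv_eq_of_mul_eq_one_right]; rw [hWadd, add_neg_cancel, add_neg_cancel, uE_zero h]⟩
    refine eq_inv_of_mul_eq_one_left ?_
    rw [← hpimul _ _ hw' hw, inv_mul_cancel, hpione 1 (map_one σ)]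
  -- torus invariance
  have hpiT : ∀ k : K, k ≠ 0 → ∀ T : Γ, (∀ t u v, σ T * uE m t u v * (σ T)⁻¹ = uE m (k * t) (th3 m k * k * u) (th3 m k * k ^ 2 * v)) →
      σ T * s * (σ T)⁻¹ = s → ∀ w, IsW (σ w) → pi (T * w * T⁻¹) = pi w := by
    rintro k hk T hT hTc w ⟨u, v, e⟩
    rw [hpi w u v e, hpi _ (th3 m k * k * u) (th3 m k * k ^ 2 * v) (by rw [map_mul, map_mul, map_inv, e, hT, mul_zero])]
    have es : sec (th3 m k * k * u) (th3 m k * k ^ 2 * v) = T * sec u v * T⁻¹ := by
      simp only [sec]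
      rw [lc_conj hσ hc rfl, hTc, hT, mul_zero, mul_div_assoc, mul_div_assoc]
    rw [es, show T * w * T⁻¹ * (T * sec u v * T⁻¹)⁻¹ = T * (w * (sec u v)⁻¹) * T⁻¹ by group,
      hfix (hcen _ (by rw [map_mul, map_inv, e, hsec, mul_inv_cancel]))]
  have htor' : ∀ k : K, k ≠ 0 → ∃ T : Γ, (∀ t u v, σ T * uE m t u v * (σ T)⁻¹ = uE m (k * t) (th3 m k * k * u) (th3 m k * k ^ 2 * v)) ∧
      σ T * s * (σ T)⁻¹ = s := by
    intro k hk
    obtain ⟨d, hd, hdk⟩ := exists_torus_elem h hk
    obtain ⟨T, hT⟩ := hσ d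
    exact ⟨T, fun t u v => by rw [hT, torus_uE h hd, hdk], by rw [hT, torus_comm h hd hs, mul_inv_cancel_right]⟩
  -- commutators land in the abelian subgroup
  have hlcW : ∀ t u v t' u' v', IsW (σ (lc hσ (uE m t u v) (uE m t' u' v'))) := by
    intro t u v t' u' v'
    obtain ⟨c, d, e, -⟩ := comm_shape h t u v t' u' v'
    exact ⟨c, d, by rw [map_lc, e]⟩
  have hlcV : ∀ t u v u' v', ∃ d, σ (lc hσ (uE m t u v) (uE m 0 u' v')) = uE m 0 0 d := by
    intro t u v u' v'
    obtain ⟨c, d, e, hc0⟩ := comm_shape h t u v 0 u' v'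
    exact ⟨d, by rw [map_lc, e, hc0 rfl (by rw [th3_zero h]; ring)]⟩
  have hconjV : ∀ t u v (y : Γ) d, σ y = uE m (0 : K) 0 d →
      Function.surjInv hσ (uE m t u v) * y * (Function.surjInv hσ (uE m t u v))⁻¹ = y := by
    intro t u v y d e
    refine mul_inv_eq_iff_eq_mul.2 (commutatorElement_eq_one_iff_mul_comm.1 ?_)
    rw [lc_map hσ hc, Function.surjInv_eq hσ, e, hUV]
  -- the first pairing
  let F : ↥G₁ → ↥G₁ → Γ := fun g k => pi (lc hσ g k)
  have hFker : ∀ t u v t' u' v', F (uE m t u v) (uE m t' u' v') ∈ Subgroup.center Γ := fun t u v t' u' v' =>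
    hcen _ (hpiker _ (hlcW t u v t' u' v'))
  have hFl : ∀ t u v t1 u1 v1 u' v', F (uE m t u v * uE m t1 u1 v1) (uE m 0 u' v') =
      F (uE m t u v) (uE m 0 u' v') * F (uE m t1 u1 v1) (uE m 0 u' v') := by
    intro t u v t1 u1 v1 u' v'
    obtain ⟨d, hd⟩ := hlcV t1 u1 v1 u' v'
    simp only [F]
    rw [lc_mul_left hσ hc, hconjV t u v _ d hd, hpimul _ _ ⟨0, d, hd⟩ (hlcW _ _ _ _ _ _)]
    exact (Subgroup.mem_center_iff.1 (hFker t1 u1 v1 0 u' v') _).symm
  have hFr : ∀ t u v u' v' u1 v1, F (uE m t u v) (uE m 0 u' v' * uE m 0 u1 v1) =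
      F (uE m t u v) (uE m 0 u' v') * F (uE m t u v) (uE m 0 u1 v1) := by
    intro t u v u' v' u1 v1
    simp only [F]
    rw [lc_mul_right hσ hc, hWWab (Function.surjInv hσ (uE m 0 u' v')) _ ⟨u', v', Function.surjInv_eq hσ _⟩
      (hlcW t u v 0 u1 v1), mul_inv_cancel_right, hpimul _ _ (hlcW _ _ _ _ _ _) (hlcW _ _ _ _ _ _)]
  have hFW : ∀ u v u' v', F (uE m 0 u v) (uE m 0 u' v') = 1 := fun u v u' v' => by
    simp only [F]; rw [hWW, hpione 1 (map_one σ)]
  have hF1 : ∀ t u v u' v', F (uE m t u v) (uE m 0 u' v') = 1 := by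
    intro t u v u' v'
    rw [exists_layer_split h t u v, uE_mul h t 0 0, hFl, ← uE_mul h t 0 0, hFl, hFW, hFW, mul_one, mul_one]
    have e2 : uE m (0 : K) u' v' = uE m 0 u' 0 * uE m 0 0 v' := by rw [hWadd, add_zero, zero_add]
    rw [e2, hFr]
    have eV : F (uE m t 0 0) (uE m 0 0 v') = 1 := by simp only [F]; rw [hUV, hpione 1 (map_one σ)]
    rw [eV, mul_one]
    refine parity_zero (fun t => F (uE m t 0 0) (uE m 0 u' 0)) ?_ ?_ t
    · intro a c
      have e := hFl a 0 0 c 0 0 u' 0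
      rw [uE_mul h, exists_layer_split h (a + c), uE_mul h (a + c) 0 0, hFl, ← uE_mul h (a + c) 0 0, hFl, hFW, hFW,
        mul_one, mul_one] at e
      exact e
    · intro a
      obtain ⟨T, hT, hTc⟩ := htor' (-1) (neg_ne_zero.2 one_ne_zero)
      simp only [F]
      rw [← hpiT (-1) (neg_ne_zero.2 one_ne_zero) T hT hTc _ (hlcW a 0 0 0 u' 0), lc_conj hσ hc rfl, hT, hT]
      simp only [mul_zero, hneg, neg_one_mul]
  have hpiU : ∀ x y : Γ, σ x ∈ U → IsW (σ y) → pi (x * y * x⁻¹) = pi y := by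
    rintro x y hx ⟨u', v', e'⟩
    obtain ⟨t, u, v, e⟩ := exists_uE h hx
    obtain ⟨d, hd⟩ := hlcV t u v u' v'
    rw [show x * y * x⁻¹ = ⁅x, y⁆ * y by simp [commutatorElement_def], lc_map hσ hc, e, e',
      hpimul _ _ ⟨0, d, hd⟩ ⟨u', v', e'⟩,
      show pi (lc hσ (uE m t u v) (uE m 0 u' v')) = F (uE m t u v) (uE m 0 u' v') from rfl, hF1, one_mul]
  -- the second pairing
  have hconjW : ∀ t u v, ∀ y : Γ, IsW (σ y) → IsW (σ (Function.surjInv hσ (uE m t u v) * y * (Function.surjInv hσ (uE m t u v))⁻¹)) := by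
    rintro t u v y ⟨u', v', e'⟩
    obtain ⟨c, d, ec, -⟩ := comm_shape h t u v 0 u' v'
    refine ⟨c + u', d + v', ?_⟩
    rw [map_mul, map_mul, map_inv, Function.surjInv_eq hσ, e', ← hWadd c d, ← ec, commutatorElement_def]
    group
  have hmemU : ∀ t u v, σ (Function.surjInv hσ (uE m t u v)) ∈ U := fun t u v => by
    rw [Function.surjInv_eq hσ]; exact uE_mem h t u v
  have hGl : ∀ t u v t1 u1 v1 t' u' v', F (uE m t u v * uE m t1 u1 v1) (uE m t' u' v') =
      F (uE m t u v) (uE m t' u' v') * F (uE m t1 u1 v1) (uE m t' u' v') := by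
    intro t u v t1 u1 v1 t' u' v'
    simp only [F]
    rw [lc_mul_left hσ hc, hpimul _ _ (hconjW t u v _ (hlcW _ _ _ _ _ _)) (hlcW _ _ _ _ _ _),
      hpiU _ _ (hmemU t u v) (hlcW _ _ _ _ _ _)]
    exact (Subgroup.mem_center_iff.1 (hFker t1 u1 v1 t' u' v') _).symm
  have hGr : ∀ t u v t1 u1 v1 t' u' v', F (uE m t' u' v') (uE m t u v * uE m t1 u1 v1) =
      F (uE m t' u' v') (uE m t u v) * F (uE m t' u' v') (uE m t1 u1 v1) := by
    intro t u v t1 u1 v1 t' u' v'
    simp only [F]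
    rw [lc_mul_right hσ hc, hpimul _ _ (hlcW _ _ _ _ _ _) (hconjW t u v _ (hlcW _ _ _ _ _ _)),
      hpiU _ _ (hmemU t u v) (hlcW _ _ _ _ _ _)]
  have hFsw : ∀ t u v u' v', F (uE m 0 u' v') (uE m t u v) = 1 := by
    intro t u v u' v'
    simp only [F]
    rw [lc_swap hσ, hpiinv _ (hlcW _ _ _ _ _ _), inv_eq_one]
    exact hF1 t u v u' v'
  have hG0 : ∀ a b, F (uE m a 0 0) (uE m b 0 0) = 1 := by
    intro a b
    refine square_zero h9 (fun a b => F (uE m a 0 0) (uE m b 0 0)) (fun a b => hFker _ _ _ _ _ _) ?_ ?_ ?_ a b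
    · intro a c b
      have e := hGl a 0 0 c 0 0 b 0 0
      rw [uE_mul h, exists_layer_split h (a + c), uE_mul h (a + c) 0 0, hGl, ← uE_mul h (a + c) 0 0, hGl, hFsw, hFsw,
        mul_one, mul_one] at e
      exact e
    · intro a b d
      have e := hGr b 0 0 d 0 0 a 0 0
      rw [uE_mul h, exists_layer_split h (b + d), uE_mul h (b + d) 0 0, hGr, ← uE_mul h (b + d) 0 0, hGr, hF1, hF1,
        mul_one, mul_one] at e
      exact e
    · intro k hk a b
      obtain ⟨T, hT, hTc⟩ := htor' (k ^ 2) (pow_ne_zero 2 hk)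
      simp only [F]
      rw [← hpiT _ (pow_ne_zero 2 hk) T hT hTc _ (hlcW a 0 0 b 0 0), lc_conj hσ hc rfl, hT, hT]
      simp only [mul_zero]
  have hG1 : ∀ t u v t' u' v', F (uE m t u v) (uE m t' u' v') = 1 := by
    intro t u v t' u' v'
    rw [exists_layer_split h t u v, uE_mul h t 0 0, hGl, ← uE_mul h t 0 0, hGl, hFsw, hFsw, mul_one, mul_one,
      exists_layer_split h t' u' v', uE_mul h t' 0 0, hGr, ← uE_mul h t' 0 0, hGr, hF1, hF1, hG0, mul_one, mul_one]
  -- the commutator subgroup avoids the kernel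
  intro x hx hx1
  let M : Subgroup ↥(U.comap σ) :=
    { carrier := {x | IsW (σ x.1) ∧ pi x.1 = 1}
      one_mem' := ⟨hIsW0 1 (map_one σ), hpione 1 (map_one σ)⟩
      mul_mem' := by
        rintro a b ⟨ha, ha'⟩ ⟨hb, hb'⟩
        refine ⟨?_, ?_⟩
        · obtain ⟨u, v, e⟩ := ha
          obtain ⟨u', v', e'⟩ := hb
          exact ⟨u + u', v + v', by rw [Subgroup.coe_mul, map_mul, e, e', hWadd]⟩
        · rw [Subgroup.coe_mul, hpimul _ _ ha hb, ha', hb', one_mul]
      inv_mem' := by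
        rintro a ⟨ha, ha'⟩
        refine ⟨?_, ?_⟩
        · obtain ⟨u, v, e⟩ := ha
          exact ⟨-u, -v, by rw [Subgroup.coe_inv, map_inv, e, inv_eq_of_mul_eq_one_right]; rw [hWadd, add_neg_cancel, add_neg_cancel, uE_zero h]⟩
        · rw [Subgroup.coe_inv, hpiinv _ ha, ha', inv_one] }
  have hle : commutator ↥(U.comap σ) ≤ M := by
    rw [commutator_def, Subgroup.commutator_le]
    intro a _ b _
    obtain ⟨t, u, v, ea⟩ := exists_uE h a.2
    obtain ⟨t', u', v', eb⟩ := exists_uE h b.2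
    have e : (⁅a, b⁆).1 = lc hσ (uE m t u v) (uE m t' u' v') := by
      rw [← ea, ← eb, ← lc_map hσ hc]; rfl
    exact ⟨e ▸ hlcW t u v t' u' v', e ▸ hG1 t u v t' u' v'⟩
  obtain ⟨-, hp⟩ := hle hx
  exact Subtype.ext ((hpione x.1 hx1).symm.trans hp)

include h in
/-- every finite stem extension is an isomorphism -/
theorem stem_trivial_ree (hm : 1 ≤ m) [Finite Γ] (hst : Cfsg.IsStemExtension σ) : σ.ker = ⊥ := by
  classical
  have := h.finite
  rw [Subgroup.eq_bot_iff_forall]
  intro z hz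
  by_contra hz1
  obtain ⟨p, hp, hpd⟩ := Nat.exists_prime_and_dvd (n := orderOf z) (fun e => hz1 (orderOf_eq_one_iff.1 e))
  have := Fact.mk hp
  suffices hone : ∀ P : Sylow p ↥G₁, (∀ w : ↥((P : Subgroup ↥G₁).comap σ), w ∈ commutator ↥((P : Subgroup ↥G₁).comap σ) →
      σ w.1 = 1 → w = 1) → z ^ (P : Subgroup ↥G₁).index = 1 by
    obtain ⟨P, hP⟩ : ∃ P : Sylow p ↥G₁, ∀ w : ↥((P : Subgroup ↥G₁).comap σ),
        w ∈ commutator ↥((P : Subgroup ↥G₁).comap σ) → σ w.1 = 1 → w = 1 := by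
      by_cases hp3 : p = 3
      · subst hp3
        obtain ⟨S, hS⟩ := exists_sylow_three h
        refine ⟨S, ?_⟩
        rw [hS]
        exact three_lift h hst.1 hst.2.1 hm
      obtain ⟨P⟩ : Nonempty (Sylow p ↥G₁) := inferInstance
      refine ⟨P, fun w hw _ => ?_⟩
      have hbot : commutator ↥((P : Subgroup ↥G₁).comap σ) = ⊥ := by
        rw [commutator_def, Subgroup.commutator_eq_bot_iff_le_centralizer]
        intro x _
        refine Subgroup.mem_centralizer_iff.2 fun y _ => ?_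
        by_cases hp2 : p = 2
        · subst hp2
          exact Subtype.ext (commutatorElement_eq_one_iff_mul_comm.1 (two_lift h hst.1 hst.2.1 hm P y.2 x.2))
        · have hgt : 3 < p := by
            have := hp.two_le
            omega
          have hcyc : IsCyclic (P : Subgroup ↥G₁) := sylow_odd_cyclic h hgt P
          let τ : ↥((P : Subgroup ↥G₁).comap σ) →* (P : Subgroup ↥G₁) :=
            (σ.comp (Subgroup.subtype _)).codRestrict _ (fun x => x.2)
          have hτ : τ.ker ≤ Subgroup.center _ := fun x hx => Subgroup.mem_center_iff.2 fun y =>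
            Subtype.ext (Subgroup.mem_center_iff.1 (hst.2.1
              (show σ x.1 = 1 from congrArg Subtype.val (MonoidHom.mem_ker.1 hx))) y.1)
          have hab := MonoidHom.isMulCommutative_of_isCyclic_of_ker_le_center τ hτ
          exact hab.is_comm.comm y x
      rw [hbot, Subgroup.mem_bot] at hw
      exact hw
    exact P.not_dvd_index (hpd.trans (orderOf_dvd_of_pow_eq_one (hone P hP)))
  intro P hP
  obtain ⟨hH, hcomm⟩ := Cfsg.Agent.FGS2.pow_index_mem_commutator
    ((P : Subgroup ↥G₁).comap σ) (hst.2.1 hz) (hst.2.2 hz)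
  rw [← (P : Subgroup ↥G₁).index_comap_of_surjective hst.1]
  have hker : σ (z ^ ((P : Subgroup ↥G₁).comap σ).index) = 1 := by
    rw [map_pow, MonoidHom.mem_ker.1 hz, one_pow]
  exact congrArg Subtype.val (hP ⟨_, hH⟩ hcomm hker)

end Ext

end Cfsg.Agent.Suzuki.Ree
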