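import Cfsg.Agent.FGS2.SchurRes
import Cfsg.Agent.S3979
import Mathlib.GroupTheory.Sylow
import Mathlib.GroupTheory.PGroup

/-! # Bounding a multiplier by its Sylow subgroups -/

set_option autoImplicit false

namespace Cfsg.Agent.Suzuki

open Cfsg.Agent.FGS2
open scoped commutatorElement IsMulCommutative

universe u v

/-- Isomorphic groups have multipliers of the same order. -/
theorem card_mult_congr {P : Type u} {Q : Type v} [Group P] [Group Q] [Finite P] [Finite Q] (e : P ≃* Q) :
    Nat.card (Mult P) = Nat.card (Mult Q) := by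
  have key : ∀ {P : Type u} {Q : Type v} [Group P] [Group Q] [Finite P] [Finite Q] (_ : P ≃* Q),
      Nat.card (Mult P) ∣ Nat.card (Mult Q) := by
    intro P Q _ _ _ _ e
    obtain ⟨Γ, _, _, σ, hσ, ⟨eK⟩⟩ := exists_cover (Q := P)
    have hk : (e.toMonoidHom.comp σ).ker = σ.ker := by ext; simp
    have hst : Cfsg.IsStemExtension (e.toMonoidHom.comp σ) :=
      ⟨e.surjective.comp hσ.1, hk ▸ hσ.2.1, hk ▸ hσ.2.2⟩
    obtain ⟨π, hπ⟩ := exists_mult_surj hst
    rw [← Nat.card_congr eK.toEquiv, ← hk]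
    exact Subgroup.card_dvd_of_surjective π hπ
  refine Nat.dvd_antisymm (key e) ?_
  obtain ⟨Γ, _, _, σ, hσ, ⟨eK⟩⟩ := exists_cover (Q := Q)
  have hk : (e.symm.toMonoidHom.comp σ).ker = σ.ker := by ext; simp
  have hst : Cfsg.IsStemExtension (e.symm.toMonoidHom.comp σ) :=
    ⟨e.symm.surjective.comp hσ.1, hk ▸ hσ.2.1, hk ▸ hσ.2.2⟩
  obtain ⟨π, hπ⟩ := exists_mult_surj hst
  rw [← Nat.card_congr eK.toEquiv, ← hk]
  exact Subgroup.card_dvd_of_surjective π hπ

/-- The order of the kernel of a stem extension divides the order of the multiplier. -/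
theorem card_ker_dvd_mult {Q : Type u} {Γ : Type v} [Group Q] [Group Γ] {σ : Γ →* Q}
    (hσ : Cfsg.IsStemExtension σ) : Nat.card σ.ker ∣ Nat.card (Mult Q) := by
  obtain ⟨π, hπ⟩ := exists_mult_surj hσ
  exact Subgroup.card_dvd_of_surjective π hπ

theorem card_mult_eq_one_of_cyclic {P : Type u} [Group P] [Finite P] [IsCyclic P] :
    Nat.card (Mult P) = 1 := by
  rw [card_mult_of_has (S3979.result (G := P))]
  simp

/-- A `p`-power dividing the multiplier divides the multiplier of a Sylow `p`-subgroup. -/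
theorem pow_dvd_mult_sylow {Q : Type u} [Group Q] [Finite Q] {p k : ℕ} [Fact p.Prime] (P : Sylow p Q)
    (h : p ^ k ∣ Nat.card (Mult Q)) : p ^ k ∣ Nat.card (Mult P) := by
  obtain ⟨res, cor, hrc⟩ := exists_res_cor (P : Subgroup Q)
  obtain ⟨S, hS⟩ := Sylow.exists_subgroup_card_pow_prime p h
  rw [← hS]
  refine Subgroup.card_dvd_of_injective (res.comp S.subtype) ((injective_iff_map_eq_one _).2 fun a ha => ?_)
  have h1 : (a : Mult Q) ^ (P : Subgroup Q).index = 1 := by
    rw [← hrc, show res a = 1 from ha, map_one]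
  have hidx : ¬ p ∣ (P : Subgroup Q).index := P.not_dvd_index'
    (by exact Subgroup.index_ne_zero_of_finite)
  have hcop : (Nat.card S).Coprime (P : Subgroup Q).index := by
    rw [hS]
    exact Nat.Coprime.pow_left _ ((Nat.Prime.coprime_iff_not_dvd Fact.out).2 hidx)
  have h2 : a ^ (P : Subgroup Q).index = 1 := Subtype.ext (by simpa using h1)
  exact (powCoprime hcop).injective (by
    show a ^ _ = (1 : S) ^ _
    rw [one_pow, h2])

/-- The multiplier of a group of order `p²` has order dividing `p`. -/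
theorem card_mult_dvd_of_card_sq {P : Type u} [Group P] [Finite P] {p : ℕ} [hp : Fact p.Prime]
    (h : Nat.card P = p ^ 2) : Nat.card (Mult P) ∣ p := by
  by_cases hc : IsCyclic P
  · rw [card_mult_eq_one_of_cyclic]; exact one_dvd p
  have hcomm : ∀ x y : P, x * y = y * x := by
    have := IsPGroup.isMulCommutative_of_card_eq_prime_sq h
    exact fun x y => this.is_comm.comm x y
  have hexp : ∀ x : P, x ^ p = 1 := by
    intro x
    obtain ⟨j, hj, hxj⟩ := (Nat.dvd_prime_pow hp.out).1 (h ▸ orderOf_dvd_natCard x)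
    rw [← orderOf_dvd_iff_pow_eq_one, hxj]
    rcases Nat.lt_or_ge j 2 with hj2 | hj2
    · interval_cases j <;> simp
    · exact absurd (isCyclic_of_orderOf_eq_card x (by rw [hxj, h, show j = 2 by omega])) hc
  obtain ⟨a, ha⟩ : ∃ a : P, a ≠ 1 := by
    by_contra hall
    push Not at hall
    exact hc ⟨⟨1, fun y => ⟨0, by simp [hall y]⟩⟩⟩
  obtain ⟨b, hb⟩ : ∃ b : P, b ∉ Subgroup.zpowers a := by
    by_contra hall
    push Not at hall
    exact hc ⟨⟨a, hall⟩⟩
  have hgen : Subgroup.closure ({a, b} : Set P) = ⊤ := by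
    set K := Subgroup.closure ({a, b} : Set P)
    have hlt : Subgroup.zpowers a < K := by
      refine lt_of_le_of_ne (Subgroup.zpowers_le.2 (Subgroup.subset_closure (by simp))) ?_
      intro e
      exact hb (e ▸ Subgroup.subset_closure (by simp))
    obtain ⟨j, hj, hKj⟩ := (Nat.dvd_prime_pow hp.out).1 (h ▸ Subgroup.card_subgroup_dvd_card K)
    have hcard : Nat.card (Subgroup.zpowers a) = p := by
      rw [Nat.card_zpowers]
      exact orderOf_eq_prime (hexp a) ha
    have : p < Nat.card K := by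
      rw [← hcard]
      exact Set.Finite.card_lt_card (Set.toFinite _) (SetLike.coe_ssubset_coe.2 hlt)
    refine Subgroup.eq_top_of_card_eq K ?_
    rw [hKj, h]
    rcases Nat.lt_or_ge j 2 with hj2 | hj2
    · interval_cases j
      · simp [hKj] at this; exact absurd this (by have := hp.out.two_le; omega)
      · simp [hKj] at this
    · rw [show j = 2 by omega]
  obtain ⟨Γ, _, _, σ, hσ, ⟨eK⟩⟩ := exists_cover (Q := P)
  rw [← Nat.card_congr eK.toEquiv]
  obtain ⟨A, rfl⟩ := hσ.1 a
  obtain ⟨B, rfl⟩ := hσ.1 b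
  have hc' : ∀ y, y * ⁅B, A⁆ = ⁅B, A⁆ * y := Subgroup.mem_center_iff.1 (hσ.2.1 (by
    rw [MonoidHom.mem_ker, map_commutatorElement, commutatorElement_eq_one_iff_mul_comm]
    exact hcomm _ _))
  have hle : commutator Γ ≤ Subgroup.zpowers ⁅B, A⁆ :=
    commutator_le_zpowers (closure_pair_of_stem hσ hgen)
      (by rw [hc' A, mul_inv_cancel_right]; exact Subgroup.mem_zpowers _)
      (by rw [hc' B, mul_inv_cancel_right]; exact Subgroup.mem_zpowers _)
  have hd : ⁅B, A⁆ ^ p = 1 := by
    have hbn : B ^ p ∈ σ.ker := by rw [MonoidHom.mem_ker, map_pow, hexp]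
    have hbn' := Subgroup.mem_center_iff.1 (hσ.2.1 hbn)
    have h1 : A * B * A⁻¹ = ⁅B, A⁆⁻¹ * B := by rw [commutatorElement_def]; group
    have hcb : Commute ⁅B, A⁆⁻¹ B := (Commute.inv_right (hc' B)).symm
    have h2 : (⁅B, A⁆⁻¹ * B) ^ p = B ^ p := by
      rw [← h1, conj_pow, hbn' A, mul_inv_cancel_right]
    rwa [hcb.mul_pow, inv_pow, mul_eq_right, inv_eq_one] at h2
  exact (Subgroup.card_dvd_of_le (hσ.2.2.trans hle)).trans
    (Nat.card_zpowers ⁅B, A⁆ ▸ orderOf_dvd_of_pow_eq_one hd)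

/-- The multiplier bound from a Sylow 2-subgroup and Sylow 3-subgroups of order 9. -/
theorem card_mult_dvd {Q : Type u} [Group Q] [Finite Q] {a n : ℕ} (hn : Nat.card Q = n)
    (h3 : n.factorization 3 = 2) (hbig : ∀ p, p.Prime → p ^ 2 ∣ n → p = 2 ∨ p = 3)
    (P₂ : Sylow 2 Q) (h2 : Nat.card (Mult P₂) ∣ a) : Nat.card (Mult Q) ∣ a * 3 := by
  refine (Nat.dvd_iff_prime_pow_dvd_dvd _ _).2 fun p k hp hk => ?_
  haveI : Fact p.Prime := ⟨hp⟩
  rcases Decidable.em (p = 2) with rfl | h2'
  · exact ((pow_dvd_mult_sylow P₂ hk).trans h2).trans (dvd_mul_right a 3)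
  obtain ⟨P⟩ : Nonempty (Sylow p Q) := inferInstance
  refine (pow_dvd_mult_sylow P hk).trans ?_
  have hcard := P.card_eq_multiplicity
  rw [hn] at hcard
  rcases Decidable.em (p = 3) with rfl | h3'
  · rw [h3] at hcard
    exact (card_mult_dvd_of_card_sq hcard).trans (dvd_mul_left 3 a)
  · have hle : n.factorization p ≤ 1 := by
      by_contra hgt
      have : p ^ 2 ∣ n := (pow_dvd_pow p (by omega)).trans (Nat.ordProj_dvd n p)
      rcases hbig p hp this with h | h
      · exact h2' h
      · exact h3' h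
    have : IsCyclic (P : Subgroup Q) := by
      rcases Nat.le_one_iff_eq_zero_or_eq_one.1 hle with h | h <;> rw [h] at hcard
      · have : Subsingleton (P : Subgroup Q) := (Nat.card_eq_one_iff_unique.1 (by simpa using hcard)).1
        infer_instance
      · exact isCyclic_of_prime_card (p := p) (by simpa using hcard)
    rw [card_mult_eq_one_of_cyclic]
    exact one_dvd _

/-- A multiplier of prescribed square-free order is cyclic. -/
theorem hasCyclic_of_card_mult {Q : Type u} [Group Q] [Finite Q] {n : ℕ} (hn : Nat.card (Mult Q) = n)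
    (hcyc : IsCyclic (Mult Q)) : Cfsg.HasCyclicSchurMultiplier Q n := by
  rw [Cfsg.HasCyclicSchurMultiplier, hasSchurMultiplier_iff]
  subst hn
  exact ⟨zmodCyclicMulEquiv hcyc⟩

end Cfsg.Agent.Suzuki
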