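import Cfsg.Agent.Suzuki.TripleCover
import Cfsg.Agent.Suzuki.MultBound
import Cfsg.Agent.Core.SpinCover
import Cfsg.Agent.S3963
import Cfsg.Agent.S3965
import Cfsg.Agent.S0261
import Cfsg.Agent.Linear.IsoA6
import Cfsg.Agent.Linear.Card

/-! # The exceptional multipliers of `A₆`, `A₇` and `SL₂(9)` -/

set_option autoImplicit false
set_option maxRecDepth 20000

namespace Cfsg.Agent.Suzuki

open Cfsg.Agent.FGS2
open scoped commutatorElement IsMulCommutative

/-- `(0 1 2 3)(4 5)` and `(0 2)(4 5)`. -/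
def dihA (n : ℕ) [NeZero n] : Equiv.Perm (Fin n) :=
  Equiv.swap 0 1 * Equiv.swap 1 2 * Equiv.swap 2 3 * Equiv.swap 4 5

/-- `(0 2)(4 5)`. -/
def dihB (n : ℕ) [NeZero n] : Equiv.Perm (Fin n) := Equiv.swap 0 2 * Equiv.swap 4 5

/-- The dihedral group of order 8 as permutations. -/
def dihMap (n : ℕ) [NeZero n] : DihedralGroup 4 → Equiv.Perm (Fin n)
  | .r i => dihA n ^ i.val
  | .sr i => dihB n * dihA n ^ i.val

theorem dihMap_six : (∀ x y, dihMap 6 (x * y) = dihMap 6 x * dihMap 6 y) ∧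
    (∀ x, Equiv.Perm.sign (dihMap 6 x) = 1) ∧ ∀ x y, dihMap 6 x = dihMap 6 y → x = y := by
  decide +kernel

theorem dihMap_seven : (∀ x y, dihMap 7 (x * y) = dihMap 7 x * dihMap 7 y) ∧
    (∀ x, Equiv.Perm.sign (dihMap 7 x) = 1) ∧ ∀ x y, dihMap 7 x = dihMap 7 y → x = y := by
  decide +kernel

theorem exists_sylow_two_mult (n : ℕ) [NeZero n] (hf : (Nat.card (alternatingGroup (Fin n))).factorization 2 = 3)
    (h : (∀ x y, dihMap n (x * y) = dihMap n x * dihMap n y) ∧
      (∀ x, Equiv.Perm.sign (dihMap n x) = 1) ∧ ∀ x y, dihMap n x = dihMap n y → x = y) :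
    ∃ P : Sylow 2 (alternatingGroup (Fin n)), Nat.card (Mult P) ∣ 2 := by
  let f : DihedralGroup 4 →* alternatingGroup (Fin n) :=
    MonoidHom.mk' (fun x => ⟨dihMap n x, Equiv.Perm.mem_alternatingGroup.2 (h.2.1 x)⟩)
      (fun x y => Subtype.ext (h.1 x y))
  have hf' : Function.Injective f := fun x y hxy => h.2.2 x y (congrArg Subtype.val hxy)
  have e : DihedralGroup 4 ≃* f.range := MonoidHom.ofInjective hf'
  have hcard : Nat.card f.range = 2 ^ (Nat.card (alternatingGroup (Fin n))).factorization 2 := by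
    rw [hf, ← Nat.card_congr e.toEquiv, DihedralGroup.nat_card]; norm_num
  refine ⟨Sylow.ofCard f.range hcard, ?_⟩
  show Nat.card (Mult f.range) ∣ 2
  rw [← card_mult_congr e, card_mult_of_has (S3965.result 4 (by decide))]
  simp

theorem card_alt (n : ℕ) [Nontrivial (Fin n)] :
    Nat.card (alternatingGroup (Fin n)) * 2 = Nat.factorial n := by
  have hA := two_mul_card_alternatingGroup (α := Fin n)
  rw [Fintype.card_perm, Fintype.card_fin] at hA
  rw [Nat.card_eq_fintype_card, mul_comm]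
  exact hA

theorem alt_mult {m : ℕ} {e : Fin m ↪ Fin 5} (hc : Triple.Checks e) (hm : 2 ≤ m) {n : ℕ}
    (hn : Nat.card (alternatingGroup (Fin (m + 2))) = n) (h3 : n.factorization 3 = 2)
    (hbig : ∀ p, p.Prime → p ^ 2 ∣ n → p = 2 ∨ p = 3)
    (hP : ∃ P : Sylow 2 (alternatingGroup (Fin (m + 2))), Nat.card (Mult P) ∣ 2) :
    Cfsg.HasCyclicSchurMultiplier (alternatingGroup (Fin (m + 2))) 6 := by
  obtain ⟨P, hP⟩ := hP
  have hup : Nat.card (Mult (alternatingGroup (Fin (m + 2)))) ∣ 6 := card_mult_dvd hn h3 hbig P hP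
  obtain ⟨hst, hker, -⟩ := Triple.stem_facts hc
  have hthree := hker ▸ card_ker_dvd_mult hst
  have h4 : 4 ≤ m + 2 := by omega
  have hst2 : Cfsg.IsStemExtension (Core.Spin.proj (m + 2)) := by
    refine ⟨Core.Spin.proj_surjective (by omega), ?_, ?_⟩ <;>
      rw [Core.Spin.ker_proj h4, Subgroup.zpowers_le]
    · exact Core.Spin.z_central h4
    · exact Core.Spin.z_mem_commutator h4
  have htwo : 2 ∣ Nat.card (Mult (alternatingGroup (Fin (m + 2)))) := by
    have := card_ker_dvd_mult hst2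
    rwa [Core.Spin.ker_proj h4, Nat.card_zpowers, Core.Spin.orderOf_z h4] at this
  have hsix : Nat.card (Mult (alternatingGroup (Fin (m + 2)))) = 6 :=
    Nat.dvd_antisymm hup (Nat.Coprime.mul_dvd_of_dvd_of_dvd (by norm_num) htwo hthree)
  refine hasCyclic_of_card_mult hsix ?_
  have : Fact (Nat.Prime 2) := ⟨Nat.prime_two⟩
  have : Fact (Nat.Prime 3) := ⟨Nat.prime_three⟩
  obtain ⟨a, ha⟩ := exists_prime_orderOf_dvd_card' 2 htwo
  obtain ⟨b, hb⟩ := exists_prime_orderOf_dvd_card' 3 hthree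
  refine isCyclic_of_orderOf_eq_card (a * b) ?_
  rw [(Commute.all a b).orderOf_mul_eq_mul_orderOf_of_coprime (by rw [ha, hb]; norm_num), ha, hb, hsix]

theorem factorization_eq' {p n k : ℕ} (hp : p.Prime) (h1 : p ^ k ∣ n) (h2 : ¬ p ^ (k + 1) ∣ n) :
    n.factorization p = k := by
  have hn : n ≠ 0 := by rintro rfl; exact h2 (dvd_zero _)
  refine le_antisymm ?_ ((hp.pow_dvd_iff_le_factorization hn).1 h1)
  by_contra h
  exact h2 ((hp.pow_dvd_iff_le_factorization hn).2 (by omega))

theorem big_prime_360 : ∀ p, p.Prime → p ^ 2 ∣ 360 → p = 2 ∨ p = 3 := by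
  intro p hp h
  have hle : p ≤ 18 := by have := Nat.le_of_dvd (by norm_num) h; nlinarith
  interval_cases p <;> revert hp h <;> norm_num

theorem big_prime_2520 : ∀ p, p.Prime → p ^ 2 ∣ 2520 → p = 2 ∨ p = 3 := by
  intro p hp h
  have hle : p ≤ 50 := by have := Nat.le_of_dvd (by norm_num) h; nlinarith
  interval_cases p <;> revert hp h <;> norm_num

theorem big_prime_720 : ∀ p, p.Prime → p ^ 2 ∣ 720 → p = 2 ∨ p = 3 := by
  intro p hp h
  have hle : p ≤ 26 := by have := Nat.le_of_dvd (by norm_num) h; nlinarith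
  interval_cases p <;> revert hp h <;> norm_num

theorem fact_360 : (360 : ℕ).factorization 2 = 3 ∧ (360 : ℕ).factorization 3 = 2 :=
  ⟨factorization_eq' Nat.prime_two (by norm_num) (by norm_num),
   factorization_eq' Nat.prime_three (by norm_num) (by norm_num)⟩

theorem multiplier_alt_six : Cfsg.HasCyclicSchurMultiplier (alternatingGroup (Fin 6)) 6 := by
  have hn : Nat.card (alternatingGroup (Fin (4 + 2))) = 360 := by
    show Nat.card (alternatingGroup (Fin 6)) = 360
    have := card_alt 6; rw [show Nat.factorial 6 = 720 from rfl] at this; omega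
  exact alt_mult Triple.checks6 (by norm_num) hn fact_360.2 big_prime_360
    (exists_sylow_two_mult 6 (by rw [show Nat.card (alternatingGroup (Fin 6)) = 360 from hn]; exact fact_360.1)
      dihMap_six)

theorem multiplier_alt_seven : Cfsg.HasCyclicSchurMultiplier (alternatingGroup (Fin 7)) 6 := by
  have hn : Nat.card (alternatingGroup (Fin (5 + 2))) = 2520 := by
    show Nat.card (alternatingGroup (Fin 7)) = 2520
    have := card_alt 7; rw [show Nat.factorial 7 = 5040 from rfl] at this; omega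
  have h2 : (2520 : ℕ).factorization 2 = 3 :=
    factorization_eq' Nat.prime_two (by norm_num) (by norm_num)
  exact alt_mult Triple.checks7 (by norm_num) hn
    (factorization_eq' Nat.prime_three (by norm_num) (by norm_num))
    big_prime_2520
    (exists_sylow_two_mult 7 (by rw [show Nat.card (alternatingGroup (Fin 7)) = 2520 from hn]; exact h2)
      dihMap_seven)

section SL2

variable {F : Type*} [Field F] [Fintype F]

theorem center_sq_eq_one {c : Matrix.SpecialLinearGroup (Fin 2) F}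
    (hc : c ∈ Subgroup.center (Matrix.SpecialLinearGroup (Fin 2) F)) : c * c = 1 := by
  obtain ⟨r, hr, hrc⟩ := Matrix.SpecialLinearGroup.mem_center_iff.1 hc
  refine Subtype.ext ?_
  rw [Matrix.SpecialLinearGroup.coe_mul, Matrix.SpecialLinearGroup.coe_one, ← hrc, ← map_mul,
    ← sq, show r ^ 2 = 1 by simpa using hr, map_one]

theorem multiplier_sl2_nine (hF : Fintype.card F = 9) :
    Cfsg.HasCyclicSchurMultiplier (Matrix.SpecialLinearGroup (Fin 2) F) 3 := by
  classical
  obtain ⟨eA⟩ := Linear.PSL2_nine_iso hF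
  let π : Matrix.SpecialLinearGroup (Fin 2) F →* alternatingGroup (Fin 6) :=
    eA.toMonoidHom.comp (QuotientGroup.mk' _)
  have hπ : Function.Surjective π := eA.surjective.comp (QuotientGroup.mk'_surjective _)
  have hπk : ∀ c, π c = 1 → c ∈ Subgroup.center (Matrix.SpecialLinearGroup (Fin 2) F) := fun c hc =>
    (QuotientGroup.eq_one_iff c).1 (eA.injective (by rw [map_one]; exact hc))
  -- the pullback of the triple cover
  let σ := Triple.proj Triple.emb6
  obtain ⟨hst, hker3, g, h, hgh, hg3, hh3, hker, hord⟩ := Triple.stem_facts Triple.checks6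
  have hlift : ∀ s : alternatingGroup (Fin 6), s ^ 3 = 1 →
      ∃ x : Matrix.SpecialLinearGroup (Fin 2) F, x ^ 3 = 1 ∧ π x = s := by
    intro s hs
    obtain ⟨x, hx⟩ := hπ s
    refine ⟨x ^ 4, ?_, ?_⟩
    · have hc : x ^ 3 ∈ Subgroup.center (Matrix.SpecialLinearGroup (Fin 2) F) :=
        hπk _ (by rw [map_pow, hx, hs])
      have h6 := center_sq_eq_one hc
      calc (x ^ 4) ^ 3 = (x ^ 3 * x ^ 3) * (x ^ 3 * x ^ 3) := by
            rw [← pow_mul, ← pow_add, ← pow_add]
        _ = 1 := by rw [h6, one_mul]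
    · rw [map_pow, hx, pow_succ, hs, one_mul]
  obtain ⟨x, hx3, hx⟩ := hlift (σ g) hg3
  obtain ⟨y, -, hy⟩ := hlift (σ h) hh3
  have hxy : ⁅x, y⁆ = 1 := by
    have hc : ⁅x, y⁆ ∈ Subgroup.center (Matrix.SpecialLinearGroup (Fin 2) F) := hπk _ (by
      rw [map_commutatorElement, hx, hy, commutatorElement_eq_one_iff_mul_comm]
      exact hgh)
    have h2 := center_sq_eq_one hc
    have hcx : ∀ j : ℕ, x * ⁅x, y⁆ ^ j * x⁻¹ = ⁅x, y⁆ ^ j := fun j => by
      rw [Subgroup.mem_center_iff.1 (Subgroup.pow_mem _ hc j) x, mul_inv_cancel_right]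
    have hpow : ∀ j : ℕ, ⁅x ^ j, y⁆ = ⁅x, y⁆ ^ j := by
      intro j
      induction j with
      | zero => simp
      | succ j ih =>
        rw [pow_succ' x, commutatorElement_def]
        calc x * x ^ j * y * (x * x ^ j)⁻¹ * y⁻¹
            = x * (x ^ j * y * (x ^ j)⁻¹ * y⁻¹) * x⁻¹ * (x * y * x⁻¹ * y⁻¹) := by group
          _ = x * ⁅x ^ j, y⁆ * x⁻¹ * ⁅x, y⁆ := rfl
          _ = _ := by rw [ih, hcx, ← pow_succ]
    have h3 := hpow 3
    rw [hx3, commutatorElement_one_left, pow_succ, pow_two, h2, one_mul] at h3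
    exact h3.symm
  let G' := Triple.cover Triple.emb6 × Matrix.SpecialLinearGroup (Fin 2) F
  let Pb : Subgroup G' :=
    MonoidHom.eqLocus (σ.comp (MonoidHom.fst _ _)) (π.comp (MonoidHom.snd _ _))
  let τ : Pb →* Matrix.SpecialLinearGroup (Fin 2) F := (MonoidHom.snd _ _).comp Pb.subtype
  let gx : Pb := ⟨(g, x), show σ g = π x from hx.symm⟩
  let hy' : Pb := ⟨(h, y), show σ h = π y from hy.symm⟩
  have hcomm : (⁅gx, hy'⁆ : Pb).1 = (⁅g, h⁆, 1) := Prod.ext rfl hxy
  have hker_le : τ.ker ≤ Subgroup.zpowers ⁅gx, hy'⁆ := by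
    rintro ⟨⟨k, w⟩, hkw⟩ hk
    obtain rfl : w = 1 := hk
    have hk1 : k ∈ (Triple.proj Triple.emb6).ker :=
      (show σ k = π 1 from hkw).trans (map_one π)
    rw [hker] at hk1
    obtain ⟨i, hi⟩ := Subgroup.mem_zpowers_iff.1 hk1
    refine Subgroup.mem_zpowers_iff.2 ⟨i, Subtype.ext ?_⟩
    rw [SubgroupClass.coe_zpow, hcomm]
    exact Prod.ext hi (one_zpow i)
  have hstem : Cfsg.IsStemExtension τ := by
    refine ⟨fun w => ?_, ?_, ?_⟩
    · obtain ⟨k, hk⟩ := hst.1 (π w)
      exact ⟨⟨(k, w), hk⟩, rfl⟩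
    · rintro ⟨⟨k, w⟩, hkw⟩ hk
      obtain rfl : w = 1 := hk
      have hk1 : k ∈ (Triple.proj Triple.emb6).ker :=
        (show σ k = π 1 from hkw).trans (map_one π)
      rw [Subgroup.mem_center_iff]
      intro z
      exact Subtype.ext (Prod.ext (Subgroup.mem_center_iff.1 (hst.2.1 hk1) _) ((mul_one z.1.2).trans (one_mul z.1.2).symm))
    · refine hker_le.trans (Subgroup.zpowers_le.2 ?_)
      exact Subgroup.commutator_mem_commutator (Subgroup.mem_top gx) (Subgroup.mem_top hy')
  have hdvd : 3 ∣ Nat.card (Mult (Matrix.SpecialLinearGroup (Fin 2) F)) := by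
    refine Nat.dvd_trans ?_ (card_ker_dvd_mult hstem)
    have hmem : ⁅gx, hy'⁆ ∈ τ.ker := (map_commutatorElement τ gx hy').trans hxy
    have h1 : orderOf (⁅gx, hy'⁆ : Pb) = 3 := by
      rw [← orderOf_injective Pb.subtype Subtype.val_injective]
      show orderOf (⁅gx, hy'⁆ : Pb).1 = 3
      rw [hcomm, Prod.orderOf, orderOf_one, hord]; rfl
    have := Subgroup.card_dvd_of_le (Subgroup.zpowers_le.2 hmem)
    rwa [Nat.card_zpowers, h1] at this
  -- the upper bound
  have hcard : Nat.card (Matrix.SpecialLinearGroup (Fin 2) F) = 720 := by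
    have h1 := Subgroup.card_eq_card_quotient_mul_card_subgroup
      (Subgroup.center (Matrix.SpecialLinearGroup (Fin 2) F))
    have hA : Nat.card (Matrix.ProjectiveSpecialLinearGroup (Fin 2) F) = 360 := by
      rw [Nat.card_congr eA.toEquiv]
      have := card_alt 6; rw [show Nat.factorial 6 = 720 from rfl] at this; omega
    have hZ : Nat.card (Subgroup.center (Matrix.SpecialLinearGroup (Fin 2) F)) = 2 := by
      rw [Linear.card_center_SL, hF]; rfl
    rw [h1, hZ]
    show Nat.card (Matrix.ProjectiveSpecialLinearGroup (Fin 2) F) * 2 = 720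
    rw [hA]
  obtain ⟨P⟩ : Nonempty (Sylow 2 (Matrix.SpecialLinearGroup (Fin 2) F)) := inferInstance
  obtain ⟨k, -, ⟨eQ⟩⟩ := S0261.result (by rw [hF]; decide) P
  have : NeZero (2 ^ k) := ⟨by positivity⟩
  have hup := card_mult_dvd (a := 1) hcard
    (factorization_eq' Nat.prime_three (by norm_num) (by norm_num))
    big_prime_720 P (by rw [card_mult_congr eQ, card_mult_of_has (S3963.result (2 ^ k))]; simp)
  have h3 : Nat.card (Mult (Matrix.SpecialLinearGroup (Fin 2) F)) = 3 :=
    Nat.dvd_antisymm (by simpa using hup) hdvd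
  have : Fact (Nat.Prime 3) := ⟨Nat.prime_three⟩
  exact hasCyclic_of_card_mult h3 (isCyclic_of_prime_card h3)

end SL2

end Cfsg.Agent.Suzuki
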