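import Cfsg.Agent.Suzuki.ReeEll
import Cfsg.Agent.Suzuki.SzAut

/-!
Automorphisms of the small Ree group.
-/

set_option autoImplicit false

universe u

namespace Cfsg.Agent.Suzuki.Ree

open Cfsg.Lie Cfsg.Agent.Chev
open scoped Matrix MatrixGroups Pointwise

variable {K : Type u} [Field K] {m : ℕ} (h : Ctx K m)

/-- `G¹` -/
local notation "G₁" => twistedG2 K (3 ^ m)
/-- `B¹` -/
local notation "B₁" => chevG2.borelSubgroup K ⊓ twistedG2 K (3 ^ m)
/-- `H¹` -/
local notation "H₁" => chevG2.diagonalSubgroup K ⊓ twistedG2 K (3 ^ m)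
/-- `U¹` -/
local notation "U₁" => chevG2.posUnipotent K ⊓ twistedG2 K (3 ^ m)

/-- `x ↦ (x ^ θ) ^ 3` -/
def th3 (m : ℕ) (x : K) : K := (x ^ 3 ^ m) ^ 3

include h in
/-- products in `U¹` -/
theorem reeU_prod (t u v t' u' v' : K) : reeU m t u v * reeU m t' u' v' =
    reeU m (t + t') (u + u' - th3 m t' * t)
      (v + v' - t' * u - th3 m t' * t ^ 2 + t' * th3 m t' * t) := by
  have := h.char
  obtain ⟨T, U, V, e⟩ := (mem_unipotent_twisted h _).1
    (mul_mem ((mem_unipotent_twisted h _).2 ⟨t, u, v, rfl⟩) ((mem_unipotent_twisted h _).2 ⟨t', u', v', rfl⟩))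
  rw [e]
  rw [reeU_eq, reeU_eq, Ug_mul, reeU_eq] at e
  obtain ⟨-, eB, -, -, ec, ed⟩ := Ug_inj e
  simp only [th3]
  rw [← eB, ← ec, ← ed]

/-! ### Field automorphisms -/

/-- entrywise action of a field automorphism -/
noncomputable def gMap (σ : K ≃+* K) : GL chevG2.Idx K →* GL chevG2.Idx K :=
  Matrix.GeneralLinearGroup.map (σ : K →+* K)

theorem gMap_val (σ : K ≃+* K) (g : GL chevG2.Idx K) (i j : chevG2.Idx) :
    (gMap σ g).1 i j = σ (g.1 i j) := rfl

theorem gMap_xu (σ : K ≃+* K) (r : ℕ) (t : K) : gMap σ (cG.xu r t) = cG.xu r (σ t) := by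
  by_cases hr : r < chevG2.nroots
  swap
  · rw [cG.xu_of_le hr, cG.xu_of_le hr, map_one]
  apply Units.ext
  ext i j
  rw [gMap_val, cG.coe_xu, cG.coe_xu]
  show σ (chevG2.x K r t i j) = chevG2.x K r (σ t) i j
  simp only [ChevalleyDatum.x, dif_pos hr, ChevalleyDatum.xMat, Matrix.of_apply]
  rcases j with j | j <;> rcases i with i | i <;> dsimp only <;> split_ifs <;>
    simp [map_list_sum, List.map_map, Function.comp_def]

theorem gMap_reeU (σ : K ≃+* K) (t u v : K) : gMap σ (reeU m t u v) = reeU m (σ t) (σ u) (σ v) := by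
  rw [reeU_eq, reeU_eq]
  simp [Ug, quad, map_mul, gMap_xu, map_pow]

theorem gMap_reeV (σ : K ≃+* K) (t u v : K) : gMap σ (reeV m t u v) = reeV m (σ t) (σ u) (σ v) := by
  rw [reeV_eq, reeV_eq]
  simp [Vg, quad, map_mul, gMap_xu, map_pow]

theorem gMap_wElt (σ : K ≃+* K) : gMap σ (wElt : GL chevG2.Idx K) = wElt := by
  simp [wElt, cG.nu_eq, map_mul, gMap_xu]

theorem gMap_mem (σ : K ≃+* K) {g : GL chevG2.Idx K} (hg : g ∈ G₁) : gMap σ g ∈ G₁ := by
  have hle : G₁ ≤ (G₁).comap (gMap σ) := by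
    conv_lhs => rw [twisted_eq_closure]
    rw [Subgroup.closure_le]
    rintro _ ⟨t, u, v, rfl | rfl⟩
    · show gMap σ _ ∈ G₁
      rw [gMap_reeU]; exact reeU_mem _ _ _
    · show gMap σ _ ∈ G₁
      rw [gMap_reeV]; exact reeV_mem _ _ _
  exact hle hg

theorem gMap_hu (σ : K ≃+* K) (r : ℕ) (t : K) : gMap σ (cG.hu r t) = cG.hu r (σ t) := by
  simp [cG.hu_eq, cG.nu_eq, map_mul, gMap_xu]

theorem gMap_diag (σ : K ≃+* K) {d : GL chevG2.Idx K} (hd : d ∈ chevG2.diagonalSubgroup K) :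
    gMap σ d ∈ chevG2.diagonalSubgroup K := by
  have hle : chevG2.diagonalSubgroup K ≤ (chevG2.diagonalSubgroup K).comap (gMap σ) := by
    rw [ChevalleyDatum.diagonalSubgroup, Subgroup.closure_le]
    rintro g ⟨r, t, hr, ht, e⟩
    obtain rfl : g = cG.hu r t := Units.ext (e.trans (cG.coe_hu r t).symm)
    show gMap σ (cG.hu r t) ∈ Subgroup.closure _
    rw [gMap_hu]
    exact Subgroup.subset_closure ⟨r, σ t, hr, (map_ne_zero σ).2 ht, cG.coe_hu _ _⟩
  exact hle hd

/-- field automorphisms act on the small Ree group -/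
noncomputable def fieldAut : (K ≃+* K) →* MulAut ↥(twistedG2 K (3 ^ m)) where
  toFun σ :=
    { toFun := fun g => ⟨gMap σ g.1, gMap_mem σ g.2⟩
      invFun := fun g => ⟨gMap σ.symm g.1, gMap_mem σ.symm g.2⟩
      left_inv := fun g => Subtype.ext (Units.ext (by ext i j; simp [gMap_val]))
      right_inv := fun g => Subtype.ext (Units.ext (by ext i j; simp [gMap_val]))
      map_mul' := fun x y => Subtype.ext (map_mul (gMap σ) x.1 y.1) }
  map_one' := MulEquiv.ext fun g => Subtype.ext (Units.ext (by ext i j; simp [gMap_val]))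
  map_mul' σ τ := MulEquiv.ext fun g => Subtype.ext (Units.ext (by ext i j; simp [gMap_val]))

/-- the element `reeU t u v` of the group -/
noncomputable def uE (m : ℕ) (t u v : K) : ↥(twistedG2 K (3 ^ m)) := ⟨reeU m t u v, reeU_mem t u v⟩

theorem fieldAut_uE (σ : K ≃+* K) (t u v : K) :
    fieldAut σ (uE m t u v) = uE m (σ t) (σ u) (σ v) := Subtype.ext (gMap_reeU σ t u v)

include h in
theorem uE_mul (t u v t' u' v' : K) : uE m t u v * uE m t' u' v' =
    uE m (t + t') (u + u' - th3 m t' * t) (v + v' - t' * u - th3 m t' * t ^ 2 + t' * th3 m t' * t) :=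
  Subtype.ext (reeU_prod h t u v t' u' v')

theorem uE_inj {t u v t' u' v' : K} (e : uE m t u v = uE m t' u' v') (h : Ctx K m) : t = t' ∧ u = u' ∧ v = v' :=
  reeU_inj h (congrArg Subtype.val e)

theorem uE_mem (h : Ctx K m) (t u v : K) : uE m t u v ∈ (U₁).subgroupOf G₁ :=
  Subgroup.mem_subgroupOf.2 ((mem_unipotent_twisted h _).2 ⟨t, u, v, rfl⟩)

theorem exists_uE (h : Ctx K m) {x : ↥G₁} (hx : x ∈ (U₁).subgroupOf G₁) : ∃ t u v, x = uE m t u v := by
  obtain ⟨t, u, v, e⟩ := (mem_unipotent_twisted h _).1 (Subgroup.mem_subgroupOf.1 hx)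
  exact ⟨t, u, v, Subtype.ext e⟩

include h in
theorem uE_zero : uE m (0 : K) 0 0 = 1 := Subtype.ext (reeU_zero h)

include h in
theorem torus_uE {d : ↥G₁} (hd : d ∈ (H₁).subgroupOf G₁) (t u v : K) :
    d * uE m t u v * d⁻¹ = uE m (kap d.1 * t) (th3 m (kap d.1) * kap d.1 * u)
      (th3 m (kap d.1) * kap d.1 ^ 2 * v) :=
  Subtype.ext (torus_conj h (Subgroup.mem_subgroupOf.1 hd) t u v)

include h in
theorem exists_torus_elem {k : K} (hk : k ≠ 0) : ∃ d ∈ (H₁).subgroupOf G₁, kap d.1 = k := by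
  obtain ⟨M, hM⟩ : ∃ M, CoxOK chevG2 M := exists_cox (by simp)
  obtain ⟨d, hd, hdt, hdk⟩ := exists_torus h hM hk
  exact ⟨⟨d, hdt⟩, Subgroup.mem_subgroupOf.2 ⟨hd, hdt⟩, hdk⟩

include h in
theorem torus_ext {d d' : ↥G₁} (hd : d ∈ (H₁).subgroupOf G₁) (hd' : d' ∈ (H₁).subgroupOf G₁)
    (e : kap d.1 = kap d'.1) : d = d' :=
  Subtype.ext (kap_inj h (Subgroup.mem_subgroupOf.1 hd).1 (Subgroup.mem_subgroupOf.1 hd').1
    (sig_of_mem h d.2) (sig_of_mem h d'.2) e)

include h in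
theorem torus_comm {d d' : ↥G₁} (hd : d ∈ (H₁).subgroupOf G₁) (hd' : d' ∈ (H₁).subgroupOf G₁) :
    d * d' = d' * d :=
  torus_ext h (mul_mem hd hd') (mul_mem hd' hd) (by
    rw [Subgroup.coe_mul, Subgroup.coe_mul, kap_mul (Subgroup.mem_subgroupOf.1 hd).1 (Subgroup.mem_subgroupOf.1 hd').1,
      kap_mul (Subgroup.mem_subgroupOf.1 hd').1 (Subgroup.mem_subgroupOf.1 hd).1, mul_comm])

include h in
/-- a torus element times an unipotent one -/
theorem borel_unique {t u v : K} {d : ↥G₁} (hd : d ∈ (H₁).subgroupOf G₁) {t' u' v' : K} {d' : ↥G₁}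
    (hd' : d' ∈ (H₁).subgroupOf G₁) (e : uE m t u v * d = uE m t' u' v' * d') :
    t = t' ∧ u = u' ∧ v = v' ∧ d = d' := by
  have := h.char
  have hmem : (uE m t' u' v')⁻¹.1 * (uE m t u v).1 ∈ chevG2.posUnipotent K ⊓ chevG2.diagonalSubgroup K := by
    refine Subgroup.mem_inf.2 ⟨mul_mem (inv_mem (reeU_mem_pos _ _ _)) (reeU_mem_pos _ _ _), ?_⟩
    have e' : (uE m t' u' v')⁻¹ * uE m t u v = d' * d⁻¹ := by
      rw [eq_mul_inv_iff_mul_eq, mul_assoc, e, inv_mul_cancel_left]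
    rw [← Subgroup.coe_mul, e']
    exact mul_mem (Subgroup.mem_subgroupOf.1 hd').1 (inv_mem (Subgroup.mem_subgroupOf.1 hd).1)
  rw [cG.posUnipotent_inf_diagonal, Subgroup.mem_bot, ← Subgroup.coe_mul] at hmem
  have he : uE m t' u' v' = uE m t u v := inv_mul_eq_one.1 (Subtype.ext hmem)
  obtain ⟨h1, h2, h3⟩ := uE_inj he h
  refine ⟨h1.symm, h2.symm, h3.symm, ?_⟩
  rw [he] at e
  exact mul_left_cancel e

include h in
/-- inner field automorphisms are trivial -/
theorem fieldAut_inner {σ : K ≃+* K} (hσ : fieldAut (m := m) σ ∈ Cfsg.Inn ↥G₁) : σ = 1 := by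
  have := h.finite
  have := h.char
  obtain ⟨g, hg⟩ := hσ
  have hu : ∀ t u v : K, g * uE m t u v * g⁻¹ = uE m (σ t) (σ u) (σ v) := fun t u v => by
    rw [← fieldAut_uE, ← hg]; rfl
  have hgB : g.1 ∈ B₁ := by
    have e := congrArg Subtype.val (hu 1 0 0)
    have hne : (uE m (σ 1) (σ 0) (σ 0)).1 ≠ 1 := fun e' => by
      obtain ⟨e1, -, -⟩ := reeU_inj h (e'.trans (reeU_zero h).symm)
      rw [map_one] at e1
      exact one_ne_zero e1
    refine ti h g.2 ((mem_unipotent_twisted h _).2 ⟨_, _, _, rfl⟩) ?_ hne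
    show g.1⁻¹ * (uE m (σ 1) (σ 0) (σ 0)).1 * g.1 ∈ U₁
    rw [← e, Subgroup.coe_mul, Subgroup.coe_mul, Subgroup.coe_inv,
      show g.1⁻¹ * (g.1 * (uE m (1 : K) 0 0).1 * g.1⁻¹) * g.1 = (uE m (1 : K) 0 0).1 by group]
    exact (mem_unipotent_twisted h _).2 ⟨_, _, _, rfl⟩
  obtain ⟨T, A, C, d, hd, hgd⟩ := mem_borel_twisted h hgB
  set d' : ↥G₁ := ⟨d, hd.2⟩
  have hge : g = uE m T A C * d' := Subtype.ext hgd
  have hd' : d' ∈ (H₁).subgroupOf G₁ := Subgroup.mem_subgroupOf.2 hd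
  have key : ∀ t : K, kap d * t = σ t := by
    intro t
    have e := hu t 0 0
    rw [hge, show uE m T A C * d' * uE m t 0 0 * (uE m T A C * d')⁻¹ =
      uE m T A C * (d' * uE m t 0 0 * d'⁻¹) * (uE m T A C)⁻¹ by group, torus_uE h hd',
      mul_inv_eq_iff_eq_mul, uE_mul h, uE_mul h] at e
    have := (uE_inj e h).1
    linear_combination this
  have hk1 : kap d = 1 := by simpa using key 1
  refine RingEquiv.ext fun t => ?_
  rw [← key t, hk1, one_mul]
  rfl

/-! ### Normalising an automorphism -/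

include h in
theorem exists_sylow_three : ∃ S : Sylow 3 ↥G₁, (S : Subgroup ↥G₁) = (U₁).subgroupOf G₁ := by
  have := h.finite
  have : Fact (Nat.Prime 3) := ⟨Nat.prime_three⟩
  have hU : Nat.card ↥((U₁).subgroupOf G₁) = (3 ^ (2 * m + 1)) ^ 3 := by
    rw [Nat.card_congr (Subgroup.subgroupOfEquivOfLe inf_le_right).toEquiv, card_unipotent h]
  have hfac : (Nat.card ↥G₁).factorization 3 = (2 * m + 1) * 3 := by
    rw [card_eq h, ← pow_mul, show 8 * 3 ^ ((2 * m + 1) * 3) * nSplit m * nEll m * nCox m =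
      3 ^ ((2 * m + 1) * 3) * (8 * nSplit m * nEll m * nCox m) by ring]
    obtain ⟨a1, a2, a3⟩ := three_not_dvd m
    have e3 : ¬ 3 ∣ 8 * nSplit m * nEll m * nCox m := by
      simp [Nat.prime_three.dvd_mul, a1, a2, a3]
    rw [Nat.factorization_mul (pow_ne_zero _ (by norm_num)) (fun e => e3 (by rw [e]; exact dvd_zero 3)),
      Finsupp.add_apply, Nat.prime_three.factorization_pow, Finsupp.single_eq_same,
      Nat.factorization_eq_zero_of_not_dvd e3, add_zero]
  exact ⟨Sylow.ofCard ((U₁).subgroupOf G₁) (by rw [hU, hfac, pow_mul]), Sylow.coe_ofCard _ _⟩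

include h in
/-- up to inner automorphisms, an automorphism preserves `U¹` and `H¹` -/
theorem normalise (hm : 1 ≤ m) (φ : MulAut ↥G₁) : ∃ g : ↥G₁,
    (∀ t u v : K, ∃ t' u' v', (MulAut.conj g * φ) (uE m t u v) = uE m t' u' v') ∧
      ∀ d ∈ (H₁).subgroupOf G₁, (MulAut.conj g * φ) d ∈ (H₁).subgroupOf G₁ := by
  classical
  have := h.finite
  have := h.char
  have : Fact (Nat.Prime 3) := ⟨Nat.prime_three⟩
  obtain ⟨S, hS⟩ := exists_sylow_three h
  let Q : Sylow 3 ↥G₁ := Sylow.ofCard ((S : Subgroup ↥G₁).map φ.toMonoidHom) (by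
    rw [← Nat.card_congr (Subgroup.equivMapOfInjective _ _ φ.injective).toEquiv]
    exact S.card_eq_multiplicity)
  obtain ⟨g, hg⟩ := MulAction.exists_smul_eq ↥G₁ Q S
  set U := (U₁).subgroupOf G₁
  let ψ := MulAut.conj g * φ
  have hUmap : U.map ψ.toMonoidHom = U := by
    have e : ((U.map φ.toMonoidHom)).map (MulAut.conj g).toMonoidHom = U := by
      have e' := congrArg (fun R : Sylow 3 ↥G₁ => (R : Subgroup ↥G₁)) hg
      simp only [Q, Sylow.coe_subgroup_smul, Sylow.coe_ofCard, hS] at e'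
      exact e'
    rw [Subgroup.map_map] at e
    exact e
  have hUiff : ∀ x, ψ x ∈ U ↔ x ∈ U := by
    intro x
    constructor
    · intro hx
      rw [← hUmap] at hx
      obtain ⟨y, hy, hxy⟩ := Subgroup.mem_map.1 hx
      exact ψ.injective hxy ▸ hy
    · intro hx
      rw [← hUmap]
      exact Subgroup.mem_map.2 ⟨x, hx, rfl⟩
  -- an element of the torus of odd order
  obtain ⟨j, hj, e1, -, -⟩ := arith m
  have hn : 1 < nSplit m := by
    have h27 : 3 ^ 3 ≤ 3 ^ (2 * m + 1) := Nat.pow_le_pow_right (by norm_num) (by omega)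
    norm_num at h27
    omega
  have hcH : IsCyclic ↥((H₁).subgroupOf G₁) := by
    have := torus_cyclic h
    exact isCyclic_of_surjective (Subgroup.subgroupOfEquivOfLe (inf_le_right : H₁ ≤ G₁)).symm.toMonoidHom
      (Subgroup.subgroupOfEquivOfLe (inf_le_right : H₁ ≤ G₁)).symm.surjective
  obtain ⟨c, hc⟩ := hcH.exists_generator
  have hco : orderOf c = 3 ^ (2 * m + 1) - 1 := by
    rw [orderOf_eq_card_of_forall_mem_zpowers hc, Nat.card_congr (Subgroup.subgroupOfEquivOfLe inf_le_right).toEquiv,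
      card_torus h]
  set s : ↥G₁ := (c.1) ^ 2 with hsdef
  have hsH : s ∈ (H₁).subgroupOf G₁ := pow_mem c.2 2
  have hso : orderOf s = nSplit m := by
    rw [hsdef, orderOf_pow, Subgroup.orderOf_coe, hco, show 3 ^ (2 * m + 1) - 1 = nSplit m * 2 by omega,
      Nat.gcd_mul_left_left, Nat.mul_div_cancel _ (by norm_num)]
  have hs1 : s ≠ 1 := fun e => by rw [e, orderOf_one] at hso; omega
  have hsodd : Odd (orderOf s) := hso ▸ (odd_three m).1
  have hCs := centralizer_split h (Subgroup.mem_subgroupOf.1 hsH).1 hs1 hsodd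
  -- it goes into the Borel subgroup
  have hy : (ψ s).1 ∈ B₁ := by
    set x := ψ (uE m 1 0 0)
    have hxU : x ∈ U := (hUiff _).2 (uE_mem h _ _ _)
    have hx1 : x.1 ≠ 1 := fun e => by
      have : uE m (1 : K) 0 0 = 1 := ψ.injective ((Subtype.ext e).trans (map_one ψ).symm)
      exact one_ne_zero (uE_inj (this.trans (uE_zero h).symm) h).1
    have hconj : (ψ s)⁻¹ * x * ψ s ∈ U := by
      rw [← map_inv, ← map_mul, ← map_mul, hUiff]
      have := torus_uE h (inv_mem hsH) (1 : K) 0 0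
      rw [inv_inv] at this
      rw [this]
      exact uE_mem h _ _ _
    exact ti h (ψ s).2 (Subgroup.mem_subgroupOf.1 hxU) (Subgroup.mem_subgroupOf.1 hconj) hx1
  obtain ⟨T, A, C, d, hd, hyd⟩ := mem_borel_twisted h hy
  set d' : ↥G₁ := ⟨d, hd.2⟩
  have hd' : d' ∈ (H₁).subgroupOf G₁ := Subgroup.mem_subgroupOf.2 hd
  have hye : ψ s = uE m T A C * d' := Subtype.ext hyd
  -- the torus part has odd order and is nontrivial
  have hpow : ∀ n : ℕ, ∃ a b e, (uE m T A C * d') ^ n = uE m a b e * d' ^ n := by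
    intro n
    induction n with
    | zero => exact ⟨0, 0, 0, by rw [pow_zero, pow_zero, uE_zero h, mul_one]⟩
    | succ n ih =>
      obtain ⟨a, b, e, he⟩ := ih
      rw [pow_succ, he, pow_succ, show uE m a b e * d' ^ n * (uE m T A C * d') =
        uE m a b e * (d' ^ n * uE m T A C * (d' ^ n)⁻¹) * (d' ^ n * d') by group, torus_uE h (pow_mem hd' n), uE_mul h]
      exact ⟨_, _, _, rfl⟩
  have hdn : d' ^ nSplit m = 1 := by
    obtain ⟨a, b, e, he⟩ := hpow (nSplit m)
    rw [← hye, ← map_pow, ← hso, pow_orderOf_eq_one, map_one, hso] at he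
    exact (borel_unique h (t := 0) (u := 0) (v := 0) (t' := a) (u' := b) (v' := e) (one_mem _) (pow_mem hd' _) (by rw [uE_zero h, one_mul]; exact he)).2.2.2.symm
  have hd1 : d' ≠ 1 := by
    intro e
    rw [e, mul_one] at hye
    have hsU : s ∈ U := (hUiff s).1 (hye ▸ uE_mem h _ _ _)
    have hmem : s.1 ∈ chevG2.posUnipotent K ⊓ chevG2.diagonalSubgroup K :=
      Subgroup.mem_inf.2 ⟨(Subgroup.mem_subgroupOf.1 hsU).1, (Subgroup.mem_subgroupOf.1 hsH).1⟩
    rw [cG.posUnipotent_inf_diagonal, Subgroup.mem_bot] at hmem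
    exact hs1 (Subtype.ext hmem)
  have hdodd : Odd (orderOf d') := (odd_three m).1.of_dvd_nat (orderOf_dvd_of_pow_eq_one hdn)
  have hCd := centralizer_split h hd.1 hd1 hdodd
  -- `u ↦ u d u⁻¹ d⁻¹` is onto `U¹`
  obtain ⟨u, hu⟩ : ∃ u : ↥U, u.1 * d' * u.1⁻¹ * d'⁻¹ = uE m T A C := by
    have hmem : ∀ u : ↥U, u.1 * d' * u.1⁻¹ * d'⁻¹ ∈ U := fun u => by
      obtain ⟨a, b, e, he⟩ := exists_uE h (inv_mem u.2)
      rw [show u.1 * d' * u.1⁻¹ * d'⁻¹ = u.1 * (d' * u.1⁻¹ * d'⁻¹) by group, he, torus_uE h hd']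
      exact mul_mem u.2 (uE_mem h _ _ _)
    let F : ↥U → ↥U := fun u => ⟨u.1 * d' * u.1⁻¹ * d'⁻¹, hmem u⟩
    have hF : Function.Injective F := by
      intro a b e
      have e' : a.1 * d' * a.1⁻¹ = b.1 * d' * b.1⁻¹ := mul_right_cancel (congrArg Subtype.val e :)
      have hc : b.1⁻¹ * a.1 ∈ Subgroup.centralizer {d'} := by
        rw [Subgroup.mem_centralizer_singleton_iff]
        calc b.1⁻¹ * a.1 * d' = b.1⁻¹ * (a.1 * d' * a.1⁻¹) * a.1 := by group
          _ = b.1⁻¹ * (b.1 * d' * b.1⁻¹) * a.1 := by rw [e']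
          _ = d' * (b.1⁻¹ * a.1) := by group
      rw [hCd, Subgroup.mem_subgroupOf] at hc
      have hm2 : (b.1⁻¹ * a.1).1 ∈ chevG2.posUnipotent K ⊓ chevG2.diagonalSubgroup K :=
        Subgroup.mem_inf.2 ⟨(Subgroup.mem_subgroupOf.1 (mul_mem (inv_mem b.2) a.2)).1, hc.1⟩
      rw [cG.posUnipotent_inf_diagonal, Subgroup.mem_bot] at hm2
      exact Subtype.ext (inv_mul_eq_one.1 (Subtype.ext hm2)).symm
    obtain ⟨u, hu⟩ := (Finite.injective_iff_surjective.1 hF) ⟨_, uE_mem h T A C⟩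
    exact ⟨u, congrArg Subtype.val hu⟩
  have huy : ψ s = u.1 * d' * u.1⁻¹ := by rw [hye, ← hu, inv_mul_cancel_right]
  refine ⟨u.1⁻¹ * g, ?_, ?_⟩
  · intro t a b
    have hx := (hUiff _).2 (uE_mem h t a b)
    refine exists_uE h ?_
    rw [map_mul, mul_assoc, MulAut.mul_apply, MulAut.conj_apply, inv_inv]
    exact mul_mem (mul_mem (inv_mem u.2) hx) u.2
  · intro e he
    have hc : ψ e * ψ s = ψ s * ψ e := by rw [← map_mul, ← map_mul, torus_comm h he hsH]
    rw [map_mul, mul_assoc, MulAut.mul_apply, MulAut.conj_apply, inv_inv, ← hCd, Subgroup.mem_centralizer_singleton_iff]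
    show u.1⁻¹ * ψ e * u.1 * d' = d' * (u.1⁻¹ * ψ e * u.1)
    rw [huy] at hc
    calc u.1⁻¹ * ψ e * u.1 * d' = u.1⁻¹ * (ψ e * (u.1 * d' * u.1⁻¹)) * u.1 := by group
      _ = u.1⁻¹ * (u.1 * d' * u.1⁻¹ * ψ e) * u.1 := by rw [hc]
      _ = _ := by group

/-! ### Normalised automorphisms -/

include h in
theorem th3_add (a b : K) : th3 m (a + b) = th3 m a + th3 m b := by
  have := h.char
  simp only [th3]
  rw [add_pow_char_pow, add_pow_char]

theorem th3_mul (a b : K) : th3 m (a * b) = th3 m a * th3 m b := by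
  simp only [th3, mul_pow]

theorem th3_neg_one : th3 m (-1 : K) = -1 := by
  simp [th3, (Odd.pow (by decide : Odd 3) : Odd (3 ^ m)).neg_one_pow]
  norm_num

include h in
theorem exists_th3_ne (hm : 1 ≤ m) : ∃ x : K, x ≠ 0 ∧ x ≠ 1 ∧ th3 m x ≠ x ∧ th3 m x + x ≠ 0 := by
  classical
  have := h.finite
  let := Fintype.ofFinite K
  obtain ⟨c, hc⟩ := IsCyclic.exists_generator (α := Kˣ)
  have hco : orderOf c = 3 ^ (2 * m + 1) - 1 := by
    rw [orderOf_eq_card_of_forall_mem_zpowers hc, Nat.card_eq_fintype_card, Fintype.card_units,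
      ← Nat.card_eq_fintype_card, h.card]
  have hlt : 2 * (3 ^ (m + 1) - 1) < 3 ^ (2 * m + 1) - 1 := by
    have e : 3 ^ (2 * m + 1) = 3 ^ (m + 1) * 3 ^ m := by rw [← pow_add]; congr 1; omega
    have h3 : 3 ≤ 3 ^ m := Nat.le_self_pow (by omega) 3
    have h9 : 1 ≤ 3 ^ (m + 1) := Nat.one_le_pow _ _ (by norm_num)
    have := Nat.mul_le_mul_left (3 ^ (m + 1)) h3
    omega
  have hpos : 0 < 3 ^ (m + 1) - 1 := by
    have : 3 ≤ 3 ^ (m + 1) := Nat.le_self_pow (by omega) 3
    omega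
  have hne : ∀ e : ℕ, 0 < e → e < 3 ^ (2 * m + 1) - 1 → (c.1 : K) ^ e ≠ 1 := by
    intro e he0 he e1
    have : c ^ e = 1 := Units.ext (by rw [Units.val_pow_eq_pow_val, e1, Units.val_one])
    have := Nat.le_of_dvd he0 (orderOf_dvd_of_pow_eq_one this)
    omega
  have hth : th3 m (c.1 : K) = c.1 ^ (3 ^ (m + 1) - 1) * c.1 := by
    have h1 : 1 ≤ 3 ^ (m + 1) := Nat.one_le_pow _ _ (by norm_num)
    rw [← pow_succ, th3, ← pow_mul, ← pow_succ, Nat.sub_add_cancel h1]
  refine ⟨c.1, c.ne_zero, ?_, ?_, ?_⟩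
  · simpa using hne 1 Nat.one_pos (by omega)
  · intro e
    rw [hth] at e
    exact hne _ hpos (by omega) (mul_right_cancel₀ c.ne_zero (e.trans (one_mul _).symm))
  · intro e
    rw [hth] at e
    have e' : (c.1 : K) ^ (3 ^ (m + 1) - 1) = -1 := mul_right_cancel₀ c.ne_zero (by linear_combination e)
    exact hne _ (by omega) hlt (by rw [mul_comm 2, pow_mul, e']; ring)

include h in
theorem eq_mul_of_mult_u {f : K → K} (hadd : ∀ a b, f (a + b) = f a + f b)
    (hmult : ∀ k : K, k ≠ 0 → f (th3 m k * k) = th3 m k * k * f 1) : ∀ x, f x = x * f 1 := by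
  have := h.finite
  have := h.char
  let := Fintype.ofFinite K
  have h0 : f 0 = 0 := by have := hadd 0 0; rw [add_zero] at this; linear_combination -this
  have hns : ¬ IsSquare (-1 : K) := by
    rw [FiniteField.isSquare_neg_one_iff, ← Nat.card_eq_fintype_card, h.card]
    obtain ⟨j, hj, -⟩ := arith m
    omega
  let S := {x : K // ∃ y, x = y ^ 2}
  let F : S → S := fun x => ⟨th3 m x.1 * x.1, by
    obtain ⟨y, hy⟩ := x.2
    exact ⟨th3 m y * y, by rw [hy, pow_two, th3_mul]; ring⟩⟩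
  have hF : Function.Injective F := by
    rintro ⟨a, ha⟩ ⟨b, hb⟩ e
    have e' : th3 m a * a = th3 m b * b := congrArg Subtype.val e
    apply Subtype.ext
    show a = b
    by_cases hb0 : b = 0
    · subst hb0
      rw [mul_zero, mul_eq_zero] at e'
      rcases e' with e' | e'
      · simpa [th3] using e'
      · exact e'
    have h1 : ((a / b) ^ 3 ^ m) ^ 3 * (a / b) = 1 := by
      rw [div_pow, div_pow, div_mul_div_comm, div_eq_one_iff_eq (mul_ne_zero (pow_ne_zero _ (pow_ne_zero _ hb0)) hb0)]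
      exact e'
    rcases sq_eq_one_iff.1 (mult_u h h1) with e2 | e2
    · exact (div_eq_one_iff_eq hb0).1 e2
    · exfalso
      obtain ⟨ya, rfl⟩ := ha
      obtain ⟨yb, rfl⟩ := hb
      refine hns ⟨ya / yb, ?_⟩
      rw [← e2, ← pow_two, div_pow]
  have hsurj : Function.Surjective F := Finite.injective_iff_surjective.1 hF
  have hsq : ∀ y : K, f (y ^ 2) = y ^ 2 * f 1 := by
    intro y
    obtain ⟨⟨x, hx⟩, e⟩ := hsurj ⟨y ^ 2, y, rfl⟩
    have e' : th3 m x * x = y ^ 2 := congrArg Subtype.val e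
    rw [← e']
    by_cases hx0 : x = 0
    · simp [hx0, h0]
    · exact hmult x hx0
  intro x
  have h3 : (3 : K) = 0 := by exact_mod_cast CharP.cast_eq_zero K 3
  have hneg : ∀ a, f (-a) = -f a := fun a => by
    have := hadd a (-a); rw [add_neg_cancel, h0] at this; linear_combination -this
  have e : x = (x + 1) ^ 2 + -((x - 1) ^ 2) := by linear_combination -x * h3
  conv_lhs => rw [e, hadd, hneg, hsq, hsq]
  linear_combination (f 1 * x) * h3

include h in
theorem eq_mul_of_mult_v {f : K → K} (hadd : ∀ a b, f (a + b) = f a + f b)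
    (hmult : ∀ k : K, k ≠ 0 → f (th3 m k * k ^ 2) = th3 m k * k ^ 2 * f 1) : ∀ x, f x = x * f 1 := by
  have := h.finite
  have h0 : f 0 = 0 := by have := hadd 0 0; rw [add_zero] at this; linear_combination -this
  have hinj : Function.Injective fun k : K => th3 m k * k ^ 2 := by
    intro a b e
    simp only at e
    by_cases hb0 : b = 0
    · subst hb0
      rw [show th3 m (0 : K) * 0 ^ 2 = 0 by simp, mul_eq_zero] at e
      rcases e with e | e
      · simpa [th3] using e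
      · exact pow_eq_zero_iff (by norm_num) |>.1 e
    refine (div_eq_one_iff_eq hb0).1 (mult_v h ?_)
    rw [div_pow, div_pow, div_pow, div_mul_div_comm,
      div_eq_one_iff_eq (mul_ne_zero (pow_ne_zero _ (pow_ne_zero _ hb0)) (pow_ne_zero _ hb0))]
    exact e
  intro x
  obtain ⟨k, hk⟩ := (Finite.injective_iff_surjective.1 hinj) x
  simp only at hk
  rw [← hk]
  by_cases hk0 : k = 0
  · simp [hk0, h0]
  · exact hmult k hk0

include h in
theorem exists_layer {y : ↥G₁} {t u v : K} (e : y = uE m t u v) (hy : y ^ 3 = 1) : t = 0 := by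
  subst e
  exact (cube_eq_one_iff h t u v).1 (congrArg Subtype.val hy)

include h in
/-- an automorphism preserving `U¹`, `H¹` and the first coordinate is trivial -/
theorem trivial_of_fixing (hm : 1 ≤ m) {ψ : MulAut ↥G₁} (hU : ∀ t u v : K, ∃ u' v', ψ (uE m t u v) = uE m t u' v')
    (hH : ∀ d ∈ (H₁).subgroupOf G₁, ψ d = d) : ψ = 1 := by
  classical
  have := h.finite
  have := h.char
  have h3 : (3 : K) = 0 := by exact_mod_cast CharP.cast_eq_zero K 3
  have htwo : (2 : K) ≠ 0 := fun e => one_ne_zero (show (1 : K) = 0 by linear_combination h3 - e)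
  choose A B hAB using hU
  have hzero : ∀ x : K, -x = x → x = 0 := fun x hx => by linear_combination x * h3 + hx
  -- the involution of the torus separates the coordinates
  obtain ⟨a, ha, hak⟩ := exists_torus_elem h (neg_ne_zero.2 (one_ne_zero (α := K)))
  have hinv : ∀ t u v : K, a * uE m t u v * a⁻¹ = uE m (-t) u (-v) := fun t u v =>
    Subtype.ext (inv_conj_reeU h (Subgroup.mem_subgroupOf.1 ha) hak t u v)
  have hsym : ∀ t u v, A (-t) u (-v) = A t u v ∧ B (-t) u (-v) = -B t u v := by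
    intro t u v
    have e := congrArg ψ (hinv t u v)
    rw [map_mul, map_mul, map_inv, hH a ha, hAB, hAB, hinv] at e
    obtain ⟨-, e2, e3⟩ := uE_inj e h
    exact ⟨e2.symm, e3.symm⟩
  have hB0 : ∀ u, B 0 u 0 = 0 := fun u => by
    have := (hsym 0 u 0).2
    rw [neg_zero] at this
    exact hzero _ this.symm
  have hA0 : ∀ v, A 0 0 v = 0 := by
    intro v
    have e1 : uE m (0 : K) 0 (-v) * uE m 0 0 v = 1 := by
      rw [uE_mul h, ← uE_zero h]
      congr 1 <;> simp
    have e2 := congrArg ψ e1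
    rw [map_mul, hAB, hAB, map_one, uE_mul h, ← uE_zero h] at e2
    obtain ⟨-, e3, -⟩ := uE_inj e2 h
    have e4 := (hsym 0 0 v).1
    rw [neg_zero] at e4
    rw [e4] at e3
    refine hzero _ ?_
    linear_combination -e3
  have hU1 : ∀ u, ψ (uE m 0 u 0) = uE m 0 (A 0 u 0) 0 := fun u => by rw [hAB, hB0]
  have hV1 : ∀ v, ψ (uE m 0 0 v) = uE m 0 0 (B 0 0 v) := fun v => by rw [hAB, hA0]
  have hth0 : th3 m (0 : K) = 0 := by simp [th3]
  have hth1 : th3 m (1 : K) = 1 := by simp [th3]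
  -- equivariance
  have hequiv : ∀ k : K, k ≠ 0 → ∀ t u v, A (k * t) (th3 m k * k * u) (th3 m k * k ^ 2 * v) = th3 m k * k * A t u v ∧
      B (k * t) (th3 m k * k * u) (th3 m k * k ^ 2 * v) = th3 m k * k ^ 2 * B t u v := by
    intro k hk t u v
    obtain ⟨d, hd, hdk⟩ := exists_torus_elem h hk
    have e := congrArg ψ (torus_uE h hd t u v)
    rw [map_mul, map_mul, map_inv, hH d hd, hAB, hAB, torus_uE h hd, hdk] at e
    obtain ⟨-, e2, e3⟩ := uE_inj e h
    exact ⟨e2.symm, e3.symm⟩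
  have hfadd : ∀ a b, A 0 (a + b) 0 = A 0 a 0 + A 0 b 0 := fun a b => by
    have e := map_mul ψ (uE m 0 a 0) (uE m 0 b 0)
    rw [uE_mul h, hU1, hU1, uE_mul h, hth0] at e
    simp only [mul_zero, sub_zero, add_zero, zero_mul, zero_pow two_ne_zero] at e
    rw [hU1] at e
    exact (uE_inj e h).2.1
  have hgadd : ∀ a b, B 0 0 (a + b) = B 0 0 a + B 0 0 b := fun a b => by
    have e := map_mul ψ (uE m 0 0 a) (uE m 0 0 b)
    rw [uE_mul h, hV1, hV1, uE_mul h, hth0] at e
    simp only [mul_zero, sub_zero, add_zero, zero_mul, zero_pow two_ne_zero] at e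
    rw [hV1] at e
    exact (uE_inj e h).2.2
  set c := A 0 1 0
  set c' := B 0 0 1
  have hf := eq_mul_of_mult_u h (f := fun u => A 0 u 0) hfadd (fun k hk => by
    have := (hequiv k hk 0 1 0).1
    simpa using this)
  have hg := eq_mul_of_mult_v h (f := fun v => B 0 0 v) hgadd (fun k hk => by
    have := (hequiv k hk 0 0 1).2
    simpa using this)
  -- a general element
  have hgen : ∀ t u v, ψ (uE m t u v) = uE m t (A t 0 0 + u * c) (B t 0 0 + v * c') := by
    intro t u v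
    have e : uE m t u v = uE m t 0 0 * uE m 0 u 0 * uE m 0 0 v := by
      rw [uE_mul h, uE_mul h, hth0]
      simp
    rw [e, map_mul, map_mul, hAB, hU1, hV1, hf u, hg v, uE_mul h, uE_mul h, hth0]
    simp [c, c']
  have hprod : ∀ t t', A (t + t') 0 0 - (th3 m t' * t) * c = A t 0 0 + A t' 0 0 - th3 m t' * t ∧
      B (t + t') 0 0 + (t' * th3 m t' * t - th3 m t' * t ^ 2) * c' =
        B t 0 0 + B t' 0 0 - t' * A t 0 0 - th3 m t' * t ^ 2 + t' * th3 m t' * t := by
    intro t t'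
    have e := map_mul ψ (uE m t 0 0) (uE m t' 0 0)
    rw [uE_mul h, hgen, hAB, hAB, uE_mul h] at e
    obtain ⟨-, e2, e3⟩ := uE_inj e h
    constructor
    · linear_combination e2
    · linear_combination e3
  have hAk : ∀ k : K, k ≠ 0 → A k 0 0 = th3 m k * k * A 1 0 0 ∧ B k 0 0 = th3 m k * k ^ 2 * B 1 0 0 := by
    intro k hk
    have := hequiv k hk 1 0 0
    simpa using this
  obtain ⟨x, hx0, hx1, hx, hx'⟩ := exists_th3_ne h hm
  -- the middle multiplier
  have hc : c = 1 := by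
    have e1 := (hprod 1 x).1
    have e2 := (hprod x 1).1
    rw [hth1, add_comm x 1] at e2
    have : (th3 m x - x) * (c - 1) = 0 := by linear_combination e2 - e1
    exact sub_eq_zero.1 ((mul_eq_zero.1 this).resolve_left (sub_ne_zero.2 hx))
  have hA1 : A 1 0 0 = 0 := by
    have e := (hprod 1 1).1
    have e2 := (hAk (-1) (neg_ne_zero.2 one_ne_zero)).1
    rw [th3_neg_one] at e2
    rw [hth1, hc, show (1 : K) + 1 = -1 by linear_combination h3] at e
    linear_combination -e + e2 + (0 : K) * h3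
  have hA : ∀ t, A t 0 0 = 0 := by
    intro t
    by_cases ht : t = 0
    · have := hA0 0; rw [ht]; exact this
    · rw [(hAk t ht).1, hA1, mul_zero]
  have hc' : c' = 1 := by
    have e1 := (hprod 1 (-1)).2
    have e2 := (hprod (-1) 1).2
    rw [hA, th3_neg_one] at e1
    rw [hA, hth1, add_comm (-1 : K) 1] at e2
    have : (4 : K) * (c' - 1) = 0 := by linear_combination e1 - e2
    refine sub_eq_zero.1 ((mul_eq_zero.1 this).resolve_left ?_)
    rw [show (4 : K) = 1 by linear_combination h3]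
    exact one_ne_zero
  have hB1 : B 1 0 0 = 0 := by
    have e := (hprod 1 x).2
    rw [hA, hc'] at e
    have hne1 : (1 : K) + x ≠ 0 := by
      intro e1
      have : x = -1 := by linear_combination e1
      rw [this, th3_neg_one] at hx
      exact hx rfl
    rw [(hAk _ hne1).2, (hAk x hx0).2, th3_add h, hth1] at e
    have : ((x - 1) * (th3 m x - x)) * B 1 0 0 = 0 := by
      linear_combination (-1 : K) * e + B 1 0 0 * (th3 m x * x + x) * h3
    exact (mul_eq_zero.1 this).resolve_left (mul_ne_zero (sub_ne_zero.2 hx1) (sub_ne_zero.2 hx))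
  have hUid : ∀ t u v, ψ (uE m t u v) = uE m t u v := by
    intro t u v
    rw [hgen, hA, hc, hc', mul_one, mul_one, zero_add]
    congr 1
    by_cases ht : t = 0
    · rw [ht, hB0 0, zero_add]
    · rw [(hAk t ht).2, hB1, mul_zero, zero_add]
  -- the monomial element
  let w : ↥G₁ := ⟨wElt, wElt_mem h⟩
  have hwinv : ∀ d ∈ (H₁).subgroupOf G₁, w * d * w⁻¹ = d⁻¹ := fun d hd =>
    Subtype.ext (w_inverts_torus h (Subgroup.mem_subgroupOf.1 hd))
  obtain ⟨c0, hc0H, hc01, hc0o⟩ : ∃ s ∈ (H₁).subgroupOf G₁, s ≠ 1 ∧ Odd (orderOf s) := by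
    obtain ⟨d, hd, hdk⟩ := exists_torus_elem h hx0
    refine ⟨d * d, mul_mem hd hd, fun e => ?_, ?_⟩
    · have hd' := (Subgroup.mem_subgroupOf.1 hd).1
      have hk2 : kap (d * d).1 = kap ((1 : ↥G₁)).1 := by rw [e]
      rw [Subgroup.coe_mul, kap_mul hd' hd', hdk, show kap ((1 : ↥G₁)).1 = (1 : K) by simp [kap]] at hk2
      rcases mul_self_eq_one_iff.1 hk2 with e1 | e1
      · exact hx1 e1
      · rw [e1, th3_neg_one] at hx; exact hx rfl
    · obtain ⟨j, hj, e1, -, -⟩ := arith m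
      have hcard := Subgroup.orderOf_dvd_natCard _ hd
      rw [Nat.card_congr (Subgroup.subgroupOfEquivOfLe inf_le_right).toEquiv, card_torus h] at hcard
      refine (odd_three m).1.of_dvd_nat (orderOf_dvd_of_pow_eq_one ?_)
      rw [← pow_two, ← pow_mul, show 2 * nSplit m = 3 ^ (2 * m + 1) - 1 by omega]
      exact orderOf_dvd_iff_pow_eq_one.1 hcard
  have hCc := centralizer_split h (Subgroup.mem_subgroupOf.1 hc0H).1 hc01 hc0o
  set d := w⁻¹ * ψ w with hddef
  have hd : d ∈ (H₁).subgroupOf G₁ := by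
    rw [← hCc, Subgroup.mem_centralizer_singleton_iff]
    have e1 : ψ w * c0 * (ψ w)⁻¹ = c0⁻¹ := by
      have e := congrArg ψ (hwinv c0 hc0H)
      rw [map_mul, map_mul, map_inv, map_inv, hH c0 hc0H] at e
      exact e
    calc w⁻¹ * ψ w * c0 = w⁻¹ * (ψ w * c0 * (ψ w)⁻¹) * ψ w := by group
      _ = w⁻¹ * (w * c0 * w⁻¹) * ψ w := by rw [e1, hwinv c0 hc0H]
      _ = c0 * (w⁻¹ * ψ w) := by group
  have hψw : ψ w = w * d := by rw [hddef, mul_inv_cancel_left]
  have hwd : w * d = d⁻¹ * w := by rw [← hwinv d hd]; group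
  have hwd' : w⁻¹ * d * w = d⁻¹ := by
    have := hwinv _ (inv_mem hd)
    rw [inv_inv] at this
    calc w⁻¹ * d * w = w⁻¹ * (w * d⁻¹ * w⁻¹) * w := by rw [this]
      _ = d⁻¹ := by group
  have hd1 : d = 1 := by
    set y := w * uE m 1 0 0 * w with hy
    rcases twisted_bruhat h y.2 with hyB | ⟨b, hb, t, u, v, e⟩
    · exfalso
      have hww := mul_mem hyB (inv_mem (show (w * w).1 ∈ B₁ from
        ⟨cG.diagonal_le_borel (wElt_sq h).1, (w * w).2⟩))
      rw [← Subgroup.coe_inv, ← Subgroup.coe_mul, hy, show w * uE m 1 0 0 * w * (w * w)⁻¹ = w * uE m (1 : K) 0 0 * w⁻¹ by group]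
        at hww
      have h2 : wElt * reeU m 1 0 0 * (wElt : GL chevG2.Idx K)⁻¹ ∈ (⊥ : Subgroup (GL chevG2.Idx K)) := by
        obtain ⟨M, hM⟩ : ∃ M, CoxOK chevG2 M := exists_cox (by simp)
        rw [← cG.borel_inf_neg]
        exact Subgroup.mem_inf.2 ⟨(Subgroup.mem_inf.1 hww).1, conj_pos_le_neg (wElt_inverts h hM).1 (reeU_mem_pos _ _ _)⟩
      rw [Subgroup.mem_bot, conj_eq_one_iff] at h2
      exact one_ne_zero (reeU_inj h (h2.trans (reeU_zero h).symm)).1
    set b' : ↥G₁ := ⟨b, hb.2⟩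
    have ey : y = b' * w * uE m t u v := Subtype.ext e
    obtain ⟨t1, u1, v1, h1, hh1, eb⟩ := mem_borel_twisted h hb
    set h' : ↥G₁ := ⟨h1, hh1.2⟩
    have hh' : h' ∈ (H₁).subgroupOf G₁ := Subgroup.mem_subgroupOf.2 hh1
    have eb' : b' = uE m t1 u1 v1 * h' := Subtype.ext eb
    have hψb : ψ b' = b' := by rw [eb', map_mul, hUid, hH h' hh']
    -- image under `ψ`
    have e1 : w * (d * uE m 1 0 0 * d⁻¹) * w = b' * d⁻¹ * w * uE m t u v := by
      have e0 := congrArg ψ ey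
      rw [hy, map_mul, map_mul, map_mul, map_mul, hUid, hUid, hψb, hψw] at e0
      calc w * (d * uE m 1 0 0 * d⁻¹) * w = w * d * uE m 1 0 0 * (w * (w⁻¹ * d⁻¹ * w)) := by group
        _ = w * d * uE m 1 0 0 * (w * d) := by
          rw [show w⁻¹ * d⁻¹ * w = (w⁻¹ * d * w)⁻¹ by group, hwd', inv_inv]
        _ = b' * (w * d) * uE m t u v := e0
        _ = b' * (d⁻¹ * w) * uE m t u v := by rw [hwd]
        _ = _ := by group
    -- conjugating by `d`
    have e2 : w * (d * uE m 1 0 0 * d⁻¹) * w = d⁻¹ * b' * d⁻¹ * w * (d⁻¹ * uE m t u v * d) := by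
      calc w * (d * uE m 1 0 0 * d⁻¹) * w
          = (w * d * w⁻¹) * (w * uE m 1 0 0 * w) * (w⁻¹ * d * w)⁻¹ := by group
        _ = d⁻¹ * (b' * w * uE m t u v) * d := by rw [hwinv d hd, hwd', inv_inv, ← hy, ey]
        _ = d⁻¹ * b' * (w * d) * (d⁻¹ * uE m t u v * d) := by group
        _ = d⁻¹ * b' * (d⁻¹ * w) * (d⁻¹ * uE m t u v * d) := by rw [hwd]
        _ = _ := by group
    have hdinv := torus_uE h (inv_mem hd) t u v
    rw [inv_inv] at hdinv
    rw [hdinv] at e2
    have hdB : d.1 ∈ B₁ := ⟨cG.diagonal_le_borel (Subgroup.mem_subgroupOf.1 hd).1, d.2⟩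
    have e3 := congrArg Subtype.val (e1.symm.trans e2)
    simp only [Subgroup.coe_mul, Subgroup.coe_inv] at e3
    obtain ⟨eB, -⟩ := big_cell_unique h (mul_mem hb (inv_mem hdB))
      (mul_mem (mul_mem (inv_mem hdB) hb) (inv_mem hdB)) e3
    have eB' : b' = d⁻¹ * b' := Subtype.ext (mul_right_cancel eB)
    exact inv_eq_one.1 (mul_eq_right.1 eB'.symm)
  rw [hd1, mul_one] at hψw
  refine MulEquiv.ext fun z => ?_
  show ψ z = z
  have hB : ∀ b : ↥G₁, b.1 ∈ B₁ → ψ b = b := by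
    intro b hb
    obtain ⟨t1, u1, v1, h1, hh1, eb⟩ := mem_borel_twisted h hb
    have e : b = uE m t1 u1 v1 * ⟨h1, hh1.2⟩ := Subtype.ext eb
    rw [e, map_mul, hUid, hH _ (Subgroup.mem_subgroupOf.2 hh1)]
  rcases twisted_bruhat h z.2 with hzB | ⟨b, hb, t, u, v, e⟩
  · exact hB z hzB
  · have e' : z = ⟨b, hb.2⟩ * w * uE m t u v := Subtype.ext e
    rw [e', map_mul, map_mul, hUid, hψw, hB _ hb]

include h in
/-- normalised automorphisms are diagonal times field automorphisms -/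
theorem field_of_normalised (hm : 1 ≤ m) {φ : MulAut ↥G₁} (hU : ∀ t u v : K, ∃ t' u' v', φ (uE m t u v) = uE m t' u' v')
    (hH : ∀ d ∈ (H₁).subgroupOf G₁, φ d ∈ (H₁).subgroupOf G₁) :
    ∃ (g : ↥G₁) (σ : K ≃+* K), φ = MulAut.conj g * fieldAut σ := by
  classical
  have := h.finite
  have := h.char
  choose τ μ ν hφ using hU
  have hcube : ∀ u v, τ 0 u v = 0 := fun u v => exists_layer h (hφ 0 u v) (by
    rw [← map_pow, show uE m (0 : K) u v ^ 3 = 1 from Subtype.ext ((cube_eq_one_iff h _ _ _).2 rfl), map_one])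
  have hmul : ∀ a b c a' b' c', τ (a + a') (b + b' - th3 m a' * a)
      (c + c' - a' * b - th3 m a' * a ^ 2 + a' * th3 m a' * a) = τ a b c + τ a' b' c' := by
    intro a b c a' b' c'
    have e := map_mul φ (uE m a b c) (uE m a' b' c')
    rw [uE_mul h, hφ, hφ, hφ, uE_mul h] at e
    exact (uE_inj e h).1
  have hth0 : th3 m (0 : K) = 0 := by simp [th3]
  have hindep : ∀ a b c, τ a b c = τ a 0 0 := by
    intro a b c
    have e := hmul a 0 0 0 b c
    rw [hcube, hth0, add_zero, add_zero] at e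
    simpa using e
  set al : K → K := fun a => τ a 0 0 with hal
  have hadd : ∀ a b, al (a + b) = al a + al b := fun a b => by
    have e := hmul a 0 0 b 0 0
    rw [hindep] at e
    exact e
  have hconj : ∀ k : K, k ≠ 0 → ∃ l : K, l ≠ 0 ∧ (∀ d ∈ (H₁).subgroupOf G₁, kap d.1 = k → kap (φ d).1 = l) ∧
      ∀ a, al (k * a) = l * al a := by
    intro k hk
    obtain ⟨d, hd, hdk⟩ := exists_torus_elem h hk
    refine ⟨kap (φ d).1, kap_ne_zero (Subgroup.mem_subgroupOf.1 (hH d hd)).1, fun d' hd' e => ?_, fun a => ?_⟩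
    · rw [torus_ext h hd' hd (e.trans hdk.symm)]
    · have e := congrArg φ (torus_uE h hd a 0 0)
      rw [map_mul, map_mul, map_inv, hφ, hφ, torus_uE h (hH d hd), hdk] at e
      have := (uE_inj e h).1
      rw [hindep (k * a)] at this
      exact this.symm
  have hc : al 1 ≠ 0 := by
    intro e
    have h1 : φ (uE m 1 0 0 ^ 3) = 1 := by
      rw [map_pow, hφ]
      exact Subtype.ext ((cube_eq_one_iff h _ _ _).2 e)
    have h2 : uE m (1 : K) 0 0 ^ 3 = 1 := φ.injective (h1.trans (map_one φ).symm)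
    exact one_ne_zero ((cube_eq_one_iff h _ _ _).1 (congrArg Subtype.val h2))
  have h00 : al 0 = 0 := hcube 0 0
  let σ0 : K → K := fun a => al a / al 1
  have hσk : ∀ k (hk : k ≠ 0), ∀ l, (∀ a, al (k * a) = l * al a) → σ0 k = l := fun k hk l hl => by
    have := hl 1
    rw [mul_one] at this
    simp only [σ0, this]
    field_simp
  have hσmul : ∀ a b, σ0 (a * b) = σ0 a * σ0 b := fun a b => by
    by_cases ha : a = 0
    · simp [σ0, ha, h00]
    obtain ⟨l, -, -, hl⟩ := hconj a ha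
    rw [hσk a ha l hl]
    simp only [σ0, hl]
    ring
  let σh : K →+* K :=
    { toFun := σ0
      map_one' := by simp [σ0, hc]
      map_mul' := hσmul
      map_zero' := by simp [σ0, h00]
      map_add' := fun a b => by simp [σ0, hadd, add_div] }
  let σ : K ≃+* K := RingEquiv.ofBijective σh
    ⟨σh.injective, Finite.injective_iff_surjective.1 σh.injective⟩
  obtain ⟨g0, hg0, hg0k⟩ := exists_torus_elem h hc
  set ψ : MulAut ↥G₁ := (fieldAut σ)⁻¹ * (MulAut.conj g0)⁻¹ * φ with hψdef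
  suffices hψ : ψ = 1 by
    refine ⟨g0, σ, ?_⟩
    calc φ = MulAut.conj g0 * fieldAut σ * ψ := by simp only [hψdef]; group
      _ = MulAut.conj g0 * fieldAut σ := by rw [hψ, mul_one]
  have happ : ∀ x y, φ x = g0 * fieldAut σ y * g0⁻¹ → ψ x = y := fun x y e => by
    rw [hψdef, MulAut.mul_apply, e, MulAut.mul_apply]
    simp [mul_assoc]
  refine trivial_of_fixing h hm (fun t u v => ?_) (fun d hd => ?_)
  · have hk : kap g0.1 ≠ 0 := hg0k ▸ hc
    refine ⟨σ.symm ((th3 m (kap g0.1) * kap g0.1)⁻¹ * μ t u v), σ.symm ((th3 m (kap g0.1) * kap g0.1 ^ 2)⁻¹ * ν t u v),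
      happ _ _ ?_⟩
    have h3k : th3 m (kap g0.1) ≠ 0 := pow_ne_zero _ (pow_ne_zero _ hk)
    rw [hφ, fieldAut_uE, torus_uE h hg0, hg0k, RingEquiv.apply_symm_apply, RingEquiv.apply_symm_apply, hindep]
    congr 1
    · show _ = al 1 * (al t / al 1)
      rw [mul_div_cancel₀ _ hc]
    · rw [hg0k] at h3k; field_simp
    · rw [hg0k] at h3k; field_simp
  · refine happ _ _ ?_
    obtain ⟨l, hl0, hld, hl⟩ := hconj (kap d.1) (kap_ne_zero (Subgroup.mem_subgroupOf.1 hd).1)
    have hfd : fieldAut σ d ∈ (H₁).subgroupOf G₁ := by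
      obtain ⟨d2, hd2, hd2k⟩ := exists_torus_elem h hl0
      have hne : σ (kap d.1) = l := hσk _ (kap_ne_zero (Subgroup.mem_subgroupOf.1 hd).1) l hl
      refine Subgroup.mem_subgroupOf.2 ⟨?_, (fieldAut σ d).2⟩
      exact gMap_diag σ (Subgroup.mem_subgroupOf.1 hd).1
    rw [torus_comm h hg0 hfd, mul_inv_cancel_right]
    refine torus_ext h (hH d hd) hfd ?_
    rw [hld d hd rfl]
    exact (hσk _ (kap_ne_zero (Subgroup.mem_subgroupOf.1 hd).1) l hl).symm

include h in
theorem card_out_ree (hm : 1 ≤ m) : Nat.card (Cfsg.Out ↥G₁) = 2 * m + 1 := by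
  have := h.finite
  let Ψ : (K ≃+* K) →* Cfsg.Out ↥G₁ := (QuotientGroup.mk' (Cfsg.Inn ↥G₁)).comp (fieldAut (m := m))
  have hinj : Function.Injective Ψ := (injective_iff_map_eq_one Ψ).2 fun σ hσ =>
    fieldAut_inner h ((QuotientGroup.eq_one_iff _).1 hσ)
  have hsurj : Function.Surjective Ψ := by
    intro x
    obtain ⟨φ, rfl⟩ := QuotientGroup.mk'_surjective _ x
    obtain ⟨g, hU, hH⟩ := normalise h hm φ
    obtain ⟨g', σ, e⟩ := field_of_normalised h hm hU hH
    refine ⟨σ, ?_⟩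
    have hone : ∀ t, QuotientGroup.mk' (Cfsg.Inn ↥G₁) (MulAut.conj t) = 1 := fun t =>
      (QuotientGroup.eq_one_iff _).2 ⟨t, rfl⟩
    have := congrArg (QuotientGroup.mk' (Cfsg.Inn ↥G₁)) e
    rw [map_mul, map_mul, hone, hone, one_mul, one_mul] at this
    exact this.symm
  rw [← Nat.card_eq_of_bijective Ψ ⟨hinj, hsurj⟩]
  have := Fact.mk Nat.prime_three
  exact Cfsg.Agent.Suzuki.card_ringEquiv h.card

end Cfsg.Agent.Suzuki.Ree
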