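import Cfsg.Agent.Suzuki.SLIndexRegular
import Mathlib

/-!
The choices of block elements, and `SL_4` in odd characteristic.
-/

set_option autoImplicit false

namespace Cfsg.Agent.Suzuki.SLIdx

open Matrix
open scoped commutatorElement

variable {F : Type*} [Field F] {n : ℕ}

theorem supp_single {i j : Fin n} (c : F) : Supp i j (Pi.single i c) := fun k hk _ => by simp [hk]

theorem supp_single' {i j : Fin n} (c : F) : Supp i j (Pi.single j c) := fun k _ hk => by simp [hk]

theorem away_comm_transvection {i j : Fin n} (hij : i ≠ j) {A : SpecialLinearGroup (Fin n) F} (hA : Away i j A) (c : F) :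
    Commute A (SpecialLinearGroup.transvection hij c) ∧ Commute A (SpecialLinearGroup.transvection hij.symm c) := by
  rw [transvection_eq_tv, transvection_eq_tv]
  exact ⟨hA.comm hij (supp_single 1) (supp_single' c) (by simp [hij]),
    hA.comm hij (supp_single' 1) (supp_single c) (by simp [hij.symm])⟩

variable [Fintype F] {H : Subgroup (SpecialLinearGroup (Fin n) F)}
  (hreg : ∀ d φ, d ≠ 0 → φ ⬝ᵥ d = 0 → tv d φ ∈ H → φ = 0)
  (hcard : H.index = Fintype.card F ^ (n - 1))

omit hreg in
include hcard in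
theorem two_not_dvd (h2 : (2 : F) ≠ 0) : ¬ 2 ∣ H.index := by
  rw [hcard]
  intro h
  obtain ⟨p, hpc, ⟨k, hp, hk⟩⟩ := FiniteField.card' F
  rw [hk, ← pow_mul] at h
  have hp2 : 2 = p := (Nat.prime_dvd_prime_iff_eq Nat.prime_two hp).1 (Nat.prime_two.dvd_of_dvd_pow h)
  subst hp2
  exact h2 (by exact_mod_cast (CharP.cast_eq_zero F 2))

theorem diag_neg_sq {i j : Fin n} (hij : i ≠ j) :
    (SpecialLinearGroup.diag2n hij (-1 : F) (neg_ne_zero.2 one_ne_zero)) ^ 2 = 1 := by
  apply Subtype.ext
  rw [pow_two, Matrix.SpecialLinearGroup.coe_mul, SpecialLinearGroup.diag2n_coe, Matrix.diagonal_mul_diagonal,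
    Matrix.SpecialLinearGroup.coe_one, ← Matrix.diagonal_one]
  congr 1
  funext k
  split_ifs <;> simp [inv_neg]

theorem diag_neg_mulVec {i j : Fin n} (hij : i ≠ j) (v : Fin n → F) (k : Fin n) :
    ((SpecialLinearGroup.diag2n hij (-1 : F) (neg_ne_zero.2 one_ne_zero) : Matrix (Fin n) (Fin n) F) *ᵥ v) k =
      if k = i ∨ k = j then -v k else v k := by
  rw [diag2n_mulVec]
  split_ifs <;> simp_all [inv_neg]

theorem diag_neg_vecMul {i j : Fin n} (hij : i ≠ j) (v : Fin n → F) (k : Fin n) :
    (v ᵥ* (SpecialLinearGroup.diag2n hij (-1 : F) (neg_ne_zero.2 one_ne_zero) : Matrix (Fin n) (Fin n) F)) k =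
      if k = i ∨ k = j then -v k else v k := by
  rw [diag2n_vecMul]
  split_ifs <;> simp_all [inv_neg]

include hreg hcard in
theorem odd_false {z i j : Fin n} (hij : i ≠ j) (hzi : z ≠ i) (hzj : z ≠ j) (h2 : (2 : F) ≠ 0)
    (hsize : n = 3 ∨ 5 ≤ n ∨ ∃ a : F, a ≠ 0 ∧ a ^ 2 ≠ 1) : False := by
  set g := SpecialLinearGroup.diag2n hij (-1 : F) (neg_ne_zero.2 one_ne_zero) with hgdef
  have := Fact.mk Nat.prime_two
  obtain ⟨x, hx⟩ := exists_fixed (r := 2) (diag_neg_sq (F := F) hij) (two_not_dvd hcard h2)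
  have hgA : ∀ A, Away i j A → Commute A g := fun A hA => by
    rw [hgdef, Cfsg.Agent.Linear.diag2n_decompose]
    exact ((((((away_comm_transvection hij hA _).1).mul_right (away_comm_transvection hij hA _).2).mul_right
      (away_comm_transvection hij hA _).1).mul_right (away_comm_transvection hij hA _).1).mul_right
      (away_comm_transvection hij hA _).2).mul_right (away_comm_transvection hij hA _).1
  have h0 : (Pi.single j 1 : Fin n → F) ⬝ᵥ Pi.single i 1 = 0 := by simp [hij]
  have hc : Commute g (tv (Pi.single i 1) (Pi.single j 1)) := by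
    have e := tv_conj g h0
    have e1 : (g : Matrix (Fin n) (Fin n) F) *ᵥ Pi.single i 1 = (-1 : F) • Pi.single i 1 := by
      funext k
      rw [hgdef, diag_neg_mulVec]
      by_cases hk : k = i
      · subst hk; simp
      · simp [hk]
    have e2 : (Pi.single j (1 : F)) ᵥ* (↑g⁻¹ : Matrix (Fin n) (Fin n) F) = (-1 : F) • Pi.single j 1 := by
      have e3 : (Pi.single j (1 : F)) ᵥ* (g : Matrix (Fin n) (Fin n) F) = (-1 : F) • Pi.single j 1 := by
        funext k
        rw [hgdef, diag_neg_vecMul]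
        by_cases hk : k = j
        · subst hk; simp
        · simp [hk]
      have e4 := congrArg (· ᵥ* (↑g⁻¹ : Matrix (Fin n) (Fin n) F)) e3
      simp only [Matrix.vecMul_vecMul, mul_inv_self', Matrix.vecMul_one, Matrix.smul_vecMul] at e4
      conv_rhs => rw [e4]
      rw [smul_smul]
      simp
    rw [e1, e2, tv_smul _ (by simp [hij]), smul_smul] at e
    norm_num at e
    exact mul_inv_eq_iff_eq_mul.1 e
  refine block_false z hreg hcard hij hzi hzj (g := g) (d := Pi.single i 1) (φ := Pi.single j 1) (by simp) (by simp) h0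
    (supp_single 1) (supp_single' 1) hgA ?_ (fun ν hν => ?_) (x := x) hx ?_ hsize
  · funext k
    rw [hgdef, diag_neg_mulVec]
    split_ifs with h
    · rcases h with rfl | rfl <;> simp [hzi, hzj, hzi.symm, hzj.symm]
    · rfl
  · have hi := congrFun hν i
    have hj := congrFun hν j
    rw [hgdef, diag_neg_vecMul, if_pos (Or.inl rfl)] at hi
    rw [hgdef, diag_neg_vecMul, if_pos (Or.inr rfl)] at hj
    exact ⟨(mul_eq_zero.1 (show (2 : F) * ν i = 0 by linear_combination -hi)).resolve_left h2,
      (mul_eq_zero.1 (show (2 : F) * ν j = 0 by linear_combination -hj)).resolve_left h2⟩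
  · rw [smul_smul, hc.eq, mul_smul, hx]

include hreg hcard in
theorem even_false {z i j : Fin n} (hij : i ≠ j) (hzi : z ≠ i) (hzj : z ≠ j) (h2 : (2 : F) = 0)
    (hsize : n = 3 ∨ 5 ≤ n ∨ ∃ a : F, a ≠ 0 ∧ a ^ 2 ≠ 1) : False := by
  set d : Fin n → F := Pi.single i 1 + Pi.single j 1 with hd
  have hdd : d ⬝ᵥ d = 0 := by
    simp [hd, hij, hij.symm]
    linear_combination h2
  set t := tv d d with ht
  set s : SpecialLinearGroup (Fin n) F := SpecialLinearGroup.transvection hij.symm 1 with hs
  have htv : ∀ v : Fin n → F, (t : Matrix (Fin n) (Fin n) F) *ᵥ v = v + (v i + v j) • d := fun v => by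
    rw [ht, tv_mulVec hdd]
    simp [hd]
  have hsv : ∀ v : Fin n → F, (s : Matrix (Fin n) (Fin n) F) *ᵥ v = v + v i • Pi.single j 1 := fun v => by
    rw [hs, transvection_eq_tv, tv_mulVec (by simp [hij.symm])]
    simp
  have hneg : ∀ c : F, c + c = 0 := fun c => by linear_combination c * h2
  have hgv : ∀ v : Fin n → F, ((s * t : SpecialLinearGroup (Fin n) F) : Matrix (Fin n) (Fin n) F) *ᵥ v =
      fun k => if k = i then v j else if k = j then v i + v j else v k := fun v => by
    rw [Matrix.SpecialLinearGroup.coe_mul, ← mulVec_mulVec, htv, hsv]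
    funext k
    by_cases hki : k = i
    · subst hki
      simp [hd, hij, hij.symm]
      linear_combination hneg (v k)
    by_cases hkj : k = j
    · subst hkj
      simp [hd, hij, hij.symm]
      linear_combination hneg (v i) + hneg (v k)
    simp [hd, hki, hkj]
  have hext : ∀ M : SpecialLinearGroup (Fin n) F, (∀ v, (M : Matrix (Fin n) (Fin n) F) *ᵥ v = v) → M = 1 := fun M h => by
    apply Subtype.ext
    refine Matrix.ext fun a b => ?_
    have := congrFun (h (Pi.single b 1)) a
    rw [mulVec_single_one, Matrix.col_apply] at this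
    rw [Matrix.SpecialLinearGroup.coe_one, Matrix.one_apply, this, Pi.single_apply]
  have hg3 : (s * t) ^ 3 = 1 := hext _ fun v => by
    rw [pow_succ, pow_two, Matrix.SpecialLinearGroup.coe_mul, Matrix.SpecialLinearGroup.coe_mul, ← mulVec_mulVec,
      ← mulVec_mulVec, hgv, hgv, hgv]
    funext k
    by_cases hki : k = i
    · subst hki
      simp [hij, hij.symm]
      linear_combination hneg (v j)
    by_cases hkj : k = j
    · subst hkj
      simp [hij, hij.symm]
      linear_combination hneg (v i) + hneg (v k)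
    simp [hki, hkj]
  have htt : t * t = 1 := by
    rw [ht, tv_mul hdd hdd, show d + d = 0 from funext fun k => hneg _, tv_zero]
  have hss : s * s = 1 := by
    rw [hs, transvection_eq_tv, tv_mul (by simp [hij.symm]) (by simp [hij.symm]),
      show (Pi.single i (1 : F) + Pi.single i 1 : Fin n → F) = 0 from funext fun k => hneg _, tv_zero]
  have := Fact.mk (Nat.prime_three)
  obtain ⟨x, hx⟩ := exists_fixed (H := H) (r := 3) hg3 (by
    rw [hcard]
    intro h
    obtain ⟨p, hpc, ⟨k, hp, hk⟩⟩ := FiniteField.card' F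
    rw [hk, ← pow_mul] at h
    have hp3 : 3 = p := (Nat.prime_dvd_prime_iff_eq Nat.prime_three hp).1 (Nat.prime_three.dvd_of_dvd_pow h)
    subst hp3
    have h3 : (3 : F) = 0 := by exact_mod_cast (CharP.cast_eq_zero F 3)
    exact one_ne_zero (α := F) (by linear_combination h3 - h2))
  have hsupp : Supp i j d := fun k hk hk' => by simp [hd, hk, hk']
  have hd0 : d ≠ 0 := fun h => by simpa [hd, hij] using congrFun h i
  refine block_false z hreg hcard hij hzi hzj (g := s * t) (d := d) (φ := d) hd0 hd0 hdd hsupp hsupp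
    (fun A hA => (away_comm_transvection hij hA 1).2.mul_right (hA.comm hij hsupp hsupp hdd)) ?_ (fun ν hν => ?_)
    (x := x) hx ?_ hsize
  · rw [hgv]
    funext k
    simp [hzi.symm, hzj.symm, hzi, hzj]
    grind
  · have ei := dotProduct_mulVec ν ((s * t : SpecialLinearGroup (Fin n) F) : Matrix (Fin n) (Fin n) F) (Pi.single i 1)
    have ej := dotProduct_mulVec ν ((s * t : SpecialLinearGroup (Fin n) F) : Matrix (Fin n) (Fin n) F) (Pi.single j 1)
    rw [hν, hgv] at ei ej
    have fi : (fun k => if k = i then (Pi.single i 1 : Fin n → F) j else if k = j then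
        (Pi.single i 1 : Fin n → F) i + (Pi.single i 1 : Fin n → F) j else (Pi.single i 1 : Fin n → F) k) = Pi.single j 1 := by
      funext k
      simp [hij.symm, Pi.single_apply]
      grind
    have fj : (fun k => if k = i then (Pi.single j 1 : Fin n → F) j else if k = j then
        (Pi.single j 1 : Fin n → F) i + (Pi.single j 1 : Fin n → F) j else (Pi.single j 1 : Fin n → F) k) =
        Pi.single i 1 + Pi.single j 1 := by
      funext k
      simp [hij, Pi.single_apply]
      grind
    rw [fi, dotProduct_single, mul_one, dotProduct_single, mul_one] at ei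
    rw [fj, dotProduct_add, dotProduct_single, mul_one, dotProduct_single, mul_one, add_eq_right] at ej
    exact ⟨ej, by rw [ei, ej]⟩
  · have e : t * (s * t) * t = (s * t)⁻¹ := by
      refine eq_inv_of_mul_eq_one_left ?_
      calc t * (s * t) * t * (s * t) = t * s * (t * t) * (s * t) := by group
        _ = t * (s * s) * t := by rw [htt]; group
        _ = 1 := by rw [hss, mul_one, htt]
    have e2 : s * t * t = t * (s * t)⁻¹ := by
      rw [← e, ← mul_assoc, ← mul_assoc, htt, one_mul]
    show (s * t) • (t • x) = t • x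
    rw [smul_smul, e2, mul_smul, inv_smul_eq_iff.2 hx.symm]

include hreg hcard in
theorem four_false {z i j k : Fin n} (hij : i ≠ j) (hik : i ≠ k) (hjk : j ≠ k) (hzi : z ≠ i) (hzj : z ≠ j) (hzk : z ≠ k)
    (hn : ∀ l, l = z ∨ l = i ∨ l = j ∨ l = k) (h2 : (2 : F) ≠ 0) : False := by
  let dg : ∀ {p q : Fin n}, p ≠ q → SpecialLinearGroup (Fin n) F := fun {p q} h =>
    SpecialLinearGroup.diag2n h (-1 : F) (neg_ne_zero.2 one_ne_zero)
  have hgz : ∀ {p q} (h : p ≠ q), z ≠ p → z ≠ q →
      (dg h : Matrix (Fin n) (Fin n) F) *ᵥ Pi.single z 1 = Pi.single z 1 := fun {p q} h hp hq => by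
    funext r
    show ((SpecialLinearGroup.diag2n h (-1 : F) _ : Matrix (Fin n) (Fin n) F) *ᵥ _) r = _
    rw [diag_neg_mulVec]
    split_ifs with hr
    · rcases hr with rfl | rfl <;> simp [hp.symm, hq.symm]
    · rfl
  have shift : ∀ (g X : SpecialLinearGroup (Fin n) F) (y : SpecialLinearGroup (Fin n) F ⧸ H),
      (g : Matrix (Fin n) (Fin n) F) *ᵥ Pi.single z 1 = Pi.single z 1 → g • y = y → Commute g X →
      ∃ ν : Fin n → F, ν z = 0 ∧ X • y = tv (Pi.single z 1) ν • y ∧ ν ᵥ* (g : Matrix (Fin n) (Fin n) F) = ν := by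
    intro g X y hg hgy hgX
    obtain ⟨ν, hν, e⟩ := u_surj z hreg hcard y (X • y)
    refine ⟨ν, hν, e, ?_⟩
    obtain ⟨e1, e2⟩ := u_conj z (g := g) (c := 1) (by rw [one_smul]; exact hg) hν
    have h : tv (Pi.single z 1) ((1 : F) • (ν ᵥ* (↑g⁻¹ : Matrix (Fin n) (Fin n) F))) • y = tv (Pi.single z 1) ν • y := by
      rw [← e1, mul_smul, inv_smul_eq_iff.2 hgy.symm, mul_smul, ← e, smul_smul, hgX.eq, mul_smul, hgy]
    have h' := u_inj z hreg y e2 hν h
    rw [one_smul] at h'
    conv_lhs => rw [← h']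
    rw [Matrix.vecMul_vecMul, inv_mul_self, Matrix.vecMul_one]
  have kill : ∀ {p q} (h : p ≠ q) {ν : Fin n → F}, ν ᵥ* (dg h : Matrix (Fin n) (Fin n) F) = ν → ν p = 0 ∧ ν q = 0 := by
    intro p q h ν hν
    have hp := congrFun hν p
    have hq := congrFun hν q
    rw [show dg h = SpecialLinearGroup.diag2n h (-1 : F) (neg_ne_zero.2 one_ne_zero) from rfl, diag_neg_vecMul,
      if_pos (Or.inl rfl)] at hp
    rw [show dg h = SpecialLinearGroup.diag2n h (-1 : F) (neg_ne_zero.2 one_ne_zero) from rfl, diag_neg_vecMul,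
      if_pos (Or.inr rfl)] at hq
    exact ⟨(mul_eq_zero.1 (show (2 : F) * ν p = 0 by linear_combination -hp)).resolve_left h2,
      (mul_eq_zero.1 (show (2 : F) * ν q = 0 by linear_combination -hq)).resolve_left h2⟩
  have hdd : ∀ {p q r s} (h : p ≠ q) (h' : r ≠ s), Commute (dg h) (dg h') := fun {p q r s} h h' => by
    apply Subtype.ext
    simp only [dg, Matrix.SpecialLinearGroup.coe_mul, SpecialLinearGroup.diag2n_coe, Matrix.diagonal_mul_diagonal]
    congr 1
    funext l
    exact mul_comm _ _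
  -- the diagonal sign changes fix a common point
  have := Fact.mk Nat.prime_two
  obtain ⟨x₁, hx₁⟩ := exists_fixed (H := H) (r := 2) (diag_neg_sq (F := F) hjk) (two_not_dvd hcard h2)
  obtain ⟨v, hv, ev, hvg⟩ := shift (dg hjk) (dg hik) x₁ (hgz hjk hzj hzk) hx₁ (hdd hjk hik)
  obtain ⟨hvj, hvk⟩ := kill hjk hvg
  set w : Fin n → F := (2 : F)⁻¹ • v with hw
  have hwz : w z = 0 := by simp [hw, hv]
  set x := tv (Pi.single z 1) w • x₁ with hxdef
  have hx1 : dg hjk • x = x := by
    obtain ⟨e1, -⟩ := u_conj z (g := dg hjk) (c := 1) (by rw [one_smul]; exact hgz hjk hzj hzk) hwz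
    have e2 : w ᵥ* (↑(dg hjk)⁻¹ : Matrix (Fin n) (Fin n) F) = w := by
      have : w ᵥ* (dg hjk : Matrix (Fin n) (Fin n) F) = w := by rw [hw, Matrix.smul_vecMul, hvg]
      conv_lhs => rw [← this]
      rw [Matrix.vecMul_vecMul, mul_inv_self', Matrix.vecMul_one]
    rw [one_smul, e2, mul_inv_eq_iff_eq_mul] at e1
    rw [hxdef, smul_smul, e1, mul_smul, hx₁]
  have hx2 : dg hik • x = x := by
    obtain ⟨e1, e2⟩ := u_conj z (g := dg hik) (c := 1) (by rw [one_smul]; exact hgz hik hzi hzk) hwz
    rw [one_smul] at e1 e2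
    rw [mul_inv_eq_iff_eq_mul] at e1
    rw [hxdef, smul_smul, e1, mul_smul, ev, smul_smul, tv_mul (dot_e z e2) (dot_e z hv)]
    congr 2
    have hinv : (dg hik)⁻¹ = dg hik := inv_eq_of_mul_eq_one_right (by rw [← pow_two]; exact diag_neg_sq hik)
    rw [hinv]
    funext l
    show (w ᵥ* (SpecialLinearGroup.diag2n hik (-1 : F) _ : Matrix (Fin n) (Fin n) F)) l + v l = w l
    rw [diag_neg_vecMul]
    have hhalf : (2 : F)⁻¹ * v l * 2 = v l := by field_simp
    split_ifs with hl
    · simp only [hw, Pi.smul_apply, smul_eq_mul]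
      linear_combination -hhalf
    · have : v l = 0 := by
        rcases hn l with rfl | rfl | rfl | rfl
        exacts [hv, absurd (Or.inl rfl) hl, hvj, absurd (Or.inr rfl) hl]
      rw [this, add_zero]
  have hx3 : (dg hjk * dg hik) • x = x := by rw [mul_smul, hx2, hx1]
  let X : Fin n → Fin n → SpecialLinearGroup (Fin n) F := fun p q => tv (Pi.single p 1) (Pi.single q 1)
  have hX0 : ∀ {p q : Fin n}, p ≠ q → (Pi.single q 1 : Fin n → F) ⬝ᵥ Pi.single p 1 = 0 := fun {p q} h => by simp [h]
  have hXc : ∀ {p q : Fin n} (g : SpecialLinearGroup (Fin n) F), p ≠ q →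
      ((g : Matrix (Fin n) (Fin n) F) *ᵥ Pi.single p 1) = (-1 : F) • Pi.single p 1 →
      (Pi.single q (1 : F) ᵥ* (g : Matrix (Fin n) (Fin n) F)) = (-1 : F) • Pi.single q 1 → Commute g (X p q) := by
    intro p q g h e1 e3
    have e := tv_conj g (hX0 h)
    have e2 : (Pi.single q (1 : F)) ᵥ* (↑g⁻¹ : Matrix (Fin n) (Fin n) F) = (-1 : F) • Pi.single q 1 := by
      have e4 := congrArg (· ᵥ* (↑g⁻¹ : Matrix (Fin n) (Fin n) F)) e3
      simp only [Matrix.vecMul_vecMul, mul_inv_self', Matrix.vecMul_one, Matrix.smul_vecMul] at e4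
      conv_rhs => rw [e4]
      rw [smul_smul]
      simp
    rw [e1, e2, tv_smul _ (by simp [h]), smul_smul] at e
    norm_num at e
    exact mul_inv_eq_iff_eq_mul.1 e
  have dgm : ∀ {p q} (h : p ≠ q) (l : Fin n), (l = p ∨ l = q) →
      (dg h : Matrix (Fin n) (Fin n) F) *ᵥ Pi.single l 1 = (-1 : F) • Pi.single l 1 ∧
      Pi.single l 1 ᵥ* (dg h : Matrix (Fin n) (Fin n) F) = (-1 : F) • Pi.single l 1 := by
    intro p q h l hl
    constructor <;> funext r <;>
      simp only [dg, diag_neg_mulVec, diag_neg_vecMul, Pi.smul_apply, smul_eq_mul] <;>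
      by_cases hr : r = l <;> simp [hr, hl]
  -- the three root elements
  obtain ⟨a, ha, eA, hag⟩ := shift (dg hik) (X i k) x (hgz hik hzi hzk) hx2
    (hXc _ hik (dgm hik i (Or.inl rfl)).1 (dgm hik k (Or.inr rfl)).2)
  obtain ⟨b, hb, eB, hbg⟩ := shift (dg hjk) (X k j) x (hgz hjk hzj hzk) hx1
    (hXc _ hjk.symm (dgm hjk k (Or.inr rfl)).1 (dgm hjk j (Or.inl rfl)).2)
  obtain ⟨hai, hak⟩ := kill hik hag
  obtain ⟨hbj, hbk⟩ := kill hjk hbg
  have hmv : ∀ {p q : Fin n}, p ≠ q → z ≠ q → (X p q : Matrix (Fin n) (Fin n) F) *ᵥ Pi.single z 1 = Pi.single z 1 :=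
    fun {p q} h hz => by rw [tv_mulVec (hX0 h)]; simp [hz.symm]
  have hconj : ∀ {p q : Fin n}, p ≠ q → z ≠ q → ∀ {ν : Fin n → F}, ν z = 0 →
      X p q * tv (Pi.single z 1) ν = tv (Pi.single z 1) (ν - ν p • Pi.single q 1) * X p q := by
    intro p q h hz ν hν
    have e := tv_conj (X p q) (dot_e z hν)
    rw [hmv h hz] at e
    have hinv : (X p q)⁻¹ = tv (Pi.single p 1) (-Pi.single q 1) := inv_eq_of_mul_eq_one_right (by
      rw [tv_mul (hX0 h) (by rw [neg_dotProduct, hX0 h, neg_zero]), add_neg_cancel, tv_zero])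
    rw [hinv, coe_tv (by rw [neg_dotProduct, hX0 h, neg_zero]), Matrix.vecMul_add, Matrix.vecMul_one,
      Matrix.vecMul_vecMulVec] at e
    rw [show ν - ν p • Pi.single q 1 = ν + (ν ⬝ᵥ Pi.single p 1) • -(Pi.single q (1 : F) : Fin n → F) by
      simp [sub_eq_add_neg]]
    rw [← hinv] at e
    exact mul_inv_eq_iff_eq_mul.1 e
  have hX3 : ⁅X i k, X k j⁆ = X i j := by
    have := Cfsg.Agent.Linear.commutator_transvection hij hik hjk.symm (1 : F) 1
    rwa [mul_one, transvection_eq_tv, transvection_eq_tv, transvection_eq_tv] at this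
  have hbz : (b - b i • Pi.single k 1 : Fin n → F) z = 0 := by simp [hb, hzk.symm]
  have hAB : (X i k * X k j) • x = tv (Pi.single z 1) (b - b i • Pi.single k 1 + a) • x := by
    rw [mul_smul, eB, smul_smul, hconj hik hzk hb, mul_smul, eA, smul_smul, tv_mul (dot_e z hbz) (dot_e z ha)]
  have haz : (a - a k • Pi.single j 1 : Fin n → F) z = 0 := by simp [ha, hzj.symm]
  have hBA : (X k j * X i k) • x = tv (Pi.single z 1) (a + b) • x := by
    rw [mul_smul, eA, smul_smul, hconj hjk.symm hzj ha, mul_smul, eB, smul_smul, tv_mul (dot_e z haz) (dot_e z hb), hak]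
    simp
  have htc : Commute (dg hjk * dg hik) (X i j) := by
    refine hXc _ hij ?_ ?_
    · rw [Matrix.SpecialLinearGroup.coe_mul, ← mulVec_mulVec, (dgm hik i (Or.inl rfl)).1, mulVec_smul]
      congr 1
      funext r
      show ((SpecialLinearGroup.diag2n hjk (-1 : F) _ : Matrix (Fin n) (Fin n) F) *ᵥ _) r = _
      rw [diag_neg_mulVec]
      split_ifs with hr
      · rcases hr with rfl | rfl <;> simp [hij.symm, hik.symm]
      · rfl
    · rw [Matrix.SpecialLinearGroup.coe_mul, ← Matrix.vecMul_vecMul, (dgm hjk j (Or.inl rfl)).2, Matrix.smul_vecMul]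
      congr 1
      funext r
      show (_ ᵥ* (SpecialLinearGroup.diag2n hik (-1 : F) _ : Matrix (Fin n) (Fin n) F)) r = _
      rw [diag_neg_vecMul]
      split_ifs with hr
      · rcases hr with rfl | rfl <;> simp [hij, hjk.symm]
      · rfl
  obtain ⟨c, hc, eC, hcg⟩ := shift (dg hjk * dg hik) (X i j) x
    (by rw [Matrix.SpecialLinearGroup.coe_mul, ← mulVec_mulVec, hgz hik hzi hzk, hgz hjk hzj hzk]) hx3 htc
  have hcij : c i = 0 ∧ c j = 0 := by
    constructor
    · have := congrFun hcg i
      rw [Matrix.SpecialLinearGroup.coe_mul, ← Matrix.vecMul_vecMul] at this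
      simp only [dg, diag_neg_vecMul, hij, hik, true_or, or_false, if_true, if_false] at this
      exact (mul_eq_zero.1 (show (2 : F) * c i = 0 by linear_combination -this)).resolve_left h2
    · have := congrFun hcg j
      rw [Matrix.SpecialLinearGroup.coe_mul, ← Matrix.vecMul_vecMul] at this
      simp only [dg, diag_neg_vecMul, hij.symm, hjk, true_or, or_false, if_true, if_false] at this
      exact (mul_eq_zero.1 (show (2 : F) * c j = 0 by linear_combination -this)).resolve_left h2
  have hw' : (a + b : Fin n → F) z = 0 := by simp [ha, hb]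
  have hwz' : (a + b - (a + b) i • Pi.single j 1 : Fin n → F) z = 0 := by simp [ha, hb, hzj.symm]
  have key : tv (Pi.single z 1) (a + b - (a + b) i • Pi.single j 1 + c) • x =
      tv (Pi.single z 1) (b - b i • Pi.single k 1 + a) • x := by
    rw [← tv_mul (dot_e z hwz') (dot_e z hc), mul_smul, ← eC, smul_smul, ← hconj hij hzj hw', mul_smul, ← hBA,
      ← mul_smul, ← hX3, ← hAB]
    congr 1
    rw [commutatorElement_def]
    group
  have hfin := u_inj z hreg x (by simp [ha, hb, hc, hzj.symm]) (by simp [ha, hb, hzk.symm]) key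
  have hbi : b i = 0 := by
    have := congrFun hfin j
    simpa [hbj, hcij.2, hai, hjk, add_comm] using this
  have hc0 : c = 0 := by
    funext l
    have := congrFun hfin l
    simp [hbi, hai] at this
    rw [show a l + b l = b l + a l from add_comm _ _] at this
    simpa using this
  exact tv_no_fix hreg (d := Pi.single i 1) (φ := Pi.single j 1) (by simp) (hX0 hij) (by simp) x
    (by
      show X i j • x = x
      rw [eC, hc0, tv_zero, one_smul])

end Cfsg.Agent.Suzuki.SLIdx
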