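import Cfsg.Agent.Suzuki.SLIndexTv
import Mathlib

/-!
No line spread comes from the transvections in a subgroup.
-/

set_option autoImplicit false

namespace Cfsg.Agent.Suzuki.SLIdx

open Matrix

variable {F : Type*} [Field F] {n : ℕ}

theorem eq_of_le_pair {d b d' b' : Fin n → F} (hd : d ≠ 0) (hb : b ∉ F ∙ d)
    (h : (F ∙ d) ⊔ (F ∙ b) ≤ (F ∙ d') ⊔ (F ∙ b')) : (F ∙ d) ⊔ (F ∙ b) = (F ∙ d') ⊔ (F ∙ b') := by
  refine Submodule.eq_of_le_of_finrank_le h ?_
  have h1 : Module.finrank F ↥((F ∙ d') ⊔ (F ∙ b')) ≤ 2 := by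
    have := Submodule.finrank_add_le_finrank_add_finrank (F ∙ d') (F ∙ b')
    have h3 : ∀ v : Fin n → F, Module.finrank F (F ∙ v) ≤ 1 := fun v => by
      simpa using finrank_span_le_card ({v} : Set (Fin n → F))
    have := h3 d'
    have := h3 b'
    omega
  have h2 : Module.finrank F (F ∙ d) < Module.finrank F ↥((F ∙ d) ⊔ (F ∙ b)) :=
    Submodule.finrank_lt_finrank_of_lt (lt_of_le_of_ne le_sup_left fun e => hb (by
      rw [e]; exact Submodule.mem_sup_right (Submodule.mem_span_singleton_self b)))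
  rw [finrank_span_singleton hd] at h2
  omega

theorem mem_of_dot {p : Submodule F (Fin n → F)} {v : Fin n → F}
    (h : ∀ φ : Fin n → F, (∀ y ∈ p, φ ⬝ᵥ y = 0) → φ ⬝ᵥ v = 0) : v ∈ p := by
  by_contra hv
  obtain ⟨φ, h1, h2⟩ := exists_dot_of_notMem hv
  exact one_ne_zero (h1.symm.trans (h φ h2))

theorem no_spread (hn : 3 ≤ n) (H : Subgroup (SpecialLinearGroup (Fin n) F))
    (h : ∀ d : Fin n → F, d ≠ 0 → ∃ b, b ∉ F ∙ d ∧ ∀ φ, φ ⬝ᵥ d = 0 → (tv d φ ∈ H ↔ φ ⬝ᵥ b = 0)) : False := by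
  classical
  choose! b hb hmem using h
  let ℓ : (Fin n → F) → Submodule F (Fin n → F) := fun d => (F ∙ d) ⊔ (F ∙ b d)
  have hd_mem : ∀ d, d ∈ ℓ d := fun d => Submodule.mem_sup_left (Submodule.mem_span_singleton_self _)
  have hb_mem : ∀ d, b d ∈ ℓ d := fun d => Submodule.mem_sup_right (Submodule.mem_span_singleton_self _)
  have hkill : ∀ {d φ}, (∀ y ∈ ℓ d, φ ⬝ᵥ y = 0) → φ ⬝ᵥ d = 0 ∧ φ ⬝ᵥ b d = 0 := fun {d φ} h =>
    ⟨h _ (hd_mem d), h _ (hb_mem d)⟩
  -- the basic dichotomy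
  have hdi : ∀ d e, d ≠ 0 → e ≠ 0 → ∀ φ, (∀ y ∈ ℓ d, φ ⬝ᵥ y = 0) → φ ⬝ᵥ e = 0 → φ ⬝ᵥ b e ≠ 0 → d ∈ ℓ e := by
    intro d e hd he φ hφ hφe hne
    refine mem_of_dot fun ψ hψ => ?_
    obtain ⟨hφd, hφb⟩ := hkill hφ
    obtain ⟨hψe, hψb⟩ := hkill hψ
    have hu : tv d φ ∈ H := (hmem d hd φ hφd).2 hφb
    have hm : tv e ψ ∈ H := (hmem e he ψ hψe).2 hψb
    have hi : (tv d φ)⁻¹ = tv d (-φ) := inv_eq_of_mul_eq_one_right (by
      rw [tv_mul hφd (by rw [neg_dotProduct, hφd, neg_zero]), add_neg_cancel, tv_zero])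
    have hue : (tv d φ : Matrix (Fin n) (Fin n) F) *ᵥ e = e := by rw [tv_mulVec hφd, hφe, zero_smul, add_zero]
    have hc := tv_conj (tv d φ) hψe
    rw [hue] at hc
    have h0 : (ψ ᵥ* (↑(tv d φ)⁻¹ : Matrix (Fin n) (Fin n) F)) ⬝ᵥ e = 0 := by
      have := vecMul_inv_dot (tv d φ) ψ e
      rwa [hue, hψe] at this
    have h2 := (hmem e he _ h0).1 (by rw [← hc]; exact mul_mem (mul_mem hu hm) (inv_mem hu))
    rw [← dotProduct_mulVec, hi, tv_mulVec (by rw [neg_dotProduct, hφd, neg_zero]), dotProduct_add, hψb, zero_add,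
      dotProduct_smul, neg_dotProduct, smul_eq_mul, mul_eq_zero] at h2
    exact h2.resolve_left (neg_ne_zero.2 hne)
  -- lines through their points
  have hclosed : ∀ d e, d ≠ 0 → e ≠ 0 → e ∈ ℓ d → ℓ e = ℓ d := by
    intro d e hd he hed
    by_cases hes : e ∈ F ∙ d
    · obtain ⟨c, rfl⟩ := Submodule.mem_span_singleton.1 hes
      have hc : c ≠ 0 := fun h => he (by rw [h, zero_smul])
      refine (eq_of_le_pair hd (hb d hd) (sup_le ((Submodule.span_singleton_le_iff_mem _ _).2 ?_)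
        ((Submodule.span_singleton_le_iff_mem _ _).2 ?_))).symm
      · exact Submodule.mem_sup_left (Submodule.mem_span_singleton.2 ⟨c⁻¹, by rw [smul_smul, inv_mul_cancel₀ hc, one_smul]⟩)
      · refine mem_of_dot fun ψ hψ => ?_
        obtain ⟨hψe, hψb⟩ := hkill hψ
        have hψd : ψ ⬝ᵥ d = 0 := by
          rw [dotProduct_smul, smul_eq_mul] at hψe
          exact (mul_eq_zero.1 hψe).resolve_left hc
        have hm := (hmem _ he ψ hψe).2 hψb
        rw [tv_smul c hψd, hmem d hd _ (by rw [smul_dotProduct, hψd, smul_zero]), smul_dotProduct, smul_eq_mul] at hm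
        exact (mul_eq_zero.1 hm).resolve_left hc
    by_cases hde : d ∈ ℓ e
    · have h1 : (F ∙ d) ⊔ (F ∙ e) = ℓ d := eq_of_le_pair hd hes (sup_le le_sup_left ((Submodule.span_singleton_le_iff_mem _ _).2 hed))
      have h2 : (F ∙ d) ⊔ (F ∙ e) = ℓ e := eq_of_le_pair hd hes (sup_le ((Submodule.span_singleton_le_iff_mem _ _).2 hde) le_sup_left)
      exact h2.symm.trans h1
    have hbe : b e ∈ ℓ d := mem_of_dot fun φ hφ => by
      by_contra hne
      exact hde (hdi d e hd he φ hφ (hφ e hed) hne)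
    exact eq_of_le_pair he (hb e he) (sup_le ((Submodule.span_singleton_le_iff_mem _ _).2 hed)
      ((Submodule.span_singleton_le_iff_mem _ _).2 hbe))
  let d : Fin n → F := Pi.single ⟨0, by omega⟩ 1
  have hd : d ≠ 0 := fun h => by simpa [d] using congrFun h ⟨0, by omega⟩
  obtain ⟨e, -, he⟩ : ∃ e ∈ (⊤ : Submodule F (Fin n → F)), e ∉ ℓ d := by
    refine SetLike.not_le_iff_exists.1 (not_le_sup_span ?_)
    rw [finrank_span_singleton hd, finrank_top, Module.finrank_fin_fun]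
    omega
  have he0 : e ≠ 0 := fun h => he (h ▸ zero_mem _)
  have hmem' : b e ∈ ℓ d ⊔ F ∙ e := mem_of_dot fun φ hφ => by
    by_contra hne
    have hde := hdi d e hd he0 φ (fun y hy => hφ y (Submodule.mem_sup_left hy))
      (hφ e (Submodule.mem_sup_right (Submodule.mem_span_singleton_self e))) hne
    exact he (hclosed e d he0 hd hde ▸ hd_mem e)
  obtain ⟨f, hf, y, hy, efy⟩ := Submodule.mem_sup.1 hmem'
  have hfe : f ∈ ℓ e := by
    have hye : y ∈ ℓ e := Submodule.mem_sup_left hy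
    have : f = b e - y := by rw [← efy, add_sub_cancel_right]
    rw [this]
    exact sub_mem (hb_mem e) hye
  have hf0 : f ≠ 0 := fun h => hb e he0 (by rw [← efy, h, zero_add]; exact hy)
  exact he ((hclosed d f hd hf0 hf).symm.trans (hclosed e f he0 hf0 hfe) ▸ hd_mem e)

end Cfsg.Agent.Suzuki.SLIdx
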