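import Cfsg.Agent.Suzuki.SLIndexDual
import Cfsg.Agent.Suzuki.SLIndexSpread
import Cfsg.Agent.Suzuki.SLIndexCases
import Mathlib

/-!
The minimal index of a proper subgroup of `SL_n(q)`.
-/

set_option autoImplicit false

namespace Cfsg.Agent.Suzuki.SLIdx

open Matrix

variable {F : Type*} [Field F] [Fintype F] {n : ℕ}

theorem no_regular (hn : 3 ≤ n) (hexc : ¬ (n = 4 ∧ Fintype.card F = 2)) {H : Subgroup (SpecialLinearGroup (Fin n) F)}
    (hreg : ∀ d φ, d ≠ 0 → φ ⬝ᵥ d = 0 → tv d φ ∈ H → φ = 0) (hcard : H.index = Fintype.card F ^ (n - 1)) : False := by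
  let z : Fin n := ⟨0, by omega⟩
  let i : Fin n := ⟨1, by omega⟩
  let j : Fin n := ⟨2, by omega⟩
  have hij : i ≠ j := fun h => by simp [i, j] at h
  have hzi : z ≠ i := fun h => by simp [z, i] at h
  have hzj : z ≠ j := fun h => by simp [z, j] at h
  by_cases hs : n = 3 ∨ 5 ≤ n ∨ ∃ a : F, a ≠ 0 ∧ a ^ 2 ≠ 1
  · by_cases h2 : (2 : F) = 0
    · exact even_false hreg hcard hij hzi hzj h2 hs
    · exact odd_false hreg hcard hij hzi hzj h2 hs
  push Not at hs
  obtain ⟨h3, h5, ha⟩ := hs
  have hn4 : n = 4 := by omega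
  subst hn4
  have h2 : (2 : F) ≠ 0 := by
    intro h2
    apply hexc
    refine ⟨rfl, le_antisymm ?_ Fintype.one_lt_card⟩
    classical
    have hsub : (Finset.univ : Finset F) ⊆ {0, 1} := fun a _ => by
      by_cases h : a = 0
      · simp [h]
      · rcases sq_eq_one_iff.1 (ha a h) with rfl | rfl
        · simp
        · have : (-1 : F) = 1 := by linear_combination -h2
          simp [this]
    simpa using (Finset.card_le_card hsub).trans Finset.card_le_two
  exact four_false hreg hcard (z := 0) (i := 1) (j := 2) (k := 3) (by decide) (by decide) (by decide) (by decide)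
    (by decide) (by decide) (by decide) h2

/-- the bound for subgroups of `SL_n` -/
theorem index_bound (hn : 3 ≤ n) (hexc : ¬ (n = 4 ∧ Fintype.card F = 2))
    (H : Subgroup (SpecialLinearGroup (Fin n) F)) (hH : H ≠ ⊤) :
    (Fintype.card F ^ n - 1) / (Fintype.card F - 1) ≤ H.index := by
  rcases trichotomy H hn hH with h | ⟨hreg, hcard⟩ | h
  · exact Nat.div_le_of_le_mul (by rwa [mul_comm])
  · exact (no_regular hn hexc hreg hcard).elim
  · exact (no_spread hn H h).elim

end Cfsg.Agent.Suzuki.SLIdx
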