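import Cfsg.Agent.Suzuki.SpIdxWeb
import Mathlib

/-!
In characteristic two no moved point has full stabiliser images at all of its moved centres.
-/

set_option autoImplicit false

namespace Cfsg.Agent.Suzuki.SpIdx

open Matrix
open Cfsg.Agent.KnownB.Proj.Symp
open Cfsg.Agent.Suzuki.SpSt

universe u v

variable {m : ℕ} {F : Type u} [Field F] [Fintype F] {Ω : Type v} [MulAction (Matrix.symplecticGroup (Fin m) F) Ω]

local notation "Vm" => (Fin m ⊕ Fin m → F)
local notation "Spm" => Matrix.symplecticGroup (Fin m) F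
local notation "B" => Cfsg.sympForm m F

variable (h2 : (2 : F) = 0) (hq : 4 ≤ Fintype.card F) {x : Ω}
  (hfull : ∀ v : Fin m ⊕ Fin m → F, v ≠ 0 → (∃ c : F, (T v c : Matrix.symplecticGroup (Fin m) F) • x ≠ x) →
    ∀ w, Cfsg.sympForm m F v w = 0 → ∃ z : F, (T v z * S v w 1 : Matrix.symplecticGroup (Fin m) F) • x = x)

include hfull hq in
theorem nbr_fixed {v w : Vm} (hv : v ≠ 0) (hw : w ∉ F ∙ v) (hvw : B v w = 0)
    (hfix : ∀ c : F, (T v c : Spm) • x = x) (t : F) : (T w t : Spm) • x = x := by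
  classical
  by_contra hmove
  have hw0 : w ≠ 0 := fun h0 => hw (by rw [h0]; exact zero_mem _)
  obtain ⟨y, hy0, hy1⟩ := exists_sep (notMem_swap hv hw)
  have key : ∀ β : F, β ≠ 0 → (W v w 0 1 β : Spm) • x = x := by
    intro β hβ
    obtain ⟨z, hz⟩ := hfull w hw0 ⟨t, hmove⟩ ((-β) • y) (by rw [B_swap, B_smul_left, hy0, mul_zero, neg_zero])
    set g : Spm := T w z * S w ((-β) • y) 1
    have hgv : g.1 *ᵥ v = v + β • w := by
      rw [sp_mul_mulVec, S_mulVec (by rw [B_swap, B_smul_left, hy0, mul_zero, neg_zero]), T_mulVec, B_smul_right,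
        B_swap v y, hy1, hvw]
      simp only [B_add_left, B_smul_left, B_self, hvw]
      module
    have hfix' : (T (v + β • w) β⁻¹ : Spm) • x = x := by
      rw [← hgv, ← T_conj g, mul_smul, mul_smul, inv_smul_eq_iff.2 hz.symm, hfix, hz]
    rw [T_line hvw] at hfix'
    have e : (W v w 0 1 β : Spm) = W v w (-β⁻¹) 0 0 * W v w β⁻¹ (β⁻¹ * β) (β⁻¹ * β ^ 2) := by
      rw [W_mul hvw, neg_add_cancel, zero_add, zero_add, inv_mul_cancel₀ hβ, pow_two, ← mul_assoc,
        inv_mul_cancel₀ hβ, one_mul]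
    rw [e, mul_smul, hfix', W_X hvw, hfix]
  obtain ⟨β, hβ, hβt⟩ : ∃ β : F, β ≠ 0 ∧ β + t ≠ 0 := by
    obtain ⟨β, -, hb⟩ := Finset.exists_mem_notMem_of_card_lt_card (s := ({0, -t} : Finset F)) (t := Finset.univ)
      (lt_of_le_of_lt Finset.card_le_two (by rw [Finset.card_univ]; omega))
    simp only [Finset.mem_insert, Finset.mem_singleton, not_or] at hb
    exact ⟨β, hb.1, fun e => hb.2 (eq_neg_of_add_eq_zero_left e)⟩
  apply hmove
  have e : (W v w 0 1 β * T w t : Spm) = W v w 0 1 (β + t) := by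
    rw [← W_Z hvw, W_mul hvw]; simp
  have e1 := key (β + t) hβt
  rw [← e, mul_smul] at e1
  nth_rewrite 2 [← key β hβ] at e1
  exact MulAction.injective _ e1

include hfull hq in
theorem all_fixed (hm : 2 ≤ m) {v : Vm} (hv : v ≠ 0) (hfix : ∀ c : F, (T v c : Spm) • x = x) :
    ∀ (u : Vm) (c : F), (T u c : Spm) • x = x := by
  intro u c
  by_cases hu : u ∈ F ∙ v
  · obtain ⟨k, rfl⟩ := Submodule.mem_span_singleton.1 hu
    rw [T_smul, hfix]
  by_cases hvu : B v u = 0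
  · exact nbr_fixed hq hfull hv hu hvu hfix c
  obtain ⟨z, hz, hvz, huz⟩ := exists_orth hm v u
  have hz1 : z ∉ F ∙ v := by
    intro hmem
    obtain ⟨k, rfl⟩ := Submodule.mem_span_singleton.1 hmem
    rw [B_smul_right, B_swap, mul_neg, neg_eq_zero] at huz
    exact hz (by rw [(mul_eq_zero.1 huz).resolve_right hvu, zero_smul])
  have hz2 : u ∉ F ∙ z := by
    intro hmem
    obtain ⟨k, rfl⟩ := Submodule.mem_span_singleton.1 hmem
    exact hvu (by rw [B_smul_right, hvz, mul_zero])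
  exact nbr_fixed hq hfull hz hz2 (by rw [B_swap, huz, neg_zero]) (nbr_fixed hq hfull hv hz1 hvz hfix) c

include hfull h2 in
theorem shift {v w : Vm} (hv : v ≠ 0) (hmv : ∃ c : F, (T v c : Spm) • x ≠ x) (hw : w ∉ F ∙ v) (hvw : B v w = 0)
    {X Y Z : F} (hfix : (W v w X Y Z : Spm) • x = x) (β : F) : (W v w (β ^ 2 * Z) (β * Z) 0 : Spm) • x = x := by
  obtain ⟨y, hy0, hy1⟩ := exists_sep hw
  have horth : B v ((-β) • y) = 0 := by rw [B_swap, B_smul_left, hy0, mul_zero, neg_zero]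
  obtain ⟨z, hz⟩ := hfull v hv hmv ((-β) • y) horth
  set g : Spm := T v z * S v ((-β) • y) 1
  have hgv : g.1 *ᵥ v = v := by
    rw [sp_mul_mulVec, S_mulVec horth, T_mulVec]
    simp only [B_self, horth]
    simp [B_self]
  have hgw : g.1 *ᵥ w = w + β • v := by
    rw [sp_mul_mulVec, S_mulVec horth, T_mulVec, B_smul_right, B_swap w y, hy1, B_swap w v, hvw]
    simp only [neg_zero, B_add_left, B_smul_left, B_self, B_swap w v, hvw]
    module
  have hc : (g * W v w X Y Z * g⁻¹) • x = x := by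
    rw [mul_smul, mul_smul, inv_smul_eq_iff.2 hz.symm, hfix, hz]
  rw [W_conj hvw hgv hgw] at hc
  have e : (W v w (X + 2 * β * Y + β ^ 2 * Z) (Y + β * Z) Z : Spm) = W v w (β ^ 2 * Z) (β * Z) 0 * W v w X Y Z := by
    rw [W_mul hvw, h2]
    congr 1 <;> ring
  rwa [e, mul_smul, hfix] at hc

include hfull h2 in
theorem Z_unique {v w : Vm} (hv : v ≠ 0) (hmv : ∃ c : F, (T v c : Spm) • x ≠ x) (hw : w ∉ F ∙ v) (hvw : B v w = 0)
    {X Y Z X' Y' Z' : F} (hfix : (W v w X Y Z : Spm) • x = x) (hfix' : (W v w X' Y' Z' : Spm) • x = x) (hZ : Z ≠ 0)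
    (hZ' : Z' ≠ 0) : Z = Z' := by
  by_contra hne
  obtain ⟨c, hc⟩ := hmv
  have hchar : ringChar F = 2 := ringChar.eq_iff.2 (CharTwo.of_one_ne_zero_of_two_eq_zero one_ne_zero h2)
  have hd : Z⁻¹ - Z'⁻¹ ≠ 0 := fun h => hne (inv_injective (sub_eq_zero.1 h))
  obtain ⟨t, ht⟩ := FiniteField.isSquare_of_char_two hchar (c / (Z⁻¹ - Z'⁻¹))
  apply hc
  have hct : c = t ^ 2 * Z⁻¹ - t ^ 2 * Z'⁻¹ := by
    rw [← mul_sub, pow_two, ← ht, div_mul_cancel₀ _ hd]
  have h1 := shift h2 hfull hv ⟨c, hc⟩ hw hvw hfix (t * Z⁻¹)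
  have h1' := shift h2 hfull hv ⟨c, hc⟩ hw hvw hfix' (t * Z'⁻¹)
  have e : (T v c * W v w ((t * Z'⁻¹) ^ 2 * Z') (t * Z'⁻¹ * Z') 0 : Spm) =
      W v w ((t * Z⁻¹) ^ 2 * Z) (t * Z⁻¹ * Z) 0 := by
    rw [← W_X hvw, W_mul hvw, hct]
    congr 1
    · field_simp; ring
    · field_simp; ring
    · ring
  calc (T v c : Spm) • x = (T v c * W v w ((t * Z'⁻¹) ^ 2 * Z') (t * Z'⁻¹ * Z') 0 : Spm) • x := by rw [mul_smul, h1']
    _ = x := by rw [e, h1]

include hfull h2 hq in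
/-- the contradiction -/
theorem char_two_false (hm : 2 ≤ m) {v0 : Vm} {c0 : F} (hmove : (T v0 c0 : Spm) • x ≠ x) : False := by
  classical
  have hmv : ∀ v : Vm, v ≠ 0 → ∃ c : F, (T v c : Spm) • x ≠ x := by
    intro v hv
    by_contra hc
    push Not at hc
    exact hmove (all_fixed hq hfull hm hv hc v0 c0)
  obtain ⟨t, ht0, ht1⟩ : ∃ t : F, t ≠ 0 ∧ t ≠ 1 := by
    obtain ⟨t, -, hb⟩ := Finset.exists_mem_notMem_of_card_lt_card (s := ({0, 1} : Finset F)) (t := Finset.univ)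
      (lt_of_le_of_lt Finset.card_le_two (by rw [Finset.card_univ]; omega))
    simp only [Finset.mem_insert, Finset.mem_singleton, not_or] at hb
    exact ⟨t, hb.1, hb.2⟩
  have hS : ∀ v w : Vm, v ≠ 0 → w ∉ F ∙ v → B v w = 0 → ∀ y : F, (S v w y : Spm) • x = x := by
    intro v w hv hw hvw y
    have hv' := notMem_swap hv hw
    have hw0 : w ≠ 0 := fun h0 => hw (by rw [h0]; exact zero_mem _)
    have hwv : B w v = 0 := by rw [B_swap, hvw, neg_zero]
    obtain ⟨z, hz⟩ := hfull w hw0 (hmv w hw0) (y • v) (by rw [B_smul_right, hwv, mul_zero])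
    have e : (T w z * S w (y • v) 1 : Spm) = W v w 0 y z := by
      rw [S_symm (show B w (y • v) = 0 by rw [B_smul_right, hwv, mul_zero]), S_smul_left hvw, mul_one, ← W_Y hvw,
        ← W_Z hvw, W_mul hvw]
      simp
    rw [e] at hz
    by_cases hz0 : z = 0
    · rwa [hz0, W_Y hvw] at hz
    exfalso
    have h1 := shift h2 hfull hv (hmv v hv) hw hvw hz (1 * z⁻¹)
    have h3 := shift h2 hfull hv (hmv v hv) hw hvw hz (t * z⁻¹)
    rw [← W_swap hvw] at h1 h3
    have := Z_unique h2 hfull hw0 (hmv w hw0) hv' hwv h1 h3 (by simp [hz0]) (by simp [hz0, ht0])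
    apply ht1
    have h4 : (t - 1) ^ 2 * z⁻¹ = 0 := by
      field_simp at this ⊢
      linear_combination this.symm + (1 - t) * h2
    simpa [hz0, sub_eq_zero] using h4
  have hm0 : 0 < m := by omega
  let a : Fin m ⊕ Fin m := Sum.inl ⟨0, hm0⟩
  let b : Fin m ⊕ Fin m := Sum.inl ⟨1, by omega⟩
  have hab : cls b ≠ cls a := by simp [a, b, cls]
  obtain ⟨c, hc⟩ := hmv (e a) (e_ne_zero a)
  have hchar : ringChar F = 2 := ringChar.eq_iff.2 (CharTwo.of_one_ne_zero_of_two_eq_zero one_ne_zero h2)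
  obtain ⟨s, hs⟩ := FiniteField.isSquare_of_char_two hchar (c / B (e (bar b)) (e b))
  have hB : (B (e (bar b)) (e b : Vm) : F) ≠ 0 := by
    rw [B_e_left, bar_bar, e_self, mul_one]; exact sg_ne _
  have hnm : ∀ u : Vm, u ∈ Vp (F := F) a → u ≠ 0 → u ∉ F ∙ (e a : Vm) := by
    intro u hu hu0 hmem
    obtain ⟨k, rfl⟩ := Submodule.mem_span_singleton.1 hmem
    have := hu.1
    rw [Pi.smul_apply, e_self, smul_eq_mul, mul_one] at this
    exact hu0 (by rw [this, zero_smul])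
  have h1 : (e b : Vm) ∈ Vp (F := F) a := e_mem_Vp hab
  have h3 : (e (bar b) : Vm) ∈ Vp (F := F) a := e_mem_Vp (by rw [cls_bar]; exact hab)
  have hne : (e b + e (bar b) : Vm) ≠ 0 := fun h0 => by
    have := congrFun h0 b
    simp [e_self, e_ne (bar_ne b).symm] at this
  apply hc
  have e1 := S_add_right' (Vp_B h1).1 (Vp_B h3).1 s (u := (e a : Vm))
  have hx := hS (e a) _ (e_ne_zero a) (hnm _ (add_mem h1 h3) hne) (Vp_B (add_mem h1 h3)).1 s
  rw [e1, mul_smul, mul_smul, hS (e a) _ (e_ne_zero a) (hnm _ h3 (e_ne_zero _)) (Vp_B h3).1 s,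
    hS (e a) _ (e_ne_zero a) (hnm _ h1 (e_ne_zero _)) (Vp_B h1).1 s] at hx
  have hneg : ∀ r : F, -r = r := fun r => by linear_combination -r * h2
  rwa [hneg, ← hs, div_mul_cancel₀ _ hB] at hx

end Cfsg.Agent.Suzuki.SpIdx
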