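import Cfsg.Agent.Suzuki.SpIdxWeb
import Mathlib

/-!
In odd characteristic every field element occurs in some annihilator of stabilised transvections.
-/

set_option autoImplicit false

namespace Cfsg.Agent.Suzuki.SpIdx

open Matrix
open Cfsg.Agent.KnownB.Proj.Symp
open Cfsg.Agent.Suzuki.SpSt

universe u v

variable {m : ℕ} {F : Type u} [Field F] [Fintype F] {Ω : Type v} [MulAction (Matrix.symplecticGroup (Fin m) F) Ω]

local notation "Vm" => (Fin m ⊕ Fin m → F)
local notation "Spm" => Matrix.symplecticGroup (Fin m) F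
local notation "B" => Cfsg.sympForm m F

theorem isSquare_mul_of_not {a b : F} (ha : ¬ IsSquare a) (hb : ¬ IsSquare b) : IsSquare (a * b) := by
  classical
  by_contra h
  rw [← quadraticChar_neg_one_iff_not_isSquare] at ha hb h
  rw [map_mul, ha, hb] at h
  norm_num at h

omit [Fintype F] in
theorem char_ne (h2 : (2 : F) ≠ 0) : ringChar F ≠ 2 := fun h => h2 (by
  have hd := ringChar.Nat.cast_ringChar (R := F)
  rw [h] at hd
  exact_mod_cast hd)

theorem sum_two_squares (h2 : (2 : F) ≠ 0) (r : F) : ∃ a b : F, a ^ 2 + b ^ 2 = r := by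
  classical
  have hodd : Fintype.card F % 2 = 1 :=
    FiniteField.odd_card_of_char_ne_two (char_ne h2)
  obtain ⟨a, b, hab⟩ := FiniteField.exists_root_sum_quadratic (f := (Polynomial.X ^ 2 : Polynomial F))
    (g := Polynomial.X ^ 2 - Polynomial.C r) (Polynomial.degree_X_pow 2) (Polynomial.degree_X_pow_sub_C two_pos r) hodd
  refine ⟨a, b, ?_⟩
  simp at hab
  linear_combination hab

theorem sq_shift (h2 : (2 : F) ≠ 0) (D : F) (h : ∀ t : F, IsSquare (t ^ 2 - D)) : D = 0 := by
  by_contra hD
  have step : ∀ (y : F), IsSquare y → ∀ s : F, IsSquare (y - D * s ^ 2) := by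
    rintro y ⟨u, rfl⟩ s
    by_cases hs : s = 0
    · rw [hs]; simp
    · obtain ⟨w, hw⟩ := h (u / s)
      refine ⟨w * s, ?_⟩
      have e : w * w * s ^ 2 = u * u - D * s ^ 2 := by rw [← hw]; field_simp
      linear_combination -e
  obtain ⟨r, hr⟩ := FiniteField.exists_nonsquare (F := F) (char_ne h2)
  obtain ⟨a, b, hab⟩ := sum_two_squares h2 (-r / D)
  apply hr
  have := step _ (step 0 IsSquare.zero a) b
  have e : 0 - D * a ^ 2 - D * b ^ 2 = r := by
    have hab' : D * (a ^ 2 + b ^ 2) = -r := by rw [hab]; field_simp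
    linear_combination -hab'
  rwa [e] at this

/-- the dot form -/
noncomputable def dot3 : LinearMap.BilinForm F (Fin 3 → F) :=
  LinearMap.mk₂ F (fun a b => a ⬝ᵥ b) (fun _ _ _ => add_dotProduct _ _ _) (fun c a b => smul_dotProduct c a b)
    (fun _ _ _ => dotProduct_add _ _ _) (fun c a b => dotProduct_smul c a b)

theorem dot3_apply (a b : Fin 3 → F) : dot3 a b = a 0 * b 0 + a 1 * b 1 + a 2 * b 2 := by
  show a ⬝ᵥ b = _
  rw [dotProduct, Fin.sum_univ_three]

/-- the stabiliser in a plane group -/
def Rweb {v w : Vm} (h : B v w = 0) (x : Ω) : AddSubgroup (Fin 3 → F) where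
  carrier := {r | (W v w (r 0) (r 1) (r 2) : Spm) • x = x}
  add_mem' {r s} hr hs := by
    show (W v w (r 0 + s 0) (r 1 + s 1) (r 2 + s 2) : Spm) • x = x
    rw [← W_mul h, mul_smul, hs, hr]
  zero_mem' := by
    show (W v w 0 0 0 : Spm) • x = x
    rw [W_X h, T_zero, one_smul]
  neg_mem' {r} hr := by
    show (W v w (-r 0) (-r 1) (-r 2) : Spm) • x = x
    conv_lhs => rw [← hr]
    rw [smul_smul, W_mul h, neg_add_cancel, neg_add_cancel, neg_add_cancel, W_X h, T_zero, one_smul]

/-- every field element is attained -/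
theorem attained (h2 : (2 : F) ≠ 0) {a : Fin m ⊕ Fin m} (hm : 2 ≤ m) {x0 : Ω} (hx0 : X0 F a x0 ≠ ⊤) {α0 : F}
    (hα0 : α0 ≠ 0) : ∃ x : Ω, α0 ∈ An F a x := by
  classical
  by_contra hno
  push Not at hno
  -- all attained values lie in one square class
  obtain ⟨ε, hεne, hεsq⟩ : ∃ ε : F, ε ≠ 0 ∧ ∀ (x : Ω) (α : F), α ∈ An F a x → IsSquare (α * ε) := by
    obtain ⟨ns, hns⟩ := FiniteField.exists_nonsquare (F := F) (char_ne h2)
    refine ⟨if IsSquare α0 then ns else 1, ?_, ?_⟩
    · split_ifs
      · intro h0
        exact hns (by rw [h0]; exact IsSquare.zero)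
      · exact one_ne_zero
    · intro x α hα
      by_cases hz : α = 0
      · rw [hz, zero_mul]; exact IsSquare.zero
      have hnsq : ¬ IsSquare (α0 / α) := by
        rintro ⟨μ, hμ⟩
        have hμ0 : μ ≠ 0 := fun h0 => hα0 (by
          rw [h0, mul_zero, div_eq_zero_iff] at hμ
          exact hμ.resolve_right hz)
        obtain ⟨h, hh, -, -, -⟩ := exists_torus (m := m) a (μ := μ⁻¹) (inv_ne_zero hμ0)
        refine hno (h • x) ?_
        have := An_sc hh hα
        rwa [inv_inv, pow_two, ← hμ, div_mul_cancel₀ _ hz] at this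
      split_ifs with hs
      · refine isSquare_mul_of_not ?_ hns
        exact fun hα' => hnsq (hs.div hα')
      · rw [mul_one]
        by_contra hα'
        apply hnsq
        have := (isSquare_mul_of_not hs hα').div ((IsSquare.mul_self α))
        rwa [mul_div_mul_right _ _ hz] at this
  have hattv : ∀ (u : Vm), u ≠ 0 → ∀ (x : Ω) (s : F), (∀ c : F, (T u c : Spm) • x = x → tr (s * c) = 0) →
      IsSquare (s * ε) := by
    intro u hu x s hs
    obtain ⟨g, hg⟩ := exists_move a hu
    exact hεsq (g⁻¹ • x) s fun c hc => by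
      rw [LinearMap.mul_apply']
      exact hs c ((fix_T_iff hg c x).2 hc)
  -- every vector of the complement is in the stabiliser image
  have key : ∀ v : Vp (F := F) a, v ∈ Sb F a x0 := by
    intro v
    by_cases hv : v = 0
    · rw [hv]; exact zero_mem _
    have h := (Vp_B v.2).1
    have hvne : (v : Vm) ≠ 0 := fun h0 => hv (Subtype.ext h0)
    set R := Rweb h x0 with hR
    have hforms : ∀ f ∈ perp dot3 R, f 1 ^ 2 = 4 * (f 0 * f 2) ∧ (f 2 = 0 → f 1 = 0) := by
      intro f hf
      have hval : ∀ l : F, IsSquare ((f 0 + f 1 * l + f 2 * l ^ 2) * ε) := by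
        intro l
        refine hattv ((e a : Vm) + l • (v : Vm)) ?_ x0 _ fun c hc => ?_
        · intro h0
          have := congrFun h0 a
          simp [e_self, v.2.1] at this
        · rw [T_line h] at hc
          have := hf ![c, c * l, c * l ^ 2] hc
          rw [dot3_apply] at this
          simp at this
          rw [← map_add, ← map_add] at this
          rw [← this]
          congr 1
          ring
      have hlast : IsSquare (f 2 * ε) := hattv (v : Vm) hvne x0 _ fun c hc => by
        rw [← W_Z h] at hc
        have := hf ![0, 0, c] hc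
        rw [dot3_apply] at this
        simpa using this
      have hβ0 : f 2 = 0 → f 1 = 0 := by
        intro h0
        by_contra h1
        obtain ⟨r, hr⟩ := FiniteField.exists_nonsquare (F := F) (char_ne h2)
        apply hr
        have := hval ((r / ε - f 0) / f 1)
        rwa [h0, zero_mul, add_zero, mul_div_cancel₀ _ h1, add_sub_cancel, div_mul_cancel₀ _ hεne] at this
      refine ⟨?_, hβ0⟩
      by_cases hb : f 2 = 0
      · rw [hb, hβ0 hb]; ring
      have hD : (f 1 ^ 2 - 4 * (f 0 * f 2)) / (2 * f 2) ^ 2 = 0 := by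
        refine sq_shift h2 _ fun t => ?_
        have h3 := (hval (t - f 1 / (2 * f 2))).div hlast
        rw [show t ^ 2 - (f 1 ^ 2 - 4 * (f 0 * f 2)) / (2 * f 2) ^ 2 =
          (f 0 + f 1 * (t - f 1 / (2 * f 2)) + f 2 * (t - f 1 / (2 * f 2)) ^ 2) * ε / (f 2 * ε) by field_simp; ring]
        exact h3
      exact sub_eq_zero.1 ((div_eq_zero_iff.1 hD).resolve_right (pow_ne_zero 2 (mul_ne_zero h2 hb)))
    obtain ⟨X, hX⟩ : ∃ X : F, ∀ f ∈ perp dot3 R, f 0 * X + f 1 = 0 := by
      by_cases hex : ∃ f ∈ perp dot3 R, f 2 ≠ 0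
      · obtain ⟨g, hg, hgb⟩ := hex
        have hrel : ∀ f ∈ perp dot3 R, f 1 * g 1 = 2 * (f 0 * g 2 + g 0 * f 2) := by
          intro f hf
          have h1 := (hforms (f + g) (add_mem hf hg)).1
          simp only [Pi.add_apply] at h1
          have h3 := (hforms f hf).1
          have h4 := (hforms g hg).1
          refine mul_left_cancel₀ h2 ?_
          linear_combination h1 - h3 - h4
        by_cases hg1 : g 1 = 0
        · exfalso
          apply hx0
          have hg0 : g 0 = 0 := by
            have h4 := (hforms g hg).1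
            rw [hg1] at h4
            have : g 0 * (4 * g 2) = 0 := by linear_combination -h4
            refine (mul_eq_zero.1 this).resolve_right (mul_ne_zero ?_ hgb)
            rw [show (4 : F) = 2 * 2 by norm_num]
            exact mul_ne_zero h2 h2
          rw [eq_top_iff]
          intro t _
          have hall : ∀ f ∈ perp dot3 R, f 0 = 0 := by
            intro f hf
            have := hrel f hf
            rw [hg1, hg0, mul_zero, zero_mul, add_zero] at this
            exact (mul_eq_zero.1 ((mul_eq_zero.1 this.symm).resolve_left h2)).resolve_right hgb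
          have ht : ![t, 0, 0] ∈ R := by
            rw [← ((perp_spec (V := Fin 3 → F) (Or.inl fun a b => by rw [dot3_apply, dot3_apply]; ring) (fun a ha => by
              funext i
              have := ha (Pi.single i 1)
              rw [dot3_apply] at this
              fin_cases i <;> simpa using this)).2 R)]
            intro f hf
            rw [dot3_apply]
            simp [hall f hf]
          have ht' : (W (e a : Vm) v t 0 0 : Spm) • x0 = x0 := ht
          rwa [W_X h] at ht'
        · have hg0 : g 0 ≠ 0 := by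
            intro h0
            have h4 := (hforms g hg).1
            rw [h0, zero_mul, mul_zero] at h4
            exact hg1 (pow_eq_zero_iff two_ne_zero |>.1 h4)
          refine ⟨-(g 1) / g 0, fun f hf => ?_⟩
          have hkey : (f 1 * g 0 - f 0 * g 1) ^ 2 = 0 := by
            linear_combination g 0 ^ 2 * (hforms f hf).1 + f 0 ^ 2 * (hforms g hg).1 - 2 * (f 0 * g 0) * hrel f hf
          have := pow_eq_zero_iff two_ne_zero |>.1 hkey
          field_simp
          linear_combination this
      · push Not at hex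
        exact ⟨0, fun f hf => by rw [(hforms f hf).2 (hex f hf), mul_zero, add_zero]⟩
    have hXR : ![X, 1, 0] ∈ R := by
      rw [← ((perp_spec (V := Fin 3 → F) (Or.inl fun a b => by rw [dot3_apply, dot3_apply]; ring) (fun a ha => by
        funext i
        have := ha (Pi.single i 1)
        rw [dot3_apply] at this
        fin_cases i <;> simpa using this)).2 R)]
      intro f hf
      have hf' := hX f hf
      rw [dot3_apply]
      simp
      rw [← map_add, show X * f 0 + f 1 = f 0 * X + f 1 by ring, hf', map_zero]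
    refine ⟨X, ?_⟩
    have hXR' : (W (e a : Vm) v X 1 0 : Spm) • x0 = x0 := hXR
    rwa [W, T_zero, mul_one] at hXR'
  apply hx0
  rw [eq_top_iff]
  intro t _
  obtain ⟨j, hj⟩ : ∃ j : Fin m, j ≠ cls a := by
    have : Nontrivial (Fin m) := Fin.nontrivial_iff_two_le.2 hm
    exact exists_ne _
  let b : Fin m ⊕ Fin m := Sum.inl j
  have hb : cls b ≠ cls a := hj
  let w : Vp (F := F) a := ⟨e b, e_mem_Vp hb⟩
  let w' : Vp (F := F) a := ⟨(t / (2 * sg (bar b))) • e (bar b),
    Submodule.smul_mem _ _ (e_mem_Vp (by rw [cls_bar]; exact hb))⟩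
  have := comm_mem (key w) (key w')
  have e : 2 * B (w' : Vm) (w : Vm) = t := by
    show 2 * B ((t / (2 * sg (bar b))) • e (bar b)) (e b) = t
    rw [B_smul_left, B_e_left, bar_bar, e_self, mul_one]
    field_simp [sg_ne (F := F) (bar b)]
  rwa [e] at this

end Cfsg.Agent.Suzuki.SpIdx
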