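import Cfsg.Agent.Suzuki.SpIdxCases
import Cfsg.Agent.Suzuki.SpIdxStepOne
import Cfsg.Agent.Suzuki.SpIdxCharTwo
import Mathlib

/-!
The minimal index of a proper subgroup of `Sp_2m(q)` for `q` at least three.
-/

set_option autoImplicit false

namespace Cfsg.Agent.Suzuki.SpIdx

open Matrix
open Cfsg.Agent.KnownB.Proj.Symp
open Cfsg.Agent.Suzuki.SpSt

universe u v

variable {m : ℕ} {F : Type u} [Field F] [Fintype F] {Ω : Type v} [MulAction (Matrix.symplecticGroup (Fin m) F) Ω]
  [Finite Ω]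

local notation "Vm" => (Fin m ⊕ Fin m → F)
local notation "Spm" => Matrix.symplecticGroup (Fin m) F
local notation "B" => Cfsg.sympForm m F

/-- without good points nothing moves -/
theorem no_good (hm : 2 ≤ m) (hq : 3 ≤ Fintype.card F) (a : Fin m ⊕ Fin m)
    (hno : ∀ y : Ω, X0 F a y ≠ ⊤ → ¬ Good (F := F) a y) {x0 : Ω} {v0 : Vm} {c0 : F}
    (hmove : (T v0 c0 : Spm) • x0 ≠ x0) : False := by
  classical
  have hv0 : v0 ≠ 0 := fun h0 => hmove (by
    have : (T v0 c0 : Spm) = 1 := sp_ext fun y => by rw [h0, T_mulVec, smul_zero, add_zero, sp_one_mulVec]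
    rw [this, one_smul])
  obtain ⟨g0, hg0⟩ := exists_move (F := F) a hv0
  have hmv0 : X0 F a (g0⁻¹ • x0) ≠ ⊤ := fun h => hmove ((fix_T_iff hg0 c0 x0).2 (by
    have : c0 ∈ X0 F a (g0⁻¹ • x0) := h ▸ AddSubgroup.mem_top _
    exact this))
  have h2 : (2 : F) = 0 := by
    by_contra h2
    exact hno _ hmv0 (good_of_moved hm h2 hmv0)
  have h4 : 4 ≤ Fintype.card F := by
    have := FiniteField.even_card_of_char_two (F := F)
      (ringChar.eq_iff.2 (CharTwo.of_one_ne_zero_of_two_eq_zero one_ne_zero h2))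
    omega
  refine char_two_false h2 h4 (x := x0) (fun v hv hmv w hvw => ?_) hm hmove
  obtain ⟨c, hc⟩ := hmv
  obtain ⟨g, hg⟩ := exists_move (F := F) a hv
  set y := g⁻¹ • x0 with hy
  have hmy : X0 F a y ≠ ⊤ := fun h => hc ((fix_T_iff hg c x0).2 (by
    have : c ∈ X0 F a y := h ▸ AddSubgroup.mem_top _
    exact this))
  have htop : Sb F a y = ⊤ := Sb_eq_top (by
    by_contra hcc
    exact hno y hmy ⟨hmy, not_le.1 hcc⟩)
  set w1 := (g⁻¹).1 *ᵥ w with hw1
  have hBw : B (e a) w1 = 0 := by rw [hw1, ← sp_B g, sp_mulVec_inv, hg, hvw]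
  have hwb : w1 (bar a) = 0 := by
    rw [B_e_left, mul_eq_zero] at hBw
    exact hBw.resolve_left (sg_ne a)
  have hw2 : w1 - w1 a • e a ∈ Vp (F := F) a :=
    ⟨by simp [e_self], by simp [e_ne (bar_ne a), hwb]⟩
  obtain ⟨z, hz⟩ := (show (⟨_, hw2⟩ : Vp (F := F) a) ∈ Sb F a y from htop ▸ AddSubgroup.mem_top _)
  refine ⟨z, ?_⟩
  have hS : (S (e a) w1 1 : Spm) = S (e a) (w1 - w1 a • e a) 1 := sp_ext fun u => by
    rw [S_mulVec hBw, S_mulVec (Vp_B hw2).1, B_sub_right, B_smul_right]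
    have : (2 : F) • ((B u (e a) * w1 a) • (e a : Vm)) = 0 := by rw [h2, zero_smul]
    rw [two_smul] at this
    linear_combination (norm := module) this
  have e1 : (T v z * S v w 1 : Spm) = g * (T (e a) z * S (e a) w1 1) * g⁻¹ := by
    rw [show g * (T (e a) z * S (e a) w1 1) * g⁻¹ = (g * T (e a) z * g⁻¹) * (g * S (e a) w1 1 * g⁻¹) by group,
      T_conj, S_conj, hg, hw1, sp_mulVec_inv]
  rw [e1, hS, mul_smul, mul_smul, ← hy]
  show g • (q a (w1 - w1 a • e a) z • y) = x0
  rw [hz, hy, smul_inv_smul]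

theorem sum_fibres_le {ι : Type u} [Fintype ι] [DecidableEq ι] {n : ℕ} (f : Ω → ι) (s : Finset ι) (b : ι → ℕ)
    (h : ∀ i ∈ s, b i ≤ Nat.card {y : Ω // f y = i}) (hn : Nat.card Ω = n) : ∑ i ∈ s, b i ≤ n := by
  classical
  have := Fintype.ofFinite Ω
  subst hn
  refine le_trans (Finset.sum_le_sum h) ?_
  rw [Nat.card_eq_fintype_card, ← Finset.card_univ]
  have hb : ∀ i, Nat.card {y : Ω // f y = i} = (Finset.univ.filter fun y => f y = i).card := fun i => by
    rw [Nat.card_eq_fintype_card, Fintype.card_subtype]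
  simp only [hb]
  rw [← Finset.card_biUnion (fun i _ j _ hij => Finset.disjoint_filter.2 fun y _ h1 h3 => hij (h1.symm.trans h3))]
  exact Finset.card_le_univ _

/-- the bound for actions -/
theorem action_bound (hm : 2 ≤ m) (hq : 3 ≤ Fintype.card F) (hexc : m = 2 → 4 ≤ Fintype.card F)
    (hdvd : Nat.card Ω ∣ Nat.card Spm) {x0 : Ω} {v0 : Vm} {c0 : F} (hmove : (T v0 c0 : Spm) • x0 ≠ x0) :
    Fintype.card F ^ (2 * m) - 1 ≤ (Fintype.card F - 1) * Nat.card Ω := by
  classical
  have := Fintype.ofFinite Ω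
  let a : Fin m ⊕ Fin m := Sum.inl ⟨0, by omega⟩
  set qc := Fintype.card F with hqc
  by_cases hex : ∃ y : Ω, Good (F := F) a y
  swap
  · exact (no_good hm hq a (fun y _ h => hex ⟨y, h⟩) hmove).elim
  obtain ⟨y0, hy0⟩ := hex
  have hatt : ∀ α : F, α ≠ 0 → ∃ y : Ω, Good (F := F) a y ∧ α ∈ An F a y := by
    intro α hα
    by_cases h2 : (2 : F) = 0
    · have : Nontrivial (An F a y0) := Finite.one_lt_card_iff_nontrivial.1 (An_two hy0.1)
      obtain ⟨α1, hα1⟩ := exists_ne (0 : An F a y0)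
      have hα1' : (α1 : F) ≠ 0 := fun h => hα1 (Subtype.ext h)
      obtain ⟨s, hs⟩ := FiniteField.isSquare_of_char_two
        (ringChar.eq_iff.2 (CharTwo.of_one_ne_zero_of_two_eq_zero one_ne_zero h2)) (α / (α1 : F))
      have hs0 : s ≠ 0 := fun h0 => by
        rw [h0, mul_zero, div_eq_zero_iff] at hs
        exact hs.elim hα hα1'
      obtain ⟨h, hh, -, -, -⟩ := exists_torus (m := m) a (μ := s⁻¹) (inv_ne_zero hs0)
      refine ⟨h • y0, Good_sc hh hy0, ?_⟩
      have := An_sc hh α1.2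
      rwa [inv_inv, pow_two, ← hs, div_mul_cancel₀ _ hα1'] at this
    · obtain ⟨y, hy⟩ := attained h2 hm hy0.1 hα
      refine ⟨y, good_of_moved hm h2 (fun h => hα ?_), hy⟩
      have h' : α ∈ perp (LinearMap.mul F F) (⊤ : AddSubgroup F) := h ▸ hy
      by_contra hne
      obtain ⟨c, hc⟩ := tr_nondeg hne
      exact hc (h' c (AddSubgroup.mem_top c))
  let 𝒜 : Finset (AddSubgroup F) := ((Finset.univ : Finset Ω).filter fun y => Good (F := F) a y).image
    fun y => An F a y
  set Q := qc ^ (2 * m - 2) with hQdef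
  have hQq : qc ^ 2 ≤ Q := two_le_Q hm
  have hfib : ∀ A ∈ 𝒜, (Q - 1) * Nat.card A ≤ Nat.card {y : Ω // An F a y = A} := by
    intro A hA
    obtain ⟨y, hy, rfl⟩ := Finset.mem_image.1 hA
    have hg : Good (F := F) a y := (Finset.mem_filter.1 hy).2
    have hP := Pts_one hg.2
    rw [card_Vp] at hP
    have hle : Nat.card (Pts F a y) ≤ Nat.card {z : Ω // An F a z = An F a y} :=
      Nat.card_le_card_of_injective (fun z => (⟨(z : Ω), (Pts_data z.2).1⟩ : {z : Ω // An F a z = An F a y}))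
        (fun z z' h => Subtype.ext (Subtype.ext_iff.1 h :))
    refine le_trans ?_ hle
    refine Nat.le_of_mul_le_mul_right ?_ (show 0 < Nat.card (Un F a y) - 1 by have := hg.2; omega)
    refine le_trans ?_ hP
    calc _ ≤ (Q - 1) * Nat.card (An F a y) * Nat.card (Un F a y) := Nat.mul_le_mul_left _ (Nat.sub_le _ _)
      _ = _ := by rw [hQdef]; ring
  by_cases hall : ∀ A ∈ 𝒜, Nat.card A < qc
  · have hsum := sum_fibres_le (fun y => An F a y) 𝒜 (fun A => (Q - 1) * Nat.card A) hfib rfl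
    rw [← Finset.mul_sum] at hsum
    have hcov : qc - 1 ≤ ∑ A ∈ 𝒜, (Nat.card A - 1) := by
      calc qc - 1 = ((Finset.univ : Finset F).erase 0).card := by simp [hqc]
        _ ≤ (𝒜.biUnion fun A => (Finset.univ.filter fun α => α ∈ A).erase 0).card := by
            refine Finset.card_le_card fun α hα => ?_
            obtain ⟨y, hy, hαy⟩ := hatt α (Finset.ne_of_mem_erase hα)
            refine Finset.mem_biUnion.2 ⟨An F a y, Finset.mem_image.2 ⟨y, by simpa using hy, rfl⟩, ?_⟩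
            simp [Finset.ne_of_mem_erase hα, hαy]
        _ ≤ ∑ A ∈ 𝒜, ((Finset.univ.filter fun α => α ∈ A).erase 0).card := Finset.card_biUnion_le
        _ = _ := by
            refine Finset.sum_congr rfl fun A _ => ?_
            rw [Finset.card_erase_of_mem (by simp [A.zero_mem]), Nat.card_eq_fintype_card, Fintype.card_subtype]
    have hA : ∀ A ∈ 𝒜, qc * (Nat.card A - 1) ≤ (qc - 2) * Nat.card A := by
      intro A hA
      have hdv : Nat.card A ∣ qc := by
        rw [hqc, ← Nat.card_eq_fintype_card]; exact AddSubgroup.card_addSubgroup_dvd_card A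
      obtain ⟨c, hc⟩ := hdv
      have hlt := hall A hA
      have h2d : 2 * Nat.card A ≤ qc := by
        rcases c with _ | _ | c
        · rw [mul_zero] at hc; omega
        · rw [hc, zero_add, mul_one] at hlt; omega
        · rw [hc]; nlinarith
      obtain ⟨j, hj⟩ : ∃ j, qc = j + 2 := ⟨qc - 2, by omega⟩
      obtain ⟨i, hi⟩ : ∃ i, Nat.card A = i + 1 :=
        ⟨Nat.card A - 1, by have : 0 < Nat.card A := Nat.card_pos; omega⟩
      rw [hj] at h2d ⊢
      rw [hi] at h2d ⊢
      simp only [Nat.add_sub_cancel]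
      nlinarith
    rw [qQ hm]
    refine bound_small hq hQq ?_
    calc (Q - 1) * (qc * (qc - 1)) ≤ (Q - 1) * (qc * ∑ A ∈ 𝒜, (Nat.card A - 1)) :=
          Nat.mul_le_mul_left _ (Nat.mul_le_mul_left _ hcov)
      _ ≤ (Q - 1) * ((qc - 2) * ∑ A ∈ 𝒜, Nat.card A) := by
          refine Nat.mul_le_mul_left _ ?_
          rw [Finset.mul_sum, Finset.mul_sum]
          exact Finset.sum_le_sum hA
      _ = (qc - 2) * ((Q - 1) * ∑ A ∈ 𝒜, Nat.card A) := by ring
      _ ≤ _ := Nat.mul_le_mul_left _ hsum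
  push Not at hall
  obtain ⟨A0, hA0, hA0c⟩ := hall
  have hA0e : Nat.card A0 = qc := le_antisymm
    (by rw [hqc, ← Nat.card_eq_fintype_card]; exact Finite.card_subtype_le _) hA0c
  by_cases hmix : ∃ A ∈ 𝒜, A ≠ A0
  · obtain ⟨A, hA, hne⟩ := hmix
    have hsum := sum_fibres_le (fun y => An F a y) {A0, A} (fun A => (Q - 1) * Nat.card A)
      (fun B' hB' => hfib B' (by rcases Finset.mem_insert.1 hB' with rfl | h; · exact hA0
                                 · rw [Finset.mem_singleton.1 h]; exact hA)) rfl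
    rw [Finset.sum_pair (Ne.symm hne), ← mul_add, hA0e] at hsum
    rw [qQ hm]
    refine bound_mixed hq hQq (le_trans (Nat.mul_le_mul_left _ ?_) hsum)
    obtain ⟨y, hy, rfl⟩ := Finset.mem_image.1 hA
    exact Nat.add_le_add_left (An_two (Finset.mem_filter.1 hy).2.1) _
  push Not at hmix
  have hbot : ∀ y : Ω, Good (F := F) a y → X0 F a y = ⊥ := by
    intro y hy
    have e1 := hmix _ (Finset.mem_image.2 ⟨y, by simpa using hy, rfl⟩)
    have h := An_card (F := F) a y
    rw [e1, hA0e, hqc] at h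
    exact AddSubgroup.eq_bot_of_card_eq _ (mul_eq_left₀ Fintype.card_ne_zero |>.1 h)
  by_cases hu : Un F a y0 = ⊤
  · exact regular_case hm hq hexc (hbot y0 hy0) (by rw [hu]; exact AddSubgroup.card_top)
  have hnt : Nontrivial (Un F a y0) := Finite.one_lt_card_iff_nontrivial.1 hy0.2
  obtain ⟨v1, hv1⟩ := exists_ne (0 : Un F a y0)
  have hv1' : ((v1 : Vp (F := F) a) : Vm) ≠ 0 := fun h => hv1 (Subtype.ext (Subtype.ext h))
  by_cases hind : ∃ w ∈ Un F a y0, (w : Vm) ∉ F ∙ ((v1 : Vp (F := F) a) : Vm)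
  · obtain ⟨w, hw, hwi⟩ := hind
    exact span_case hm hq (hbot y0 hy0) hy0.2 hu v1.2 hw hwi hv1'
  push Not at hind
  let j : Fin m := ⟨1, by omega⟩
  have hj : j ≠ cls a := by simp [j, a, cls]
  obtain ⟨g, hg, eg⟩ := Lg_trans (v1 : Vp (F := F) a).2 (e_mem_Vp (F := F) (a := a) (p := Sum.inl j) hj) hv1'
    (e_ne_zero _)
  have hgd := Good_sc (Lg_sc hg) hy0
  refine line_case hm hq hexc hdvd (hbot _ hgd) hgd.2 hj fun u hu' => ?_
  have h := hind _ (Un_sc (Lg_sc hg).inv (x := g • y0) hu' |> (fun h => by rwa [inv_smul_smul] at h))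
  simp only [inv_one, inv_inv, one_smul] at h
  obtain ⟨k, hk⟩ := Submodule.mem_span_singleton.1 h
  refine Submodule.mem_span_singleton.2 ⟨k, ?_⟩
  rw [← eg, ← Matrix.mulVec_smul, hk, sp_mulVec_inv]

/-- the bound for subgroups -/
theorem sp_index_bound (hm : 2 ≤ m) (hq : 3 ≤ Fintype.card F) (hexc : m = 2 → 4 ≤ Fintype.card F)
    (H : Subgroup Spm) (hH : H ≠ ⊤) :
    (Fintype.card F ^ (2 * m) - 1) / (Fintype.card F - 1) ≤ H.index := by
  have : Finite Spm := Finite.of_injective (fun g => g.1) Subtype.val_injective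
  refine Nat.div_le_of_le_mul ?_
  obtain ⟨v, c, hv⟩ : ∃ (v : Vm) (c : F), (T v c : Spm) ∉ H := by
    by_contra hc
    push Not at hc
    exact hH (eq_top_of_T fun v c _ => hc v c)
  have h := action_bound (Ω := Spm ⧸ H) hm hq hexc H.index_dvd_card (x0 := ((1 : Spm) : Spm ⧸ H)) (v0 := v) (c0 := c)
    (fun e => hv (by
      rw [MulAction.Quotient.smul_mk, QuotientGroup.eq, smul_eq_mul, mul_one, mul_one] at e
      simpa using e))
  exact h

/-- the stabiliser of a line -/
theorem exists_small (hm : 2 ≤ m) :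
    ∃ H : Subgroup (Cfsg.PSp m F), H ≠ ⊤ ∧ H.index ≤ (Fintype.card F ^ (2 * m) - 1) / (Fintype.card F - 1) := by
  classical
  have : Finite Spm := Finite.of_injective (fun g => g.1) Subtype.val_injective
  let a : Fin m ⊕ Fin m := Sum.inl ⟨0, by omega⟩
  let L : Subgroup Spm :=
    { carrier := {g | ∃ k : F, k • (e a : Vm) = g.1 *ᵥ e a}
      one_mem' := ⟨1, by rw [one_smul, sp_one_mulVec]⟩
      mul_mem' := by
        rintro g g' ⟨k, hk⟩ ⟨k', hk'⟩
        exact ⟨k * k', by rw [sp_mul_mulVec, ← hk', Matrix.mulVec_smul, ← hk, smul_smul, mul_comm]⟩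
      inv_mem' := by
        rintro g ⟨k, hk⟩
        have hk0 : k ≠ 0 := fun h0 => sp_mulVec_ne g (e_ne_zero a) (by rw [← hk, h0, zero_smul])
        refine ⟨k⁻¹, ?_⟩
        conv_rhs => arg 2; rw [show (e a : Vm) = k⁻¹ • g.1 *ᵥ e a by rw [← hk, smul_smul, inv_mul_cancel₀ hk0, one_smul]]
        rw [Matrix.mulVec_smul, sp_inv_mulVec] }
  have hcen : Subgroup.center Spm ≤ L := by
    intro z hz
    have h := T_conj z (e a : Vm) 1
    rw [show z * T (e a : Vm) 1 * z⁻¹ = T (e a) 1 by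
      rw [← Subgroup.mem_center_iff.mp hz (T (e a : Vm) 1), mul_inv_cancel_right]] at h
    obtain ⟨k, hk, hkx⟩ := T_eq_T (e_ne_zero a) one_ne_zero h
    refine ⟨k⁻¹, ?_⟩
    conv_lhs => arg 2; rw [hkx]
    rw [smul_smul, inv_mul_cancel₀ hk, one_smul]
  refine ⟨L.map (QuotientGroup.mk' _), fun h => ?_, ?_⟩
  · have h1 := congrArg (Subgroup.comap (QuotientGroup.mk' (Subgroup.center Spm))) h
    rw [Subgroup.comap_map_eq, QuotientGroup.ker_mk', sup_eq_left.2 hcen, Subgroup.comap_top] at h1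
    obtain ⟨g, hg⟩ := exists_move (F := F) a (e_ne_zero (m := m) (F := F) (bar a))
    obtain ⟨k, hk⟩ : g ∈ L := by rw [h1]; trivial
    rw [hg] at hk
    have := congrFun hk (bar a)
    simp [e_self, e_ne (bar_ne a)] at this
  rw [Subgroup.index_map_eq L (QuotientGroup.mk'_surjective _) (by rw [QuotientGroup.ker_mk']; exact hcen),
    Nat.le_div_iff_mul_le (by have := Fintype.one_lt_card (α := F); omega), Subgroup.index]
  have := Fintype.ofFinite (Spm ⧸ L)
  let f : (Spm ⧸ L) × F → Vm := fun x => x.2 • (Quotient.out x.1).1 *ᵥ e a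
  let s : Finset ((Spm ⧸ L) × F) := Finset.univ ×ˢ Finset.univ.erase 0
  have hs : s.card = Nat.card (Spm ⧸ L) * (Fintype.card F - 1) := by simp [s, Nat.card_eq_fintype_card]
  have ht : ((Finset.univ : Finset Vm).erase 0).card = Fintype.card F ^ (2 * m) - 1 := by simp [two_mul]
  rw [← hs, ← ht]
  refine Finset.card_le_card_of_injOn f (fun x hx => ?_) (fun x hx y hy h => ?_)
  · simp only [Finset.coe_erase, Set.mem_sdiff, Finset.coe_univ, Set.mem_univ, true_and, Set.mem_singleton_iff]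
    have hx2 : x.2 ≠ 0 := by
      have := Finset.mem_coe.1 hx
      simp [s] at this
      exact this
    exact smul_ne_zero hx2 (sp_mulVec_ne _ (e_ne_zero a))
  · have hx2 : x.2 ≠ 0 := by
      have := Finset.mem_coe.1 hx
      simp [s] at this
      exact this
    have h1 := congrArg ((Quotient.out x.1)⁻¹.1 *ᵥ ·) h
    simp only [f, Matrix.mulVec_smul, sp_inv_mulVec] at h1
    have hy2 : y.2 ≠ 0 := by
      have := Finset.mem_coe.1 hy
      simp [s] at this
      exact this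
    have hm1 : (Quotient.out x.1)⁻¹ * Quotient.out y.1 ∈ L := ⟨y.2⁻¹ * x.2, by
      rw [sp_mul_mulVec, mul_smul, h1, smul_smul, inv_mul_cancel₀ hy2, one_smul]⟩
    have e1 : x.1 = y.1 := by
      rw [← QuotientGroup.out_eq' x.1, ← QuotientGroup.out_eq' y.1]
      exact QuotientGroup.eq.2 hm1
    refine Prod.ext e1 ?_
    rw [← e1, sp_inv_mulVec] at h1
    have := congrFun h1 a
    simpa [e_self] using this

end Cfsg.Agent.Suzuki.SpIdx
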