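import Cfsg.Agent.Suzuki.SpIdxTwoMain
import Mathlib

/-!
The stabiliser of a quadratic form of minus type in `Sp_2m(2)`.
-/

set_option autoImplicit false

namespace Cfsg.Agent.Suzuki.SpIdxTwo

open Matrix
open Cfsg.Agent.KnownB.Proj.Symp
open Cfsg.Agent.Suzuki.SpSt
open Cfsg.Agent.Suzuki.SpIdx

universe u

variable {m : ℕ} {F : Type u} [Field F] [Fintype F] (hF : Fintype.card F = 2)

local notation "Vm" => (Fin m ⊕ Fin m → F)
local notation "Spm" => Matrix.symplecticGroup (Fin m) F
local notation "B" => Cfsg.sympForm m F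

include hF in
theorem center_eq_bot (hm : 1 ≤ m) : Subgroup.center Spm = ⊥ := by
  rw [eq_bot_iff]
  intro z hz
  rw [Subgroup.mem_bot]
  refine sp_ext_e fun p => ?_
  have h := T_conj z (e p : Vm) 1
  rw [show z * T (e p : Vm) 1 * z⁻¹ = T (e p) 1 by
    rw [← Subgroup.mem_center_iff.mp hz (T (e p : Vm) 1), mul_inv_cancel_right]] at h
  obtain ⟨k, hk, hkx⟩ := T_eq_T (e_ne_zero p) one_ne_zero h
  rw [(zero_or_one hF k).resolve_left hk, one_smul] at hkx
  rw [← hkx, sp_one_mulVec]

include hF in
theorem sp_index_bound (hm : 3 ≤ m) (H : Subgroup Spm) (hH : H ≠ ⊤) : 2 ^ (m - 1) * (2 ^ m - 1) ≤ H.index := by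
  have : Finite Spm := Finite.of_injective (fun g => g.1) Subtype.val_injective
  obtain ⟨v, c, hv⟩ : ∃ (v : Vm) (c : F), (T v c : Spm) ∉ H := by
    by_contra hc
    push Not at hc
    exact hH (eq_top_of_T fun v c _ => hc v c)
  exact action_bound hF (Ω := Spm ⧸ H) hm (x0 := ((1 : Spm) : Spm ⧸ H)) (v0 := v) (c0 := c)
    (fun e' => hv (by
      rw [MulAction.Quotient.smul_mk, QuotientGroup.eq, smul_eq_mul, mul_one, mul_one] at e'
      simpa using e'))

include hF in
theorem exists_small (hm : 3 ≤ m) :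
    ∃ H : Subgroup (Cfsg.PSp m F), H ≠ ⊤ ∧ H.index ≤ 2 ^ (m - 1) * (2 ^ m - 1) := by
  classical
  have : Finite Spm := Finite.of_injective (fun g => g.1) Subtype.val_injective
  have h2 := two_eq_zero hF
  let β : LinearMap.BilinForm F Vm := Forms.sympB m F
  have hβ : β.SeparatingLeft := Forms.sympB_nondegenerate.1
  obtain ⟨fm, hfm, hneg⟩ : ∃ f : Vm → F, (∀ x y, f (x + y) = f x + f y + β x y) ∧ gs f < 0 := by
    let f0 : Vm → F := fun x => ∑ i, x (Sum.inl i) * x (Sum.inr i)
    have hf0 : ∀ x y, f0 (x + y) = f0 x + f0 y + β x y := fun x y => by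
      show _ = _ + Forms.sympB m F x y
      rw [sB, Forms.sympForm_eq]
      simp only [f0, Pi.add_apply, ← Finset.sum_add_distrib]
      refine Finset.sum_congr rfl fun i _ => ?_
      linear_combination (x (Sum.inl i) * y (Sum.inr i)) * h2
    have hne : gs f0 ≠ 0 := fun h0 => by
      have := gs_sq hF β hβ hf0
      rw [h0] at this
      simp [hF] at this
      exact absurd this (pow_pos (by norm_num) _).ne
    rcases lt_or_gt_of_ne hne with h | h
    · exact ⟨f0, hf0, h⟩
    let i0 : Fin m := ⟨0, by omega⟩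
    let u : Vm := e (Sum.inl i0) + e (Sum.inr i0)
    have hu : f0 u = 1 := by
      simp only [f0, u, Pi.add_apply, e_apply]
      rw [Finset.sum_eq_single i0]
      · simp
      · intro j _ hj; simp [hj]
      · intro hj; exact absurd (Finset.mem_univ _) hj
    refine ⟨fun x => f0 x + β x u, fun x y => ?_, ?_⟩
    · simp only [hf0, map_add, LinearMap.add_apply]
      ring
    · rw [gs_shift hF β hf0, hu]
      simp only [χ, one_ne_zero, if_false]
      linarith
  have hcV : Fintype.card Vm = (2 ^ m) ^ 2 := by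
    simp [Fintype.card_fun, hF, ← pow_mul, mul_two]
  have hgs : gs fm = -(2 ^ m : ℤ) := by
    have h1 := gs_sq hF β hβ hfm
    rw [hcV] at h1
    push_cast at h1
    rcases sq_eq_sq_iff_eq_or_eq_neg.1 h1 with h | h
    · have : (0 : ℤ) < 2 ^ m := by positivity
      linarith
    · exact h
  let H : Subgroup Spm :=
    { carrier := {g | ∀ x, fm (g.1 *ᵥ x) = fm x}
      one_mem' := fun x => by rw [sp_one_mulVec]
      mul_mem' := fun {g g'} hg hg' x => by rw [sp_mul_mulVec, hg, hg']
      inv_mem' := fun {g} hg x => by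
        conv_rhs => rw [← sp_mulVec_inv g x, hg] }
  have hf0 : fm 0 = 0 := by
    have := hfm 0 0
    simp at this
    linear_combination this
  let Z : Finset Vm := Finset.univ.filter fun u => fm u = 0
  have hZ : Z.card = 2 ^ (m - 1) * (2 ^ m - 1) := by
    have h1 := two_mul_zeros fm
    rw [hgs, hcV] at h1
    have h3 : 2 * Z.card + 2 ^ m = (2 ^ m) ^ 2 := by
      zify
      show 2 * ((Finset.univ.filter fun x => fm x = 0).card : ℤ) + 2 ^ m = _
      rw [h1]
      push_cast
      ring
    have h4 : 2 ^ m = 2 * 2 ^ (m - 1) := by rw [← pow_succ']; congr 1; omega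
    rw [Nat.mul_sub, mul_one]
    rw [h4] at h3 ⊢
    have h5 : (2 * 2 ^ (m - 1)) ^ 2 = 2 * (2 ^ (m - 1) * (2 * 2 ^ (m - 1))) := by ring
    omega
  have hne : H ≠ ⊤ := by
    intro htop
    obtain ⟨u, hu, hu0⟩ := Finset.exists_mem_ne (s := Z) (by
      rw [hZ]
      have h1 : 2 ≤ 2 ^ (m - 1) := le_self_pow₀ (by omega) (by omega)
      have h3 : 2 ≤ 2 ^ m := le_self_pow₀ (by omega) (by omega)
      nlinarith [Nat.sub_add_cancel (show 1 ≤ 2 ^ m by omega)]) (0 : Vm)
    obtain ⟨y, hy⟩ := exists_B_one hu0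
    have hT : (T u 1 : Spm) ∈ H := by rw [htop]; trivial
    have h1 := hT y
    rw [T_mulVec, hy, one_mul, one_smul, hfm, (Finset.mem_filter.1 hu).2, add_zero] at h1
    have h3 : β y u = 1 := by show Forms.sympB m F y u = 1; rw [sB, hy]
    rw [h3] at h1
    exact one_ne_zero (add_eq_left.1 h1)
  refine ⟨H.map (QuotientGroup.mk' _), fun h => hne ?_, ?_⟩
  · have h1 := congrArg (Subgroup.comap (QuotientGroup.mk' (Subgroup.center Spm))) h
    rw [Subgroup.comap_map_eq, QuotientGroup.ker_mk', Subgroup.comap_top, sup_eq_left.2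
      (le_of_eq_of_le (center_eq_bot hF (by omega)) bot_le)] at h1
    exact h1
  rw [Subgroup.index_map_eq H (QuotientGroup.mk'_surjective _)
    (by rw [QuotientGroup.ker_mk', center_eq_bot hF (by omega)]; exact bot_le), Subgroup.index, ← hZ]
  have := Fintype.ofFinite (Spm ⧸ H)
  rw [Nat.card_eq_fintype_card, ← Finset.card_univ]
  have hex : ∀ g : Spm, ∃ u ∈ Z, ∀ x, fm (g.1 *ᵥ x) = fm x + β x u := by
    intro g
    let d : Vm →ₗ[F] F :=
      { toFun := fun x => fm (g.1 *ᵥ x) + fm x
        map_add' := fun x y => by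
          have hB : β (g.1 *ᵥ x) (g.1 *ᵥ y) = β x y := by
            show Forms.sympB m F _ _ = Forms.sympB m F _ _
            rw [sB, sB, sp_B]
          rw [Matrix.mulVec_add, hfm, hfm, hB]
          linear_combination (β x y) * h2
        map_smul' := fun c x => by
          rcases zero_or_one hF c with rfl | rfl
          · simp [hf0]
          · simp }
    let u : Vm := LinearMap.BilinForm.toDual β Forms.sympB_nondegenerate |>.symm d
    have hu : ∀ x, β x u = d x := fun x => by
      have h5 : β u x = d x := LinearMap.BilinForm.apply_toDual_symm_apply _ _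
      show Forms.sympB m F x u = _
      have h5' : Forms.sympB m F u x = d x := h5
      rw [sB] at h5' ⊢
      rw [B_swap, h5']
      linear_combination -(d x) * h2
    have hgu : ∀ x, fm (g.1 *ᵥ x) = fm x + β x u := fun x => by
      rw [hu]
      show _ = fm x + (fm (g.1 *ᵥ x) + fm x)
      linear_combination -(fm x) * h2
    refine ⟨u, Finset.mem_filter.2 ⟨Finset.mem_univ _, ?_⟩, hgu⟩
    have h1 := gs_shift hF β hfm u
    have h3 : gs (fun x => fm x + β x u) = gs fm := by
      simp only [← hgu]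
      let E : Vm ≃ Vm :=
        { toFun := fun x => g.1 *ᵥ x
          invFun := fun x => (g⁻¹ : Spm).1 *ᵥ x
          left_inv := sp_inv_mulVec g
          right_inv := sp_mulVec_inv g }
      exact Equiv.sum_comp E fun x => χ (fm x)
    rw [h3, hgs] at h1
    by_contra hne'
    simp only [χ, if_neg hne', neg_mul, one_mul, neg_neg] at h1
    have : (0 : ℤ) < 2 ^ m := by positivity
    linarith
  choose U hU hUeq using hex
  refine Finset.card_le_card_of_injOn (fun c => U (Quotient.out c)⁻¹) (fun c _ => hU _) (fun c _ c' _ h => ?_)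
  rw [← QuotientGroup.out_eq' c, ← QuotientGroup.out_eq' c']
  refine QuotientGroup.eq.2 fun x => ?_
  have h' : U (Quotient.out c)⁻¹ = U (Quotient.out c')⁻¹ := h
  have h1 := hUeq (Quotient.out c)⁻¹ ((Quotient.out c').1 *ᵥ x)
  rw [h', ← hUeq (Quotient.out c')⁻¹, sp_inv_mulVec] at h1
  rw [sp_mul_mulVec]
  exact h1

end Cfsg.Agent.Suzuki.SpIdxTwo
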