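import Cfsg.Agent.Chev.Bruhat
import Cfsg.Agent.Suzuki.ChevChar

/-!
Elements normalising the Borel subgroup; diagonal elements of the Chevalley group.
-/

set_option autoImplicit false

universe u

namespace Cfsg.Agent.Suzuki

open Cfsg.Lie Cfsg.Agent.Chev
open scoped Matrix MatrixGroups

variable {D : ChevalleyDatum} {F : Type u} [Field F] (C : Cert.{u} D)
include C

/-- The Borel subgroup is its own normaliser in the group. -/
theorem mem_borel_of_normalises {M : CoxeterMatrix (Fin D.rank)} (hM : CoxOK D M) {g : GL D.Idx F}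
    (hg : g ∈ D.group F) (hn : g ∈ Subgroup.normalizer (D.borelSubgroup F : Set (GL D.Idx F))) :
    g ∈ D.borelSubgroup F := by
  obtain ⟨n, hnN, b, hb, b', hb', rfl⟩ := C.exists_bruhat hM hg
  have hle : D.borelSubgroup F ≤ Subgroup.normalizer (D.borelSubgroup F : Set (GL D.Idx F)) :=
    Subgroup.le_normalizer
  have hnn : n ∈ Subgroup.normalizer (D.borelSubgroup F : Set (GL D.Idx F)) := by
    have := mul_mem (mul_mem (inv_mem (hle hb)) hn) (inv_mem (hle hb'))
    rwa [show b⁻¹ * (b * n * b') * b'⁻¹ = n by group] at this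
  have hnH : n ∈ D.diagonalSubgroup F := by
    by_contra hH
    obtain ⟨i, hi, hinv⟩ := C.exists_descent hM hnN hH
    refine C.rootSubgroup_ne_bot (F := F) (C.simple_lt i hi) (eq_bot_iff.mpr fun x hx => ?_)
    have h1 : n * x * n⁻¹ ∈ D.borelSubgroup F :=
      (Subgroup.mem_normalizer_iff.mp hnn x).mp (C.pos_le_borel (C.rootSubgroup_le_pos (C.pos_simple hi) hx))
    have h2 : n * x * n⁻¹ ∈ D.negUnipotent F := hinv.2 (Subgroup.mem_map_of_mem _ hx)
    have h3 : n * x * n⁻¹ ∈ (⊥ : Subgroup (GL D.Idx F)) := by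
      rw [← C.borel_inf_neg]; exact Subgroup.mem_inf.mpr ⟨h1, h2⟩
    rw [Subgroup.mem_bot] at h3 ⊢
    have h4 := congrArg (fun y => n⁻¹ * y * n) h3
    simpa [mul_assoc] using h4
  exact mul_mem (mul_mem hb (C.diagonal_le_borel hnH)) hb'

/-- A unipotent element with diagonal matrix is trivial. -/
theorem eq_one_of_diag {u : GL D.Idx F} (hu : u ∈ D.posUnipotent F)
    (hd : ∀ i j, i ≠ j → (u : Matrix D.Idx D.Idx F) i j = 0) : u = 1 := by
  have ha := C.posUnipotent_le_upGroup hu
  apply Units.ext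
  rw [Units.val_one, ← sub_eq_zero]
  ext i j
  by_cases hij : i = j
  · exact ha.1 i j (by rw [hij]; omega)
  · rw [Matrix.sub_apply, hd i j hij, Matrix.one_apply_ne hij, sub_zero, Matrix.zero_apply]

omit C in
theorem mem_diagonal_of_charDiag (hD : D ∈ [chevG2, chevB2, chevD4, chevF4, chevE6, chevE7, chevE8])
    {χ : ℕ → Fˣ} (hχ : D.IsRootCharacter χ) {g : GL D.Idx F} (hg : g ∈ D.group F)
    (hgχ : (g : Matrix D.Idx D.Idx F) = D.charDiag F χ) : g ∈ D.diagonalSubgroup F := by
  obtain ⟨C⟩ := nonempty_cert.{u} hD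
  obtain ⟨M, hM⟩ := exists_cox hD
  have hc : IsChar D (fun s => (χ s : F)) := isChar_of_rootCharacter C (chainSteps hD) hχ
  have hgd : (g : Matrix D.Idx D.Idx F) = dMat D (fun s => (χ s : F)) := hgχ
  have hH : ∀ h ∈ D.diagonalSubgroup F, g * h * g⁻¹ = h := by
    intro h hh
    obtain ⟨ψ, -, -, hψ⟩ := C.diagonal_char hh
    rw [mul_inv_eq_iff_eq_mul]
    apply Units.ext
    rw [Units.val_mul, Units.val_mul, hψ, hgd, dMat_mul, dMat_mul, mul_comm]
  have key : ∀ r < D.nroots, ∀ t : F, g * C.xu r t * g⁻¹ = C.xu r ((χ r : F) * t) := by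
    intro r hr t
    rw [mul_inv_eq_iff_eq_mul]
    exact Units.ext (by simp [hgd, C.dMat_conj hc hr t])
  have keyi : ∀ r < D.nroots, ∀ t : F, g⁻¹ * C.xu r t * g = C.xu r ((χ r : F)⁻¹ * t) := by
    intro r hr t
    have := key r hr ((χ r : F)⁻¹ * t)
    rw [mul_inv_cancel_left₀ (Units.ne_zero _)] at this
    rw [← this]; group
  have hgU : g ∈ Subgroup.normalizer (spanGroup D F D.IsPosRoot : Set (GL D.Idx F)) := by
    refine C.mem_normalizer_span (fun r hr t => ?_) fun r hr t => ?_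
    · rw [key r hr.1]; exact C.xu_mem_span hr _
    · rw [keyi r hr.1]; exact C.xu_mem_span hr _
  change g ∈ Subgroup.normalizer (D.posUnipotent F : Set (GL D.Idx F)) at hgU
  have hnorm : g ∈ Subgroup.normalizer (D.borelSubgroup F : Set (GL D.Idx F)) := by
    rw [Subgroup.mem_normalizer_iff]
    intro x
    constructor
    · intro hx
      obtain ⟨u, hu, h, hh, rfl⟩ := C.mem_borel.mp hx
      rw [show g * (u * h) * g⁻¹ = (g * u * g⁻¹) * (g * h * g⁻¹) by group, hH h hh]
      exact mul_mem (C.pos_le_borel ((Subgroup.mem_normalizer_iff.mp hgU u).mp hu))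
        (C.diagonal_le_borel hh)
    · intro hx
      obtain ⟨u, hu, h, hh, e⟩ := C.mem_borel.mp hx
      have e' : x = (g⁻¹ * u * g) * (g⁻¹ * h * g) := by
        rw [show x = g⁻¹ * (g * x * g⁻¹) * g by group, ← e]; group
      have hh' : g⁻¹ * h * g = h := by
        conv_lhs => rw [← hH h hh]
        group
      rw [e', hh']
      refine mul_mem (C.pos_le_borel ?_) (C.diagonal_le_borel hh)
      apply (Subgroup.mem_normalizer_iff.mp hgU _).mpr
      rwa [show g * (g⁻¹ * u * g) * g⁻¹ = u by group]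
  obtain ⟨u, hu, h, hh, rfl⟩ := C.mem_borel.mp (mem_borel_of_normalises C hM hg hnorm)
  have hu1 : u = 1 := by
    refine eq_one_of_diag C hu fun i j hij => ?_
    obtain ⟨ψ, -, -, hψ⟩ := C.diagonal_char (inv_mem hh)
    rw [show u = (u * h) * h⁻¹ by group, Units.val_mul, hgd, hψ, dMat_mul]
    simp [dMat, hij]
  rw [hu1, one_mul]
  exact hh

end Cfsg.Agent.Suzuki
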