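import Cfsg.Agent.Suzuki.StLiftPDiv
import Cfsg.Agent.Suzuki.StLiftUniversal
import Cfsg.Agent.Suzuki.StLiftCasesG2F4
import Cfsg.Agent.Suzuki.StLiftCasesB2D4
import Cfsg.Agent.Suzuki.StLiftCasesE6
import Cfsg.Agent.Suzuki.StLiftCasesE7
import Cfsg.Agent.Suzuki.StLiftCasesE8
import Mathlib

/-!
Projective representations in the natural characteristic lift to the group presented by (R1), (R2).
-/

set_option autoImplicit false

universe u v w

namespace Cfsg.Agent.Suzuki.StLift

open Cfsg.Lie Cfsg.Agent.Chev Cfsg.Agent.KnownA.Cover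
open scoped commutatorElement

theorem central_hom_ext {S : Type u} [Group S] (hperf : commutator S = ⊤) {E : Type v} [Group E] (τ τ' : S →* E)
    (h : ∀ x, (τ x)⁻¹ * τ' x ∈ Subgroup.center E) : τ' = τ := by
  ext x
  have hx : x ∈ commutator S := by rw [hperf]; exact Subgroup.mem_top x
  rw [commutator_eq_closure] at hx
  induction hx using Subgroup.closure_induction with
  | mem g hg =>
    obtain ⟨a, b, rfl⟩ := hg
    rw [map_commutatorElement, map_commutatorElement, commutator_central (h a) (h b) (a := τ a) (b := τ b),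
      mul_inv_cancel_left, mul_inv_cancel_left]
  | one => rw [map_one, map_one]
  | mul g k _ _ hg hk => rw [map_mul, map_mul, hg, hk]
  | inv g _ hg => rw [map_inv, map_inv, hg]

theorem exists_term {D : ChevalleyDatum} (hD : D ∈ [chevG2, chevB2, chevD4, chevF4, chevE6, chevE7, chevE8]) :
    ∃ ok : ℕ → Bool, termCheck D ok = true := by
  simp only [List.mem_cons, List.not_mem_nil, or_false] at hD
  rcases hD with rfl | rfl | rfl | rfl | rfl | rfl | rfl
  exacts [⟨_, term_g2⟩, ⟨_, term_b2⟩, ⟨_, term_d4⟩, ⟨_, term_f4⟩, ⟨_, term_e6⟩, ⟨_, term_e7⟩, ⟨_, term_e8⟩]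

variable {K : Type u} [Field K] {D : ChevalleyDatum}

/-- lifts into central extensions whose kernels have unique roots with exponent the characteristic -/
theorem exists_lift_pdiv (hD : D ∈ [chevG2, chevB2, chevD4, chevF4, chevE6, chevE7, chevE8])
    {p : ℕ} (hp : (p : K) = 0) {G₁ : Type v} {E : Type w} [Group G₁] [Group E] (π₁ : E →* G₁)
    (hπ : Function.Surjective π₁) (hc : π₁.ker ≤ Subgroup.center E)
    (h1 : ∀ z ∈ π₁.ker, z ^ p = 1 → z = 1) (hdiv : ∀ z ∈ π₁.ker, ∃ w ∈ π₁.ker, w ^ p = z)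
    (σ : D.SteinbergCover K →* G₁) : ∃ τ : D.SteinbergCover K →* E, ∀ x, π₁ (τ x) = σ x := by
  obtain ⟨C⟩ := Cfsg.Agent.Chev.nonempty_cert.{u} hD
  obtain ⟨ok, hok⟩ := exists_term hD
  let P : Subgroup (D.SteinbergCover K × E) :=
    { carrier := {x | σ x.1 = π₁ x.2}
      one_mem' := by simp
      mul_mem' := fun {a b} ha hb => by
        show σ (a.1 * b.1) = π₁ (a.2 * b.2)
        rw [map_mul, map_mul, show σ a.1 = π₁ a.2 from ha, show σ b.1 = π₁ b.2 from hb]
      inv_mem' := fun {a} ha => by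
        show σ a.1⁻¹ = π₁ a.2⁻¹
        rw [map_inv, map_inv, show σ a.1 = π₁ a.2 from ha] }
  let π : P →* D.SteinbergCover K := (MonoidHom.fst _ E).comp P.subtype
  have hπ' : Function.Surjective π := fun x => by
    obtain ⟨y, hy⟩ := hπ (σ x)
    exact ⟨⟨(x, y), hy.symm⟩, rfl⟩
  have hker : ∀ z ∈ π.ker, z.1.1 = 1 ∧ z.1.2 ∈ π₁.ker := fun z hz => by
    refine ⟨hz, ?_⟩
    have h := z.2
    change σ z.1.1 = π₁ z.1.2 at h
    rw [show z.1.1 = 1 from hz, map_one] at h
    exact h.symm
  have hk : π.ker ≤ Subgroup.center P := fun z hz => by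
    obtain ⟨e1, e2⟩ := hker z hz
    refine Subgroup.mem_center_iff.2 fun g => Subtype.ext (Prod.ext ?_ ?_)
    · show g.1.1 * z.1.1 = z.1.1 * g.1.1
      rw [e1, one_mul, mul_one]
    · exact Subgroup.mem_center_iff.1 (hc e2) _
  obtain ⟨s, hs⟩ := exists_section_pdiv hπ' hk C (corner_of_mem hD) hp
    (fun z hz hzp => by
      obtain ⟨e1, e2⟩ := hker z hz
      refine Subtype.ext (Prod.ext e1 (h1 _ e2 ?_))
      exact congrArg (fun x : P => x.1.2) hzp)
    (fun z hz => by
      obtain ⟨e1, e2⟩ := hker z hz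
      obtain ⟨w, hw, hwp⟩ := hdiv _ e2
      exact ⟨⟨(1, w), show σ 1 = π₁ w by rw [map_one, MonoidHom.mem_ker.1 hw]⟩, rfl,
        Subtype.ext (Prod.ext (by show (1 : D.SteinbergCover K) ^ p = z.1.1; rw [one_pow, e1]) hwp)⟩) hok
  refine ⟨(MonoidHom.snd _ E).comp (P.subtype.comp s), fun x => ?_⟩
  have h := (s x).2
  change σ (s x).1.1 = π₁ (s x).1.2 at h
  rw [show (s x).1.1 = x from hs x] at h
  exact h.symm

theorem lift_projective (hD : D ∈ [chevG2, chevB2, chevD4, chevF4, chevE6, chevE7, chevE8])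
    (hperf : commutator (D.SteinbergCover K) = ⊤) (hK : ∀ s : Finset K, s.card ≤ 4) {L : Type v} [Field L]
    (hL : ringChar L = ringChar K) {n : ℕ}
    (σ : D.SteinbergCover K →* GL (Fin n) L ⧸ Subgroup.center (GL (Fin n) L)) :
    ∃ ψ : D.SteinbergCover K →* GL (Fin n) L, ∀ x, QuotientGroup.mk (ψ x) = σ x := by
  classical
  have : Finite K := by
    rcases finite_or_infinite K with h | h
    · exact h
    · obtain ⟨s, hs⟩ := Infinite.exists_subset_card_eq K 5
      exact absurd (hK s) (by omega)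
  set p := ringChar K with hpdef
  have hpp : p.Prime := CharP.char_is_prime K p
  have : Fact p.Prime := ⟨hpp⟩
  have : CharP L p := hL ▸ ringChar.charP L
  let B := AlgebraicClosure L
  have : CharP B p := charP_of_injective_algebraMap (algebraMap L B).injective p
  let ι : GL (Fin n) L →* GL (Fin n) B := Matrix.GeneralLinearGroup.map (algebraMap L B)
  have hι : Function.Injective ι := fun a b h => Units.ext (Matrix.map_injective (algebraMap L B).injective
    (congrArg (fun x : GL (Fin n) B => (x : Matrix (Fin n) (Fin n) B)) h))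
  let ιq := QuotientGroup.map (Subgroup.center (GL (Fin n) L)) (Subgroup.center (GL (Fin n) B)) ι
    (Matrix.GeneralLinearGroup.map_center_le _)
  have hscal : ∀ z ∈ Subgroup.center (GL (Fin n) B), ∃ c : Bˣ, Matrix.GeneralLinearGroup.scalar (Fin n) c = z := by
    intro z hz
    rw [Matrix.GeneralLinearGroup.center_eq_range_scalar] at hz
    exact hz
  have hker := (QuotientGroup.ker_mk' (Subgroup.center (GL (Fin n) B))).le
  obtain ⟨τ, hτ⟩ := exists_lift_pdiv hD (p := p) (CharP.cast_eq_zero K p)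
    (QuotientGroup.mk' (Subgroup.center (GL (Fin n) B))) (QuotientGroup.mk'_surjective _) hker
    (fun z hz hzp => by
      obtain ⟨c, rfl⟩ := hscal z (hker hz)
      rcases Nat.eq_zero_or_pos n with hn | hn
      · subst hn
        exact Subsingleton.elim _ _
      rw [← map_pow] at hzp
      have e := congrArg (fun x : GL (Fin n) B => (x : Matrix (Fin n) (Fin n) B) ⟨0, hn⟩ ⟨0, hn⟩) hzp
      simp [Matrix.diagonal_pow] at e
      have hc : (c : B) = 1 := by
        have h0 : ((c : B) - 1) ^ p = 0 := by rw [sub_pow_char, one_pow, e, sub_self]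
        exact sub_eq_zero.1 ((pow_eq_zero_iff hpp.ne_zero).1 h0)
      rw [show c = 1 from Units.ext hc, map_one])
    (fun z hz => by
      obtain ⟨c, rfl⟩ := hscal z (hker hz)
      obtain ⟨d, hd⟩ := IsAlgClosed.exists_pow_nat_eq (c : B) hpp.pos
      have hd0 : d ≠ 0 := fun e => c.ne_zero (by rw [← hd, e, zero_pow hpp.ne_zero])
      refine ⟨Matrix.GeneralLinearGroup.scalar (Fin n) (Units.mk0 d hd0), ?_, ?_⟩
      · rw [QuotientGroup.ker_mk', Matrix.GeneralLinearGroup.center_eq_range_scalar]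
        exact ⟨_, rfl⟩
      · rw [← map_pow]
        exact congrArg _ (Units.ext (by simpa using hd)))
    (ιq.comp σ)
  have hmem : ∀ x, τ x ∈ ι.range := by
    intro x
    have hx : x ∈ commutator (D.SteinbergCover K) := by rw [hperf]; exact Subgroup.mem_top x
    rw [commutator_eq_closure] at hx
    induction hx using Subgroup.closure_induction with
    | mem g hg =>
      obtain ⟨a, b, rfl⟩ := hg
      have key : ∀ y, ∃ g : GL (Fin n) L, (ι g)⁻¹ * τ y ∈ Subgroup.center (GL (Fin n) B) := fun y => by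
        obtain ⟨g, hg⟩ := QuotientGroup.mk_surjective (σ y)
        refine ⟨g, QuotientGroup.eq.1 ?_⟩
        have := hτ y
        rw [QuotientGroup.mk'_apply, MonoidHom.comp_apply, ← hg] at this
        exact this.symm
      obtain ⟨ga, ha⟩ := key a
      obtain ⟨gb, hb⟩ := key b
      refine ⟨⁅ga, gb⁆, ?_⟩
      rw [map_commutatorElement, map_commutatorElement, commutator_central ha hb (a := ι ga) (b := ι gb),
        mul_inv_cancel_left, mul_inv_cancel_left]
    | one => rw [map_one]; exact one_mem _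
    | mul g k _ _ hg hk => rw [map_mul]; exact mul_mem hg hk
    | inv g _ hg => rw [map_inv]; exact inv_mem hg
  let ψ : D.SteinbergCover K →* GL (Fin n) L :=
    (MonoidHom.ofInjective hι).symm.toMonoidHom.comp (τ.codRestrict ι.range hmem)
  have hψ : ∀ x, ι (ψ x) = τ x := fun x =>
    congrArg Subtype.val ((MonoidHom.ofInjective hι).apply_symm_apply ⟨τ x, hmem x⟩)
  refine ⟨ψ, fun x => ?_⟩
  obtain ⟨g, hg⟩ := QuotientGroup.mk_surjective (σ x)
  rw [← hg, QuotientGroup.eq]
  have hd : ι ((ψ x)⁻¹ * g) ∈ Subgroup.center (GL (Fin n) B) := by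
    rw [map_mul, map_inv, hψ]
    refine QuotientGroup.eq.1 ?_
    have := hτ x
    rw [QuotientGroup.mk'_apply, MonoidHom.comp_apply, ← hg] at this
    exact this
  exact Subgroup.mem_center_iff.2 fun y => hι (by rw [map_mul, map_mul ι _ y]; exact Subgroup.mem_center_iff.1 hd _)

end Cfsg.Agent.Suzuki.StLift
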