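import Mathlib

/-!
Feit–Higman: representations of a dihedral Hecke algebra and the Schur element.
-/

set_option autoImplicit false

namespace Cfsg.Agent.Suzuki.FH

/-- Alternating word in two letters. -/
def alt : Bool → ℕ → List Bool
  | _, 0 => []
  | a, k + 1 => a :: alt (!a) k

theorem alt_length (a : Bool) (k : ℕ) : (alt a k).length = k := by
  induction k generalizing a with
  | zero => rfl
  | succ k ih => simp [alt, ih]

theorem alt_even_prod {M : Type*} [Monoid M] (f : Bool → M) (a : Bool) (l : ℕ) :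
    ((alt a (2 * l)).map f).prod = (f a * f (!a)) ^ l := by
  induction l with
  | zero => simp [alt]
  | succ l ih => simp [Nat.mul_succ, alt, ih, pow_succ', mul_assoc]

theorem alt_odd_prod {M : Type*} [Monoid M] (f : Bool → M) (a : Bool) (l : ℕ) :
    ((alt a (2 * l + 1)).map f).prod = (f a * f (!a)) ^ l * f a := by
  induction l with
  | zero => simp [alt]
  | succ l ih =>
    rw [show 2 * (l + 1) + 1 = (2 * l + 1) + 1 + 1 by ring, alt, alt]
    simp [ih, pow_succ', mul_assoc]

theorem alt_append (a : Bool) : ∀ j i, ∃ b, alt a (j + i) = alt a j ++ alt b i := by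
  intro j i
  induction j generalizing a with
  | zero => exact ⟨a, by simp [alt]⟩
  | succ j ih =>
    obtain ⟨b, hb⟩ := ih (!a)
    exact ⟨b, by rw [show j + 1 + i = (j + i) + 1 by ring, alt, alt, hb, List.cons_append]⟩

theorem alt_reverse_even (a : Bool) (l : ℕ) : (alt a (2 * l)).reverse = alt (!a) (2 * l) := by
  induction l generalizing a with
  | zero => rfl
  | succ l ih =>
    rw [Nat.mul_succ, alt, alt, Bool.not_not, List.reverse_cons, List.reverse_cons, ih,
      List.append_assoc]
    have hsnoc : ∀ (b : Bool) (i : ℕ), alt b (2 * i) ++ [b] ++ [!b] = alt b (2 * i + 2) := by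
      intro b i
      induction i with
      | zero => simp [alt]
      | succ i ihi =>
        rw [Nat.mul_succ]
        simp only [alt, Bool.not_not, List.cons_append] at ihi ⊢
        rw [ihi]
    simpa [alt] using hsnoc (!a) l

theorem alt_reverse_odd (a : Bool) (l : ℕ) : (alt a (2 * l + 1)).reverse = alt a (2 * l + 1) := by
  rw [alt, List.reverse_cons, alt_reverse_even, Bool.not_not]
  induction l with
  | zero => simp [alt]
  | succ l ih =>
    rw [Nat.mul_succ]
    simp only [alt, Bool.not_not, List.cons_append] at ih ⊢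
    rw [ih]

/-- A length function on a group generated by two involutions. -/
structure Sys (W : Type*) [Group W] (σ : Bool → W) (ℓ : W → ℕ) : Prop where
  sq : ∀ a, σ a * σ a = 1
  ne_one : ∀ a, σ a ≠ 1
  ne : σ false ≠ σ true
  le : ∀ L : List Bool, ℓ (L.map σ).prod ≤ L.length
  ex : ∀ w, ∃ L : List Bool, (L.map σ).prod = w ∧ L.length = ℓ w
  step : ∀ a w, ℓ (σ a * w) ≠ ℓ w

variable {W : Type*} [Group W] {σ : Bool → W} {ℓ : W → ℕ}

namespace Sys

variable (h : Sys W σ ℓ)
include h

theorem inv_gen (a : Bool) : (σ a)⁻¹ = σ a := inv_eq_of_mul_eq_one_right (h.sq a)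

theorem rev_prod (L : List Bool) : (L.reverse.map σ).prod = ((L.map σ).prod)⁻¹ := by
  induction L with
  | nil => simp
  | cons a L ih =>
    rw [List.reverse_cons, List.map_append, List.prod_append, ih, List.map_singleton,
      List.prod_singleton, List.map_cons, List.prod_cons, mul_inv_rev, h.inv_gen]

theorem len_inv (w : W) : ℓ w⁻¹ = ℓ w := by
  have key : ∀ v, ℓ v⁻¹ ≤ ℓ v := fun v => by
    obtain ⟨L, hL, hl⟩ := h.ex v
    rw [← hl, ← hL, ← h.rev_prod, ← List.length_reverse]
    exact h.le _
  exact le_antisymm (key w) (by simpa using key w⁻¹)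

theorem cases (a : Bool) (w : W) : ℓ (σ a * w) = ℓ w + 1 ∨ ℓ (σ a * w) + 1 = ℓ w := by
  have h1 : ∀ v, ℓ (σ a * v) ≤ ℓ v + 1 := fun v => by
    obtain ⟨L, hL, hl⟩ := h.ex v
    simpa [hL, hl] using h.le (a :: L)
  have h2 := h1 (σ a * w)
  rw [← mul_assoc, h.sq, one_mul] at h2
  have := h1 w
  have := h.step a w
  omega

theorem eq_alt (L : List Bool) (hL : ℓ (L.map σ).prod = L.length) :
    ∃ a, L = alt a L.length := by
  induction L with
  | nil => exact ⟨false, rfl⟩
  | cons x L ih =>
    have hL' : ℓ (L.map σ).prod = L.length := by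
      refine le_antisymm (h.le L) ?_
      rcases h.cases x (L.map σ).prod with e | e <;> simp at hL <;> omega
    obtain ⟨a, ha⟩ := ih hL'
    cases L with
    | nil => exact ⟨x, by simp [alt]⟩
    | cons y L =>
      refine ⟨x, ?_⟩
      simp only [List.length_cons, alt, List.cons.injEq] at ha
      obtain ⟨rfl, ha⟩ := ha
      have hxy : y = !x := by
        rcases Bool.eq_or_eq_not y x with e | e
        · exfalso
          subst e
          have h1 := h.le L
          simp only [List.map_cons, List.prod_cons, ← mul_assoc, h.sq, one_mul,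
            List.length_cons] at hL
          omega
        · exact e
      subst hxy
      simp only [List.length_cons, alt]
      rw [← ha]

end Sys

/-- The rotation. -/
def rot (σ : Bool → W) : W := σ false * σ true

variable (σ) in
/-- The element with given rotation index. -/
def elemOf (i : ℤ) (b : Bool) : W := rot σ ^ i * if b then σ false else 1

namespace Sys

variable (h : Sys W σ ℓ)
include h

theorem rot_inv : (rot σ)⁻¹ = σ true * σ false := by
  rw [rot, mul_inv_rev, h.inv_gen, h.inv_gen]

/-- Alternating words, in terms of the rotation index. -/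
theorem alt_elem (a : Bool) (l : ℕ) :
    ((alt a (2 * l)).map σ).prod = elemOf σ (if a then -(l : ℤ) else l) false ∧
    ((alt a (2 * l + 1)).map σ).prod = elemOf σ (if a then -(l : ℤ) - 1 else l) true := by
  rw [alt_even_prod, alt_odd_prod]
  cases a
  · simp [elemOf, rot, Bool.not_false]
  · simp only [Bool.not_true, ← h.rot_inv, elemOf, if_true, Bool.false_eq_true, if_false, mul_one,
      inv_pow, zpow_neg, zpow_natCast, zpow_sub, zpow_one, true_and]
    rw [mul_assoc]
    congr 1
    rw [h.rot_inv, mul_assoc, h.sq, mul_one]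

variable [Finite W]

theorem two_le : 2 ≤ orderOf (rot σ) := by
  have h0 := orderOf_pos (rot σ)
  by_contra hc
  have h1 : rot σ = 1 := orderOf_eq_one_iff.1 (by omega)
  exact h.ne ((mul_eq_one_iff_eq_inv.1 h1).trans (h.inv_gen true))

theorem not_mem_rot (i : ℤ) : rot σ ^ i ≠ σ false := by
  intro e
  have hconj : σ false * rot σ * (σ false)⁻¹ = rot σ := by
    rw [← e]; group
  have h1 : σ false * rot σ * (σ false)⁻¹ = (rot σ)⁻¹ := by
    rw [h.rot_inv, h.inv_gen, rot, ← mul_assoc, h.sq, one_mul]
  rw [hconj] at h1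
  have h2 : orderOf (rot σ) = 2 := le_antisymm (Nat.le_of_dvd two_pos
    (orderOf_dvd_of_pow_eq_one (by
      rw [pow_two]; nth_rw 1 [h1]; exact inv_mul_cancel _))) h.two_le
  rcases Int.even_or_odd' i with ⟨k, rfl | rfl⟩
  · rw [zpow_mul, zpow_two, ← pow_two, ← h2, pow_orderOf_eq_one, one_zpow] at e
    exact h.ne_one false e.symm
  · rw [zpow_add, zpow_mul, zpow_two, ← pow_two, ← h2, pow_orderOf_eq_one, one_zpow, one_mul,
      zpow_one] at e
    exact h.ne_one true (mul_eq_left.1 e)

theorem elemOf_inj {i i' : ℤ} {b b' : Bool} (e : elemOf σ i b = elemOf σ i' b') :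
    b = b' ∧ i ≡ i' [ZMOD (orderOf (rot σ) : ℤ)] := by
  cases b <;> cases b' <;>
    simp only [elemOf, Bool.false_eq_true, if_false, if_true, mul_one] at e
  · exact ⟨rfl, zpow_eq_zpow_iff_modEq.1 e⟩
  · exfalso
    refine h.not_mem_rot (-i' + i) ?_
    rw [zpow_add, e]
    group
  · exfalso
    refine h.not_mem_rot (-i + i') ?_
    rw [zpow_add, ← e]
    group
  · exact ⟨rfl, zpow_eq_zpow_iff_modEq.1 (mul_right_cancel e)⟩

theorem exists_elem (w : W) : ∃ i b, w = elemOf σ i b := by
  obtain ⟨L, hL, hl⟩ := h.ex w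
  obtain ⟨a, ha⟩ := h.eq_alt L (by rw [hL, hl])
  rw [← hL, ha]
  rcases Nat.even_or_odd' L.length with ⟨l, e | e⟩ <;> rw [e]
  · exact ⟨_, _, (h.alt_elem a l).1⟩
  · exact ⟨_, _, (h.alt_elem a l).2⟩

/-- The group in terms of the rotation index. -/
noncomputable def equiv : Fin (orderOf (rot σ)) × Bool ≃ W :=
  Equiv.ofBijective (fun p => elemOf σ (p.1 : ℕ) p.2) (by
    constructor
    · rintro ⟨i, b⟩ ⟨j, c⟩ e
      obtain ⟨h1, h2⟩ := h.elemOf_inj e
      refine Prod.ext (Fin.ext ?_) h1
      have := (Int.natCast_modEq_iff.1 h2)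
      rwa [Nat.ModEq, Nat.mod_eq_of_lt i.2, Nat.mod_eq_of_lt j.2] at this
    · intro w
      obtain ⟨i, b, rfl⟩ := h.exists_elem w
      have hn : (0 : ℤ) < orderOf (rot σ) := by exact_mod_cast orderOf_pos (rot σ)
      have h1 := Int.emod_nonneg i hn.ne'
      have h2 := Int.emod_lt_of_pos i hn
      refine ⟨(⟨(i % orderOf (rot σ)).toNat, by omega⟩, b), ?_⟩
      simp only [elemOf, Int.toNat_of_nonneg h1, zpow_mod_orderOf])

theorem card_eq : Nat.card W = 2 * orderOf (rot σ) := by
  rw [← Nat.card_congr h.equiv, Nat.card_prod, Nat.card_fin, Nat.card_eq_fintype_card,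
    Fintype.card_bool, mul_comm]

theorem le_order (L : List Bool) (hL : ℓ (L.map σ).prod = L.length) :
    L.length ≤ orderOf (rot σ) := by
  set n := orderOf (rot σ) with hn
  by_contra hc
  obtain ⟨a, ha⟩ := h.eq_alt L hL
  obtain ⟨b, hb⟩ := alt_append a (n + 1) (L.length - (n + 1))
  rw [Nat.add_sub_cancel' (by omega)] at hb
  rw [ha, hb, List.map_append, List.prod_append] at hL
  -- the first `n + 1` letters can be shortened
  have key : ((alt a (n + 1)).map σ).prod = (((alt a n).map σ).tail).prod := by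
    have hbraid : ((alt (!a) n).map σ).prod = ((alt a n).map σ).prod := by
      rcases Nat.even_or_odd' n with ⟨l, e | e⟩ <;> rw [e]
      · rw [(h.alt_elem _ l).1, (h.alt_elem _ l).1]
        have : rot σ ^ (l : ℤ) = rot σ ^ (-(l : ℤ)) := zpow_eq_zpow_iff_modEq.2
          (Int.modEq_iff_dvd.2 ⟨-1, by rw [← hn, e]; push_cast; ring⟩)
        cases a <;> simp only [elemOf, Bool.not_false, Bool.not_true, Bool.false_eq_true, if_false,
          if_true, this]
      · rw [(h.alt_elem _ l).2, (h.alt_elem _ l).2]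
        have : rot σ ^ (l : ℤ) = rot σ ^ (-(l : ℤ) - 1) := zpow_eq_zpow_iff_modEq.2
          (Int.modEq_iff_dvd.2 ⟨-1, by rw [← hn, e]; push_cast; ring⟩)
        cases a <;> simp only [elemOf, Bool.not_false, Bool.not_true, Bool.false_eq_true, if_false,
          if_true, this]
    obtain ⟨k, hk⟩ : ∃ k, n = k + 1 := ⟨n - 1, by have := h.two_le; omega⟩
    rw [hk] at hbraid ⊢
    rw [alt, List.map_cons, List.prod_cons, hbraid, alt, List.map_cons, List.prod_cons,
      List.tail_cons, ← mul_assoc, h.sq, one_mul]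
  rw [key, ← List.map_tail, ← List.prod_append, ← List.map_append] at hL
  have := h.le ((alt a n).tail ++ alt b (L.length - (n + 1)))
  simp [alt_length] at this
  simp [alt_length] at hL
  omega

end Sys

/-- Products over words depending only on the group element, for reduced words. -/
structure Rep {A : Type*} [Ring A] [Algebra ℝ A] (σ : Bool → W) (ℓ : W → ℕ) (α : Bool → ℝ)
    (x : Bool → A) : Prop where
  quad : ∀ a, x a * x a = α a • x a + 1
  word : ∀ L L' : List Bool, ℓ (L.map σ).prod = L.length → ℓ (L'.map σ).prod = L'.length →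
    (L.map σ).prod = (L'.map σ).prod → (L.map x).prod = (L'.map x).prod

/-- A braid relation suffices. -/
theorem Sys.rep_of_braid [Finite W] (h : Sys W σ ℓ) {A : Type*} [Ring A] [Algebra ℝ A]
    {α : Bool → ℝ} (x : Bool → A) (hq : ∀ a, x a * x a = α a • x a + 1)
    (hb : ((alt false (orderOf (rot σ))).map x).prod = ((alt true (orderOf (rot σ))).map x).prod) :
    Rep σ ℓ α x := by
  refine ⟨hq, fun L L' hL hL' e => ?_⟩
  obtain ⟨a, ha⟩ := h.eq_alt L hL
  obtain ⟨a', ha'⟩ := h.eq_alt L' hL'
  have hlen : L'.length = L.length := by rw [← hL', ← e, hL]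
  rw [hlen] at ha'
  by_cases haa : a = a'
  · subst haa; rw [ha, ha']
  by_cases h0 : L.length = 0
  · rw [ha, ha', h0]; rfl
  have hle := h.le_order L hL
  suffices hn : L.length = orderOf (rot σ) by
    rw [ha, ha', hn]
    cases a <;> cases a' <;> first | exact absurd rfl haa | exact hb | exact hb.symm
  have hdvd : orderOf (rot σ) ∣ L.length := by
    rw [ha, ha'] at e
    rcases Nat.even_or_odd' L.length with ⟨l, el | el⟩ <;> rw [el] at e ⊢
    · rw [(h.alt_elem a l).1, (h.alt_elem a' l).1] at e
      have := (h.elemOf_inj e).2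
      rw [Int.modEq_iff_dvd] at this
      rw [← Int.natCast_dvd_natCast]
      cases a <;> cases a' <;> first | exact absurd rfl haa | (
        simp at this
        push_cast
        first
          | (convert this using 1; ring; done)
          | (rw [← Int.dvd_neg]; convert this using 1; ring; done))
    · rw [(h.alt_elem a l).2, (h.alt_elem a' l).2] at e
      have := (h.elemOf_inj e).2
      rw [Int.modEq_iff_dvd] at this
      rw [← Int.natCast_dvd_natCast]
      cases a <;> cases a' <;> first | exact absurd rfl haa | (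
        simp at this
        push_cast
        first
          | (convert this using 1; ring; done)
          | (rw [← Int.dvd_neg]; convert this using 1; ring; done))
  obtain ⟨k, hk⟩ := hdvd
  rcases Nat.lt_or_ge k 2 with hk2 | hk2
  · interval_cases k
    · simp [hk] at h0
    · simpa using hk
  · exfalso
    have : orderOf (rot σ) * 2 ≤ orderOf (rot σ) * k := Nat.mul_le_mul le_rfl hk2
    have := h.two_le
    omega

section Element

variable (h : Sys W σ ℓ) {α : Bool → ℝ} {A : Type*} [Ring A] [Algebra ℝ A] {x : Bool → A}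

/-- A chosen reduced word. -/
noncomputable def red (w : W) : List Bool := (h.ex w).choose

theorem red_spec (w : W) : ((red h w).map σ).prod = w ∧ (red h w).length = ℓ w :=
  (h.ex w).choose_spec

/-- The image of a group element. -/
noncomputable def img (x : Bool → A) (w : W) : A := ((red h w).map x).prod

theorem img_word (hx : Rep σ ℓ α x) (L : List Bool) (hL : ℓ (L.map σ).prod = L.length) :
    img h x (L.map σ).prod = (L.map x).prod :=
  hx.word _ _ (by rw [(red_spec h _).1, (red_spec h _).2]) hL (red_spec h _).1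

open Classical in
/-- The correction at a descent. -/
noncomputable def dl (ℓ : W → ℕ) (σ : Bool → W) (α : Bool → ℝ) (a : Bool) (w : W) : ℝ :=
  if ℓ (σ a * w) < ℓ w then α a else 0

theorem img_left (hx : Rep σ ℓ α x) (a : Bool) (w : W) :
    x a * img h x w = img h x (σ a * w) + dl ℓ σ α a w • img h x w := by
  rcases h.cases a w with e | e
  · have h1 := img_word h hx (a :: red h w) (by simp [(red_spec h w).1, (red_spec h w).2, e])
    simp only [List.map_cons, List.prod_cons, (red_spec h w).1] at h1
    rw [dl, if_neg (by omega), zero_smul, add_zero, h1]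
    rfl
  · have e2 : σ a * (σ a * w) = w := by rw [← mul_assoc, h.sq, one_mul]
    have h1 := img_word h hx (a :: red h (σ a * w))
      (by simp [(red_spec h _).1, (red_spec h _).2, e2, e])
    simp only [List.map_cons, List.prod_cons, (red_spec h _).1, e2] at h1
    rw [dl, if_pos (by omega), h1, ← mul_assoc, hx.quad, add_mul, smul_mul_assoc, one_mul, add_comm]
    rfl

theorem img_right (hx : Rep σ ℓ α x) (a : Bool) (w : W) :
    img h x w * x a = img h x (w * σ a) + dl ℓ σ α a w⁻¹ • img h x w := by
  have hinv : σ a * w⁻¹ = (w * σ a)⁻¹ := by rw [mul_inv_rev, h.inv_gen]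
  rcases h.cases a w⁻¹ with e | e
  · rw [hinv, h.len_inv, h.len_inv] at e
    have h1 := img_word h hx (red h w ++ [a]) (by simp [(red_spec h w).1, (red_spec h w).2, e])
    simp only [List.map_append, List.prod_append, List.map_cons, List.map_nil, List.prod_cons,
      List.prod_nil, mul_one, (red_spec h w).1] at h1
    rw [dl, if_neg (by rw [hinv, h.len_inv, h.len_inv]; omega), zero_smul, add_zero, h1]
    rfl
  · rw [hinv, h.len_inv, h.len_inv] at e
    have e2 : w * σ a * σ a = w := by rw [mul_assoc, h.sq, mul_one]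
    have h1 := img_word h hx (red h (w * σ a) ++ [a])
      (by simp [(red_spec h _).1, (red_spec h _).2, e2, e])
    simp only [List.map_append, List.prod_append, List.map_cons, List.map_nil, List.prod_cons,
      List.prod_nil, mul_one, (red_spec h _).1, e2] at h1
    rw [dl, if_pos (by rw [hinv, h.len_inv, h.len_inv]; omega), h1, mul_assoc, hx.quad, mul_add,
      mul_smul_comm, mul_one, add_comm]
    rfl

theorem img_one (hx : Rep σ ℓ α x) : img h x 1 = 1 := by
  have h0 : ℓ (1 : W) = 0 := Nat.le_zero.1 (by simpa using h.le [])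
  simpa using img_word h hx [] (by simpa using h0)

variable [Fintype W] {ρ : Bool → Matrix (Fin 2) (Fin 2) ℝ}

/-- The central element attached to a two-dimensional representation. -/
noncomputable def zel (x : Bool → A) (ρ : Bool → Matrix (Fin 2) (Fin 2) ℝ)
    (M : Matrix (Fin 2) (Fin 2) ℝ) : A :=
  ∑ w, (img h ρ w⁻¹ * M).trace • img h x w

theorem zel_left (hx : Rep σ ℓ α x) (hρ : Rep σ ℓ α ρ) (a : Bool) (M : Matrix (Fin 2) (Fin 2) ℝ) :
    x a * zel h x ρ M = zel h x ρ (ρ a * M) := by
  rw [zel, zel, Finset.mul_sum]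
  simp only [mul_smul_comm, img_left h hx, smul_add, Finset.sum_add_distrib, smul_smul]
  rw [← Equiv.sum_comp (Equiv.mulLeft (σ a)) (fun w => (img h ρ w⁻¹ * M).trace • img h x (σ a * w)),
    ← Finset.sum_add_distrib]
  refine Finset.sum_congr rfl fun w _ => ?_
  simp only [Equiv.coe_mulLeft, ← mul_assoc, h.sq, one_mul, ← add_smul]
  congr 1
  rw [img_right h hρ, inv_inv, mul_inv_rev, h.inv_gen, add_mul, Matrix.trace_add, smul_mul_assoc,
    Matrix.trace_smul, smul_eq_mul]
  ring

theorem zel_right (hx : Rep σ ℓ α x) (hρ : Rep σ ℓ α ρ) (a : Bool)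
    (M : Matrix (Fin 2) (Fin 2) ℝ) : zel h x ρ M * x a = zel h x ρ (M * ρ a) := by
  rw [zel, zel, Finset.sum_mul]
  simp only [smul_mul_assoc, img_right h hx, smul_add, Finset.sum_add_distrib, smul_smul]
  rw [← Equiv.sum_comp (Equiv.mulRight (σ a)) (fun w => (img h ρ w⁻¹ * M).trace • img h x (w * σ a)),
    ← Finset.sum_add_distrib]
  refine Finset.sum_congr rfl fun w _ => ?_
  simp only [Equiv.coe_mulRight, mul_assoc, h.sq, mul_one, ← add_smul]
  congr 1
  rw [← mul_assoc, Matrix.trace_mul_comm (img h ρ w⁻¹ * M) (ρ a), ← mul_assoc, img_left h hρ,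
    mul_inv_rev, h.inv_gen, add_mul, Matrix.trace_add, smul_mul_assoc, Matrix.trace_smul,
    smul_eq_mul]
  ring

theorem zel_word (hx : Rep σ ℓ α x) (hρ : Rep σ ℓ α ρ) (L : List Bool)
    (M : Matrix (Fin 2) (Fin 2) ℝ) :
    (L.map x).prod * zel h x ρ M = zel h x ρ ((L.map ρ).prod * M) := by
  induction L with
  | nil => simp
  | cons a L ih =>
    simp only [List.map_cons, List.prod_cons, mul_assoc, ih, zel_left h hx hρ]

/-- The square of the central element. -/
theorem zel_sq (hx : Rep σ ℓ α x) (hρ : Rep σ ℓ α ρ) {c : ℝ}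
    (hc : zel h ρ ρ 1 = c • (1 : Matrix (Fin 2) (Fin 2) ℝ)) :
    zel h x ρ 1 * zel h x ρ 1 = c • zel h x ρ 1 := by
  have h1 : zel h x ρ 1 * zel h x ρ 1 =
      ∑ w, (img h ρ w⁻¹ * 1).trace • zel h x ρ (img h ρ w * 1) := by
    conv_lhs => arg 1; rw [zel]
    rw [Finset.sum_mul]
    refine Finset.sum_congr rfl fun w _ => ?_
    rw [smul_mul_assoc]
    congr 1
    exact zel_word h hx hρ _ 1
  have hlin : ∀ (f : W → ℝ) (g : W → Matrix (Fin 2) (Fin 2) ℝ),
      ∑ w, f w • zel h x ρ (g w) = zel h x ρ (∑ w, f w • g w) := by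
    intro f g
    simp only [zel, Finset.smul_sum, smul_smul]
    rw [Finset.sum_comm]
    refine Finset.sum_congr rfl fun v _ => ?_
    rw [← Finset.sum_smul, Finset.mul_sum, Matrix.trace_sum]
    congr 1
    refine Finset.sum_congr rfl fun w _ => ?_
    rw [mul_smul_comm, Matrix.trace_smul, smul_eq_mul]
  rw [h1, hlin]
  have hs : (∑ w, (img h ρ w⁻¹ * 1).trace • (img h ρ w * 1)) = zel h ρ ρ 1 := by
    simp [zel]
  rw [hs, hc]
  simp only [zel, mul_smul_comm, Matrix.trace_smul, Finset.smul_sum, smul_smul, smul_eq_mul]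

end Element

end Cfsg.Agent.Suzuki.FH
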