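import Cfsg.Agent.Suzuki.FHAlgebra

/-!
Feit–Higman: the two-dimensional representations and their Schur elements.
-/

set_option autoImplicit false

namespace Cfsg.Agent.Suzuki.FH

open Matrix Real

theorem ch_two (M : Matrix (Fin 2) (Fin 2) ℝ) :
    M * M = M.trace • M - M.det • (1 : Matrix (Fin 2) (Fin 2) ℝ) := by
  ext i j
  fin_cases i <;> fin_cases j <;>
    simp [Matrix.mul_apply, Fin.sum_univ_two, det_fin_two, trace_fin_two] <;> ring

theorem polar_two (X Y : Matrix (Fin 2) (Fin 2) ℝ) :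
    X * Y + Y * X = Y.trace • X + X.trace • Y +
      ((X * Y).trace - X.trace * Y.trace) • (1 : Matrix (Fin 2) (Fin 2) ℝ) := by
  ext i j
  fin_cases i <;> fin_cases j <;>
    simp [Matrix.mul_apply, Fin.sum_univ_two, trace_fin_two] <;> ring

/-- A pair of reflections with given traces. -/
structure Pair (α : Bool → ℝ) (θ : ℝ) (ρ : Bool → Matrix (Fin 2) (Fin 2) ℝ) : Prop where
  det : ∀ a, (ρ a).det = -1
  tr : ∀ a, (ρ a).trace = α a
  tr2 : (ρ false * ρ true).trace = 2 * cos θ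
  comm : ∀ M, ρ false * M = M * ρ false → ρ true * M = M * ρ true →
    M = M 0 0 • (1 : Matrix (Fin 2) (Fin 2) ℝ)

theorem exists_pair {μ : ℝ} (hμ : 0 < μ) (α : Bool → ℝ) (hα : α false = μ - μ⁻¹) (θ : ℝ) :
    ∃ ρ, Pair α θ ρ := by
  set β := α true
  set p := (2 * cos θ + β / μ) / (μ + μ⁻¹) with hp
  refine ⟨fun a => if a then !![p, 1; p * (β - p) + 1, β - p] else !![μ, 0; 0, -μ⁻¹], ?_, ?_, ?_, ?_⟩
  · intro a; cases a <;> simp [det_fin_two, hμ.ne']
  · intro a; cases a <;> simp [trace_fin_two, hα, β]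
    ring
  · simp only [Bool.false_eq_true, if_false, if_true]
    rw [trace_fin_two]
    simp [Matrix.mul_apply, Fin.sum_univ_two]
    have : 0 < μ + μ⁻¹ := by positivity
    have e : p * (μ + μ⁻¹) = 2 * cos θ + β / μ := by rw [hp, div_mul_cancel₀ _ this.ne']
    rw [div_eq_mul_inv] at e
    linear_combination e
  · intro M h1 h2
    simp only [Bool.false_eq_true, if_false, if_true] at h1 h2
    have hne : μ + μ⁻¹ ≠ 0 := by positivity
    have e01 := congrFun (congrFun h1 0) 1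
    have e10 := congrFun (congrFun h1 1) 0
    simp [Matrix.mul_apply, Fin.sum_univ_two] at e01 e10
    have z01 : M 0 1 = 0 := (mul_eq_zero.1 (show (μ + μ⁻¹) * M 0 1 = 0 by linear_combination e01)).resolve_left hne
    have z10 : M 1 0 = 0 := (mul_eq_zero.1 (show (μ + μ⁻¹) * M 1 0 = 0 by linear_combination -e10)).resolve_left hne
    have f01 := congrFun (congrFun h2 0) 1
    simp [Matrix.mul_apply, Fin.sum_univ_two, z01] at f01
    ext i j
    fin_cases i <;> fin_cases j <;> simp [z01, z10, f01]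

variable {α : Bool → ℝ} {θ : ℝ} {ρ : Bool → Matrix (Fin 2) (Fin 2) ℝ}

namespace Pair

variable (hp : Pair α θ ρ)
include hp

theorem quad (a : Bool) : ρ a * ρ a = α a • ρ a + 1 := by
  rw [ch_two, hp.tr, hp.det]; simp

theorem tr2' (a : Bool) : (ρ a * ρ (!a)).trace = 2 * cos θ := by
  cases a
  · exact hp.tr2
  · rw [Matrix.trace_mul_comm]; exact hp.tr2

theorem tr3 (a : Bool) : (ρ a * ρ (!a) * ρ a).trace = α a * (2 * cos θ) + α (!a) := by
  rw [Matrix.trace_mul_comm, ← mul_assoc, hp.quad, add_mul, one_mul, Matrix.trace_add,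
    smul_mul_assoc, Matrix.trace_smul, hp.tr2', hp.tr, smul_eq_mul]

theorem rot_pow (a : Bool) (hs : sin θ ≠ 0) (l : ℕ) :
    (ρ a * ρ (!a)) ^ l = (sin (l * θ) / sin θ) • (ρ a * ρ (!a)) -
      (sin (((l : ℝ) - 1) * θ) / sin θ) • (1 : Matrix (Fin 2) (Fin 2) ℝ) := by
  induction l with
  | zero => simp [neg_div, div_self hs]
  | succ l ih =>
    have hsq : ρ a * ρ (!a) * (ρ a * ρ (!a)) =
        (2 * cos θ) • (ρ a * ρ (!a)) - (1 : Matrix (Fin 2) (Fin 2) ℝ) := by
      rw [ch_two, hp.tr2', det_mul, hp.det, hp.det]; simp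
    have e : sin (((l : ℝ) + 1) * θ) = 2 * cos θ * sin (l * θ) - sin (((l : ℝ) - 1) * θ) := by
      rw [add_mul, sub_mul, one_mul, sin_add, sin_sub]; ring
    rw [pow_succ, ih, sub_mul, smul_mul_assoc, smul_mul_assoc, hsq, one_mul,
      show ((l + 1 : ℕ) : ℝ) - 1 = (l : ℝ) by push_cast; ring, Nat.cast_add, Nat.cast_one, e]
    match_scalars <;> field_simp <;> ring

theorem tr_even (a : Bool) (hs : sin θ ≠ 0) (l : ℕ) :
    ((alt a (2 * l)).map ρ).prod.trace = 2 * cos (l * θ) := by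
  rw [alt_even_prod, hp.rot_pow a hs, Matrix.trace_sub, Matrix.trace_smul, Matrix.trace_smul,
    hp.tr2', Matrix.trace_one, Fintype.card_fin, smul_eq_mul, smul_eq_mul, sub_mul, one_mul, sin_sub]
  field_simp
  push_cast
  ring

theorem tr_odd (a : Bool) (hs : sin θ ≠ 0) (l : ℕ) :
    ((alt a (2 * l + 1)).map ρ).prod.trace =
      (α a * sin (((l : ℝ) + 1) * θ) + α (!a) * sin (l * θ)) / sin θ := by
  rw [alt_odd_prod, hp.rot_pow a hs, sub_mul, smul_mul_assoc, smul_mul_assoc, one_mul,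
    Matrix.trace_sub, Matrix.trace_smul, Matrix.trace_smul, hp.tr3, hp.tr, smul_eq_mul, smul_eq_mul,
    sub_mul, add_mul, one_mul, sin_sub, sin_add]
  field_simp
  ring

theorem braid {n j : ℕ} (hn : 2 ≤ n) (hθ : θ = 2 * π * j / n) (hs : sin θ ≠ 0)
    (heq : Odd n → α false = α true) :
    ((alt false n).map ρ).prod = ((alt true n).map ρ).prod := by
  have hn0 : (n : ℝ) ≠ 0 := by positivity
  rcases Nat.even_or_odd' n with ⟨k, rfl | rfl⟩
  · rw [alt_even_prod, alt_even_prod, hp.rot_pow _ hs, hp.rot_pow _ hs]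
    have : sin ((k : ℝ) * θ) = 0 := by
      rw [hθ, show (k : ℝ) * (2 * π * j / ((2 * k : ℕ) : ℝ)) = (j : ℕ) * π by
        push_cast; field_simp [show (k : ℝ) ≠ 0 by exact_mod_cast (show k ≠ 0 by omega)]]
      exact sin_nat_mul_pi j
    simp [this]
  · have e := heq ⟨k, rfl⟩
    have hk : sin (((k : ℝ) + 1) * θ) = -sin ((k : ℝ) * θ) := by
      have e2 : ((k : ℝ) + 1) * θ = (j : ℕ) * (2 * π) - (k : ℝ) * θ := by
        rw [hθ]; push_cast; field_simp; ring
      rw [e2, sin_nat_mul_two_pi_sub]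
    have hk' : sin (((k : ℝ) - 1) * θ) = (2 * cos θ + 1) * sin ((k : ℝ) * θ) := by
      rw [add_mul, one_mul, sin_add] at hk
      rw [sub_mul, one_mul, sin_sub]
      linear_combination -hk
    have hpol : ρ true * ρ false =
        (α false) • (ρ false + ρ true) + (2 * cos θ - α false * α false) • 1 - ρ false * ρ true := by
      have := polar_two (ρ false) (ρ true)
      rw [hp.tr, hp.tr, hp.tr2, ← e] at this
      rw [eq_sub_iff_add_eq, add_comm, this, smul_add]
    have key : ∀ a, ρ a * ρ (!a) * ρ a = (2 * cos θ) • ρ a - ρ (!a) + α false • 1 := by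
      intro a
      have hpol' : ρ (!a) * ρ a = (α false) • (ρ a + ρ (!a)) +
          (2 * cos θ - α false * α false) • 1 - ρ a * ρ (!a) := by
        cases a
        · exact hpol
        · rw [Bool.not_true, hpol, add_comm (ρ false)]; abel
      have ha : α a = α false := by cases a <;> simp [e]
      rw [mul_assoc, hpol', mul_sub, mul_add, mul_smul_comm, mul_smul_comm, mul_one, mul_add,
        ← mul_assoc, hp.quad, ha, add_mul, one_mul, smul_mul_assoc, smul_add, smul_add, smul_smul,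
        sub_smul]
      abel
    rw [alt_odd_prod, alt_odd_prod, hp.rot_pow _ hs, hp.rot_pow _ hs, hk']
    have k0 := key false
    have k1 := key true
    simp only [Bool.not_false, Bool.not_true] at k0 k1
    simp only [sub_mul, smul_mul_assoc, one_mul, Bool.not_false, Bool.not_true, k0, k1]
    module

end Pair

section Sum

theorem sum_cos_double {n j : ℕ} (h1 : 1 ≤ j) (h2 : 2 * j < n) (hθ : θ = 2 * π * j / n) (b : ℝ) :
    ∑ i ∈ Finset.range n, cos (2 * θ * i + b) = 0 := by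
  have hn : (0 : ℝ) < n := by exact_mod_cast (by omega : 0 < n)
  have hj : (0 : ℝ) < j := by exact_mod_cast (by omega : 0 < j)
  have hjn : 2 * (j : ℝ) < n := by exact_mod_cast h2
  have hπ := pi_pos
  rw [Real.sum_cos n (fun k hk => ?_) b]
  · have : (n : ℝ) * (2 * θ) / 2 = (2 * j : ℕ) * π := by
      rw [hθ]; push_cast; field_simp
    rw [this, sin_nat_mul_pi]; simp
  · have e : 2 * (j : ℝ) = k * n := by
      rw [hθ] at hk
      field_simp at hk
      linarith [hk]
    rcases le_or_gt k 0 with hk0 | hk0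
    · have : (k : ℝ) ≤ 0 := by exact_mod_cast hk0
      nlinarith
    · have : (1 : ℝ) ≤ k := by exact_mod_cast hk0
      nlinarith

theorem sum_sq_linear {n j : ℕ} (h1 : 1 ≤ j) (h2 : 2 * j < n) (hθ : θ = 2 * π * j / n) (P Q : ℝ) :
    ∑ i ∈ Finset.range n, (P * sin (i * θ) + Q * cos (i * θ)) ^ 2 = n * (P ^ 2 + Q ^ 2) / 2 := by
  have e : ∀ i : ℕ, (P * sin (i * θ) + Q * cos (i * θ)) ^ 2 = (P ^ 2 + Q ^ 2) / 2 +
      (Q ^ 2 - P ^ 2) / 2 * cos (2 * θ * i + 0) + P * Q * cos (2 * θ * i + -(π / 2)) := by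
    intro i
    rw [add_zero, show 2 * θ * i + -(π / 2) = 2 * θ * i - π / 2 by ring, cos_sub_pi_div_two,
      show 2 * θ * (i : ℝ) = 2 * (i * θ) by ring, cos_two_mul, sin_two_mul]
    linear_combination (P ^ 2) * sin_sq_add_cos_sq ((i : ℝ) * θ)
  simp only [e, Finset.sum_add_distrib, ← Finset.mul_sum, sum_cos_double h1 h2 hθ, Finset.sum_const,
    Finset.card_range, nsmul_eq_mul]
  ring

theorem sin_ne {n j : ℕ} (h1 : 1 ≤ j) (h2 : 2 * j < n) (hθ : θ = 2 * π * j / n) : sin θ ≠ 0 := by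
  have hn : (0 : ℝ) < n := by exact_mod_cast (by omega : 0 < n)
  have hj : (0 : ℝ) < j := by exact_mod_cast (by omega : 0 < j)
  have hjn : 2 * (j : ℝ) < n := by exact_mod_cast h2
  refine (sin_pos_of_pos_of_lt_pi ?_ ?_).ne'
  · rw [hθ]; positivity
  · rw [hθ, div_lt_iff₀ hn]; nlinarith [pi_pos]

variable {W : Type*} [Group W] [Fintype W] {σ : Bool → W} {ℓ : W → ℕ}

/-- The reflection trace as a function of the rotation index. -/
noncomputable def gfun (α : Bool → ℝ) (θ : ℝ) (i : ℤ) : ℝ :=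
  (α false * sin (((i : ℝ) + 1) * θ) + α true * sin ((i : ℝ) * θ)) / sin θ

/-- The value of the Schur element. -/
theorem schur_element (h : Sys W σ ℓ) (hp : Pair α θ ρ) {j : ℕ} (h1 : 1 ≤ j)
    (h2 : 2 * j < orderOf (rot σ)) (hθ : θ = 2 * π * j / orderOf (rot σ))
    (hρ : Rep σ ℓ α ρ) :
    ∃ c : ℝ, zel h ρ ρ 1 = c • (1 : Matrix (Fin 2) (Fin 2) ℝ) ∧
      2 * c = 2 * (orderOf (rot σ) : ℝ) + (orderOf (rot σ) : ℝ) *
        (α false ^ 2 + α true ^ 2 + 2 * (α false * α true) * cos θ) / (2 * sin θ ^ 2) := by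
  have hs := sin_ne h1 h2 hθ
  have hcom : ∀ a, ρ a * zel h ρ ρ 1 = zel h ρ ρ 1 * ρ a := fun a => by
    rw [zel_left h hρ hρ, zel_right h hρ hρ, mul_one, one_mul]
  refine ⟨_, hp.comm _ (hcom false) (hcom true), ?_⟩
  have htr : (zel h ρ ρ 1).trace = 2 * (zel h ρ ρ 1) 0 0 := by
    conv_lhs => rw [hp.comm _ (hcom false) (hcom true)]
    rw [Matrix.trace_smul, Matrix.trace_one, Fintype.card_fin, smul_eq_mul]; push_cast; ring
  rw [← htr, zel, Matrix.trace_sum]
  simp only [mul_one, Matrix.trace_smul, smul_eq_mul]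
  set n := orderOf (rot σ) with hn
  have hn0 : (n : ℝ) ≠ 0 := by exact_mod_cast (show n ≠ 0 by omega)
  have hper : ∀ i i' : ℤ, i ≡ i' [ZMOD (n : ℤ)] → ∀ b : ℝ,
      cos ((i : ℝ) * θ + b) = cos ((i' : ℝ) * θ + b) ∧ sin ((i : ℝ) * θ + b) = sin ((i' : ℝ) * θ + b) := by
    intro i i' hii b
    obtain ⟨k, hk⟩ := Int.modEq_iff_dvd.1 hii
    have e : (i' : ℝ) * θ + b = (i : ℝ) * θ + b + ((k * j : ℤ) : ℝ) * (2 * π) := by
      rw [show i' = i + n * k by omega]
      push_cast
      rw [hθ]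
      field_simp
      ring
    rw [e, cos_add_int_mul_two_pi, sin_add_int_mul_two_pi]
    exact ⟨rfl, rfl⟩
  -- the product of the two traces
  have hF : ∀ (i : ℤ) (b : Bool),
      (img h ρ (elemOf σ i b)⁻¹).trace * (img h ρ (elemOf σ i b)).trace =
        (if b then gfun α θ i else 2 * cos ((i : ℝ) * θ)) ^ 2 := by
    intro i b
    set w := elemOf σ i b with hw
    obtain ⟨L, hL, hl⟩ := h.ex w
    have hr : ℓ (L.map σ).prod = L.length := by rw [hL, hl]
    have e1 : img h ρ w = (L.map ρ).prod := hL ▸ img_word h hρ L hr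
    have e2 : img h ρ w⁻¹ = (L.reverse.map ρ).prod := by
      have := img_word h hρ L.reverse (by rw [h.rev_prod, h.len_inv, hr, List.length_reverse])
      rwa [h.rev_prod, hL] at this
    obtain ⟨a, ha⟩ := h.eq_alt L hr
    rw [ha] at e1 e2 hL
    rcases Nat.even_or_odd' L.length with ⟨l, el | el⟩ <;> rw [el] at e1 e2 hL
    · rw [(h.alt_elem a l).1] at hL
      obtain ⟨hb, hi⟩ := h.elemOf_inj (hL.trans hw)
      subst hb
      rw [e1, e2, alt_reverse_even, hp.tr_even _ hs, hp.tr_even _ hs]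
      have := (hper _ _ hi 0).1
      simp only [add_zero] at this
      simp only [Bool.false_eq_true, if_false]
      rw [← this]
      cases a <;> simp [cos_neg] <;> ring
    · rw [(h.alt_elem a l).2] at hL
      obtain ⟨hb, hi⟩ := h.elemOf_inj (hL.trans hw)
      subst hb
      rw [e1, e2, alt_reverse_odd, hp.tr_odd _ hs]
      simp only [if_true, gfun]
      have h3 := (hper _ _ hi 0).2
      have h4 := (hper _ _ hi θ).2
      simp only [add_zero] at h3
      rw [show ((i : ℝ) + 1) * θ = (i : ℝ) * θ + θ by ring, ← h3, ← h4]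
      cases a
      · simp [add_mul]; ring
      · simp only [if_true, Bool.not_true]
        push_cast
        rw [show (-(l : ℝ) - 1) * θ + θ = -((l : ℝ) * θ) by ring,
          show (-(l : ℝ) - 1) * θ = -(((l : ℝ) + 1) * θ) by ring, sin_neg, sin_neg]
        ring
  rw [← h.equiv.sum_comp, Fintype.sum_prod_type]
  have hE : ∀ (i : Fin n) (b : Bool), h.equiv (i, b) = elemOf σ ((i : ℕ) : ℤ) b := fun i b => rfl
  simp only [hE, hF, Fintype.sum_bool, if_true, Bool.false_eq_true, if_false,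
    Finset.sum_add_distrib]
  rw [Fin.sum_univ_eq_sum_range (fun i : ℕ => gfun α θ ((i : ℕ) : ℤ) ^ 2) n,
    Fin.sum_univ_eq_sum_range (fun i : ℕ => (2 * cos ((((i : ℕ) : ℤ) : ℝ) * θ)) ^ 2) n]
  have eg : ∀ i : ℕ, gfun α θ (i : ℤ) ^ 2 = ((α false * cos θ + α true) * sin ((i : ℝ) * θ) +
      (α false * sin θ) * cos ((i : ℝ) * θ)) ^ 2 / sin θ ^ 2 := fun i => by
    rw [gfun, div_pow]
    congr 1
    push_cast
    rw [add_mul, one_mul, sin_add]
    ring
  have ec : ∀ i : ℕ, (2 * cos ((((i : ℕ) : ℤ) : ℝ) * θ)) ^ 2 =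
      (0 * sin ((i : ℝ) * θ) + 2 * cos ((i : ℝ) * θ)) ^ 2 := fun i => by push_cast; ring
  simp only [eg, ec, ← Finset.sum_div]
  rw [sum_sq_linear h1 h2 hθ, sum_sq_linear h1 h2 hθ]
  field_simp
  linear_combination (α false ^ 2) * sin_sq_add_cos_sq θ

end Sum

end Cfsg.Agent.Suzuki.FH
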