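import Cfsg.Agent.Suzuki.BNBasic
import Cfsg.Agent.Suzuki.FHRep

/-!
Feit–Higman: the adjacency operators of a Tits system on `G ⧸ B`.
-/

set_option autoImplicit false

namespace Cfsg.Agent.Suzuki.FH

open Cfsg.Agent.Suzuki.BN

variable {G : Type*} [Group G] {P : Cfsg.BNPair G}

/-- Two cosets are in relation `m`. -/
def Rel (P : Cfsg.BNPair G) (m : G) (x y : G ⧸ P.B) : Prop := x.out⁻¹ * y.out ∈ dc P m

theorem rel_mk (m g g' : G) :
    Rel P m (QuotientGroup.mk g) (QuotientGroup.mk g') ↔ g⁻¹ * g' ∈ dc P m := by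
  have key : ∀ g g' b b' : G, b ∈ P.B → b' ∈ P.B →
      (g⁻¹ * g' ∈ dc P m → (g * b)⁻¹ * (g' * b') ∈ dc P m) := fun g g' b b' hb hb' hh => by
    rw [show (g * b)⁻¹ * (g' * b') = b⁻¹ * (g⁻¹ * g') * b' by group]
    exact mul_right_mem hb' (mul_left_mem (inv_mem hb) hh)
  obtain ⟨b, hb⟩ := QuotientGroup.mk_out_eq_mul P.B g
  obtain ⟨b', hb'⟩ := QuotientGroup.mk_out_eq_mul P.B g'
  rw [Rel, hb, hb']
  constructor
  · intro hh
    simpa using key _ _ _ _ (inv_mem b.2) (inv_mem b'.2) hh
  · exact key _ _ _ _ b.2 b'.2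

theorem mk_eq {g g' : G} :
    (QuotientGroup.mk g : G ⧸ P.B) = QuotientGroup.mk g' ↔ g⁻¹ * g' ∈ P.B := QuotientGroup.eq

theorem dc_mul_left {s m g g' : G} (hs : s ∈ P.S) (hm : m ∈ P.N)
    (hl : len P m ≤ len P (s * m)) (hg : g ∈ dc P s) (hg' : g' ∈ dc P m) :
    g * g' ∈ dc P (s * m) := by
  obtain ⟨u, hu, v, hv, rfl⟩ := mem_dc.1 hg
  rw [show u * s * v * g' = u * (s * (v * g')) by group]
  exact mul_left_mem hu (left_mul_of_le hs hm hl (mul_left_mem hv hg'))

theorem dc_ss {s g g' : G} (hs : s ∈ P.S) (hg : g ∈ dc P s) (hg' : g' ∈ dc P s) :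
    g⁻¹ * g' ∈ P.B ∨ g⁻¹ * g' ∈ dc P s := by
  have hg2 : g⁻¹ ∈ dc P s := by
    rw [(s_inv_sim hs).dc_eq]; exact inv_mem_dc hg
  obtain ⟨u, hu, v, hv, e⟩ := mem_dc.1 hg2
  rw [e, show u * s * v * g' = u * (s * (v * g')) by group]
  rcases left_mul hs (s_mem hs) (mul_left_mem hv hg') with h1 | h1
  · left
    rw [(ss_sim hs).dc_eq, mem_dc_one] at h1
    exact mul_mem hu h1
  · exact Or.inr (mul_left_mem hu h1)

variable [Fintype (G ⧸ P.B)]

open Classical in
/-- The operator of a relation. -/
noncomputable def op (P : Cfsg.BNPair G) (m : G) : Matrix (G ⧸ P.B) (G ⧸ P.B) ℝ :=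
  Matrix.of fun x y => if Rel P m x y then 1 else 0

open Classical in
/-- The number of cosets in relation `m` to a given one. -/
noncomputable def val' (P : Cfsg.BNPair G) [Fintype (G ⧸ P.B)] (m : G) : ℕ :=
  (Finset.univ.filter fun y : G ⧸ P.B => Rel P m (QuotientGroup.mk 1) y).card

open Classical in
theorem count_eq (m : G) (x : G ⧸ P.B) :
    (Finset.univ.filter fun y => Rel P m x y).card = val' P m := by
  induction x using QuotientGroup.induction_on with | _ g => ?_
  have hrel : ∀ (c : G) (y : G ⧸ P.B),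
      Rel P m (QuotientGroup.mk c) (c • y) ↔ Rel P m (QuotientGroup.mk 1) y := by
    intro c y
    induction y using QuotientGroup.induction_on with | _ k => ?_
    rw [MulAction.Quotient.smul_mk, smul_eq_mul, rel_mk, rel_mk]
    simp
  refine Finset.card_equiv (MulAction.toPerm g⁻¹) fun y => ?_
  simp only [Finset.mem_filter, Finset.mem_univ, true_and, MulAction.toPerm_apply]
  rw [← hrel g (g⁻¹ • y), smul_inv_smul]

open Classical in
theorem op_one [DecidableEq (G ⧸ P.B)] : op P 1 = (1 : Matrix (G ⧸ P.B) (G ⧸ P.B) ℝ) := by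
  ext x y
  induction x using QuotientGroup.induction_on with | _ g => ?_
  induction y using QuotientGroup.induction_on with | _ k => ?_
  simp [op, Matrix.one_apply, rel_mk, mem_dc_one, mk_eq]

open Classical in
theorem op_congr {m m' : G} (h : Sim P m m') : op P m = op P m' := by
  ext x y
  simp only [op, Matrix.of_apply]
  exact if_congr (by rw [Rel, Rel, h.dc_eq]) rfl rfl

open Classical in
theorem op_mul {s m : G} (hs : s ∈ P.S) (hm : m ∈ P.N) (hl : len P m < len P (s * m)) :
    op P s * op P m = op P (s * m) := by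
  ext x z
  simp only [Matrix.mul_apply, op, Matrix.of_apply, mul_ite, mul_one, mul_zero, ← ite_and]
  rw [Finset.sum_boole]
  induction x using QuotientGroup.induction_on with | _ g => ?_
  induction z using QuotientGroup.induction_on with | _ k => ?_
  have huniq : ∀ y y' : G, g⁻¹ * y ∈ dc P s → y⁻¹ * k ∈ dc P m → g⁻¹ * y' ∈ dc P s →
      y'⁻¹ * k ∈ dc P m → (QuotientGroup.mk y : G ⧸ P.B) = QuotientGroup.mk y' := by
    intro y y' h1 h2 h3 h4
    rw [mk_eq]
    rcases dc_ss hs h1 h3 with e | e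
    · simpa [mul_assoc] using e
    · exfalso
      have := dc_mul_left hs hm hl.le e h4
      rw [show (g⁻¹ * y)⁻¹ * (g⁻¹ * y') * (y'⁻¹ * k) = y⁻¹ * k by group] at this
      have hsim := sim_of_mem_mem (mul_mem (s_mem hs) hm) hm this h2
      exact not_sim_mul hs hm hsim
  by_cases hR : g⁻¹ * k ∈ dc P (s * m)
  · rw [if_pos ((rel_mk _ _ _).2 hR)]
    obtain ⟨b, hb, b', hb', e⟩ := mem_dc.1 hR
    have h1 : g⁻¹ * (g * b * s) ∈ dc P s :=
      mem_dc.2 ⟨b, hb, 1, one_mem _, by group⟩
    have h2 : (g * b * s)⁻¹ * k ∈ dc P m := by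
      refine mem_dc.2 ⟨1, one_mem _, b', hb', ?_⟩
      rw [show (g * b * s)⁻¹ * k = s⁻¹ * b⁻¹ * (g⁻¹ * k) by group, e]; group
    rw [Finset.card_eq_one.2 ⟨QuotientGroup.mk (g * b * s), ?_⟩, Nat.cast_one]
    refine Finset.eq_singleton_iff_unique_mem.2 ⟨?_, ?_⟩
    · simp only [Finset.mem_filter, Finset.mem_univ, true_and, rel_mk]
      exact ⟨h2, h1⟩
    · intro y hy
      induction y using QuotientGroup.induction_on with | _ y => ?_
      simp only [Finset.mem_filter, Finset.mem_univ, true_and, rel_mk] at hy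
      exact huniq _ _ hy.2 hy.1 h1 h2
  · rw [if_neg (fun e => hR ((rel_mk _ _ _).1 e)), Finset.card_eq_zero.2, Nat.cast_zero]
    refine Finset.filter_eq_empty_iff.2 fun y _ hy => ?_
    induction y using QuotientGroup.induction_on with | _ y => ?_
    simp only [rel_mk] at hy
    apply hR
    rw [show g⁻¹ * k = g⁻¹ * y * (y⁻¹ * k) by group]
    exact dc_mul_left hs hm hl.le hy.2 hy.1

open Classical in
theorem op_sq {s : G} (hs : s ∈ P.S) :
    op P s * op P s = ((val' P s : ℝ) - 1) • op P s + (val' P s : ℝ) • (1 : Matrix (G ⧸ P.B) (G ⧸ P.B) ℝ) := by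
  ext x z
  simp only [Matrix.mul_apply, op, Matrix.of_apply, mul_ite, mul_one, mul_zero, ← ite_and,
    Matrix.add_apply, Matrix.smul_apply, smul_eq_mul, Matrix.one_apply]
  rw [Finset.sum_boole]
  induction x using QuotientGroup.induction_on with | _ g => ?_
  induction z using QuotientGroup.induction_on with | _ k => ?_
  have hss : dc P s⁻¹ = dc P s := (s_inv_sim hs).dc_eq.symm
  have hsym : ∀ {y z : G}, y⁻¹ * z ∈ dc P s → z⁻¹ * y ∈ dc P s := fun {y z} hh => by
    have := inv_mem_dc hh
    rwa [hss, show (y⁻¹ * z)⁻¹ = z⁻¹ * y by group] at this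
  have hBs : ∀ {x : G}, x ∈ P.B → x ∉ dc P s := fun hx h' => s_not_mem hs (by
    have := mem_dc_trans (mem_dc_symm h') (mem_dc_one.2 hx)
    exact mem_dc_one.1 this)
  have hmul : ∀ {a b : G}, a ∈ dc P s → b ∈ dc P s → a * b ∈ P.B ∨ a * b ∈ dc P s := by
    intro a b ha hb
    have ha' : a⁻¹ ∈ dc P s := hss ▸ inv_mem_dc ha
    simpa using dc_ss hs ha' hb
  by_cases hB : g⁻¹ * k ∈ P.B
  · rw [if_neg (fun e => hBs hB ((rel_mk _ _ _).1 e)), if_pos (mk_eq.2 hB),
      ← count_eq s (QuotientGroup.mk g : G ⧸ P.B)]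
    simp only [zero_add]
    congr 1
    refine congrArg Finset.card (Finset.filter_congr fun y _ => ?_)
    induction y using QuotientGroup.induction_on with | _ y => ?_
    simp only [rel_mk]
    refine ⟨fun hh => hh.2, fun hh => ⟨?_, hh⟩⟩
    rw [show y⁻¹ * k = y⁻¹ * g * (g⁻¹ * k) by group]
    exact mul_right_mem hB (hsym hh)
  rw [if_neg (fun e => hB (mk_eq.1 e))]
  by_cases hR : g⁻¹ * k ∈ dc P s
  · rw [if_pos ((rel_mk _ _ _).2 hR)]
    have hk : (QuotientGroup.mk k : G ⧸ P.B) ∈
        Finset.univ.filter (fun y => Rel P s (QuotientGroup.mk g) y) := by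
      simpa [rel_mk] using hR
    have hset : (Finset.univ.filter fun y => Rel P s y (QuotientGroup.mk k) ∧ Rel P s (QuotientGroup.mk g) y) =
        (Finset.univ.filter (fun y : G ⧸ P.B => Rel P s (QuotientGroup.mk g) y)).erase
          (QuotientGroup.mk k) := by
      ext y
      induction y using QuotientGroup.induction_on with | _ y => ?_
      simp only [Finset.mem_filter, Finset.mem_univ, true_and, Finset.mem_erase, rel_mk, ne_eq, mk_eq]
      constructor
      · exact fun hh => ⟨fun e => hBs e hh.1, hh.2⟩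
      · rintro ⟨hne, hgy⟩
        refine ⟨?_, hgy⟩
        rcases hmul (hsym hgy) hR with e | e
        · rw [show y⁻¹ * g * (g⁻¹ * k) = y⁻¹ * k by group] at e
          exact absurd e hne
        · rwa [show y⁻¹ * g * (g⁻¹ * k) = y⁻¹ * k by group] at e
    rw [hset, Finset.card_erase_of_mem hk, count_eq, Nat.cast_sub]
    · push_cast; ring
    · rw [← count_eq s (QuotientGroup.mk g : G ⧸ P.B)]
      exact Finset.card_pos.2 ⟨_, hk⟩
  · rw [if_neg (fun e => hR ((rel_mk _ _ _).1 e)), Finset.card_eq_zero.2]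
    · simp
    refine Finset.filter_eq_empty_iff.2 fun y _ hy => ?_
    induction y using QuotientGroup.induction_on with | _ y => ?_
    simp only [rel_mk] at hy
    rcases hmul hy.2 hy.1 with e | e <;>
      rw [show g⁻¹ * y * (y⁻¹ * k) = g⁻¹ * k by group] at e
    · exact hB e
    · exact hR e

open Classical in
theorem two_le_val {s : G} (hs : s ∈ P.S) : 2 ≤ val' P s := by
  obtain ⟨b, hb, hbs⟩ := exists_conj_mem_dc hs
  refine Finset.one_lt_card.2 ⟨QuotientGroup.mk s, ?_, QuotientGroup.mk (b * s), ?_, fun e => ?_⟩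
  · simpa [rel_mk] using mem_dc_self (P := P) s
  · simpa [rel_mk] using mul_left_mem hb (mem_dc_self (P := P) s)
  · have h1 : s * b * s ∈ P.B := by
      have e' := mul_mem (P.sq_mem s hs) (mk_eq.1 e)
      convert e' using 1
      group
    have := mem_dc_trans (mem_dc_symm hbs) (mem_dc_one.2 h1)
    exact s_not_mem hs (mem_dc_one.1 this)

open Classical in
theorem op_row (m : G) : Matrix.mulVec (op P m) (fun _ => (1 : ℝ)) = fun _ => (val' P m : ℝ) := by
  funext x
  simp [Matrix.mulVec, dotProduct, op, count_eq]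

/-- Products along reduced words are relation operators. -/
theorem op_prod [DecidableEq (G ⧸ P.B)] (sg : Bool → G) (hsg : ∀ a, sg a ∈ P.S) :
    ∀ L : List Bool, len P (L.map sg).prod = L.length →
      (L.map fun a => op P (sg a)).prod = op P (L.map sg).prod := by
  intro L
  induction L with
  | nil => intro _; simpa using op_one.symm
  | cons a L ih =>
    intro hl
    simp only [List.map_cons, List.prod_cons, List.length_cons] at hl ⊢
    have hm : (L.map sg).prod ∈ P.N := prod_mem (by
      intro x hx; obtain ⟨b, -, rfl⟩ := List.mem_map.1 hx; exact hsg b)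
    have h1 : len P (L.map sg).prod ≤ L.length := by
      simpa using len_prod_le (P := P) (L := L.map sg) (by
        intro x hx; obtain ⟨b, -, rfl⟩ := List.mem_map.1 hx; exact hsg b)
    have h2 := len_mul_le (hsg a) hm
    rw [ih (by omega)]
    exact op_mul (hsg a) hm (by omega)

theorem val'_pos (m : G) : 0 < val' P m := by
  classical
  exact Finset.card_pos.2 ⟨QuotientGroup.mk m, by simpa [rel_mk] using mem_dc_self (P := P) m⟩

/-- The valencies multiply along a reduced word. -/
theorem val'_prod [DecidableEq (G ⧸ P.B)] (sg : Bool → G) (hsg : ∀ a, sg a ∈ P.S) (L : List Bool)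
    (hl : len P (L.map sg).prod = L.length) :
    ((L.map fun a => (val' P (sg a) : ℝ)).prod) = (val' P (L.map sg).prod : ℝ) := by
  have key : ∀ L : List Bool,
      Matrix.mulVec (L.map fun a => op P (sg a)).prod (fun _ : G ⧸ P.B => (1 : ℝ)) =
        fun _ => (L.map fun a => (val' P (sg a) : ℝ)).prod := by
    intro L
    induction L with
    | nil => simp
    | cons a L ih =>
      simp only [List.map_cons, List.prod_cons, ← Matrix.mulVec_mulVec, ih]
      rw [show (fun _ : G ⧸ P.B => (L.map fun b => (val' P (sg b) : ℝ)).prod) =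
        (L.map fun b => (val' P (sg b) : ℝ)).prod • (fun _ : G ⧸ P.B => (1 : ℝ)) by
          funext _; simp, Matrix.mulVec_smul, op_row]
      funext _
      simp [mul_comm]
  have := congrFun (key L) (QuotientGroup.mk 1)
  rw [op_prod sg hsg L hl, op_row] at this
  exact this.symm

open Classical in
theorem op_trace (m : G) (hm : m ∉ P.B) : (op P m).trace = 0 := by
  refine Finset.sum_eq_zero fun x _ => ?_
  induction x using QuotientGroup.induction_on with | _ g => ?_
  simp only [Matrix.diag_apply, op, Matrix.of_apply, rel_mk, inv_mul_cancel]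
  rw [if_neg]
  intro e
  exact hm (mem_dc_one.1 (mem_dc_symm e))

end Cfsg.Agent.Suzuki.FH
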