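import Cfsg.Agent.Components.NormalFour

/-!
Noncyclic groups of odd prime power order: a second element of order `p`, central modulo a central subgroup of order `p`.
-/

set_option autoImplicit false

namespace Cfsg.Agent.Suzuki

variable {P : Type*} [Group P] [Finite P] {p : ℕ} [hp : Fact p.Prime]

theorem exists_second_central (hp2 : p ≠ 2) (hP : IsPGroup p P) (hnc : ¬ IsCyclic P) {z : P}
    (hz : z ∈ Subgroup.center P) (hzp : orderOf z = p) :
    ∃ y, y ∉ Subgroup.zpowers z ∧ y ^ p = 1 ∧ ∀ g : P, g * y * g⁻¹ * y⁻¹ ∈ Subgroup.zpowers z := by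
  classical
  haveI := hP.isNilpotent
  have hzc : ∀ g, g * z = z * g := Subgroup.mem_center_iff.1 hz
  obtain ⟨A, -, ⟨hAn, hAc⟩, hAmax⟩ := (Set.toFinite
    {B : Subgroup P | B.Normal ∧ IsMulCommutative B}).exists_le_maximal (a := ⊥) ⟨inferInstance, inferInstance⟩
  haveI := hAn
  haveI := hAc
  have hCA : Subgroup.centralizer (A : Set P) = A :=
    Cfsg.Agent.S0015.result A (fun M hM hMc hle => le_antisymm (hAmax ⟨hM, hMc⟩ hle) hle)
  have hAcomm : ∀ x ∈ A, ∀ y ∈ A, x * y = y * x := fun x hx y hy =>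
    congrArg Subtype.val (mul_comm' (⟨x, hx⟩ : A) ⟨y, hy⟩)
  have hzA : z ∈ A := by
    rw [← hCA, Subgroup.mem_centralizer_iff]
    exact fun a _ => hzc a
  let N : Subgroup P :=
    { carrier := {x | x ∈ A ∧ x ^ p = 1}
      one_mem' := ⟨one_mem _, one_pow _⟩
      mul_mem' := fun {a b} ha hb => ⟨mul_mem ha.1 hb.1, by
        rw [(show Commute a b from hAcomm a ha.1 b hb.1).mul_pow, ha.2, hb.2, one_mul]⟩
      inv_mem' := fun {a} ha => ⟨inv_mem ha.1, by rw [inv_pow, ha.2, inv_one]⟩ }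
  haveI hNn : N.Normal := ⟨fun x hx g => ⟨hAn.conj_mem x hx.1 g, by rw [conj_pow, hx.2]; group⟩⟩
  have hzn : (Subgroup.zpowers z).Normal := ⟨fun x hx g => by
    have := (Subgroup.zpowers_le.mpr hz) hx
    rw [Subgroup.mem_center_iff] at this
    rwa [this g, mul_inv_cancel_right]⟩
  by_cases hN : N ≤ Subgroup.zpowers z
  swap
  · have hM : (N.map (QuotientGroup.mk' (Subgroup.zpowers z))) ≠ ⊥ := fun h => by
      rw [Subgroup.map_eq_bot_iff, QuotientGroup.ker_mk'] at h
      exact hN h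
    haveI := hNn.map (QuotientGroup.mk' (Subgroup.zpowers z)) (QuotientGroup.mk'_surjective _)
    obtain ⟨_, ⟨y, hy, rfl⟩, hy1, hyc⟩ := OddLocal.exists_ne_one_mem_center_of_normal _ hM
    refine ⟨y, fun h => hy1 ((QuotientGroup.eq_one_iff y).mpr h), hy.2, fun g => ?_⟩
    rw [← QuotientGroup.eq_one_iff, QuotientGroup.mk_mul, QuotientGroup.mk_mul, QuotientGroup.mk_mul,
      QuotientGroup.mk_inv, QuotientGroup.mk_inv]
    have := Subgroup.mem_center_iff.1 hyc (QuotientGroup.mk g)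
    rw [QuotientGroup.mk'_apply] at this
    rw [this, mul_inv_cancel_right, mul_inv_cancel]
  -- `A` is cyclic
  have huA : OddLocal.UniqueOrderP p A := by
    intro a b ha hb ha1
    have haN : (a : P) ∈ Subgroup.zpowers z := hN ⟨a.2, by simpa using congrArg Subtype.val ha⟩
    have hbN : (b : P) ∈ Subgroup.zpowers z := hN ⟨b.2, by simpa using congrArg Subtype.val hb⟩
    have e : Subgroup.zpowers (a : P) = Subgroup.zpowers z :=
      Subgroup.eq_of_le_of_card_ge (Subgroup.zpowers_le.mpr haN) (by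
        rw [Nat.card_zpowers, Nat.card_zpowers, hzp,
          orderOf_eq_prime (show (a : P) ^ p = 1 by simpa using congrArg Subtype.val ha)
            (fun h => ha1 (Subtype.ext h))])
    obtain ⟨i, hi⟩ := e.ge hbN
    exact ⟨i, Subtype.ext (by simpa using hi)⟩
  have hcyc : IsCyclic A := OddLocal.isCyclic_of_uniqueOrderP (Nat.card A) (hP.to_subgroup A) huA
    (Or.inl hp2) le_rfl
  obtain ⟨⟨a, haA⟩, hgen⟩ := hcyc.exists_generator
  have hpow : ∀ x ∈ A, ∃ i : ℤ, a ^ i = x := fun x hx => by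
    obtain ⟨i, hi⟩ := hgen ⟨x, hx⟩
    exact ⟨i, congrArg Subtype.val hi⟩
  choose r hr using fun x : P => hpow (x * a * x⁻¹) (hAn.conj_mem a haA x)
  have hCa : ∀ x : P, x * a = a * x → x ∈ A := fun x hx => by
    rw [← hCA, Subgroup.mem_centralizer_iff]
    intro y hy
    obtain ⟨i, rfl⟩ := hpow y hy
    exact ((show Commute a x from hx.symm).zpow_left i).eq
  obtain ⟨x, hxp, hxA⟩ : ∃ x : P, x ^ p = 1 ∧ x ∉ A := by
    by_contra! hno
    refine hnc (OddLocal.isCyclic_of_uniqueOrderP (Nat.card P) hP (fun c d hc hd hc1 => ?_) (Or.inl hp2) le_rfl)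
    obtain ⟨i, hi⟩ := huA ⟨c, hno c hc⟩ ⟨d, hno d hd⟩ (Subtype.ext hc) (Subtype.ext hd)
      fun e => hc1 (congrArg Subtype.val e)
    exact ⟨i, congrArg Subtype.val hi⟩
  -- `x` centralises `a` modulo `⟨z⟩`
  have hconj : ∀ (g : P) (i : ℤ), g * a ^ i * g⁻¹ = a ^ (r g * i) := fun g i => by
    rw [← conj_zpow, ← hr g, ← zpow_mul]
  have hiter : ∀ k : ℕ, x ^ k * a * (x ^ k)⁻¹ = a ^ (r x) ^ k := by
    intro k
    induction k with
    | zero => simp
    | succ k ih =>
      rw [pow_succ', pow_succ', ← hconj x ((r x) ^ k), ← ih]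
      group
  obtain ⟨n, hn⟩ := IsPGroup.iff_orderOf.mp hP a
  have hdvd : ((p : ℤ) ^ n) ∣ (r x) ^ p - 1 := by
    have h := hiter p
    rw [hxp, one_mul, inv_one, mul_one] at h
    have h' : a ^ ((r x) ^ p - 1) = 1 := by rw [zpow_sub, zpow_one, ← h, mul_inv_cancel]
    rw [← orderOf_dvd_iff_zpow_eq_one, hn] at h'
    exact_mod_cast h'
  have hc : (a ^ (r x - 1)) ^ p = 1 := by
    rcases Nat.eq_zero_or_pos n with rfl | hn0
    · rw [pow_zero, orderOf_eq_one_iff] at hn
      rw [hn, one_zpow, one_pow]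
    rw [← zpow_natCast, ← zpow_mul, ← orderOf_dvd_iff_zpow_eq_one, hn, Nat.cast_pow]
    have hpP : Prime (p : ℤ) := Nat.prime_iff_prime_int.1 hp.out
    have h1 : (p : ℤ) ∣ r x - 1 := by
      have h2 : (p : ℤ) ∣ (r x) ^ p - 1 := (dvd_pow_self _ hn0.ne').trans hdvd
      rw [← ZMod.intCast_zmod_eq_zero_iff_dvd] at h2 ⊢
      push_cast at h2 ⊢
      rwa [ZMod.pow_card] at h2
    have hndvd : ¬ (p : ℤ) ∣ r x := fun h => hpP.not_dvd_one (by simpa using dvd_sub h h1)
    have hm := Int.emultiplicity_pow_sub_pow hp.out (hp.out.odd_of_ne_two hp2) h1 hndvd p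
    rw [one_pow, hp.out.emultiplicity_self] at hm
    have hle := le_emultiplicity_of_pow_dvd hdvd
    rw [hm] at hle
    have h3 : ((n - 1 : ℕ) : ℕ∞) ≤ emultiplicity (p : ℤ) (r x - 1) := by
      rcases n with _ | n
      · simp
      · push_cast at hle
        simpa using (ENat.add_le_add_iff_right (by simp)).1 hle
    obtain ⟨c, hc⟩ := pow_dvd_of_le_emultiplicity h3
    refine ⟨c, ?_⟩
    obtain ⟨l, rfl⟩ : ∃ l, n = l + 1 := ⟨n - 1, by omega⟩
    rw [hc, pow_succ, Nat.add_sub_cancel]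
    ring
  refine ⟨x, fun h => hxA (Subgroup.zpowers_le.mpr hzA h), hxp, fun g => ?_⟩
  -- the automorphism group of `⟨a⟩` is abelian
  set c := g * x * g⁻¹ * x⁻¹ with hcdef
  have hr' : ∀ g : P, g⁻¹ * a * g = a ^ r g⁻¹ := fun g => by rw [hr]; group
  have hcA : c ∈ A := by
    refine hCa c ?_
    have e1 : c * a * c⁻¹ = a ^ (r g * (r x * (r g⁻¹ * r x⁻¹))) := by
      rw [← hconj g, ← hconj x, ← hconj g⁻¹, hr x⁻¹, hcdef]; group
    have e2 : a = a ^ (r g * (r g⁻¹ * (r x * r x⁻¹))) := by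
      rw [← hconj g, ← hconj g⁻¹, ← hconj x, hr x⁻¹]; group
    rw [← mul_inv_eq_iff_eq_mul, e1]
    conv_rhs => rw [e2]
    ring_nf
  -- `c` has order dividing `p`
  obtain ⟨i, hi⟩ := hpow c hcA
  set d := x * c * x⁻¹ * c⁻¹ with hd
  have hd' : d = (a ^ (r x - 1)) ^ i := by
    rw [hd, ← hi, hconj, ← zpow_mul, sub_mul, one_mul, zpow_sub]
  have hdp : d ^ p = 1 := by
    rw [hd', ← zpow_natCast, ← zpow_mul, mul_comm i, zpow_mul, zpow_natCast, hc, one_zpow]
  have hdA : d ∈ A := hd' ▸ zpow_mem (zpow_mem haA _) _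
  have hdZ : d ∈ Subgroup.zpowers z := hN ⟨hdA, hdp⟩
  have hdc : ∀ g, g * d = d * g := Subgroup.mem_center_iff.1 ((Subgroup.zpowers_le.mpr hz) hdZ)
  have hxc : x * c * x⁻¹ = d * c := by rw [hd]; group
  have hxk : ∀ k : ℕ, x ^ k * c * (x ^ k)⁻¹ = d ^ k * c := by
    intro k
    induction k with
    | zero => simp
    | succ k ih =>
      calc x ^ (k + 1) * c * (x ^ (k + 1))⁻¹ = x * (x ^ k * c * (x ^ k)⁻¹) * x⁻¹ := by
            rw [pow_succ']; group
        _ = x * (d ^ k * c) * x⁻¹ := by rw [ih]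
        _ = d ^ k * (x * c * x⁻¹) := by
            have : Commute x (d ^ k) := (show Commute x d from hdc x).pow_right k
            rw [← mul_assoc, this.eq]; group
        _ = d ^ (k + 1) * c := by rw [hxc, ← mul_assoc, ← pow_succ]
  have hcx : ∀ k : ℕ, (c * x) ^ k = d ^ (k.choose 2) * (c ^ k * x ^ k) := by
    intro k
    induction k with
    | zero => simp [Nat.choose]
    | succ k ih =>
      have h2 : (k + 1).choose 2 = k + k.choose 2 := by rw [Nat.choose_succ_succ', Nat.choose_one_right]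
      have hdk : Commute (d ^ k) (c ^ k) := ((show Commute d c from (hdc c).symm).pow_pow k k)
      calc (c * x) ^ (k + 1) = (c * x) ^ k * (c * x) := pow_succ _ _
        _ = d ^ (k.choose 2) * (c ^ k * ((x ^ k * c * (x ^ k)⁻¹) * x ^ k) * x) := by rw [ih]; group
        _ = d ^ (k.choose 2) * ((c ^ k * d ^ k) * (c * (x ^ k * x))) := by rw [hxk]; group
        _ = d ^ (k.choose 2) * ((d ^ k * c ^ k) * (c * (x ^ k * x))) := by rw [hdk.eq]
        _ = (d ^ (k.choose 2) * d ^ k) * ((c ^ k * c) * (x ^ k * x)) := by group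
        _ = _ := by rw [h2, add_comm k (k.choose 2), pow_add, pow_succ c, pow_succ x]
  refine hN ⟨hcA, ?_⟩
  have h := hcx p
  rw [show c * x = g * x * g⁻¹ by rw [hcdef]; group, conj_pow, hxp] at h
  obtain ⟨l, hl⟩ := Nat.Prime.dvd_choose_self hp.out (by norm_num) (lt_of_le_of_ne hp.out.two_le hp2.symm)
  rw [hl, pow_mul, hdp, one_pow, one_mul, mul_one] at h
  simpa using h.symm

end Cfsg.Agent.Suzuki
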