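import Cfsg.Agent.Suzuki.SLIndexTv
import Mathlib

/-!
Orbits of the transvections of one centre on cosets, through duality.
-/

set_option autoImplicit false

namespace Cfsg.Agent.Suzuki.SLIdx

open Matrix

variable {F : Type*} [Field F] {n : ℕ}

/-- the annihilator for a pairing -/
def perp {R : Type*} [AddCommGroup R] (τ : F →+ R) (K : AddSubgroup (Fin n → F)) : AddSubgroup (Fin n → F) where
  carrier := {a | ∀ v ∈ K, τ (a ⬝ᵥ v) = 0}
  add_mem' {a b} ha hb v hv := by rw [add_dotProduct, map_add, ha v hv, hb v hv, add_zero]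
  zero_mem' v _ := by rw [zero_dotProduct, map_zero]
  neg_mem' {a} ha v hv := by rw [neg_dotProduct, map_neg, ha v hv, neg_zero]

theorem mem_perp {R : Type*} [AddCommGroup R] {τ : F →+ R} {K : AddSubgroup (Fin n → F)} {a : Fin n → F} :
    a ∈ perp τ K ↔ ∀ v ∈ K, τ (a ⬝ᵥ v) = 0 := Iff.rfl

/-- the trace pairing -/
theorem exists_pairing [Fintype F] : ∃ (p : ℕ) (τ : F →+ ZMod p), (∀ c : F, c ≠ 0 → ∃ b, τ (c * b) ≠ 0) ∧
    (∀ K : AddSubgroup (Fin n → F), Nat.card (perp τ K) * Nat.card K = Fintype.card F ^ n) ∧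
    (∀ K : AddSubgroup (Fin n → F), perp τ (perp τ K) = K) := by
  obtain ⟨p, hp⟩ : ∃ p, p = ringChar F := ⟨_, rfl⟩
  subst hp
  have : Fact (ringChar F).Prime := ⟨CharP.char_is_prime F _⟩
  let : Algebra (ZMod (ringChar F)) F := ZMod.algebra F _
  let tr := Algebra.trace (ZMod (ringChar F)) F
  let B : LinearMap.BilinForm (ZMod (ringChar F)) (Fin n → F) :=
    LinearMap.mk₂ (ZMod (ringChar F)) (fun a v => tr (a ⬝ᵥ v))
      (fun a a' v => by rw [add_dotProduct, map_add])
      (fun c a v => by rw [smul_dotProduct, map_smul])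
      (fun a v v' => by rw [dotProduct_add, map_add])
      (fun c a v => by rw [dotProduct_smul, map_smul])
  have hrefl : B.IsRefl := fun a v h => by
    have : tr (a ⬝ᵥ v) = 0 := h
    rwa [dotProduct_comm] at this
  have htr : ∀ c : F, c ≠ 0 → ∃ b, tr.toAddMonoidHom (c * b) ≠ 0 := fun c hc =>
    FiniteField.trace_to_zmod_nondegenerate F hc
  have hnd : B.Nondegenerate := by
    refine hrefl.nondegenerate_iff_separatingLeft.2 fun a ha => ?_
    funext i
    by_contra hi
    obtain ⟨b, hb⟩ := htr (a i) hi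
    apply hb
    have : tr (a ⬝ᵥ Pi.single i b) = 0 := ha (Pi.single i b)
    rwa [dotProduct_single] at this
  have heq : ∀ K : AddSubgroup (Fin n → F), perp tr.toAddMonoidHom K =
      (B.orthogonal (AddSubgroup.toZModSubmodule _ K)).toAddSubgroup := fun K => by
    ext a
    constructor
    · intro h v hv
      show tr (v ⬝ᵥ a) = 0
      rw [dotProduct_comm]
      exact h v hv
    · intro h v hv
      have : tr (v ⬝ᵥ a) = 0 := h v hv
      rwa [dotProduct_comm] at this
  refine ⟨_, tr.toAddMonoidHom, htr, fun K => ?_, fun K => ?_⟩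
  · let W := AddSubgroup.toZModSubmodule (ringChar F) K
    rw [heq]
    show Nat.card (B.orthogonal W) * Nat.card W = _
    rw [Module.natCard_eq_pow_finrank (K := ZMod (ringChar F)) (V := B.orthogonal W),
      Module.natCard_eq_pow_finrank (K := ZMod (ringChar F)) (V := W), ← pow_add,
      LinearMap.BilinForm.finrank_orthogonal hnd, Nat.sub_add_cancel (Submodule.finrank_le W),
      ← Module.natCard_eq_pow_finrank (K := ZMod (ringChar F)) (V := Fin n → F)]
    simp [Nat.card_eq_fintype_card]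
  · rw [heq, heq]
    apply SetLike.ext
    intro v
    show v ∈ B.orthogonal (B.orthogonal (AddSubgroup.toZModSubmodule (ringChar F) K)) ↔ _
    rw [LinearMap.BilinForm.orthogonal_orthogonal hnd hrefl]
    rfl

variable (z : Fin n)

/-- vectors vanishing at `z` -/
def Zsub : Submodule F (Fin n → F) := LinearMap.ker (LinearMap.proj (R := F) (φ := fun _ : Fin n => F) z)

theorem mem_Zsub {a : Fin n → F} : a ∈ Zsub z ↔ a z = 0 := Iff.rfl

theorem finrank_Zsub : Module.finrank F (Zsub (F := F) z) + 1 = n := by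
  have h := LinearMap.finrank_range_add_finrank_ker (LinearMap.proj (R := F) (φ := fun _ : Fin n => F) z)
  rw [Module.finrank_fin_fun, LinearMap.range_eq_top.2 (fun c => ⟨Pi.single z c, by simp⟩), finrank_top,
    Module.finrank_self] at h
  unfold Zsub
  omega

/-- the standard vector -/
abbrev e0 : Fin n → F := Pi.single z 1

theorem Zsub_not_le {R : Submodule F (Fin n → F)} (hR : R ≤ Zsub z) (h : Module.finrank F R + 1 < n) :
    ¬ Zsub z ≤ (F ∙ e0 (F := F) z) ⊔ R := by
  intro hle
  have : Zsub z ≤ R := fun y hy => by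
    obtain ⟨s, hs, r, hr, e⟩ := Submodule.mem_sup.1 (hle hy)
    obtain ⟨c, rfl⟩ := Submodule.mem_span_singleton.1 hs
    have e' := congrFun e z
    rw [Pi.add_apply, (mem_Zsub z).1 (hR hr), (mem_Zsub z).1 hy] at e'
    simp [e0] at e'
    rw [e', zero_smul, zero_add] at e
    exact e ▸ hr
  have := Submodule.finrank_mono this
  have := finrank_Zsub (F := F) z
  omega

/-- the Levi part fixing the centre and the axis coordinate -/
def InL (g : SpecialLinearGroup (Fin n) F) : Prop :=
  (g : Matrix (Fin n) (Fin n) F) *ᵥ e0 z = e0 z ∧ ∀ y, ((g : Matrix (Fin n) (Fin n) F) *ᵥ y) z = y z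

theorem InL.inv {g : SpecialLinearGroup (Fin n) F} (h : InL z g) : InL z g⁻¹ := by
  have e : ∀ y, (g : Matrix (Fin n) (Fin n) F) *ᵥ ((↑g⁻¹ : Matrix (Fin n) (Fin n) F) *ᵥ y) = y := fun y => by
    rw [mulVec_mulVec, mul_inv_self', one_mulVec]
  refine ⟨mulVecLin_injective g ?_, fun y => ?_⟩
  · simp only [Matrix.mulVecLin_apply]
    rw [e, h.1]
  · conv_rhs => rw [← e y, h.2]

theorem exists_L (hn : 3 ≤ n) {a b : Fin n → F} (ha : a z = 0) (hb : b z = 0) (ha' : a ≠ 0) (hb' : b ≠ 0) :
    ∃ g : SpecialLinearGroup (Fin n) F, InL z g ∧ (g : Matrix (Fin n) (Fin n) F) *ᵥ a = b := by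
  have hnot : ∀ {a : Fin n → F}, a z = 0 → a ≠ 0 → a ∉ F ∙ e0 (F := F) z ∧ ¬ Zsub z ≤ (F ∙ e0 (F := F) z) ⊔ F ∙ a := by
    intro a ha ha'
    refine ⟨fun h => ?_, Zsub_not_le z ((Submodule.span_singleton_le_iff_mem _ _).2 ha) ?_⟩
    · obtain ⟨c, rfl⟩ := Submodule.mem_span_singleton.1 h
      simp [e0] at ha
      simp [ha] at ha'
    · rw [finrank_span_singleton ha']; omega
  obtain ⟨g, hfix, hT, e⟩ := move (T := Zsub z) (show a ∈ Zsub z from ha) (show b ∈ Zsub z from hb) (hnot ha ha').1 (hnot hb hb').1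
    (hnot ha ha').2 (hnot hb hb').2
  refine ⟨g, ⟨hfix _ (Submodule.mem_span_singleton_self _), fun y => ?_⟩, e⟩
  have := (mem_Zsub z).1 (hT y)
  rwa [Pi.sub_apply, sub_eq_zero] at this

theorem exists_L_fix (hn : 4 ≤ n) {a w w' : Fin n → F} (ha : a z = 0) (hw : w z = 0) (hw' : w' z = 0)
    (hwa : w ∉ F ∙ a) (hw'a : w' ∉ F ∙ a) :
    ∃ g : SpecialLinearGroup (Fin n) F, InL z g ∧ (g : Matrix (Fin n) (Fin n) F) *ᵥ a = a ∧ (g : Matrix (Fin n) (Fin n) F) *ᵥ w = w' := by
  have hnot : ∀ {w : Fin n → F}, w z = 0 → w ∉ F ∙ a →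
      w ∉ (F ∙ e0 (F := F) z) ⊔ F ∙ a ∧ ¬ Zsub z ≤ (F ∙ e0 (F := F) z) ⊔ (F ∙ a) ⊔ F ∙ w := by
    intro w hw hwa
    refine ⟨fun h => hwa ?_, ?_⟩
    · obtain ⟨s, hs, r, hr, e⟩ := Submodule.mem_sup.1 h
      obtain ⟨c, rfl⟩ := Submodule.mem_span_singleton.1 hs
      obtain ⟨k, rfl⟩ := Submodule.mem_span_singleton.1 hr
      have e' := congrFun e z
      simp [e0, ha, hw] at e'
      rw [← e, e', zero_smul, zero_add]
      exact hr
    · rw [sup_assoc]
      refine Zsub_not_le z (sup_le ((Submodule.span_singleton_le_iff_mem _ _).2 ha)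
        ((Submodule.span_singleton_le_iff_mem _ _).2 hw)) ?_
      have h2 := Submodule.finrank_add_le_finrank_add_finrank (F ∙ a) (F ∙ w)
      have h3 : ∀ v : Fin n → F, Module.finrank F (F ∙ v) ≤ 1 := fun v => by
        simpa using finrank_span_le_card ({v} : Set (Fin n → F))
      have := h3 a
      have := h3 w
      omega
  obtain ⟨g, hfix, hT, e⟩ := move (T := Zsub z) (show w ∈ Zsub z from hw) (show w' ∈ Zsub z from hw') (hnot hw hwa).1 (hnot hw' hw'a).1
    (hnot hw hwa).2 (hnot hw' hw'a).2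
  refine ⟨g, ⟨hfix _ (Submodule.mem_sup_left (Submodule.mem_span_singleton_self _)), fun y => ?_⟩,
    hfix _ (Submodule.mem_sup_right (Submodule.mem_span_singleton_self _)), e⟩
  have := (mem_Zsub z).1 (hT y)
  rwa [Pi.sub_apply, sub_eq_zero] at this

/-- the transvections of centre `e0` indexed by all functionals -/
noncomputable def uHom : Multiplicative (Fin n → F) →* SpecialLinearGroup (Fin n) F :=
  MonoidHom.mk' (fun φ => tv (e0 z) (φ.toAdd - φ.toAdd z • e0 z)) fun φ ψ => by
    rw [tv_mul (by simp [e0]) (by simp [e0])]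
    congr 1
    simp [add_smul]
    abel

theorem uHom_apply (φ : Fin n → F) : uHom z (.ofAdd φ) = tv (e0 z) (φ - φ z • e0 z) := rfl

theorem InL.conj {g : SpecialLinearGroup (Fin n) F} (h : InL z g) (φ : Fin n → F) :
    g * uHom z (.ofAdd (φ ᵥ* (g : Matrix (Fin n) (Fin n) F))) * g⁻¹ = uHom z (.ofAdd φ) := by
  have h1 : (φ ᵥ* (g : Matrix (Fin n) (Fin n) F)) z = φ z := by
    have := dotProduct_mulVec φ (g : Matrix (Fin n) (Fin n) F) (e0 z)
    rw [h.1] at this
    simpa [e0] using this.symm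
  have h2 : e0 (F := F) z ᵥ* (g : Matrix (Fin n) (Fin n) F) = e0 z := by
    funext j
    have := h.2 (Pi.single j 1)
    rw [mulVec_single_one, Matrix.col_apply] at this
    simpa [e0, Matrix.single_one_vecMul, Pi.single_comm, Pi.single_apply, eq_comm] using this
  rw [uHom_apply, uHom_apply, tv_conj g (by simp [e0]), h.1, h1]
  congr 1
  rw [Matrix.sub_vecMul, Matrix.vecMul_vecMul, mul_inv_self', Matrix.vecMul_one, Matrix.smul_vecMul]
  rw [show e0 (F := F) z ᵥ* (↑g⁻¹ : Matrix (Fin n) (Fin n) F) = e0 z by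
    conv_lhs => rw [← h2]
    rw [Matrix.vecMul_vecMul, mul_inv_self', Matrix.vecMul_one]]

set_option maxHeartbeats 1600000

section Orbits

variable [Fintype F] (H : Subgroup (SpecialLinearGroup (Fin n) F))

/-- functionals whose transvection fixes a coset -/
noncomputable def Kstab (x : SpecialLinearGroup (Fin n) F ⧸ H) : AddSubgroup (Fin n → F) where
  carrier := {φ | uHom z (.ofAdd φ) • x = x}
  add_mem' {a b} ha hb := by
    show uHom z (Multiplicative.ofAdd a * Multiplicative.ofAdd b) • x = x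
    rw [map_mul, mul_smul, hb, ha]
  zero_mem' := by
    show uHom z 1 • x = x
    rw [map_one, one_smul]
  neg_mem' {a} ha := by
    show uHom z (Multiplicative.ofAdd a)⁻¹ • x = x
    rw [map_inv, inv_smul_eq_iff, ha]

theorem mem_Kstab {x : SpecialLinearGroup (Fin n) F ⧸ H} {φ : Fin n → F} :
    φ ∈ Kstab z H x ↔ uHom z (.ofAdd φ) • x = x := Iff.rfl

theorem mem_Kstab_mk {g : SpecialLinearGroup (Fin n) F} {φ : Fin n → F} :
    φ ∈ Kstab z H (QuotientGroup.mk g) ↔ g⁻¹ * uHom z (.ofAdd φ) * g ∈ H := by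
  rw [mem_Kstab, MulAction.Quotient.smul_mk, QuotientGroup.eq]
  rw [← inv_mem_iff (x := g⁻¹ * uHom z (.ofAdd φ) * g)]
  simp only [smul_eq_mul, _root_.mul_inv_rev, inv_inv, mul_assoc]

theorem trichotomy (hn : 3 ≤ n) (hH : H ≠ ⊤) :
    Fintype.card F ^ n - 1 ≤ H.index * (Fintype.card F - 1) ∨
    ((∀ d φ, d ≠ 0 → φ ⬝ᵥ d = 0 → tv d φ ∈ H → φ = 0) ∧ H.index = Fintype.card F ^ (n - 1)) ∨
    ∀ d : Fin n → F, d ≠ 0 → ∃ b, b ∉ F ∙ d ∧ ∀ φ, φ ⬝ᵥ d = 0 → (tv d φ ∈ H ↔ φ ⬝ᵥ b = 0) := by
  classical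
  obtain ⟨z⟩ : Nonempty (Fin n) := ⟨⟨0, by omega⟩⟩
  by_cases hbound : Fintype.card F ^ n - 1 ≤ H.index * (Fintype.card F - 1)
  · exact Or.inl hbound
  obtain ⟨p, τ, hτ, hcard, hpp⟩ := exists_pairing (F := F) (n := n)
  set q := Fintype.card F with hq
  have hq1 : 1 < q := Fintype.one_lt_card
  have htrans : ∀ d : Fin n → F, d ≠ 0 → ∃ g : SpecialLinearGroup (Fin n) F,
      (g : Matrix (Fin n) (Fin n) F) *ᵥ e0 z = d ∧ ∀ φ, φ ⬝ᵥ d = 0 →
        (tv d φ ∈ H ↔ (φ ᵥ* (g : Matrix (Fin n) (Fin n) F)) ∈ Kstab z H (QuotientGroup.mk g⁻¹)) ∧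
        (φ ᵥ* (g : Matrix (Fin n) (Fin n) F)) z = 0 := by
    intro d hd
    obtain ⟨g, hg⟩ := exists_map_vec (by omega : 2 ≤ n) (a := e0 (F := F) z) (by simp [e0]) hd
    refine ⟨g, hg, fun φ hφ => ?_⟩
    have h0 : (φ ᵥ* (g : Matrix (Fin n) (Fin n) F)) z = 0 := by
      have := dotProduct_mulVec φ (g : Matrix (Fin n) (Fin n) F) (e0 z)
      rw [hg, hφ] at this
      simpa [e0] using this.symm
    refine ⟨?_, h0⟩
    rw [mem_Kstab_mk, uHom_apply, h0, zero_smul, sub_zero, inv_inv, tv_conj g (by simp [e0, h0]), hg,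
      Matrix.vecMul_vecMul, mul_inv_self', Matrix.vecMul_one]
  have hnofix : ∀ x, ∃ φ, φ ∉ Kstab z H x := by
    intro x
    by_contra hc
    push Not at hc
    induction x using QuotientGroup.induction_on with
    | H g =>
      refine hbound (index_of_full (by omega : 2 ≤ n) hH (d := (↑g⁻¹ : Matrix (Fin n) (Fin n) F) *ᵥ e0 z) ?_ ?_)
      · intro h
        have := congrArg ((g : Matrix (Fin n) (Fin n) F) *ᵥ ·) h
        simp only [mulVec_mulVec, mul_inv_self', one_mulVec, mulVec_zero] at this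
        simpa [e0] using congrFun this z
      intro φ hφ
      have h0 : (φ ᵥ* (↑g⁻¹ : Matrix (Fin n) (Fin n) F)) z = 0 := by
        have := dotProduct_mulVec φ (↑g⁻¹ : Matrix (Fin n) (Fin n) F) (e0 z)
        rw [hφ] at this
        simpa [e0] using this.symm
      have := (mem_Kstab_mk z H).1 (hc (φ ᵥ* (↑g⁻¹ : Matrix (Fin n) (Fin n) F)))
      rw [uHom_apply, h0, zero_smul, sub_zero] at this
      have e := tv_conj g⁻¹ (d := e0 z) (φ := φ ᵥ* (↑g⁻¹ : Matrix (Fin n) (Fin n) F)) (by rw [dotProduct_single, mul_one, h0])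
      rw [inv_inv, Matrix.vecMul_vecMul, inv_mul_self, Matrix.vecMul_one] at e
      rwa [e] at this
  -- the dual subgroups
  let X := SpecialLinearGroup (Fin n) F ⧸ H
  letI : MulAction (Multiplicative (Fin n → F)) X := MulAction.compHom X (uHom z)
  have hstab : ∀ x : X, (MulAction.stabilizer (Multiplicative (Fin n → F)) x).toAddSubgroup' = Kstab z H x :=
    fun x => rfl
  let Wx : X → AddSubgroup (Fin n → F) := fun x => perp τ (Kstab z H x)
  have hline : ∀ x : X, ∀ c : F, c • e0 (F := F) z ∈ Kstab z H x := fun x c => by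
    rw [mem_Kstab, uHom_apply]
    simp [e0, tv_zero]
  have hWz : ∀ x, ∀ a ∈ Wx x, a z = 0 := fun x a ha => by
    by_contra h
    obtain ⟨b, hb⟩ := hτ _ h
    apply hb
    have := ha _ (hline x b)
    rw [dotProduct_smul, dotProduct_single, smul_eq_mul, mul_one, mul_comm] at this
    exact this
  have hWcard : ∀ x, Nat.card (Wx x) = Nat.card (MulAction.orbit (Multiplicative (Fin n → F)) x) := fun x => by
    have h1 := hcard (Kstab z H x)
    have h2 := Subgroup.card_mul_index (MulAction.stabilizer (Multiplicative (Fin n → F)) x)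
    rw [MulAction.index_stabilizer, ← Nat.card_coe_set_eq] at h2
    have h3 : Nat.card (MulAction.stabilizer (Multiplicative (Fin n → F)) x) = Nat.card (Kstab z H x) := rfl
    have h4 : Nat.card (Multiplicative (Fin n → F)) = q ^ n := by simp [Nat.card_eq_fintype_card, hq]
    rw [h3, h4, ← h1, mul_comm] at h2
    exact (Nat.eq_of_mul_eq_mul_right Nat.card_pos h2).symm
  let Ω := MulAction.orbitRel.Quotient (Multiplicative (Fin n → F)) X
  haveI : Fintype Ω := Fintype.ofFinite Ω
  have hKorb : ∀ x y : X, (Quotient.mk'' x : Ω) = Quotient.mk'' y → Kstab z H x = Kstab z H y := by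
    intro x y h
    obtain ⟨u, hu⟩ : x ∈ MulAction.orbit (Multiplicative (Fin n → F)) y := Quotient.exact' h
    have hu' : uHom z u • y = x := hu
    ext φ
    rw [mem_Kstab, mem_Kstab, ← hu', smul_smul, ← map_mul, mul_comm, map_mul, mul_smul, smul_left_cancel_iff]
  let W : Ω → AddSubgroup (Fin n → F) := fun o => Wx o.out
  have hW : ∀ x : X, W (Quotient.mk'' x) = Wx x := fun x => by
    show perp τ (Kstab z H _) = perp τ (Kstab z H _)
    rw [hKorb _ x (Quotient.out_eq' _)]
  have hindex : H.index = ∑ o : Ω, Nat.card (W o) := by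
    rw [Subgroup.index, Nat.card_congr (MulAction.selfEquivSigmaOrbits (Multiplicative (Fin n → F)) X), Nat.card_sigma]
    exact Finset.sum_congr rfl fun o _ => (hWcard o.out).symm
  have hWne : ∀ o : Ω, ∃ a ∈ W o, a ≠ 0 := fun o => by
    by_contra hc
    push Not at hc
    obtain ⟨φ, hφ⟩ := hnofix o.out
    apply hφ
    have : Kstab z H o.out = perp τ (W o) := (hpp _).symm
    rw [this]
    intro a ha
    rw [hc a ha, dotProduct_zero, map_zero]
  -- equivariance
  have hequiv : ∀ g : SpecialLinearGroup (Fin n) F, InL z g → ∀ x : X, ∀ a ∈ Wx x, (g : Matrix (Fin n) (Fin n) F) *ᵥ a ∈ Wx (g • x) := by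
    intro g hg x a ha φ hφ
    rw [dotProduct_comm, dotProduct_mulVec, dotProduct_comm]
    apply ha
    rw [mem_Kstab, ← hg.conj z φ, mul_smul, mul_smul, inv_smul_smul, smul_left_cancel_iff] at hφ
    exact hφ
  have hmap : ∀ g : SpecialLinearGroup (Fin n) F, InL z g → ∀ o o' : Ω, (Quotient.mk'' (g • o.out) : Ω) = Quotient.mk'' (g • o'.out) → o = o' := by
    intro g hg o o' e
    obtain ⟨u, hu⟩ : g • o.out ∈ MulAction.orbit (Multiplicative (Fin n → F)) (g • o'.out) := Quotient.exact' e
    have hu' : uHom z (.ofAdd u.toAdd) • g • o'.out = g • o.out := hu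
    rw [← hg.conj z u.toAdd, mul_smul, mul_smul, inv_smul_smul, smul_left_cancel_iff] at hu'
    rw [← Quotient.out_eq' o, ← Quotient.out_eq' o']
    exact Quotient.sound' ⟨_, hu'⟩
  let Z0 : Finset (Fin n → F) := Finset.univ.filter fun a => a z = 0 ∧ a ≠ 0
  have hZ0 : ∀ {a}, a ∈ Z0 ↔ a z = 0 ∧ a ≠ 0 := fun {a} => by simp [Z0]
  let c : (Fin n → F) → ℕ := fun a => (Finset.univ.filter fun o : Ω => a ∈ W o).card
  have hcmono : ∀ a ∈ Z0, ∀ b ∈ Z0, c a ≤ c b := by
    intro a ha b hb
    obtain ⟨g, hg, hgab⟩ := exists_L z hn (hZ0.1 ha).1 (hZ0.1 hb).1 (hZ0.1 ha).2 (hZ0.1 hb).2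
    refine Finset.card_le_card_of_injOn (fun o => Quotient.mk'' (g • o.out)) (fun o ho => ?_)
      (fun o _ o' _ e => hmap g hg o o' e)
    simp only [Finset.coe_filter, Finset.mem_univ, true_and, Set.mem_setOf_eq] at ho ⊢
    rw [hW, ← hgab]
    exact hequiv g hg _ a ho
  have hWmem : ∀ o : Ω, ∀ a ∈ W o, a ≠ 0 → a ∈ Z0 := fun o a ha h0 => hZ0.2 ⟨hWz _ a ha, h0⟩
  have hWfil : ∀ o : Ω, Nat.card (W o) = (Z0.filter (· ∈ W o)).card + 1 := fun o => by
    rw [Nat.card_eq_fintype_card, Fintype.card_subtype, ← Finset.card_erase_add_one (a := (0 : Fin n → F)) (by simp)]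
    congr 2
    ext a
    simp only [Finset.mem_erase, Finset.mem_filter, Finset.mem_univ, true_and]
    exact ⟨fun h => ⟨hWmem o a h.2 h.1, h.2⟩, fun h => ⟨(hZ0.1 h.1).2, h.2⟩⟩
  have hdouble : H.index = Fintype.card Ω + ∑ a ∈ Z0, c a := by
    rw [hindex, Finset.sum_congr rfl (fun o _ => hWfil o), Finset.sum_add_distrib, Finset.sum_const, Finset.card_univ,
      smul_eq_mul, mul_one, add_comm]
    congr 1
    simp only [c, Finset.card_filter]
    exact Finset.sum_comm
  have hZcard : Z0.card + 1 = q ^ (n - 1) := by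
    have h1 : Nat.card (Zsub (F := F) z) = q ^ (n - 1) := by
      rw [Module.natCard_eq_pow_finrank (K := F), Nat.card_eq_fintype_card, ← hq,
        show Module.finrank F (Zsub (F := F) z) = n - 1 from by have := finrank_Zsub (F := F) z; omega]
    rw [← h1, Nat.card_eq_fintype_card, Fintype.card_subtype,
      ← Finset.card_insert_of_notMem (s := Z0) (a := (0 : Fin n → F)) (by simp [Z0])]
    apply congrArg Finset.card
    ext a
    by_cases h : a = 0 <;> simp [h, Z0, mem_Zsub]
  have hqn : q ^ n = q * q ^ (n - 1) := by rw [← pow_succ']; congr 1; omega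
  have hQ : q ≤ q ^ (n - 1) := Nat.le_self_pow (by omega) q
  have ho0 : Nonempty Ω := ⟨Quotient.mk'' (QuotientGroup.mk 1)⟩
  obtain ⟨a₀, ha₀, ha₀0⟩ := hWne ho0.some
  have ha₀Z := hWmem _ a₀ ha₀ ha₀0
  have hc1 : ∀ a ∈ Z0, c a = c a₀ := fun a ha => le_antisymm (hcmono a ha a₀ ha₀Z) (hcmono a₀ ha₀Z a ha)
  have hcsum : ∑ a ∈ Z0, c a = Z0.card * c a₀ := by
    rw [Finset.sum_congr rfl hc1, Finset.sum_const, smul_eq_mul]
  have hcpos : 1 ≤ c a₀ := Finset.card_pos.2 ⟨ho0.some, Finset.mem_filter.2 ⟨Finset.mem_univ _, ha₀⟩⟩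
  have hc : c a₀ = 1 := by
    by_contra hne
    apply hbound
    have hr : 1 ≤ Fintype.card Ω := Fintype.card_pos
    have h2 : 1 + Z0.card * 2 ≤ H.index := by
      rw [hdouble, hcsum]
      exact add_le_add hr (Nat.mul_le_mul_left _ (by omega))
    refine le_trans ?_ (Nat.mul_le_mul_right _ h2)
    rw [hqn, ← hZcard]
    obtain ⟨k, hk⟩ : ∃ k, q = k + 2 := ⟨q - 2, by omega⟩
    rw [hk]
    show (k + 2) * (Z0.card + 1) - 1 ≤ (1 + Z0.card * 2) * (k + 1)
    rw [Nat.sub_le_iff_le_add]
    ring_nf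
    nlinarith
  have huniq : ∀ a ∈ Z0, ∀ o o' : Ω, a ∈ W o → a ∈ W o' → o = o' := fun a ha o o' h h' =>
    Finset.card_le_one.1 (le_of_eq ((hc1 a ha).trans hc)) o (Finset.mem_filter.2 ⟨Finset.mem_univ _, h⟩)
      o' (Finset.mem_filter.2 ⟨Finset.mem_univ _, h'⟩)
  have hexi : ∀ a ∈ Z0, ∃ o : Ω, a ∈ W o := fun a ha => by
    have : 0 < c a := by rw [hc1 a ha, hc]; norm_num
    obtain ⟨o, ho⟩ := Finset.card_pos.1 this
    exact ⟨o, (Finset.mem_filter.1 ho).2⟩
  by_cases hbig : ∃ o : Ω, ∃ a ∈ W o, a ≠ 0 ∧ ∃ w ∈ W o, w ∉ F ∙ a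
  · -- a single regular orbit
    right; left
    obtain ⟨o, a, ha, ha0, w, hw, hwa⟩ := hbig
    have haZ := hWmem o a ha ha0
    have haz := (hZ0.1 haZ).1
    have hwz := hWz _ w hw
    have hfixmem : ∀ g : SpecialLinearGroup (Fin n) F, InL z g → (g : Matrix (Fin n) (Fin n) F) *ᵥ a = a →
        ∀ y ∈ W o, (g : Matrix (Fin n) (Fin n) F) *ᵥ y ∈ W o := by
      intro g hg e y hy
      have ho : (Quotient.mk'' (g • o.out) : Ω) = o := by
        refine huniq a haZ _ _ ?_ ha
        rw [hW, ← e]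
        exact hequiv g hg _ a ha
      rw [← ho, hW]
      exact hequiv g hg _ y hy
    have hlineW : ∀ t : F, t • a ∈ W o := by
      intro t
      have hnot : w ∉ (F ∙ e0 (F := F) z) ⊔ F ∙ a := by
        intro h
        obtain ⟨s, hs, r, hr, e⟩ := Submodule.mem_sup.1 h
        obtain ⟨k, rfl⟩ := Submodule.mem_span_singleton.1 hs
        obtain ⟨k', rfl⟩ := Submodule.mem_span_singleton.1 hr
        have e' := congrFun e z
        simp [e0, haz, hwz] at e'
        rw [e', zero_smul, zero_add] at e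
        exact hwa (e ▸ hr)
      obtain ⟨φ, hφw, hφ⟩ := exists_dot_of_notMem hnot
      have h0 : (t • φ) ⬝ᵥ a = 0 := by
        rw [smul_dotProduct, hφ a (Submodule.mem_sup_right (Submodule.mem_span_singleton_self a)), smul_zero]
      have hg : InL z (tv a (t • φ)) := by
        refine ⟨?_, fun y => ?_⟩
        · rw [tv_mulVec h0, smul_dotProduct, hφ _ (Submodule.mem_sup_left (Submodule.mem_span_singleton_self _))]
          simp
        · rw [tv_mulVec h0]
          simp [haz]
      have := hfixmem _ hg (by rw [tv_mulVec h0, h0, zero_smul, add_zero]) w hw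
      rw [tv_mulVec h0, smul_dotProduct, hφw, smul_eq_mul, mul_one] at this
      simpa using sub_mem this hw
    have hall : ∀ b ∈ Z0, b ∈ W o := by
      by_cases h4 : 4 ≤ n
      · intro b hb
        by_cases hba : b ∈ F ∙ a
        · obtain ⟨k, rfl⟩ := Submodule.mem_span_singleton.1 hba
          exact hlineW k
        · obtain ⟨g, hg, e, e'⟩ := exists_L_fix z h4 haz hwz (hZ0.1 hb).1 hwa hba
          rw [← e']
          exact hfixmem g hg e w hw
      · intro b hb
        obtain ⟨o', ho'⟩ := hexi b hb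
        by_contra hbo
        have hne : o' ≠ o := fun e => hbo (e ▸ ho')
        obtain ⟨g, hg, hgab⟩ := exists_L z hn haz (hZ0.1 hb).1 ha0 (hZ0.1 hb).2
        have ho'' : (Quotient.mk'' (g • o.out) : Ω) = o' := by
          refine huniq b hb _ _ ?_ ho'
          rw [hW, ← hgab]
          exact hequiv g hg _ a ha
        have hbig1 : q + 1 ≤ Nat.card (W o) := by
          rw [Nat.card_eq_fintype_card, Fintype.card_subtype]
          refine le_trans ?_ (Finset.card_le_card (s := insert w (Finset.univ.image fun t : F => t • a)) ?_)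
          · rw [Finset.card_insert_of_notMem, Finset.card_image_of_injective _
              (fun s t e => smul_left_injective F ha0 e), Finset.card_univ]
            rintro h
            obtain ⟨t, -, e⟩ := Finset.mem_image.1 h
            exact hwa (Submodule.mem_span_singleton.2 ⟨t, e⟩)
          · intro y hy
            simp only [Finset.mem_insert, Finset.mem_image, Finset.mem_univ, true_and] at hy
            simp only [Finset.mem_filter, Finset.mem_univ, true_and]
            rcases hy with rfl | ⟨t, rfl⟩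
            exacts [hw, hlineW t]
        have hbig2 : Nat.card (W o) ≤ Nat.card (W o') := by
          refine Nat.card_le_card_of_injective (fun y => ⟨(g : Matrix (Fin n) (Fin n) F) *ᵥ y.1, ?_⟩) fun y y' e => ?_
          · rw [← ho'', hW]
            exact hequiv g hg _ _ y.2
          · exact Subtype.ext (mulVecLin_injective g (congrArg Subtype.val e :))
        have hinj : Nat.card (W o) * Nat.card (W o') ≤ q ^ (n - 1) := by
          rw [← hZcard, ← Nat.card_prod]
          have : Z0.card + 1 = Nat.card {y : Fin n → F // y z = 0} := by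
            rw [Nat.card_eq_fintype_card, Fintype.card_subtype,
              ← Finset.card_insert_of_notMem (s := Z0) (a := (0 : Fin n → F)) (by simp [Z0])]
            apply congrArg Finset.card
            ext y
            by_cases h : y = 0 <;> simp [h, Z0]
          rw [this]
          refine Nat.card_le_card_of_injective (fun y => ⟨y.1.1 + y.2.1, by
            simp [hWz _ _ y.1.2, hWz _ _ y.2.2]⟩) ?_
          rintro ⟨⟨y, hy⟩, ⟨y', hy'⟩⟩ ⟨⟨x, hx⟩, ⟨x', hx'⟩⟩ e
          have e' : y - x = x' - y' := by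
            have : y + y' = x + x' := congrArg Subtype.val e
            linear_combination (norm := abel) this
          have h0 : y - x = 0 := by
            by_contra h
            have h' := sub_mem hy hx
            exact hne (huniq _ (hWmem o _ h' h) o' o (e' ▸ sub_mem hx' hy') h')
          rw [h0, eq_comm, sub_eq_zero] at e'
          rw [sub_eq_zero] at h0
          subst h0 e'
          rfl
        have h3 : n - 1 = 2 := by omega
        rw [h3] at hinj
        have := Nat.mul_le_mul hbig1 (hbig1.trans hbig2)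
        nlinarith
    have hone : ∀ o' : Ω, o' = o := fun o' => by
      obtain ⟨b, hb, hb0⟩ := hWne o'
      exact huniq b (hWmem o' b hb hb0) o' o hb (hall b (hWmem o' b hb hb0))
    have hr : Fintype.card Ω = 1 := Fintype.card_eq_one_iff.2 ⟨o, hone⟩
    refine ⟨fun d φ hd hφ hmem => ?_, by rw [hdouble, hcsum, hc, hr, mul_one, add_comm, hZcard]⟩
    obtain ⟨g, -, hg'⟩ := htrans d hd
    obtain ⟨h1, h0⟩ := hg' φ hφ
    set x : X := QuotientGroup.mk g⁻¹
    have hK := h1.1 hmem
    have hWo : Wx x = W o := by rw [← hW x, hone (Quotient.mk'' x)]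
    rw [show Kstab z H x = perp τ (Wx x) from (hpp _).symm, hWo] at hK
    have hzero : φ ᵥ* (g : Matrix (Fin n) (Fin n) F) = 0 := by
      funext i
      by_cases hiz : i = z
      · subst hiz; exact h0
      by_contra hi
      obtain ⟨b, hb⟩ := hτ _ hi
      apply hb
      have hmem' : (Pi.single i b : Fin n → F) ∈ W o := by
        by_cases hb0 : b = 0
        · rw [hb0, Pi.single_zero]; exact zero_mem _
        · exact hall _ (hZ0.2 ⟨by simp [Ne.symm hiz], by simpa using hb0⟩)
      have := hK _ hmem'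
      simpa using this
    have := congrArg (· ᵥ* (↑g⁻¹ : Matrix (Fin n) (Fin n) F)) hzero
    simpa [Matrix.vecMul_vecMul, mul_inv_self', -Matrix.SpecialLinearGroup.coe_inv] using this
  · -- lines
    push Not at hbig
    have hle : ∀ o : Ω, Nat.card (W o) ≤ q := fun o => by
      obtain ⟨a, ha, ha0⟩ := hWne o
      refine le_trans (Nat.card_mono (Set.toFinite _) (t := ((F ∙ a : Submodule F (Fin n → F)) : Set (Fin n → F)))
        fun w hw => hbig o a ha ha0 w hw) ?_
      rw [SetLike.coe_sort_coe, Module.natCard_eq_pow_finrank (K := F), finrank_span_singleton ha0,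
        Nat.card_eq_fintype_card, pow_one]
    have hsum : H.index = Fintype.card Ω + Z0.card := by rw [hdouble, hcsum, hc, mul_one]
    have hrle : Z0.card ≤ Fintype.card Ω * (q - 1) := by
      have h1 : ∑ o : Ω, Nat.card (W o) ≤ Fintype.card Ω * q := by
        refine le_trans (Finset.sum_le_sum fun o _ => hle o) ?_
        simp
      rw [← hindex, hsum] at h1
      rw [Nat.mul_sub, mul_one]
      omega
    have hfull : Fintype.card Ω * q ≤ H.index := by
      by_contra hlt
      apply hbound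
      have hlt' : Z0.card < Fintype.card Ω * (q - 1) := by
        rw [Nat.mul_sub, mul_one]
        omega
      have hdvd : q - 1 ∣ Z0.card := by
        have := Nat.sub_dvd_pow_sub_pow q 1 (n - 1)
        rwa [one_pow, ← hZcard, Nat.add_sub_cancel] at this
      obtain ⟨k, hk⟩ := hdvd
      have hkr : k + 1 ≤ Fintype.card Ω := by
        by_contra h
        have : Fintype.card Ω * (q - 1) ≤ Z0.card := by
          rw [hk, mul_comm]; exact Nat.mul_le_mul_left _ (by omega)
        omega
      rw [hsum, hqn, ← hZcard]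
      refine le_trans ?_ (Nat.mul_le_mul_right _ (Nat.add_le_add_right hkr _))
      obtain ⟨j, hj⟩ : ∃ j, q = j + 1 := ⟨q - 1, by omega⟩
      rw [hk, hj, Nat.add_sub_cancel, Nat.sub_le_iff_le_add]
      ring_nf
      nlinarith
    have heq : ∀ o : Ω, Nat.card (W o) = q := fun o => by
      by_contra h
      have h1 : ∑ o : Ω, Nat.card (W o) < ∑ _o : Ω, q :=
        Finset.sum_lt_sum (fun o _ => hle o) ⟨o, Finset.mem_univ _, lt_of_le_of_ne (hle o) h⟩
      rw [← hindex, Finset.sum_const, Finset.card_univ, smul_eq_mul] at h1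
      omega
    right; right
    intro d hd
    obtain ⟨g, hge, hg'⟩ := htrans d hd
    set x : X := QuotientGroup.mk g⁻¹
    obtain ⟨a, ha, ha0⟩ := hWne (Quotient.mk'' x)
    have haz := hWz _ a ha
    have hWline : ∀ t : F, t • a ∈ Wx x := by
      intro t
      rw [← hW x]
      have hset : ((W (Quotient.mk'' x)) : Set (Fin n → F)) = ((F ∙ a : Submodule F (Fin n → F)) : Set (Fin n → F)) := by
        refine Set.eq_of_subset_of_ncard_le (fun w hw => hbig _ a ha ha0 w hw) ?_ (Set.toFinite _)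
        rw [← Nat.card_coe_set_eq, ← Nat.card_coe_set_eq]
        show Nat.card (F ∙ a) ≤ Nat.card (W _)
        rw [heq, Module.natCard_eq_pow_finrank (K := F), finrank_span_singleton ha0, Nat.card_eq_fintype_card, pow_one]
      show t • a ∈ ((W (Quotient.mk'' x)) : Set (Fin n → F))
      rw [hset]
      exact Submodule.smul_mem _ _ (Submodule.mem_span_singleton_self a)
    refine ⟨(g : Matrix (Fin n) (Fin n) F) *ᵥ a, fun h => ?_, fun φ hφ => ?_⟩
    · obtain ⟨k, hk⟩ := Submodule.mem_span_singleton.1 h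
      have : k • e0 (F := F) z = a := mulVecLin_injective g (by
        show (g : Matrix (Fin n) (Fin n) F) *ᵥ (k • e0 z) = (g : Matrix (Fin n) (Fin n) F) *ᵥ a
        rw [mulVec_smul, hge, hk])
      rw [← this] at haz ha0
      simp [e0] at haz
      simp [haz] at ha0
    · rw [(hg' φ hφ).1, dotProduct_mulVec, show Kstab z H x = perp τ (Wx x) from (hpp _).symm]
      constructor
      · intro h
        by_contra hne
        obtain ⟨b, hb⟩ := hτ _ hne
        apply hb
        have := h _ (hWline b)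
        rwa [dotProduct_smul, smul_eq_mul, mul_comm] at this
      · intro h w hw
        rw [← hW x] at hw
        obtain ⟨k, rfl⟩ := Submodule.mem_span_singleton.1 (hbig _ a ha ha0 w hw)
        rw [dotProduct_smul, h, smul_zero, map_zero]

end Orbits

end Cfsg.Agent.Suzuki.SLIdx
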