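import Cfsg.Agent.Suzuki.SLIndexTv
import Mathlib

/-!
No action of `SL_n` on `q^(n-1)` points where transvections fix no point, apart from `SL_4(2)`.
-/

set_option autoImplicit false

namespace Cfsg.Agent.Suzuki.SLIdx

open Matrix

variable {F : Type*} [Field F] {n : ℕ}

/-- supported on two indices -/
def Supp (i j : Fin n) (v : Fin n → F) : Prop := ∀ k, k ≠ i → k ≠ j → v k = 0

theorem single_mulVec_congr {A : SpecialLinearGroup (Fin n) F} {i j : Fin n}
    (hi : (A : Matrix (Fin n) (Fin n) F) *ᵥ Pi.single i 1 = Pi.single i 1)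
    (hj : (A : Matrix (Fin n) (Fin n) F) *ᵥ Pi.single j 1 = Pi.single j 1) {v : Fin n → F} (hv : Supp i j v)
    (hij : i ≠ j) : (A : Matrix (Fin n) (Fin n) F) *ᵥ v = v := by
  have e : v = v i • Pi.single i 1 + v j • Pi.single j 1 := by
    funext k
    by_cases hki : k = i
    · subst hki; simp [hij]
    by_cases hkj : k = j
    · subst hkj; simp [hki]
    simp [hv k hki hkj, hki, hkj]
  rw [e, mulVec_add, mulVec_smul, mulVec_smul, hi, hj]

theorem single_vecMul_congr {M : Matrix (Fin n) (Fin n) F} {i j : Fin n}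
    (hi : Pi.single i 1 ᵥ* M = Pi.single i 1) (hj : Pi.single j 1 ᵥ* M = Pi.single j 1) {v : Fin n → F}
    (hv : Supp i j v) (hij : i ≠ j) : v ᵥ* M = v := by
  have e : v = v i • Pi.single i 1 + v j • Pi.single j 1 := by
    funext k
    by_cases hki : k = i
    · subst hki; simp [hij]
    by_cases hkj : k = j
    · subst hkj; simp [hki]
    simp [hv k hki hkj, hki, hkj]
  rw [e, Matrix.add_vecMul, Matrix.smul_vecMul, Matrix.smul_vecMul, hi, hj]

/-- acts as the identity on two coordinates, both sides -/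
structure Away (i j : Fin n) (A : SpecialLinearGroup (Fin n) F) : Prop where
  ci : (A : Matrix (Fin n) (Fin n) F) *ᵥ Pi.single i 1 = Pi.single i 1
  cj : (A : Matrix (Fin n) (Fin n) F) *ᵥ Pi.single j 1 = Pi.single j 1
  ri : Pi.single i 1 ᵥ* (A : Matrix (Fin n) (Fin n) F) = Pi.single i 1
  rj : Pi.single j 1 ᵥ* (A : Matrix (Fin n) (Fin n) F) = Pi.single j 1

theorem Away.comm {i j : Fin n} (hij : i ≠ j) {A : SpecialLinearGroup (Fin n) F} (hA : Away i j A) {d φ : Fin n → F}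
    (hd : Supp i j d) (hφ : Supp i j φ) (h : φ ⬝ᵥ d = 0) : Commute A (tv d φ) := by
  have e : φ ᵥ* (↑A⁻¹ : Matrix (Fin n) (Fin n) F) = φ := by
    conv_lhs => rw [← single_vecMul_congr hA.ri hA.rj hφ hij]
    rw [Matrix.vecMul_vecMul, mul_inv_self', Matrix.vecMul_one]
  have := tv_conj A h
  rw [single_mulVec_congr hA.ci hA.cj hd hij, e] at this
  exact mul_inv_eq_iff_eq_mul.1 this

variable [Fintype F] {H : Subgroup (SpecialLinearGroup (Fin n) F)} (z : Fin n)
  (hreg : ∀ d φ, d ≠ 0 → φ ⬝ᵥ d = 0 → tv d φ ∈ H → φ = 0)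

include hreg in
theorem tv_no_fix {d φ : Fin n → F} (hd : d ≠ 0) (h : φ ⬝ᵥ d = 0) (hφ : φ ≠ 0)
    (x : SpecialLinearGroup (Fin n) F ⧸ H) : tv d φ • x ≠ x := by
  induction x using QuotientGroup.induction_on with
  | H g =>
    intro e
    rw [MulAction.Quotient.smul_mk, QuotientGroup.eq] at e
    have hm : g⁻¹ * tv d φ * g ∈ H := by
      have := inv_mem e
      simpa [smul_eq_mul, mul_assoc] using this
    have ec := tv_conj g⁻¹ h
    rw [inv_inv] at ec
    rw [ec] at hm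
    have h0 : (φ ᵥ* (g : Matrix (Fin n) (Fin n) F)) ⬝ᵥ ((↑g⁻¹ : Matrix (Fin n) (Fin n) F) *ᵥ d) = 0 := by
      rw [dotProduct_mulVec, Matrix.vecMul_vecMul, mul_inv_self', Matrix.vecMul_one, h]
    have hd' : (↑g⁻¹ : Matrix (Fin n) (Fin n) F) *ᵥ d ≠ 0 := fun e' => hd (by
      have := congrArg ((g : Matrix (Fin n) (Fin n) F) *ᵥ ·) e'
      simpa only [mulVec_mulVec, mul_inv_self', one_mulVec, mulVec_zero] using this)
    have h1 := hreg _ _ hd' h0 hm
    apply hφ
    have := congrArg (· ᵥ* (↑g⁻¹ : Matrix (Fin n) (Fin n) F)) h1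
    simpa only [Matrix.vecMul_vecMul, mul_inv_self', Matrix.vecMul_one, Matrix.zero_vecMul] using this

variable (hcard : H.index = Fintype.card F ^ (n - 1))

omit [Fintype F] in
theorem dot_e {ν : Fin n → F} (h : ν z = 0) : ν ⬝ᵥ Pi.single z 1 = 0 := by simp [h]

include hreg in
theorem u_inj (x : SpecialLinearGroup (Fin n) F ⧸ H) {ν ν' : Fin n → F} (hν : ν z = 0) (hν' : ν' z = 0)
    (h : tv (Pi.single z 1) ν • x = tv (Pi.single z 1) ν' • x) : ν = ν' := by
  by_contra hne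
  have h0 : (ν - ν') ⬝ᵥ Pi.single z 1 = 0 := by simp [hν, hν']
  refine tv_no_fix hreg (d := Pi.single z 1) (φ := ν - ν') (by simp) h0 (sub_ne_zero.2 hne)
    (tv (Pi.single z 1) ν' • x) ?_
  rw [smul_smul, tv_mul h0 (dot_e z hν'), sub_add_cancel, h]

include hreg hcard in
theorem u_surj (x y : SpecialLinearGroup (Fin n) F ⧸ H) :
    ∃ ν : Fin n → F, ν z = 0 ∧ y = tv (Pi.single z 1) ν • x := by
  classical
  let Z := {ν : Fin n → F // ν z = 0}
  let f : Z → SpecialLinearGroup (Fin n) F ⧸ H := fun ν => tv (Pi.single z 1) ν.1 • x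
  have hinj : Function.Injective f := fun a b e => Subtype.ext (u_inj z hreg x a.2 b.2 e)
  have hZ : Nat.card Z = Fintype.card F ^ (n - 1) := by
    let e : Z ≃ ({k : Fin n // k ≠ z} → F) :=
      { toFun := fun v k => v.1 k.1
        invFun := fun w => ⟨fun k => if h : k = z then 0 else w ⟨k, h⟩, by simp⟩
        left_inv := fun v => by
          apply Subtype.ext
          funext k
          by_cases h : k = z
          · subst h; simp [v.2]
          · simp [h]
        right_inv := fun w => by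
          funext k
          simp [k.2] }
    rw [Nat.card_congr e, Nat.card_eq_fintype_card, Fintype.card_fun]
    simp
  have hb := (Nat.bijective_iff_injective_and_card f).2 ⟨hinj, by rw [hZ, ← hcard]; rfl⟩
  obtain ⟨ν, hν⟩ := hb.2 y
  exact ⟨ν.1, ν.2, hν.symm⟩

theorem u_conj {g : SpecialLinearGroup (Fin n) F} {c : F}
    (hg : (g : Matrix (Fin n) (Fin n) F) *ᵥ Pi.single z 1 = c • Pi.single z 1) {ν : Fin n → F} (hν : ν z = 0) :
    g * tv (Pi.single z 1) ν * g⁻¹ = tv (Pi.single z 1) (c • (ν ᵥ* (↑g⁻¹ : Matrix (Fin n) (Fin n) F))) ∧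
      (c • (ν ᵥ* (↑g⁻¹ : Matrix (Fin n) (Fin n) F))) z = 0 := by
  have h := vecMul_inv_dot g ν (Pi.single z 1)
  rw [hg, dot_e z hν, dotProduct_smul] at h
  refine ⟨?_, ?_⟩
  · rw [tv_conj g (dot_e z hν), hg]
    by_cases hc : c = 0
    · exfalso
      rw [hc, zero_smul] at hg
      have := congrArg ((↑g⁻¹ : Matrix (Fin n) (Fin n) F) *ᵥ ·) hg
      simp only [mulVec_mulVec, inv_mul_self, one_mulVec, mulVec_zero] at this
      simpa using congrFun this z
    · exact tv_smul c ((smul_eq_zero.1 h).resolve_left hc)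
  · simpa [dotProduct_single] using h

include hreg hcard in
/-- the fixed point argument -/
theorem core {g t : SpecialLinearGroup (Fin n) F} {x : SpecialLinearGroup (Fin n) F ⧸ H}
    (hg : (g : Matrix (Fin n) (Fin n) F) *ᵥ Pi.single z 1 = Pi.single z 1) (hgx : g • x = x)
    (hgt : g • (t • x) = t • x) (htx : t • x ≠ x)
    (ht : ∀ ν : Fin n → F, ν z = 0 → ν ᵥ* (g : Matrix (Fin n) (Fin n) F) = ν →
      Commute t (tv (Pi.single z 1) ν)) :
    ∃ ν : Fin n → F, ν z = 0 ∧ ν ᵥ* (g : Matrix (Fin n) (Fin n) F) = ν ∧ ν ≠ 0 ∧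
      ∀ (A : SpecialLinearGroup (Fin n) F) (a : F),
        (A : Matrix (Fin n) (Fin n) F) *ᵥ Pi.single z 1 = a • Pi.single z 1 → Commute A g → Commute A t →
          a • ν = ν ᵥ* (A : Matrix (Fin n) (Fin n) F) := by
  have fixed : ∀ y, g • y = y → ∀ ν : Fin n → F, ν z = 0 → y = tv (Pi.single z 1) ν • x →
      ν ᵥ* (g : Matrix (Fin n) (Fin n) F) = ν := by
    intro y hy ν hν e
    obtain ⟨e1, e2⟩ := u_conj z (g := g) (c := 1) (by rw [one_smul]; exact hg) hν
    have h : tv (Pi.single z 1) ((1 : F) • (ν ᵥ* (↑g⁻¹ : Matrix (Fin n) (Fin n) F))) • x = tv (Pi.single z 1) ν • x := by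
      rw [← e1, mul_smul, inv_smul_eq_iff.2 hgx.symm, mul_smul, ← e, hy]
    have h' := u_inj z hreg x e2 hν h
    rw [one_smul] at h'
    conv_lhs => rw [← h']
    rw [Matrix.vecMul_vecMul, inv_mul_self, Matrix.vecMul_one]
  obtain ⟨ν, hν, eν⟩ := u_surj z hreg hcard x (t • x)
  refine ⟨ν, hν, fixed _ hgt ν hν eν, fun h => htx (by rw [eν, h, tv_zero, one_smul]), fun A a hA hAg hAt => ?_⟩
  obtain ⟨μ, hμ, eμ⟩ := u_surj z hreg hcard x (A • x)
  have hgA : g • (A • x) = A • x := by rw [smul_smul, ← hAg.eq, mul_smul, hgx]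
  have hμg := fixed _ hgA μ hμ eμ
  obtain ⟨e1, e2⟩ := u_conj z hA hν
  have h1 : A • (t • x) = tv (Pi.single z 1) (a • (ν ᵥ* (↑A⁻¹ : Matrix (Fin n) (Fin n) F)) + μ) • x := by
    rw [← tv_mul (dot_e z e2) (dot_e z hμ), mul_smul, ← eμ, ← e1, mul_smul, mul_smul, inv_smul_smul, ← eν]
  have h2 : A • (t • x) = tv (Pi.single z 1) (ν + μ) • x := by
    rw [smul_smul, hAt.eq, mul_smul, eμ, smul_smul, (ht μ hμ hμg).eq, mul_smul, eν, smul_smul,
      tv_mul (dot_e z hμ) (dot_e z hν), add_comm]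
  have h3 := u_inj z hreg x (by rw [Pi.add_apply, e2, hμ, add_zero]) (by simp [hν, hμ]) (h1.symm.trans h2)
  have h4 := congrArg (· ᵥ* (A : Matrix (Fin n) (Fin n) F)) (add_right_cancel h3)
  simpa only [Matrix.smul_vecMul, Matrix.vecMul_vecMul, inv_mul_self, Matrix.vecMul_one] using h4

theorem exists_fixed {g : SpecialLinearGroup (Fin n) F} {r : ℕ} [hr : Fact r.Prime] (hgr : g ^ r = 1)
    (hcop : ¬ r ∣ H.index) : ∃ x : SpecialLinearGroup (Fin n) F ⧸ H, g • x = x := by
  have hP : IsPGroup r (Subgroup.zpowers g) := by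
    intro y
    refine ⟨1, ?_⟩
    obtain ⟨k, hk⟩ := Subgroup.mem_zpowers_iff.1 y.2
    apply Subtype.ext
    rw [pow_one, SubmonoidClass.coe_pow, ← hk, ← zpow_natCast, ← _root_.zpow_mul, mul_comm, _root_.zpow_mul, zpow_natCast,
      hgr, _root_.one_zpow, OneMemClass.coe_one]
  have hne : Nat.card (MulAction.fixedPoints (Subgroup.zpowers g) (SpecialLinearGroup (Fin n) F ⧸ H)) ≠ 0 := by
    intro h0
    have := hP.card_modEq_card_fixedPoints (SpecialLinearGroup (Fin n) F ⧸ H)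
    rw [h0] at this
    exact hcop (Nat.modEq_zero_iff_dvd.1 this)
  obtain ⟨⟨x, hx⟩⟩ := (Nat.card_ne_zero.1 hne).1
  exact ⟨x, hx ⟨g, Subgroup.mem_zpowers g⟩⟩

theorem diag2n_mulVec {i j : Fin n} (hij : i ≠ j) {a : F} (ha : a ≠ 0) (v : Fin n → F) (k : Fin n) :
    ((SpecialLinearGroup.diag2n hij a ha : Matrix (Fin n) (Fin n) F) *ᵥ v) k =
      (if k = i then a else if k = j then a⁻¹ else 1) * v k := by
  rw [SpecialLinearGroup.diag2n_coe, mulVec_diagonal]

theorem diag2n_vecMul {i j : Fin n} (hij : i ≠ j) {a : F} (ha : a ≠ 0) (v : Fin n → F) (k : Fin n) :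
    (v ᵥ* (SpecialLinearGroup.diag2n hij a ha : Matrix (Fin n) (Fin n) F)) k =
      v k * (if k = i then a else if k = j then a⁻¹ else 1) := by
  rw [SpecialLinearGroup.diag2n_coe, vecMul_diagonal]

theorem away_diag {i j k l : Fin n} (hkl : k ≠ l) {a : F} (ha : a ≠ 0) (h1 : i ≠ k) (h2 : i ≠ l) (h3 : j ≠ k)
    (h4 : j ≠ l) : Away i j (SpecialLinearGroup.diag2n hkl a ha) := by
  constructor <;> funext r <;> first | rw [diag2n_mulVec] | rw [diag2n_vecMul]
  all_goals
    simp only [Pi.single_apply]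
    grind

theorem away_transvection {i j k l : Fin n} (hkl : k ≠ l) (c : F) (h1 : i ≠ k) (h2 : i ≠ l) (h3 : j ≠ k)
    (h4 : j ≠ l) : Away i j (SpecialLinearGroup.transvection hkl c) := by
  have h0 : (Pi.single l c : Fin n → F) ⬝ᵥ Pi.single k 1 = 0 := by simp [hkl]
  constructor <;> rw [transvection_eq_tv hkl c] <;>
    first
      | (rw [tv_mulVec h0]; simp [h2, h4, h2.symm, h4.symm])
      | (rw [coe_tv h0, Matrix.vecMul_add, Matrix.vecMul_one, Matrix.vecMul_vecMulVec]; simp [h1, h3, h1.symm, h3.symm])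

variable {i j : Fin n} (hij : i ≠ j) (hzi : z ≠ i) (hzj : z ≠ j)

include hreg hcard hij hzi hzj in
/-- a block element with a normalising transvection gives a contradiction -/
theorem block_false {g : SpecialLinearGroup (Fin n) F} {d φ : Fin n → F} (hd : d ≠ 0) (hφ : φ ≠ 0) (hdφ : φ ⬝ᵥ d = 0)
    (hds : Supp i j d) (hφs : Supp i j φ) (hg : ∀ A, Away i j A → Commute A g)
    (hgz : (g : Matrix (Fin n) (Fin n) F) *ᵥ Pi.single z 1 = Pi.single z 1)
    (hgν : ∀ ν : Fin n → F, ν ᵥ* (g : Matrix (Fin n) (Fin n) F) = ν → ν i = 0 ∧ ν j = 0)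
    {x : SpecialLinearGroup (Fin n) F ⧸ H} (hgx : g • x = x) (hgt : g • (tv d φ • x) = tv d φ • x)
    (hsize : n = 3 ∨ 5 ≤ n ∨ ∃ a : F, a ≠ 0 ∧ a ^ 2 ≠ 1) : False := by
  obtain ⟨ν, hν, hνg, hν0, hA⟩ := core z hreg hcard hgz hgx hgt (tv_no_fix hreg hd hdφ hφ x) fun ν hν hνg => by
    obtain ⟨hi, hj⟩ := hgν ν hνg
    have hνd : ν ⬝ᵥ d = 0 := Finset.sum_eq_zero fun k _ => by
      by_cases hki : k = i
      · subst hki; rw [hi, zero_mul]
      by_cases hkj : k = j
      · subst hkj; rw [hj, zero_mul]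
      rw [hds k hki hkj, mul_zero]
    have hφz : φ ⬝ᵥ Pi.single z 1 = 0 := by simp [hφs z hzi hzj]
    have e := tv_conj (tv d φ) (dot_e z hν)
    rw [tv_mulVec hdφ, hφz, zero_smul, add_zero] at e
    have e2 : ν ᵥ* (↑(tv d φ)⁻¹ : Matrix (Fin n) (Fin n) F) = ν := by
      have e3 : ν ᵥ* (tv d φ : Matrix (Fin n) (Fin n) F) = ν := by
        rw [coe_tv hdφ, Matrix.vecMul_add, Matrix.vecMul_one, Matrix.vecMul_vecMulVec, hνd, zero_smul, add_zero]
      conv_lhs => rw [← e3]
      rw [Matrix.vecMul_vecMul, mul_inv_self', Matrix.vecMul_one]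
    rw [e2] at e
    exact mul_inv_eq_iff_eq_mul.1 e
  obtain ⟨hνi, hνj⟩ := hgν ν hνg
  obtain ⟨k, hk⟩ := Function.ne_iff.1 hν0
  have hkz : k ≠ z := fun e => hk (e ▸ hν)
  have hki : k ≠ i := fun e => hk (e ▸ hνi)
  have hkj : k ≠ j := fun e => hk (e ▸ hνj)
  by_cases h5 : ∃ l, l ≠ z ∧ l ≠ i ∧ l ≠ j ∧ l ≠ k
  · obtain ⟨l, hlz, hli, hlj, hlk⟩ := h5
    have haw : Away i j (SpecialLinearGroup.transvection hlk.symm (1 : F)) :=
      away_transvection hlk.symm 1 hki.symm hli.symm hkj.symm hlj.symm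
    have e := hA (SpecialLinearGroup.transvection hlk.symm (1 : F)) 1 (by
      rw [one_smul, transvection_eq_tv hlk.symm (1 : F), tv_mulVec (by simp [hlk.symm])]
      simp [hlz, hlz.symm]) (hg _ haw) (haw.comm hij hds hφs hdφ)
    have el := congrFun e l
    rw [one_smul, transvection_eq_tv hlk.symm (1 : F), coe_tv (by simp [hlk.symm]), Matrix.vecMul_add, Matrix.vecMul_one,
      Matrix.vecMul_vecMulVec] at el
    apply hk
    simpa using el
  push Not at h5
  have hn4 : n ≤ 4 := by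
    have hsub : (Finset.univ : Finset (Fin n)) ⊆ {z, i, j, k} := fun l _ => by
      simp only [Finset.mem_insert, Finset.mem_singleton]
      by_contra hc
      push Not at hc
      exact hc.2.2.2 (h5 l hc.1 hc.2.1 hc.2.2.1)
    have := (Finset.card_le_card hsub).trans Finset.card_le_four
    simpa using this
  have hn4' : 4 ≤ n := by
    have : ({z, i, j, k} : Finset (Fin n)).card = 4 := by simp [hij, hzi, hzj, hki.symm, hkj.symm, hkz.symm]
    have := Finset.card_le_univ ({z, i, j, k} : Finset (Fin n))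
    simp at this
    omega
  obtain ⟨a, ha, ha2⟩ := (hsize.resolve_left (by omega)).resolve_left (by omega)
  have haw : Away i j (SpecialLinearGroup.diag2n hkz a ha) := away_diag hkz ha hki.symm hzi.symm hkj.symm hzj.symm
  have e := hA _ a⁻¹ (by
    funext r
    rw [diag2n_mulVec]
    by_cases hr : r = z
    · subst hr; simp [hkz.symm]
    · simp [hr]) (hg _ haw) (haw.comm hij hds hφs hdφ)
  have ek := congrFun e k
  rw [diag2n_vecMul, if_pos rfl, Pi.smul_apply, smul_eq_mul, mul_comm (ν k)] at ek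
  apply ha2
  have := mul_right_cancel₀ hk ek
  rw [pow_two]
  nth_rewrite 1 [← this]
  exact inv_mul_cancel₀ ha

end Cfsg.Agent.Suzuki.SLIdx
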