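import Cfsg.Agent.Linear.Transvection
import Mathlib

/-!
Transvections in coordinate-free form, and subgroups of `SL_n` containing all transvections of one centre.
-/

set_option autoImplicit false

namespace Cfsg.Agent.Suzuki.SLIdx

open Matrix

variable {F : Type*} [Field F] {n : ℕ}

/-- `1 + d φ` when `φ d = 0` -/
noncomputable def tv (d φ : Fin n → F) : SpecialLinearGroup (Fin n) F :=
  open scoped Classical in
  if h : φ ⬝ᵥ d = 0 then
    ⟨1 + Matrix.vecMulVec d φ, by
      rw [vecMulVec_eq Unit, det_one_add_replicateCol_mul_replicateRow, h, add_zero]⟩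
  else 1

theorem coe_tv {d φ : Fin n → F} (h : φ ⬝ᵥ d = 0) :
    (tv d φ : Matrix (Fin n) (Fin n) F) = 1 + Matrix.vecMulVec d φ := by
  simp [tv, h]

theorem tv_mulVec {d φ : Fin n → F} (h : φ ⬝ᵥ d = 0) (y : Fin n → F) :
    (tv d φ : Matrix (Fin n) (Fin n) F) *ᵥ y = y + (φ ⬝ᵥ y) • d := by
  rw [coe_tv h, add_mulVec, one_mulVec, vecMulVec_mulVec]
  simp

theorem tv_mul {d φ ψ : Fin n → F} (h : φ ⬝ᵥ d = 0) (h' : ψ ⬝ᵥ d = 0) :
    tv d φ * tv d ψ = tv d (φ + ψ) := by
  apply Subtype.ext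
  rw [Matrix.SpecialLinearGroup.coe_mul, coe_tv h, coe_tv h', coe_tv (by rw [add_dotProduct, h, h', add_zero]),
    Matrix.add_mul, Matrix.mul_add, Matrix.mul_add, vecMulVec_mul_vecMulVec, h, zero_smul, vecMulVec_add]
  ext i j
  simp
  ring

theorem tv_zero (d : Fin n → F) : tv d 0 = 1 := by
  apply Subtype.ext
  rw [coe_tv (zero_dotProduct _)]
  ext i j
  simp

theorem tv_eq_one {d φ : Fin n → F} (hd : d ≠ 0) (h : φ ⬝ᵥ d = 0) (e : tv d φ = 1) : φ = 0 := by
  obtain ⟨i, hi⟩ := Function.ne_iff.1 hd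
  funext j
  have e' := congrArg (fun g : SpecialLinearGroup (Fin n) F => (g : Matrix (Fin n) (Fin n) F) i j) e
  simp only [coe_tv h, Matrix.add_apply, Matrix.SpecialLinearGroup.coe_one, vecMulVec_apply, add_eq_left] at e'
  exact (mul_eq_zero.1 e').resolve_left hi

theorem inv_mul_self (g : SpecialLinearGroup (Fin n) F) :
    (↑g⁻¹ : Matrix (Fin n) (Fin n) F) * (g : Matrix (Fin n) (Fin n) F) = 1 := by
  rw [← Matrix.SpecialLinearGroup.coe_mul, inv_mul_cancel, Matrix.SpecialLinearGroup.coe_one]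

theorem mul_inv_self' (g : SpecialLinearGroup (Fin n) F) :
    (g : Matrix (Fin n) (Fin n) F) * (↑g⁻¹ : Matrix (Fin n) (Fin n) F) = 1 := by
  rw [← Matrix.SpecialLinearGroup.coe_mul, mul_inv_cancel, Matrix.SpecialLinearGroup.coe_one]

theorem vecMul_inv_dot (g : SpecialLinearGroup (Fin n) F) (φ x : Fin n → F) :
    (φ ᵥ* (↑g⁻¹ : Matrix (Fin n) (Fin n) F)) ⬝ᵥ ((g : Matrix (Fin n) (Fin n) F) *ᵥ x) = φ ⬝ᵥ x := by
  rw [dotProduct_mulVec, Matrix.vecMul_vecMul, inv_mul_self, Matrix.vecMul_one]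

theorem tv_conj (g : SpecialLinearGroup (Fin n) F) {d φ : Fin n → F} (h : φ ⬝ᵥ d = 0) :
    g * tv d φ * g⁻¹ = tv ((g : Matrix (Fin n) (Fin n) F) *ᵥ d) (φ ᵥ* (↑g⁻¹ : Matrix (Fin n) (Fin n) F)) := by
  have h' : (φ ᵥ* (↑g⁻¹ : Matrix (Fin n) (Fin n) F)) ⬝ᵥ ((g : Matrix (Fin n) (Fin n) F) *ᵥ d) = 0 := by
    rw [vecMul_inv_dot, h]
  apply Subtype.ext
  rw [Matrix.SpecialLinearGroup.coe_mul, Matrix.SpecialLinearGroup.coe_mul, coe_tv h, coe_tv h', Matrix.mul_add,
    Matrix.add_mul, Matrix.mul_one, mul_inv_self', mul_vecMulVec, vecMulVec_mul]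

theorem tv_smul (c : F) {d φ : Fin n → F} (h : φ ⬝ᵥ d = 0) : tv (c • d) φ = tv d (c • φ) := by
  apply Subtype.ext
  rw [coe_tv (by rw [dotProduct_smul, h, smul_zero]), coe_tv (by rw [smul_dotProduct, h, smul_zero])]
  ext i j
  simp [Matrix.vecMulVec_apply, mul_left_comm]

theorem transvection_eq_tv {i j : Fin n} (hij : i ≠ j) (c : F) :
    SpecialLinearGroup.transvection hij c = tv (Pi.single i 1) (Pi.single j c) := by
  apply Subtype.ext
  rw [coe_tv (by simp [hij.symm]), SpecialLinearGroup.transvection_coe]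
  ext a b
  simp [Matrix.vecMulVec_apply, Matrix.single_apply, Pi.single_apply]
  grind

/-- every linear functional is a dot product -/
theorem exists_dot (f : (Fin n → F) →ₗ[F] F) : ∃ φ : Fin n → F, ∀ y, φ ⬝ᵥ y = f y := by
  refine ⟨fun i => f (Pi.single i 1), fun y => ?_⟩
  conv_rhs => rw [pi_eq_sum_univ' y, map_sum]
  simp [dotProduct, mul_comm]

/-- a functional killing a subspace but not a given vector -/
theorem exists_dot_of_notMem {p : Submodule F (Fin n → F)} {v : Fin n → F} (hv : v ∉ p) :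
    ∃ φ : Fin n → F, φ ⬝ᵥ v = 1 ∧ ∀ y ∈ p, φ ⬝ᵥ y = 0 := by
  obtain ⟨f, hf, hp⟩ := Submodule.exists_le_ker_of_notMem hv
  obtain ⟨φ, hφ⟩ := exists_dot ((f v)⁻¹ • f)
  refine ⟨φ, by rw [hφ, LinearMap.smul_apply, smul_eq_mul, inv_mul_cancel₀ hf], fun y hy => ?_⟩
  rw [hφ, LinearMap.smul_apply, LinearMap.mem_ker.1 (hp hy), smul_zero]

/-- a subspace lying in neither of two subspaces has a vector outside both -/
theorem exists_notMem_both {T A B : Submodule F (Fin n → F)} (hA : ¬ T ≤ A) (hB : ¬ T ≤ B) :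
    ∃ c ∈ T, c ∉ A ∧ c ∉ B := by
  obtain ⟨a, haT, haA⟩ := SetLike.not_le_iff_exists.1 hA
  obtain ⟨b, hbT, hbB⟩ := SetLike.not_le_iff_exists.1 hB
  by_cases h1 : a ∈ B
  · by_cases h2 : b ∈ A
    · exact ⟨a + b, add_mem haT hbT, fun h => haA (by simpa using sub_mem h h2), fun h => hbB (by simpa using sub_mem h h1)⟩
    · exact ⟨b, hbT, h2, hbB⟩
  · exact ⟨a, haT, haA, h1⟩

theorem notMem_swap {S₀ : Submodule F (Fin n → F)} {a b : Fin n → F} (ha : a ∉ S₀) (hb : b ∉ S₀ ⊔ F ∙ a) :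
    a ∉ S₀ ⊔ F ∙ b := by
  intro h
  obtain ⟨s, hs, y, hy, e⟩ := Submodule.mem_sup.1 h
  obtain ⟨k, rfl⟩ := Submodule.mem_span_singleton.1 hy
  by_cases hk : k = 0
  · exact ha (by rw [← e, hk, zero_smul, add_zero]; exact hs)
  · refine hb (Submodule.mem_sup.2 ⟨-(k⁻¹ • s), neg_mem (S₀.smul_mem _ hs), k⁻¹ • a,
      Submodule.smul_mem _ _ (Submodule.mem_span_singleton_self a), ?_⟩)
    rw [← e, smul_add, smul_smul, inv_mul_cancel₀ hk, one_smul]
    abel

theorem one_step {S₀ T : Submodule F (Fin n → F)} {a b : Fin n → F} (ha : a ∈ T) (hb : b ∈ T)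
    (haS : a ∉ S₀) (hb' : b ∉ S₀ ⊔ F ∙ a) :
    ∃ g : SpecialLinearGroup (Fin n) F, (∀ y ∈ S₀, (g : Matrix (Fin n) (Fin n) F) *ᵥ y = y) ∧
      (∀ y, (g : Matrix (Fin n) (Fin n) F) *ᵥ y - y ∈ T) ∧ (g : Matrix (Fin n) (Fin n) F) *ᵥ a = b := by
  have hba : b - a ∉ S₀ ⊔ F ∙ a := fun h => hb' (by
    simpa using add_mem h (Submodule.mem_sup_right (Submodule.mem_span_singleton_self a)))
  obtain ⟨φ, hφa, hφ⟩ := exists_dot_of_notMem (notMem_swap haS hba)
  have h0 : φ ⬝ᵥ (b - a) = 0 := hφ _ (Submodule.mem_sup_right (Submodule.mem_span_singleton_self _))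
  refine ⟨tv (b - a) φ, fun y hy => ?_, fun y => ?_, ?_⟩
  · rw [tv_mulVec h0, hφ y (Submodule.mem_sup_left hy), zero_smul, add_zero]
  · rw [tv_mulVec h0, add_sub_cancel_left]
    exact T.smul_mem _ (sub_mem hb ha)
  · rw [tv_mulVec h0, hφa, one_smul, add_sub_cancel]

/-- moving one vector to another while fixing a subspace -/
theorem move {S₀ T : Submodule F (Fin n → F)} {a b : Fin n → F} (ha : a ∈ T) (hb : b ∈ T) (haS : a ∉ S₀) (hbS : b ∉ S₀)
    (hTa : ¬ T ≤ S₀ ⊔ F ∙ a) (hTb : ¬ T ≤ S₀ ⊔ F ∙ b) :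
    ∃ g : SpecialLinearGroup (Fin n) F, (∀ y ∈ S₀, (g : Matrix (Fin n) (Fin n) F) *ᵥ y = y) ∧
      (∀ y, (g : Matrix (Fin n) (Fin n) F) *ᵥ y - y ∈ T) ∧ (g : Matrix (Fin n) (Fin n) F) *ᵥ a = b := by
  obtain ⟨c, hcT, hca, hcb⟩ := exists_notMem_both hTa hTb
  obtain ⟨g₁, f1, t1, e1⟩ := one_step ha hcT haS hca
  obtain ⟨g₂, f2, t2, e2⟩ := one_step hcT hb (fun h => hca (Submodule.mem_sup_left h)) (notMem_swap hbS hcb)
  refine ⟨g₂ * g₁, fun y hy => ?_, fun y => ?_, ?_⟩
  · rw [Matrix.SpecialLinearGroup.coe_mul, ← mulVec_mulVec, f1 y hy, f2 y hy]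
  · rw [Matrix.SpecialLinearGroup.coe_mul, ← mulVec_mulVec]
    simpa using add_mem (t2 ((g₁ : Matrix (Fin n) (Fin n) F) *ᵥ y)) (t1 y)
  · rw [Matrix.SpecialLinearGroup.coe_mul, ← mulVec_mulVec, e1, e2]

theorem not_le_sup_span {S₀ T : Submodule F (Fin n → F)} {a : Fin n → F}
    (h : Module.finrank F S₀ + 1 < Module.finrank F T) : ¬ T ≤ S₀ ⊔ F ∙ a := by
  intro hle
  have h1 := Submodule.finrank_mono hle
  have h2 := Submodule.finrank_add_le_finrank_add_finrank S₀ (F ∙ a)
  have h3 : Module.finrank F (F ∙ a) ≤ 1 := by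
    simpa using finrank_span_le_card ({a} : Set (Fin n → F))
  omega

/-- transitivity on short independent families -/
theorem exists_map_frame : ∀ {k : ℕ}, k < n → ∀ f f' : Fin k → (Fin n → F), LinearIndependent F f → LinearIndependent F f' →
    ∃ g : SpecialLinearGroup (Fin n) F, ∀ i, (g : Matrix (Fin n) (Fin n) F) *ᵥ f i = f' i := by
  intro k
  induction k with
  | zero => exact fun _ _ _ _ _ => ⟨1, fun i => i.elim0⟩
  | succ k ih =>
    intro hk f f' hf hf'
    rw [linearIndependent_finSucc'] at hf hf'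
    obtain ⟨g, hg⟩ := ih (by omega) (Fin.init f) (Fin.init f') hf.1 hf'.1
    let S₀ := Submodule.span F (Set.range (Fin.init f'))
    have hdim : Module.finrank F S₀ + 1 < Module.finrank F (⊤ : Submodule F (Fin n → F)) := by
      rw [finrank_span_eq_card hf'.1, Fintype.card_fin, finrank_top, Module.finrank_fin_fun]; omega
    have ha : (g : Matrix (Fin n) (Fin n) F) *ᵥ f (Fin.last k) ∉ S₀ := by
      intro h
      apply hf.2
      have hmap : S₀ = (Submodule.span F (Set.range (Fin.init f))).map (Matrix.mulVecLin (g : Matrix (Fin n) (Fin n) F)) := by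
        rw [Submodule.map_span, ← Set.range_comp]
        exact congrArg (fun v : Fin k → (Fin n → F) => Submodule.span F (Set.range v)) (funext fun i => (hg i).symm)
      rw [hmap, Submodule.mem_map] at h
      obtain ⟨y, hy, e⟩ := h
      have e' := congrArg ((↑g⁻¹ : Matrix (Fin n) (Fin n) F) *ᵥ ·) e
      simp only [Matrix.mulVecLin_apply, mulVec_mulVec, inv_mul_self, one_mulVec] at e'
      rwa [← e']
    obtain ⟨h, hfix, -, hab⟩ := move (T := ⊤) trivial trivial ha hf'.2 (not_le_sup_span hdim)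
      (not_le_sup_span hdim)
    refine ⟨h * g, fun i => ?_⟩
    rw [Matrix.SpecialLinearGroup.coe_mul, ← mulVec_mulVec]
    induction i using Fin.lastCases with
    | last => exact hab
    | cast i =>
      rw [show f i.castSucc = Fin.init f i from rfl, hg]
      exact hfix _ (Submodule.subset_span ⟨i, rfl⟩)

theorem exists_map_vec (hn : 2 ≤ n) {a b : Fin n → F} (ha : a ≠ 0) (hb : b ≠ 0) :
    ∃ g : SpecialLinearGroup (Fin n) F, (g : Matrix (Fin n) (Fin n) F) *ᵥ a = b := by
  obtain ⟨g, hg⟩ := exists_map_frame (k := 1) hn ![a] ![b] (LinearIndependent.of_subsingleton (R := F) (v := ![a]) 0 ha)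
    (LinearIndependent.of_subsingleton (R := F) (v := ![b]) 0 hb)
  exact ⟨g, by simpa using hg 0⟩

theorem frames_ineq {q n k : ℕ} (hq : 1 < q) (hk : 1 ≤ k) (hkn : k < n) :
    (q ^ n - 1) * ∏ i : Fin k, (q ^ k - q ^ i.val) ≤ (q - 1) * ∏ i : Fin k, (q ^ n - q ^ i.val) := by
  obtain ⟨j, rfl⟩ : ∃ j, k = j + 1 := ⟨k - 1, by omega⟩
  rw [Fin.prod_univ_castSucc (n := j), Fin.prod_univ_succ (n := j)]
  simp only [Fin.val_last, Fin.val_castSucc, Fin.val_zero, pow_zero, Fin.val_succ]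
  have hlast : q ^ (j + 1) - q ^ j = (q - 1) * q ^ j := by
    rw [Nat.sub_mul, one_mul, pow_succ, mul_comm]
  have hprod : q ^ j * ∏ i : Fin j, (q ^ (j + 1) - q ^ i.val) ≤ ∏ i : Fin j, (q ^ n - q ^ (i.val + 1)) := by
    have e : q ^ j = ∏ _i : Fin j, q := by simp
    rw [e, ← Finset.prod_mul_distrib]
    refine Finset.prod_le_prod' fun i _ => ?_
    rw [Nat.mul_sub, ← pow_succ', ← pow_succ']
    exact Nat.sub_le_sub_right (Nat.pow_le_pow_right (by omega) (by omega)) _
  rw [hlast]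
  calc (q ^ n - 1) * ((∏ i : Fin j, (q ^ (j + 1) - q ^ i.val)) * ((q - 1) * q ^ j))
      = (q - 1) * ((q ^ n - 1) * (q ^ j * ∏ i : Fin j, (q ^ (j + 1) - q ^ i.val))) := by ring
    _ ≤ _ := Nat.mul_le_mul_left _ (Nat.mul_le_mul_left _ hprod)

variable [Fintype F]

omit [Fintype F] in
theorem mulVecLin_injective (g : SpecialLinearGroup (Fin n) F) :
    Function.Injective (Matrix.mulVecLin (g : Matrix (Fin n) (Fin n) F)) := fun x y e => by
  have := congrArg ((↑g⁻¹ : Matrix (Fin n) (Fin n) F) *ᵥ ·) e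
  simp only [Matrix.mulVecLin_apply, mulVec_mulVec] at this
  rwa [inv_mul_self, one_mulVec, one_mulVec] at this

/-- the translates of a subspace -/
noncomputable def act (S : Submodule F (Fin n → F)) (g : SpecialLinearGroup (Fin n) F) : Submodule F (Fin n → F) :=
  S.map (Matrix.mulVecLin (g : Matrix (Fin n) (Fin n) F))

theorem card_range_act_le {H : Subgroup (SpecialLinearGroup (Fin n) F)} {S : Submodule F (Fin n → F)}
    (hS : ∀ h ∈ H, ∀ y ∈ S, (h : Matrix (Fin n) (Fin n) F) *ᵥ y ∈ S) : Nat.card (Set.range (act S)) ≤ H.index := by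
  have hact : ∀ g, ∀ h ∈ H, act S (g * h) = act S g := by
    intro g h hh
    have e1 : S.map (Matrix.mulVecLin (h : Matrix (Fin n) (Fin n) F)) = S := by
      refine le_antisymm (Submodule.map_le_iff_le_comap.2 fun y hy => hS h hh y hy) fun y hy => ?_
      refine ⟨(↑h⁻¹ : Matrix (Fin n) (Fin n) F) *ᵥ y, hS _ (inv_mem hh) y hy, ?_⟩
      rw [Matrix.mulVecLin_apply, mulVec_mulVec, mul_inv_self', one_mulVec]
    rw [act, act, Matrix.SpecialLinearGroup.coe_mul, Matrix.mulVecLin_mul, Submodule.map_comp, e1]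
  rw [Subgroup.index]
  refine Nat.card_le_card_of_surjective (Quotient.lift (fun g => (⟨act S g, g, rfl⟩ : Set.range (act S))) ?_) ?_
  · intro g g' hgg'
    apply Subtype.ext
    have hm : g⁻¹ * g' ∈ H := QuotientGroup.leftRel_apply.1 hgg'
    show act S g = act S g'
    rw [← hact g _ hm, mul_inv_cancel_left]
  · rintro ⟨_, g, rfl⟩
    exact ⟨Quotient.mk _ g, rfl⟩

theorem card_frames_le (S : Submodule F (Fin n → F)) {k : ℕ} (hk : k = Module.finrank F S) (hkn : k < n) :
    ∏ i : Fin k, (Fintype.card F ^ n - Fintype.card F ^ i.val) ≤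
      Nat.card (Set.range (act S)) * ∏ i : Fin k, (Fintype.card F ^ k - Fintype.card F ^ i.val) := by
  classical
  let b := Module.finBasisOfFinrankEq F S hk.symm
  let f₀ : Fin k → (Fin n → F) := fun i => (b i : Fin n → F)
  have hf₀ : LinearIndependent F f₀ := b.linearIndependent.map' S.subtype S.ker_subtype
  have hframe : ∀ f : {f : Fin k → (Fin n → F) // LinearIndependent F f},
      ∃ o : Set.range (act S), ∀ i, f.1 i ∈ o.1 := fun f => by
    obtain ⟨g, hg⟩ := exists_map_frame hkn f₀ f.1 hf₀ f.2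
    exact ⟨⟨act S g, g, rfl⟩, fun i => ⟨f₀ i, (b i).2, hg i⟩⟩
  choose o ho using hframe
  let T := Σ o : Set.range (act S), {f : Fin k → (o.1 : Submodule F (Fin n → F)) // LinearIndependent F f}
  let inj : {f : Fin k → (Fin n → F) // LinearIndependent F f} → T := fun f =>
    ⟨o f, fun i => ⟨f.1 i, ho f i⟩, LinearIndependent.of_comp (o f).1.subtype f.2⟩
  have hinj : Function.Injective inj := fun f f' e => by
    apply Subtype.ext
    funext i
    exact congrArg (fun p : T => ((p.2.1 i) : Fin n → F)) e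
  have hcard := Nat.card_le_card_of_injective inj hinj
  have hfib : ∀ o : Set.range (act S), Nat.card {f : Fin k → (o.1 : Submodule F (Fin n → F)) // LinearIndependent F f} =
      ∏ i : Fin k, (Fintype.card F ^ k - Fintype.card F ^ i.val) := by
    rintro ⟨_, g, rfl⟩
    have hfr : Module.finrank F (act S g) = k :=
      (LinearEquiv.finrank_eq (Submodule.equivMapOfInjective _ (mulVecLin_injective g) S)).symm.trans hk.symm
    rw [card_linearIndependent hfr.ge, hfr]
  rw [card_linearIndependent (by rw [Module.finrank_fin_fun]; exact hkn.le), Module.finrank_fin_fun,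
    Nat.card_sigma, Finset.sum_congr rfl (fun o _ => hfib o), Finset.sum_const, Finset.card_univ,
    smul_eq_mul, ← Nat.card_eq_fintype_card (α := Set.range (act S))] at hcard
  exact hcard

/-- a subgroup fixing a proper nonzero subspace has large index -/
theorem index_of_stabilizes {H : Subgroup (SpecialLinearGroup (Fin n) F)} {S : Submodule F (Fin n → F)}
    (hbot : S ≠ ⊥) (htop : S ≠ ⊤) (hS : ∀ h ∈ H, ∀ y ∈ S, (h : Matrix (Fin n) (Fin n) F) *ᵥ y ∈ S) :
    Fintype.card F ^ n - 1 ≤ H.index * (Fintype.card F - 1) := by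
  obtain ⟨k, hk⟩ : ∃ k, k = Module.finrank F S := ⟨_, rfl⟩
  have hk1 : 1 ≤ k := hk ▸ Submodule.one_le_finrank_iff.2 hbot
  have hkn : k < n := by
    have := Submodule.finrank_lt htop
    rwa [Module.finrank_fin_fun, ← hk] at this
  have hq := Fintype.one_lt_card (α := F)
  have hpos : 0 < ∏ i : Fin k, (Fintype.card F ^ k - Fintype.card F ^ i.val) :=
    Finset.prod_pos fun i _ => Nat.sub_pos_of_lt (Nat.pow_lt_pow_right hq i.2)
  refine Nat.le_of_mul_le_mul_right ?_ hpos
  calc _ ≤ (Fintype.card F - 1) * ∏ i : Fin k, (Fintype.card F ^ n - Fintype.card F ^ i.val) := frames_ineq hq hk1 hkn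
    _ ≤ (Fintype.card F - 1) * (H.index * ∏ i : Fin k, (Fintype.card F ^ k - Fintype.card F ^ i.val)) :=
        Nat.mul_le_mul_left _ ((card_frames_le S hk hkn).trans (Nat.mul_le_mul_right _ (card_range_act_le hS)))
    _ = _ := by ring

/-- a proper subgroup containing all transvections of one centre has large index -/
theorem index_of_full {H : Subgroup (SpecialLinearGroup (Fin n) F)} (hn : 2 ≤ n) (hH : H ≠ ⊤) {d : Fin n → F}
    (hd : d ≠ 0) (hfull : ∀ φ, φ ⬝ᵥ d = 0 → tv d φ ∈ H) :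
    Fintype.card F ^ n - 1 ≤ H.index * (Fintype.card F - 1) := by
  let Full : (Fin n → F) → Prop := fun d => ∀ φ, φ ⬝ᵥ d = 0 → tv d φ ∈ H
  have hsmul : ∀ (c : F) d, Full d → Full (c • d) := by
    intro c d hD φ hφ
    by_cases hc : c = 0
    · have : tv (c • d) φ = 1 := by
        apply Subtype.ext
        rw [coe_tv hφ, hc, zero_smul]
        ext i j
        simp
      rw [this]; exact one_mem H
    · have h0 : φ ⬝ᵥ d = 0 := by
        rw [dotProduct_smul, smul_eq_mul] at hφ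
        exact (mul_eq_zero.1 hφ).resolve_left hc
      rw [tv_smul c h0]
      exact hD _ (by rw [smul_dotProduct, h0, smul_zero])
  have hconj : ∀ h ∈ H, ∀ d, Full d → Full ((h : Matrix (Fin n) (Fin n) F) *ᵥ d) := by
    intro h hh d hD φ hφ
    have h0 : (φ ᵥ* (h : Matrix (Fin n) (Fin n) F)) ⬝ᵥ d = 0 := by rwa [← dotProduct_mulVec]
    have e := tv_conj h h0
    rw [Matrix.vecMul_vecMul, mul_inv_self', Matrix.vecMul_one] at e
    rw [← e]
    exact mul_mem (mul_mem hh (hD _ h0)) (inv_mem hh)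
  have hadd : ∀ d d', Full d → Full d' → Full (d + d') := by
    intro d d' hD hD'
    by_cases hdd : d' ∈ F ∙ d
    · obtain ⟨c, rfl⟩ := Submodule.mem_span_singleton.1 hdd
      rw [show d + c • d = (1 + c) • d by rw [add_smul, one_smul]]
      exact hsmul _ _ hD
    · obtain ⟨φ, hφ1, hφ⟩ := exists_dot_of_notMem hdd
      have h0 := hφ d (Submodule.mem_span_singleton_self d)
      have := hconj _ (hD φ h0) _ hD'
      rw [tv_mulVec h0, hφ1, one_smul, add_comm] at this
      exact this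
  let S : Submodule F (Fin n → F) :=
    { carrier := {d | Full d}
      add_mem' := fun {a b} ha hb => hadd a b ha hb
      zero_mem' := by
        have := hsmul 0 d hfull
        rwa [zero_smul] at this
      smul_mem' := fun c {a} ha => hsmul c a ha }
  refine index_of_stabilizes (S := S) (fun e => hd ?_) (fun e => hH ?_) (fun h hh y hy => hconj h hh y hy)
  · have : d ∈ S := hfull
    rwa [e, Submodule.mem_bot] at this
  · have : Nontrivial (Fin n) := Fin.nontrivial_iff_two_le.2 hn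
    refine Cfsg.Agent.Linear.eq_top_of_transvection_mem fun i j hij c => ?_
    have : (Pi.single i 1 : Fin n → F) ∈ S := by rw [e]; trivial
    rw [transvection_eq_tv hij c]
    exact this _ (by simp [hij.symm])

end Cfsg.Agent.Suzuki.SLIdx
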