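import Mathlib

/-!
Inequalities for the counting.
-/

set_option autoImplicit false

namespace Cfsg.Agent.Suzuki.SpIdx

variable {q Q n : ℕ}

theorem sub_one_mul_add {a b : ℕ} (h : 1 ≤ a) : (a - 1) * b + b = a * b := by
  obtain ⟨a, rfl⟩ : ∃ c, a = c + 1 := ⟨a - 1, by omega⟩
  simp
  ring

theorem bound_small (hq : 3 ≤ q) (hQ : q ^ 2 ≤ Q) (h : (Q - 1) * (q * (q - 1)) ≤ (q - 2) * n) :
    q ^ 2 * Q - 1 ≤ (q - 1) * n := by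
  obtain ⟨k, rfl⟩ : ∃ k, q = k + 3 := ⟨q - 3, by omega⟩
  obtain ⟨j, rfl⟩ : ∃ j, Q = j + 1 := ⟨Q - 1, by have : 0 < (k + 3) ^ 2 := pow_pos (by omega) 2; omega⟩
  simp only [Nat.add_sub_cancel, show k + 3 - 1 = k + 2 by omega, show k + 3 - 2 = k + 1 by omega] at h ⊢
  refine Nat.le_of_mul_le_mul_left ?_ (show 0 < k + 1 by omega)
  refine le_trans ?_ (le_of_le_of_eq (Nat.mul_le_mul_right (k + 2) h) (by ring))
  obtain ⟨M, hM⟩ : ∃ M, (k + 3) ^ 2 * (j + 1) = M + 1 :=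
    ⟨_, (Nat.sub_add_cancel (Nat.mul_pos (pow_pos (by omega) 2) (by omega))).symm⟩
  rw [hM, Nat.add_sub_cancel]
  nlinarith [Nat.mul_le_mul_left (k + 1) hQ, Nat.zero_le (j * 2)]

theorem bound_mixed (hq : 3 ≤ q) (hQ : q ^ 2 ≤ Q) (h : (Q - 1) * (q + 2) ≤ n) : q ^ 2 * Q - 1 ≤ (q - 1) * n := by
  obtain ⟨k, rfl⟩ : ∃ k, q = k + 3 := ⟨q - 3, by omega⟩
  obtain ⟨j, rfl⟩ : ∃ j, Q = j + 1 := ⟨Q - 1, by have : 0 < (k + 3) ^ 2 := pow_pos (by omega) 2; omega⟩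
  simp only [Nat.add_sub_cancel, show k + 3 - 1 = k + 2 by omega] at h ⊢
  rw [Nat.sub_le_iff_le_add]
  nlinarith

theorem bound_line_small (hq : 3 ≤ q) (hQ : q ^ 2 ≤ Q) (h : (Q - 1) * (q * q) ≤ (q - 2) * n) :
    q ^ 2 * Q - 1 ≤ (q - 1) * n :=
  bound_small hq hQ (le_trans (Nat.mul_le_mul_left _ (Nat.mul_le_mul_left _ (Nat.sub_le q 1))) h)

theorem bound_double (hq : 3 ≤ q) (hQ : q ^ 2 ≤ Q) (h : 2 * (Q - 1) * q ≤ n) : q ^ 2 * Q - 1 ≤ (q - 1) * n :=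
  bound_mixed hq hQ (le_trans (le_of_le_of_eq (Nat.mul_le_mul_left _ (show q + 2 ≤ 2 * q by omega)) (by ring)) h)

theorem bound_regular (hq : 3 ≤ q) (h : 2 * (Q * q) ≤ n) : q ^ 2 * Q - 1 ≤ (q - 1) * n := by
  refine le_trans (Nat.sub_le _ _) (le_trans ?_ (Nat.mul_le_mul_left _ h))
  obtain ⟨k, rfl⟩ : ∃ k, q = k + 3 := ⟨q - 3, by omega⟩
  simp only [show k + 3 - 1 = k + 2 by omega]
  nlinarith [Nat.zero_le (Q * (k + 3) * (k + 1))]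

theorem bound_two_lines (hq : 3 ≤ q) (hQ : q ^ 2 ≤ Q) (h : 2 * ((Q - 1) * (q * q)) ≤ (q - 1) * n) :
    q ^ 2 * Q - 1 ≤ (q - 1) * n := by
  refine le_trans ?_ h
  obtain ⟨j, rfl⟩ : ∃ j, Q = j + 1 := ⟨Q - 1, by have : 0 < q ^ 2 := pow_pos (by omega) 2; omega⟩
  simp only [Nat.add_sub_cancel]
  rw [Nat.sub_le_iff_le_add]
  have hj : 1 ≤ j := by nlinarith
  nlinarith [Nat.mul_le_mul_right (q * q) hj]

theorem bound_line {Fx : ℕ} (hq : 3 ≤ q) (hQ : 1 ≤ Q) {P : ℕ} (hP : (Q - 1) * (q * q) ≤ P * (q - 1))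
    (hF : q + 1 ≤ Fx) (h : P + Fx ≤ n) : q ^ 2 * Q - 1 ≤ (q - 1) * n := by
  refine le_trans ?_ (Nat.mul_le_mul_left _ h)
  obtain ⟨j, rfl⟩ : ∃ j, Q = j + 1 := ⟨Q - 1, by omega⟩
  obtain ⟨k, rfl⟩ : ∃ k, q = k + 3 := ⟨q - 3, by omega⟩
  simp only [Nat.add_sub_cancel, show k + 3 - 1 = k + 2 by omega] at hP ⊢
  rw [Nat.sub_le_iff_le_add]
  nlinarith

/-- the number just below the bound does not divide the order of `Sp_4` -/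
theorem not_dvd_order (hq : 3 ≤ q) : ¬ q * (q ^ 2 + q + 1) ∣ q ^ 4 * ((q ^ 2 - 1) * (q ^ 4 - 1)) := by
  intro h
  have h1 : q ^ 2 + q + 1 ∣ q ^ 4 * ((q ^ 2 - 1) * (q ^ 4 - 1)) := (dvd_mul_left _ q).trans h
  have hc : Nat.Coprime (q ^ 2 + q + 1) (q ^ 4) := by
    refine Nat.Coprime.pow_right 4 ?_
    rw [show q ^ 2 + q + 1 = 1 + (q + 1) * q by ring]
    exact (Nat.coprime_add_mul_right_left 1 q (q + 1)).2 (Nat.coprime_one_left q)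
  have h2 := hc.dvd_of_dvd_mul_left h1
  have h3 : ((q : ℤ) ^ 2 + q + 1) ∣ ((q : ℤ) ^ 2 - 1) * ((q : ℤ) ^ 4 - 1) := by
    have := Int.natCast_dvd_natCast.2 h2
    push_cast [Nat.cast_sub (Nat.one_le_pow 2 q (by omega)), Nat.cast_sub (Nat.one_le_pow 4 q (by omega))] at this
    exact this
  have h4 : ((q : ℤ) ^ 2 + q + 1) ∣ 3 := by
    have e : ((q : ℤ) ^ 2 - 1) * ((q : ℤ) ^ 4 - 1) =
        ((q : ℤ) ^ 2 + q + 1) * ((q : ℤ) ^ 4 - q ^ 3 - q ^ 2 + 2 * q - 2) + 3 := by ring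
    rw [e] at h3
    exact (dvd_add_right (dvd_mul_right _ _)).1 h3
  have h5 := Int.le_of_dvd (by norm_num) h4
  nlinarith [show (3 : ℤ) ≤ q by exact_mod_cast hq]

theorem squeeze (hq : 3 ≤ q) {P Fx : ℕ} (hP : (q ^ 2 - 1) * (q * q) ≤ P * (q - 1)) (hF : q ≤ Fx) (h : P + Fx ≤ n)
    (hn : ¬ q ^ 2 * q ^ 2 - 1 ≤ (q - 1) * n) : n = q * (q ^ 2 + q + 1) := by
  obtain ⟨k, rfl⟩ : ∃ k, q = k + 3 := ⟨q - 3, by omega⟩
  rw [show (k + 3) ^ 2 - 1 = (k + 4) * (k + 2) by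
    have : (k + 3) ^ 2 = (k + 4) * (k + 2) + 1 := by ring
    omega] at hP
  simp only [show k + 3 - 1 = k + 2 by omega] at hP hn
  rw [mul_right_comm] at hP
  have hP' := Nat.le_of_mul_le_mul_right hP (show 0 < k + 2 by omega)
  have hlt : n < (k + 4) * ((k + 3) * (k + 3) + 1) := by
    by_contra hc
    push Not at hc
    apply hn
    refine le_trans (le_of_eq ?_) (Nat.mul_le_mul_left _ hc)
    have : (k + 3) ^ 2 * (k + 3) ^ 2 = (k + 2) * ((k + 4) * ((k + 3) * (k + 3) + 1)) + 1 := by ring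
    omega
  have e1 : (k + 4) * ((k + 3) * (k + 3) + 1) = (k + 4) * ((k + 3) * (k + 3)) + (k + 3) + 1 := by ring
  have e2 : (k + 3) * ((k + 3) ^ 2 + (k + 3) + 1) = (k + 4) * ((k + 3) * (k + 3)) + (k + 3) := by ring
  omega

end Cfsg.Agent.Suzuki.SpIdx
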