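import Mathlib

/-!
Additive annihilators for bilinear forms over finite fields, through the trace.
-/

set_option autoImplicit false

namespace Cfsg.Agent.Suzuki.SpIdx

universe u v

variable {F : Type u} [Field F] [Fintype F]

/-- the trace to the prime field -/
noncomputable def tr : F →+ ZMod (ringChar F) :=
  letI : Algebra (ZMod (ringChar F)) F := ZMod.algebra F _
  (Algebra.trace (ZMod (ringChar F)) F).toAddMonoidHom

theorem tr_nondeg {c : F} (hc : c ≠ 0) : ∃ b, tr (c * b) ≠ 0 := by
  have : Fact (ringChar F).Prime := ⟨CharP.char_is_prime F _⟩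
  let : Algebra (ZMod (ringChar F)) F := ZMod.algebra F _
  exact FiniteField.trace_to_zmod_nondegenerate F hc

variable {V : Type v} [AddCommGroup V] [Module F V]

/-- the additive annihilator -/
noncomputable def perp (β : LinearMap.BilinForm F V) (K : AddSubgroup V) : AddSubgroup V where
  carrier := {a | ∀ w ∈ K, tr (β a w) = 0}
  add_mem' {a b} ha hb w hw := by rw [map_add, LinearMap.add_apply, map_add, ha w hw, hb w hw, add_zero]
  zero_mem' w _ := by rw [map_zero, LinearMap.zero_apply, map_zero]
  neg_mem' {a} ha w hw := by rw [map_neg, LinearMap.neg_apply, map_neg, ha w hw, neg_zero]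

theorem mem_perp {β : LinearMap.BilinForm F V} {K : AddSubgroup V} {a : V} :
    a ∈ perp β K ↔ ∀ w ∈ K, tr (β a w) = 0 := Iff.rfl

theorem perp_spec [Finite V] {β : LinearMap.BilinForm F V} (hr : (∀ a w, β w a = β a w) ∨ ∀ a w, β w a = -β a w) (hβ : β.SeparatingLeft) :
    (∀ K : AddSubgroup V, Nat.card (perp β K) * Nat.card K = Nat.card V) ∧
      (∀ K : AddSubgroup V, perp β (perp β K) = K) := by
  obtain ⟨p, hp⟩ : ∃ p, p = ringChar F := ⟨_, rfl⟩
  have : Fact (ringChar F).Prime := ⟨CharP.char_is_prime F _⟩
  let : Algebra (ZMod (ringChar F)) F := ZMod.algebra F _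
  let : Module (ZMod (ringChar F)) V := Module.compHom V (algebraMap (ZMod (ringChar F)) F)
  have : IsScalarTower (ZMod (ringChar F)) F V := IsScalarTower.of_algebraMap_smul fun _ _ => rfl
  let Bp : LinearMap.BilinForm (ZMod (ringChar F)) V :=
    LinearMap.mk₂ (ZMod (ringChar F)) (fun a w => tr (β a w))
      (fun a a' w => by rw [map_add, LinearMap.add_apply, map_add])
      (fun c a w => ZMod.map_smul
        (({ toFun := fun a => tr (β a w), map_zero' := by simp, map_add' := fun x y => by simp }) : V →+ ZMod (ringChar F)) c a)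
      (fun a w w' => by rw [map_add, map_add])
      (fun c a w => ZMod.map_smul (tr.comp (β a).toAddMonoidHom) c w)
  have htr : ∀ a w : V, Bp a w = tr (β a w) := fun _ _ => rfl
  have hsep : Bp.SeparatingLeft := fun a ha => hβ a fun w => by
    by_contra hc
    obtain ⟨b, hb⟩ := tr_nondeg hc
    apply hb
    have := ha (b • w)
    rwa [htr, map_smul, smul_eq_mul, mul_comm] at this
  have hswap : ∀ a w : V, Bp a w = 0 → Bp w a = 0 := by
    intro a w h
    rcases hr with hs | hs
    · rwa [htr, hs, ← htr]
    · rw [htr, hs, map_neg, ← htr, h, neg_zero]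
  have hrefl : Bp.IsRefl := hswap
  have hnd : Bp.Nondegenerate := hrefl.nondegenerate_iff_separatingLeft.2 hsep
  have heq : ∀ K : AddSubgroup V, perp β K = (Bp.orthogonal (AddSubgroup.toZModSubmodule _ K)).toAddSubgroup := by
    intro K
    ext a
    exact ⟨fun h w hw => hrefl _ _ (h w hw), fun h w hw => hrefl _ _ (h w hw)⟩
  have : Module.Finite (ZMod (ringChar F)) V := Module.Finite.of_finite
  refine ⟨fun K => ?_, fun K => ?_⟩
  · let W := AddSubgroup.toZModSubmodule (ringChar F) K
    rw [heq]
    show Nat.card (Bp.orthogonal W) * Nat.card W = _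
    rw [Module.natCard_eq_pow_finrank (K := ZMod (ringChar F)) (V := Bp.orthogonal W),
      Module.natCard_eq_pow_finrank (K := ZMod (ringChar F)) (V := W), ← pow_add,
      LinearMap.BilinForm.finrank_orthogonal hnd, Nat.sub_add_cancel (Submodule.finrank_le W),
      ← Module.natCard_eq_pow_finrank (K := ZMod (ringChar F)) (V := V)]
  · rw [heq, heq]
    apply SetLike.ext
    intro v
    show v ∈ Bp.orthogonal (Bp.orthogonal (AddSubgroup.toZModSubmodule (ringChar F) K)) ↔ _
    rw [LinearMap.BilinForm.orthogonal_orthogonal hnd hrefl]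
    rfl

end Cfsg.Agent.Suzuki.SpIdx
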