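import Cfsg.Agent.Suzuki.SpBlock
import Cfsg.Agent.Suzuki.SpIdxPair
import Mathlib

/-!
The stabiliser of a basis vector acting on a set: orbits of its unipotent radical.
-/

set_option autoImplicit false

namespace Cfsg.Agent.Suzuki.SpIdx

open Matrix
open Cfsg.Agent.KnownB.Proj.Symp
open Cfsg.Agent.Suzuki.SpSt

universe u v

variable {m : ℕ} {F : Type u} [Field F]

local notation "Vm" => (Fin m ⊕ Fin m → F)
local notation "Spm" => Matrix.symplecticGroup (Fin m) F
local notation "B" => Cfsg.sympForm m F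

/-- vectors with no coordinates at the class of `a` -/
def Vp (a : Fin m ⊕ Fin m) : Submodule F Vm where
  carrier := {v | v a = 0 ∧ v (bar a) = 0}
  add_mem' {v w} hv hw := ⟨by simp [hv.1, hw.1], by simp [hv.2, hw.2]⟩
  zero_mem' := ⟨rfl, rfl⟩
  smul_mem' c v hv := ⟨by simp [hv.1], by simp [hv.2]⟩

theorem mem_Vp {a : Fin m ⊕ Fin m} {v : Vm} : v ∈ Vp (F := F) a ↔ v a = 0 ∧ v (bar a) = 0 := Iff.rfl

theorem Vp_B {a : Fin m ⊕ Fin m} {v : Vm} (hv : v ∈ Vp (F := F) a) :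
    B (e a) v = 0 ∧ B (e (bar a)) v = 0 ∧ B v (e a) = 0 ∧ B v (e (bar a)) = 0 := by
  refine ⟨?_, ?_, ?_, ?_⟩ <;> simp only [B_e_left, B_e_right, bar_bar, hv.1, hv.2, mul_zero, neg_zero]

theorem Vp_of_B {a : Fin m ⊕ Fin m} {v : Vm} (h : B (e a) v = 0) (h' : B (e (bar a)) v = 0) : v ∈ Vp (F := F) a :=
  ⟨by rw [coord_eq v a, h', mul_zero], by rw [coord_eq v (bar a), bar_bar, h, mul_zero]⟩

theorem e_mem_Vp {a p : Fin m ⊕ Fin m} (h : cls p ≠ cls a) : (e p : Vm) ∈ Vp (F := F) a :=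
  ⟨e_ne fun e' => h (by rw [e']), e_ne fun e' => h (by rw [← e', cls_bar])⟩

theorem vp_supp {a : Fin m ⊕ Fin m} {v : Vm} (hv : v ∈ Vp (F := F) a) : Supp (Finset.univ.erase (cls a)) v := by
  intro p hp
  rw [Finset.mem_erase, not_and_or, not_not] at hp
  rcases hp with hp | hp
  · rcases eq_or_bar hp with rfl | rfl
    · exact hv.1
    · exact hv.2
  · exact absurd (Finset.mem_univ _) hp

/-- the form on `Vp` -/
noncomputable def bp (a : Fin m ⊕ Fin m) : LinearMap.BilinForm F (Vp (F := F) a) := (Forms.sympB m F).restrict (Vp a)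

theorem bp_apply (a : Fin m ⊕ Fin m) (v w : Vp (F := F) a) : bp a v w = B (v : Vm) (w : Vm) := by
  show Forms.sympB m F (v : Vm) (w : Vm) = _
  rw [sB]

theorem bp_sep (a : Fin m ⊕ Fin m) : (bp (F := F) a).SeparatingLeft := by
  intro v hv
  apply Subtype.ext
  funext p
  by_cases hp : cls p = cls a
  · exact vp_supp v.2 p (by simp [hp])
  · rw [coord_eq (v : Vm) p]
    have h := hv ⟨e (bar p), e_mem_Vp (by rw [cls_bar]; exact hp)⟩
    rw [bp_apply] at h
    rw [B_swap, h, neg_zero, mul_zero]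
    rfl

theorem perp_bp [Fintype F] (a : Fin m ⊕ Fin m) :
    (∀ K : AddSubgroup (Vp (F := F) a), Nat.card (perp (bp a) K) * Nat.card K = Nat.card (Vp (F := F) a)) ∧
      (∀ K : AddSubgroup (Vp (F := F) a), perp (bp a) (perp (bp a) K) = K) :=
  perp_spec (Or.inr fun v w => by rw [bp_apply, bp_apply, B_swap]) (bp_sep a)

theorem card_Vp [Fintype F] (a : Fin m ⊕ Fin m) : Nat.card (Vp (F := F) a) = Fintype.card F ^ (2 * m - 2) := by
  classical
  let E : Vp (F := F) a ≃ ({p : Fin m ⊕ Fin m // cls p ≠ cls a} → F) :=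
    { toFun := fun v p => (v : Vm) p.1
      invFun := fun w => ⟨fun p => if h : cls p ≠ cls a then w ⟨p, h⟩ else 0, dif_neg (fun h => h rfl),
        dif_neg (fun h => h (cls_bar a))⟩
      left_inv := fun v => by
        apply Subtype.ext
        funext p
        by_cases h : cls p ≠ cls a
        · simp [h]
        · simp only [dif_neg h]
          exact (vp_supp v.2 p (by simp [not_not.1 h])).symm
      right_inv := fun w => by funext p; simp [p.2] }
  rw [Nat.card_congr E, Nat.card_eq_fintype_card, Fintype.card_fun]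
  congr 1
  rw [Fintype.card_subtype]
  rw [show (Finset.univ.filter fun p : Fin m ⊕ Fin m => cls p ≠ cls a) = Finset.univ \ {a, bar a} by
    ext p
    simp only [Finset.mem_filter, Finset.mem_univ, true_and, Finset.mem_sdiff, Finset.mem_insert, Finset.mem_singleton]
    exact ⟨fun h hc => h (hc.elim (congrArg cls) (fun e' => by rw [e', cls_bar])), fun h hc => h (eq_or_bar hc)⟩]
  rw [Finset.card_sdiff, Finset.inter_univ, Finset.card_pair (bar_ne a).symm, Finset.card_univ]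
  simp
  omega

/-- an element of the unipotent radical -/
def q (a : Fin m ⊕ Fin m) (w : Vm) (z : F) : Spm := T (e a) z * S (e a) w 1

theorem S_zero_right (u : Vm) (c : F) : S u 0 c = (1 : Spm) := by
  have h0 : ∀ k : F, (T (0 : Vm) k : Spm) = 1 := fun k => sp_ext fun x => by
    rw [T_mulVec, smul_zero, add_zero, sp_one_mulVec]
  rw [S, add_zero, h0, mul_one, T_add, add_neg_cancel, T_zero]

theorem q_zero (a : Fin m ⊕ Fin m) (z : F) : q a 0 z = (T (e a) z : Spm) := by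
  rw [q, S_zero_right, mul_one]

theorem T_S_comm {a : Fin m ⊕ Fin m} {w : Vm} (hw : B (e a) w = 0) (z : F) :
    (T (e a) z * S (e a) w 1 : Spm) = S (e a) w 1 * T (e a) z := by
  rw [← mul_inv_eq_iff_eq_mul, S_conj, T_mulVec, T_mulVec, B_self, B_swap, hw]
  simp

theorem q_mul {a : Fin m ⊕ Fin m} {w w' : Vm} (hw : B (e a) w = 0) (hw' : B (e a) w' = 0) (z z' : F) :
    q a w z * q a w' z' = q a (w + w') (z + z' + B w' w) := by
  have h : (S (e a) w 1 * S (e a) w' 1 : Spm) = T (e a) (B w' w) * S (e a) (w + w') 1 := by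
    rw [S_add_right' hw hw', ← mul_assoc, T_add]
    simp [T_zero]
  rw [q, q, q, mul_assoc, ← mul_assoc (S (e a) w 1), ← T_S_comm hw z', mul_assoc, h, ← mul_assoc, ← mul_assoc,
    T_add, T_add]

theorem q_one (a : Fin m ⊕ Fin m) : q a 0 0 = (1 : Spm) := by rw [q_zero, T_zero]

theorem q_inv {a : Fin m ⊕ Fin m} {w : Vm} (hw : B (e a) w = 0) (z : F) : (q a w z)⁻¹ = q a (-w) (-z) := by
  refine inv_eq_of_mul_eq_one_right ?_
  rw [q_mul hw (by rw [← neg_one_smul F w, B_smul_right, hw, mul_zero]), add_neg_cancel, ← neg_one_smul F w,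
    B_smul_left, B_self, mul_zero, add_neg_cancel, add_zero, q_one]

theorem q_conj {a : Fin m ⊕ Fin m} {g : Spm} {μ : F} (hg : g.1 *ᵥ e a = μ • e a) (hμ : μ ≠ 0) {w : Vm}
    (hw : B (e a) w = 0) (z : F) : g * q a w z * g⁻¹ = q a (μ • g.1 *ᵥ w) (μ ^ 2 * z) := by
  have hgw : B (e a) (g.1 *ᵥ w) = 0 := by
    have h := sp_B g (e a) w
    rw [hg, B_smul_left, hw] at h
    exact (mul_eq_zero.1 h).resolve_left hμ
  have hgw' : B (g.1 *ᵥ w) (e a) = 0 := by rw [B_swap, hgw, neg_zero]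
  rw [q, q, show g * (T (e a) z * S (e a) w 1) * g⁻¹ = (g * T (e a) z * g⁻¹) * (g * S (e a) w 1 * g⁻¹) by group,
    T_conj, S_conj, hg, T_smul, S_smul_left hgw]
  congr 1
  · rw [mul_comm]
  · rw [S_symm hgw, S_symm (show B (e a) (μ • g.1 *ᵥ w) = 0 by rw [B_smul_right, hgw, mul_zero]), S_smul_left hgw']

theorem q_inj {a : Fin m ⊕ Fin m} {w : Vm} (hw : w ∈ Vp (F := F) a) {z : F} (h : q a w z = (1 : Spm)) :
    w = 0 ∧ z = 0 := by
  have e1 := congrArg (fun g : Spm => g.1 *ᵥ (e (bar a) : Vm)) h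
  simp only [q, sp_mul_mulVec, sp_one_mulVec] at e1
  rw [S_mulVec (Vp_B hw).1, (Vp_B hw).2.1, B_e_left, bar_bar, e_self, mul_one, zero_smul, add_zero, one_smul,
    Matrix.mulVec_add, Matrix.mulVec_smul, T_mulVec, T_mulVec, B_e_left, bar_bar, e_self, mul_one, (Vp_B hw).2.2.1,
    mul_zero, zero_smul, add_zero] at e1
  have hw0 : w = 0 := by
    funext p
    by_cases hp : cls p = cls a
    · exact vp_supp hw p (by simp [hp])
    · have := congrFun e1 p
      simp [e_ne (fun e' : p = bar a => hp (by rw [e', cls_bar])), e_ne (fun e' : p = a => hp (by rw [e'])),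
        sg_ne] at this
      exact this
  refine ⟨hw0, ?_⟩
  have := congrFun e1 a
  simpa [hw0, e_self, e_ne (bar_ne a).symm, sg_ne] using this

/-- the unipotent radical -/
def Qg (a : Fin m ⊕ Fin m) : Subgroup Spm where
  carrier := {g | ∃ w ∈ Vp (F := F) a, ∃ z, g = q a w z}
  one_mem' := ⟨0, zero_mem _, 0, (q_one a).symm⟩
  mul_mem' := by
    rintro _ _ ⟨w, hw, z, rfl⟩ ⟨w', hw', z', rfl⟩
    exact ⟨w + w', add_mem hw hw', _, q_mul (Vp_B hw).1 (Vp_B hw').1 z z'⟩
  inv_mem' := by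
    rintro _ ⟨w, hw, z, rfl⟩
    exact ⟨-w, neg_mem hw, _, q_inv (Vp_B hw).1 z⟩

theorem q_mem {a : Fin m ⊕ Fin m} {w : Vm} (hw : w ∈ Vp (F := F) a) (z : F) : q a w z ∈ Qg (F := F) a :=
  ⟨w, hw, z, rfl⟩

theorem q_eq_iff {a : Fin m ⊕ Fin m} {w w' : Vm} (hw : w ∈ Vp (F := F) a) (hw' : w' ∈ Vp (F := F) a) {z z' : F}
    (h : q a w z = q a w' z') : w = w' ∧ z = z' := by
  have h1 : q a w z * (q a w' z')⁻¹ = (1 : Spm) := by rw [h, mul_inv_cancel]
  rw [q_inv (Vp_B hw').1, q_mul (Vp_B hw).1 (Vp_B (neg_mem hw')).1] at h1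
  obtain ⟨e1, e2⟩ := q_inj (add_mem hw (neg_mem hw')) h1
  have : w = w' := by rwa [← sub_eq_add_neg, sub_eq_zero] at e1
  subst this
  refine ⟨rfl, ?_⟩
  rw [← neg_one_smul F w, B_smul_left, B_self, mul_zero, add_zero] at e2
  linear_combination e2

theorem card_Qg [Fintype F] (a : Fin m ⊕ Fin m) :
    Nat.card (Qg (F := F) a) = Nat.card (Vp (F := F) a) * Fintype.card F := by
  let f : Vp (F := F) a × F → Qg (F := F) a := fun x => ⟨q a x.1 x.2, q_mem x.1.2 x.2⟩
  have hb : Function.Bijective f := ⟨fun x y h => by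
      obtain ⟨e1, e2⟩ := q_eq_iff x.1.2 y.1.2 (congrArg Subtype.val h)
      exact Prod.ext (Subtype.ext e1) e2,
    fun g => by
      obtain ⟨w, hw, z, hz⟩ := g.2
      exact ⟨(⟨w, hw⟩, z), Subtype.ext hz.symm⟩⟩
  rw [← Nat.card_eq_of_bijective f hb, Nat.card_prod, Nat.card_eq_fintype_card (α := F)]

section Action

variable {Ω : Type v} [MulAction (Matrix.symplecticGroup (Fin m) F) Ω]

variable (F) in
/-- the transvections of the centre fixing a point -/
def X0 (a : Fin m ⊕ Fin m) (x : Ω) : AddSubgroup F where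
  carrier := {z | (T (e a) z : Spm) • x = x}
  add_mem' {z z'} hz hz' := by
    show (T (e a) (z + z') : Spm) • x = x
    rw [← T_add, mul_smul, hz', hz]
  zero_mem' := by show (T (e a) 0 : Spm) • x = x; rw [T_zero, one_smul]
  neg_mem' {z} hz := by
    show (T (e a) (-z) : Spm) • x = x
    conv_lhs => rw [← hz]
    rw [smul_smul, T_add, neg_add_cancel, T_zero, one_smul]

theorem mem_X0 {a : Fin m ⊕ Fin m} {x : Ω} {z : F} : z ∈ X0 F a x ↔ (T (e a) z : Spm) • x = x := Iff.rfl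

variable (F) in
/-- the image in `Vp` of the stabiliser in the unipotent radical -/
def Sb (a : Fin m ⊕ Fin m) (x : Ω) : AddSubgroup (Vp (F := F) a) where
  carrier := {w | ∃ z, q a (w : Vm) z • x = x}
  add_mem' := by
    rintro w w' ⟨z, hz⟩ ⟨z', hz'⟩
    refine ⟨z + z' + B (w' : Fin m ⊕ Fin m → F) (w : Fin m ⊕ Fin m → F), ?_⟩
    rw [Submodule.coe_add, ← q_mul (Vp_B w.2).1 (Vp_B w'.2).1 z z', mul_smul, hz', hz]
  zero_mem' := ⟨0, by rw [Submodule.coe_zero, q_one, one_smul]⟩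
  neg_mem' := by
    rintro w ⟨z, hz⟩
    refine ⟨-z, ?_⟩
    rw [Submodule.coe_neg, ← q_inv (Vp_B w.2).1 z, inv_smul_eq_iff, hz]

theorem mem_Sb {a : Fin m ⊕ Fin m} {x : Ω} {w : Vp (F := F) a} : w ∈ Sb F a x ↔ ∃ z, q a (w : Vm) z • x = x := Iff.rfl

theorem comm_mem {a : Fin m ⊕ Fin m} {x : Ω} {w w' : Vp (F := F) a} (hw : w ∈ Sb F a x) (hw' : w' ∈ Sb F a x) :
    2 * B (w' : Vm) (w : Vm) ∈ X0 F a x := by
  obtain ⟨z, hz⟩ := hw
  obtain ⟨z', hz'⟩ := hw'
  have h1 : q a ((w : Vm) + (w' : Vm)) (z + z' + B (w' : Vm) (w : Vm)) • x = x := by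
    rw [← q_mul (Vp_B w.2).1 (Vp_B w'.2).1, mul_smul, hz', hz]
  have h2 : q a ((w : Vm) + (w' : Vm)) (z' + z + B (w : Vm) (w' : Vm)) • x = x := by
    rw [add_comm (w : Vm), ← q_mul (Vp_B w'.2).1 (Vp_B w.2).1, mul_smul, hz, hz']
  rw [mem_X0]
  conv_lhs => rw [← h2]
  rw [smul_smul, q, ← mul_assoc, T_add, ← q]
  convert h1 using 3
  rw [B_swap (w : Vm) w']
  ring

theorem T_q_comm {a : Fin m ⊕ Fin m} {w : Vm} (hw : B (e a) w = 0) (z t : F) :
    T (e a) t * q a w z = q a w z * T (e a) t := by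
  rw [q, ← mul_assoc, mul_assoc _ (S (e a) w 1), ← T_S_comm hw, ← mul_assoc, T_add, T_add, add_comm t]

theorem X0_orbit {a : Fin m ⊕ Fin m} {w : Vm} (hw : B (e a) w = 0) (z : F) (x : Ω) :
    X0 F a (q a w z • x) = X0 F a x := by
  ext t
  rw [mem_X0, mem_X0, smul_smul, T_q_comm hw, mul_smul, smul_left_cancel_iff]

theorem Sb_orbit {a : Fin m ⊕ Fin m} {w : Vm} (hw : w ∈ Vp (F := F) a) (z : F) (x : Ω) :
    Sb F a (q a w z • x) = Sb F a x := by
  have h : ∀ {w : Vm}, w ∈ Vp (F := F) a → ∀ (z : F) (x : Ω) (v : Vp (F := F) a), v ∈ Sb F a x →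
      v ∈ Sb F a (q a w z • x) := by
    intro w hw z x v ⟨t, ht⟩
    refine ⟨t + (B (v : Vm) w - B w (v : Vm)), ?_⟩
    conv_rhs => rw [← ht]
    rw [smul_smul, smul_smul, q_mul (Vp_B v.2).1 (Vp_B hw).1, q_mul (Vp_B hw).1 (Vp_B v.2).1, add_comm w]
    congr 2
    ring
  ext v
  refine ⟨fun hv => ?_, h hw z x v⟩
  have := h (neg_mem hw) (-z) _ v hv
  rwa [← q_inv (Vp_B hw).1 z, inv_smul_smul] at this

variable [Fintype F]

variable (F) in
/-- the annihilator of the stabilised transvections -/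
noncomputable def An (a : Fin m ⊕ Fin m) (x : Ω) : AddSubgroup F := perp (LinearMap.mul F F) (X0 F a x)

variable (F) in
/-- the annihilator of `Sb` -/
noncomputable def Un (a : Fin m ⊕ Fin m) (x : Ω) : AddSubgroup (Vp (F := F) a) := perp (bp a) (Sb F a x)

theorem perp_mul : (∀ K : AddSubgroup F, Nat.card (perp (LinearMap.mul F F) K) * Nat.card K = Fintype.card F) ∧
    (∀ K : AddSubgroup F, perp (LinearMap.mul F F) (perp (LinearMap.mul F F) K) = K) := by
  rw [← Nat.card_eq_fintype_card]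
  exact perp_spec (Or.inl fun a w => mul_comm w a) (fun a h => by simpa using h 1)

theorem An_card (a : Fin m ⊕ Fin m) (x : Ω) : Nat.card (An F a x) * Nat.card (X0 F a x) = Fintype.card F :=
  perp_mul.1 _

theorem orbit_card (a : Fin m ⊕ Fin m) (x : Ω) :
    Nat.card (MulAction.orbit (Qg (F := F) a) x) = Nat.card (An F a x) * Nat.card (Un F a x) := by
  classical
  have hst : Nat.card (MulAction.stabilizer (Qg (F := F) a) x) = Nat.card (Sb F a x) * Nat.card (X0 F a x) := by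
    choose zf hzf using fun w : Sb F a x => w.2
    let f : Sb F a x × X0 F a x → MulAction.stabilizer (Qg (F := F) a) x := fun p =>
      ⟨⟨q a ((p.1 : Vp (F := F) a) : Vm) (zf p.1 + (p.2 : F)), q_mem p.1.1.2 _⟩, by
        show q a ((p.1 : Vp (F := F) a) : Vm) (zf p.1 + (p.2 : F)) • x = x
        rw [q, add_comm, ← T_add, mul_assoc, ← q, mul_smul, hzf p.1]
        exact p.2.2⟩
    have hb : Function.Bijective f := by
      refine ⟨fun p p' h => ?_, fun g => ?_⟩
      · obtain ⟨e1, e2⟩ := q_eq_iff p.1.1.2 p'.1.1.2 (congrArg (fun g => (g.1.1 : Spm)) h)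
        have e3 : p.1 = p'.1 := Subtype.ext (Subtype.ext e1)
        exact Prod.ext e3 (Subtype.ext (by rw [e3] at e2; exact add_left_cancel e2))
      · obtain ⟨w, hw, z, hz⟩ := g.1.2
        have hgx : q a w z • x = x := by rw [← hz]; exact g.2
        let w' : Sb F a x := ⟨⟨w, hw⟩, ⟨z, hgx⟩⟩
        have ht : z - zf w' ∈ X0 F a x := by
          rw [mem_X0]
          conv_lhs => rw [← hzf w']
          rw [smul_smul, q, ← mul_assoc, T_add, sub_add_cancel, ← q]
          exact hgx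
        exact ⟨(w', ⟨_, ht⟩), Subtype.ext (Subtype.ext (by
          show q a w (zf w' + (z - zf w')) = _
          rw [add_sub_cancel, hz]))⟩
    rw [← Nat.card_eq_of_bijective f hb, Nat.card_prod]
  have h := Nat.card_congr (MulAction.orbitProdStabilizerEquivGroup (Qg (F := F) a) x)
  rw [Nat.card_prod, hst, card_Qg, ← (perp_bp a).1 (Sb F a x), ← An_card a x] at h
  have hpos : 0 < Nat.card (Sb F a x) * Nat.card (X0 F a x) := Nat.mul_pos Nat.card_pos Nat.card_pos
  refine Nat.eq_of_mul_eq_mul_right hpos ?_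
  rw [h, Un]
  ring

theorem An_orbit {a : Fin m ⊕ Fin m} {x y : Ω} (h : y ∈ MulAction.orbit (Qg (F := F) a) x) :
    An F a y = An F a x ∧ Un F a y = Un F a x := by
  obtain ⟨⟨g, w, hw, z, rfl⟩, rfl⟩ := h
  show An F a (q a w z • x) = _ ∧ Un F a (q a w z • x) = _
  rw [An, An, Un, Un, X0_orbit (Vp_B hw).1, Sb_orbit hw]
  exact ⟨rfl, rfl⟩

end Action

end Cfsg.Agent.Suzuki.SpIdx
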