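import Cfsg.Agent.Suzuki.SpIdxWeb
import Mathlib

/-!
Points fixed by the isometries fixing a hyperbolic pair.
-/

set_option autoImplicit false

namespace Cfsg.Agent.Suzuki.SpIdx

open Matrix
open Cfsg.Agent.KnownB.Proj.Symp
open Cfsg.Agent.Suzuki.SpSt

universe u v

variable {m : ℕ} {F : Type u} [Field F] [Fintype F] {Ω : Type v} [MulAction (Matrix.symplecticGroup (Fin m) F) Ω]
  [Finite Ω]

local notation "Vm" => (Fin m ⊕ Fin m → F)
local notation "Spm" => Matrix.symplecticGroup (Fin m) F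
local notation "B" => Cfsg.sympForm m F

/-- a point whose stabiliser fixes a line -/
theorem line_bound {x : Ω} {p : Vm} (hp : p ≠ 0)
    (hfix : ∀ h : Spm, h • x = x → h.1 *ᵥ p ∈ F ∙ p) :
    Fintype.card F ^ (2 * m) - 1 ≤ (Fintype.card F - 1) * Nat.card Ω := by
  classical
  have := Fintype.ofFinite Ω
  by_cases hm : m = 0
  · subst hm; simp
  let i : Fin m ⊕ Fin m := Sum.inl ⟨0, Nat.pos_of_ne_zero hm⟩
  choose! g hg using fun v : Vm => exists_move (F := F) i (v := v)
  let f : Vm → Ω := fun v => (g v * (g p)⁻¹) • x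
  have hgp : ∀ v : Vm, v ≠ 0 → (g v * (g p)⁻¹).1 *ᵥ p = v := fun v hv => by
    conv_lhs => arg 2; rw [← hg p hp]
    rw [sp_mul_mulVec, sp_inv_mulVec, hg v hv]
  let s : Finset Vm := Finset.univ.erase 0
  have h := Finset.card_le_mul_card_image (f := f) s (Fintype.card F - 1) (fun y hy => by
    obtain ⟨v, hv, rfl⟩ := Finset.mem_image.1 hy
    have hv0 := Finset.ne_of_mem_erase hv
    refine (Finset.card_le_card (t := (Finset.univ.erase (0 : F)).image fun k => k • v) ?_).trans
      (Finset.card_image_le.trans (le_of_eq (by simp [Finset.card_erase_of_mem])))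
    intro w hw
    obtain ⟨hws, hwf⟩ := Finset.mem_filter.1 hw
    have hw0 := Finset.ne_of_mem_erase hws
    have hfx : ((g v * (g p)⁻¹)⁻¹ * (g w * (g p)⁻¹)) • x = x := by
      rw [mul_smul, inv_smul_eq_iff]
      exact hwf
    obtain ⟨k, hk⟩ := Submodule.mem_span_singleton.1 (hfix _ hfx)
    rw [sp_mul_mulVec, hgp w hw0] at hk
    have hk' := congrArg ((g v * (g p)⁻¹).1 *ᵥ ·) hk
    simp only [Matrix.mulVec_smul, sp_mulVec_inv, hgp v hv0] at hk'
    refine Finset.mem_image.2 ⟨k, Finset.mem_erase.2 ⟨fun h0 => hw0 ?_, Finset.mem_univ _⟩, hk'⟩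
    rw [← hk', h0, zero_smul])
  calc Fintype.card F ^ (2 * m) - 1 = s.card := by simp [s, two_mul]
    _ ≤ (Fintype.card F - 1) * (s.image f).card := h
    _ ≤ (Fintype.card F - 1) * Nat.card Ω := Nat.mul_le_mul_left _ (by
        rw [Nat.card_eq_fintype_card]; exact Finset.card_le_univ _)

variable {a : Fin m ⊕ Fin m} {x : Ω}

/-- a point whose stabiliser fixes the complement of a plane -/
theorem plane_bound (hm : 2 ≤ m) (hfix : ∀ h : Spm, h • x = x → ∀ w ∈ Vp (F := F) a, h.1 *ᵥ w ∈ Vp (F := F) a) :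
    Fintype.card F ^ (2 * m) - 1 ≤ (Fintype.card F - 1) * Nat.card Ω := by
  classical
  have := Fintype.ofFinite Ω
  set qc := Fintype.card F
  have hq1 : 1 < qc := Fintype.one_lt_card
  let rel : Vm → Ω → Prop := fun v y => ∃ g : Spm, g • x = y ∧
    ∀ w ∈ Vp (F := F) a, B v (g.1 *ᵥ w) = 0
  let s : Finset Vm := Finset.univ.erase 0
  have h := Finset.card_mul_le_card_mul rel (s := s) (t := (Finset.univ : Finset Ω)) (m := qc ^ (2 * m - 2))
    (n := qc ^ 2 - 1) (fun v hv => ?_) (fun y _ => ?_)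
  · rw [Finset.card_univ, ← Nat.card_eq_fintype_card] at h
    have hs : s.card = qc ^ (2 * m) - 1 := by simp [s, qc, two_mul]
    rw [hs] at h
    have h1 : qc + 1 ≤ qc ^ (2 * m - 2) :=
      le_trans (by nlinarith) (Nat.pow_le_pow_right (by omega) (show 2 ≤ 2 * m - 2 by omega))
    have h2 : qc ^ 2 - 1 = (qc + 1) * (qc - 1) := by
      rw [show qc ^ 2 - 1 = qc ^ 2 - 1 ^ 2 by simp]; exact Nat.sq_sub_sq qc 1
    refine Nat.le_of_mul_le_mul_left ?_ (Nat.succ_pos qc)
    calc (qc + 1) * (qc ^ (2 * m) - 1) ≤ (qc ^ (2 * m) - 1) * qc ^ (2 * m - 2) := by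
          rw [mul_comm]; exact Nat.mul_le_mul_left _ h1
      _ ≤ Nat.card Ω * (qc ^ 2 - 1) := h
      _ = (qc + 1) * ((qc - 1) * Nat.card Ω) := by rw [h2]; ring
  · have hv0 := Finset.ne_of_mem_erase hv
    obtain ⟨g, hg⟩ := exists_move (F := F) a hv0
    rw [← card_Vp (F := F) a, Nat.card_eq_fintype_card]
    refine Finset.card_le_card_of_injOn (fun w : Vp (F := F) a => (g * q a (w : Vm) 0) • x) (fun w _ => ?_)
      (fun w _ w' _ e => ?_)
    · simp only [Finset.coe_filter, Finset.mem_univ, true_and, Finset.bipartiteAbove, Set.mem_setOf_eq]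
      refine ⟨_, rfl, fun u hu => ?_⟩
      have hqa : (q a (w : Vm) 0).1 *ᵥ e a = (e a : Vm) := by
        rw [q, T_zero, one_mul, S_mulVec (Vp_B w.2).1]
        simp [B_self, (Vp_B w.2).1]
      rw [sp_mul_mulVec, ← hg, sp_B]
      conv_lhs => arg 3; rw [← hqa]
      rw [sp_B]
      exact (Vp_B hu).1
    · simp only [mul_smul, smul_left_cancel_iff] at e
      have hfx : ((q a (w' : Vm) 0)⁻¹ * q a (w : Vm) 0) • x = x := by rw [mul_smul, e, inv_smul_smul]
      rw [q_inv (Vp_B w'.2).1, q_mul (Vp_B (neg_mem w'.2)).1 (Vp_B w.2).1, ← Submodule.coe_neg,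
        ← Submodule.coe_add] at hfx
      have hd : ∀ u : Vp (F := F) a, bp a (-w' + w) u = 0 := by
        intro u
        have := (hfix _ hfx _ u.2).1
        rw [q, sp_mul_mulVec, S_mulVec (Vp_B (-w' + w).2).1, T_mulVec] at this
        simp [B_add_left, B_smul_left, B_self, u.2.1, e_self, (Vp_B u.2).2.2.1] at this
        rw [bp_apply, B_swap, neg_eq_zero]
        simpa [(Vp_B (-w' + w).2).2.2.1] using this
      have := bp_sep a _ hd
      rw [add_comm, ← sub_eq_add_neg, sub_eq_zero] at this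
      exact this
  · by_cases hy : ∃ g : Spm, g • x = y
    swap
    · refine le_of_eq_of_le ?_ (Nat.zero_le _)
      rw [Finset.card_eq_zero, Finset.eq_empty_iff_forall_notMem]
      intro v hv
      simp only [Finset.bipartiteBelow, Finset.mem_filter] at hv
      obtain ⟨g, hg, -⟩ := hv.2
      exact hy ⟨g, hg⟩
    obtain ⟨g0, hg0⟩ := hy
    let P : Finset Vm := ((Finset.univ : Finset (F × F)).erase 0).image fun k =>
      g0.1 *ᵥ (k.1 • e a + k.2 • e (bar a))
    refine (Finset.card_le_card (t := P) fun v hv => ?_).trans (Finset.card_image_le.trans (le_of_eq ?_))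
    · simp only [Finset.bipartiteBelow, Finset.mem_filter] at hv
      obtain ⟨hv1, g, hg, hgv⟩ := hv
      have hv0 := Finset.ne_of_mem_erase hv1
      have hh : (g⁻¹ * g0) • x = x := by rw [mul_smul, hg0, ← hg, inv_smul_smul]
      set u := (g0⁻¹).1 *ᵥ v with hu
      have hu0 : ∀ w ∈ Vp (F := F) a, B u w = 0 := by
        intro w hw
        have := hgv _ (hfix _ hh w hw)
        rw [sp_mul_mulVec, sp_mulVec_inv] at this
        rw [hu, ← sp_B g0, sp_mulVec_inv]
        exact this
      refine Finset.mem_image.2 ⟨(u a, u (bar a)), Finset.mem_erase.2 ⟨fun h0 => ?_, Finset.mem_univ _⟩, ?_⟩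
      all_goals
        have hexp : u a • e a + u (bar a) • e (bar a) = u := by
          funext p
          simp only [Pi.add_apply, Pi.smul_apply, e_apply, smul_eq_mul]
          by_cases hp : cls p = cls a
          · rcases eq_or_bar hp with rfl | rfl
            · simp [(bar_ne p).symm]
            · simp [bar_ne a]
          · rw [if_neg (fun e' : p = a => hp (by rw [e'])), if_neg (fun e' : p = bar a => hp (by rw [e', cls_bar])),
              mul_zero, mul_zero, add_zero, coord_eq u p, B_swap,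
              hu0 _ (e_mem_Vp (by rw [cls_bar]; exact hp)), neg_zero, mul_zero]
      · simp only [Prod.mk_eq_zero] at h0
        rw [h0.1, h0.2, zero_smul, zero_smul, add_zero, hu] at hexp
        exact sp_mulVec_ne g0⁻¹ hv0 hexp.symm
      · show g0.1 *ᵥ (u a • e a + u (bar a) • e (bar a)) = v
        rw [hexp, hu, sp_mulVec_inv]
    · rw [Finset.card_erase_of_mem (Finset.mem_univ _), Finset.card_univ, Fintype.card_prod, ← pow_two]

/-- the bound at a point fixed by all isometries fixing the pair -/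
theorem Lg_fixed_bound (hm : 2 ≤ m) (hq : 3 ≤ Fintype.card F) (hL : ∀ g ∈ Lg (F := F) a, g • x = x)
    (hmove : X0 F a x ≠ ⊤) : Fintype.card F ^ (2 * m) - 1 ≤ (Fintype.card F - 1) * Nat.card Ω := by
  classical
  by_cases hA : ∀ h : Spm, h • x = x → ∀ w ∈ Vp (F := F) a, h.1 *ᵥ w ∈ Vp (F := F) a
  · exact plane_bound hm hA
  push Not at hA
  obtain ⟨h, hh, w0, hw0, hout⟩ := hA
  let D : Vm → Prop := fun v => ∀ c : F, (T v c : Spm) • x = x
  have hDinv : ∀ (g : Spm), g • x = x → ∀ v, D v → D (g.1 *ᵥ v) := fun g hg v hv c => by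
    rw [← T_conj g, mul_smul, mul_smul, inv_smul_eq_iff.2 hg.symm, hv c, hg]
  have hDV : ∀ v ∈ Vp (F := F) a, D v := fun v hv c => hL _ (T_mem_Lg hv c)
  have hDa : ¬ D (e a) := fun hD => hmove (eq_top_iff.2 fun c _ => hD c)
  obtain ⟨v, hvD, p, w, hw, hw0', hp0, hpe, rfl⟩ : ∃ v, D v ∧ ∃ p w : Vm, w ∈ Vp (F := F) a ∧ w ≠ 0 ∧ p ≠ 0 ∧
      (∀ u ∈ Vp (F := F) a, B p u = 0) ∧ v = p + w := by
    let pr : Vm → Vm := fun v => v a • e a + v (bar a) • e (bar a)
    have hpr : ∀ (v u : Vm), u ∈ Vp (F := F) a → B (pr v) u = 0 := fun v u hu => by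
      simp [pr, B_add_left, B_smul_left, (Vp_B hu).1, (Vp_B hu).2.1]
    have hrest : ∀ v : Vm, v - pr v ∈ Vp (F := F) a := fun v => by
      constructor
      · simp [pr, e_self, e_ne (bar_ne a).symm]
      · simp [pr, e_self, e_ne (bar_ne a)]
    have hprne : ∀ v : Vm, v ∉ Vp (F := F) a → pr v ≠ 0 := fun v hv h0 => hv (by
      have := hrest v
      rwa [h0, sub_zero] at this)
    by_contra hc
    push Not at hc
    have hsub : ∀ u ∈ Vp (F := F) a, h.1 *ᵥ u ∉ Vp (F := F) a → pr (h.1 *ᵥ u) = h.1 *ᵥ u := by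
      intro u hu hu'
      by_contra hne
      exact hc _ (hDinv h hh u (hDV u hu)) (pr (h.1 *ᵥ u)) _ (hrest _) (sub_ne_zero.2 (Ne.symm hne))
        (hprne _ hu') (hpr _) (by abel)
    have hall : ∀ u ∈ Vp (F := F) a, pr (h.1 *ᵥ u) = h.1 *ᵥ u := by
      intro u hu
      by_cases hu' : h.1 *ᵥ u ∈ Vp (F := F) a
      · have hs : h.1 *ᵥ (w0 + u) ∉ Vp (F := F) a := fun hm' => hout (by
          rw [Matrix.mulVec_add] at hm'
          simpa using sub_mem hm' hu')
        have e1 := hsub _ (add_mem hw0 hu) hs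
        have e2 := hsub _ hw0 hout
        have e3 : pr (h.1 *ᵥ (w0 + u)) = pr (h.1 *ᵥ w0) + pr (h.1 *ᵥ u) := by
          simp only [pr, Matrix.mulVec_add, Pi.add_apply, add_smul]
          abel
        rw [e3, e2, Matrix.mulVec_add, add_right_inj] at e1
        exact e1
      · exact hsub u hu hu'
    let f : Vp (F := F) a → F × F := fun u => ((h.1 *ᵥ (u : Vm)) a, (h.1 *ᵥ (u : Vm)) (bar a))
    have hinj : Function.Injective f := by
      intro u u' e
      have e1 := hall _ u.2
      have e2 := hall _ u'.2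
      simp only [f, Prod.mk.injEq] at e
      simp only [pr] at e1 e2
      rw [e.1, e.2, e2] at e1
      exact Subtype.ext ((sp_inv_mulVec h _).symm.trans (by rw [← e1, sp_inv_mulVec]))
    have hcard : Nat.card (F × F) ≤ Nat.card (Vp (F := F) a) := by
      rw [Nat.card_prod, card_Vp, Nat.card_eq_fintype_card, ← pow_two]
      exact Nat.pow_le_pow_right (by omega) (by omega)
    obtain ⟨u, hu⟩ := (hinj.bijective_of_nat_card_le hcard).2 (1, 0)
    apply hDa
    simp only [f, Prod.mk.injEq] at hu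
    have := hall _ u.2
    simp only [pr, hu.1, hu.2, one_smul, zero_smul, add_zero] at this
    rw [this]
    exact hDinv h hh _ (hDV _ u.2)
  have hBp : ∀ u ∈ Vp (F := F) a, B u p = 0 := fun u hu => by rw [B_swap, hpe u hu, neg_zero]
  have hgp : ∀ g ∈ Lg (F := F) a, g.1 *ᵥ p = p := by
    intro g hg
    have hz : ∀ i, cls i ≠ cls a → p i = 0 := fun i hi => by
      rw [coord_eq p i, B_swap, hpe _ (e_mem_Vp (by rw [cls_bar]; exact hi)), neg_zero, mul_zero]
    have hexp : p = p a • e a + p (bar a) • e (bar a) := by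
      funext i
      simp only [Pi.add_apply, Pi.smul_apply, e_apply, smul_eq_mul]
      by_cases hi : cls i = cls a
      · rcases eq_or_bar hi with rfl | rfl
        · simp [(bar_ne i).symm]
        · simp [bar_ne a]
      · rw [if_neg (fun e' : i = a => hi (by rw [e'])), if_neg (fun e' : i = bar a => hi (by rw [e', cls_bar])),
          mul_zero, mul_zero, add_zero, hz i hi]
    rw [hexp, Matrix.mulVec_add, Matrix.mulVec_smul, Matrix.mulVec_smul, hg.1, hg.2]
  have h1 : ∀ u ∈ Vp (F := F) a, u ≠ 0 → D (p + u) := by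
    intro u hu hu0
    obtain ⟨g, hg, eg⟩ := Lg_trans hw hu hw0' hu0
    have := hDinv g (hL g hg) _ hvD
    rwa [Matrix.mulVec_add, hgp g hg, eg] at this
  obtain ⟨u1, hu1, hu1w⟩ : ∃ u1, u1 ∈ Vp (F := F) a ∧ B u1 w = 1 := by
    by_contra hc
    push Not at hc
    apply hw0'
    refine Subtype.ext_iff.1 (bp_sep a ⟨w, hw⟩ fun u => ?_)
    by_contra hne
    rw [bp_apply] at hne
    refine hc ((-(B w (u : Vm))⁻¹) • (u : Vm)) (Submodule.smul_mem _ _ u.2) ?_
    rw [B_smul_left, B_swap (u : Vm) w, neg_mul_neg, inv_mul_cancel₀ hne]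
  have h2 : ∀ (l : F) (u : Vm), u ∈ Vp (F := F) a → u ≠ 0 → D (l • p + u) := by
    intro l u hu hu0
    have hne1 : u1 ≠ 0 := fun h0 => by rw [h0, B_zero_left] at hu1w; exact zero_ne_one hu1w
    have hd := hDinv (T (p + w) (l - 1)) (hvD _) _ (h1 u1 hu1 hne1)
    rw [T_mulVec, B_add_left, B_add_right, B_add_right, B_self, hpe w hw, hBp u1 hu1, hu1w] at hd
    simp only [zero_add, add_zero, mul_one] at hd
    set u2 := u1 + (l - 1) • w
    have hu2 : u2 ∈ Vp (F := F) a := add_mem hu1 (Submodule.smul_mem _ _ hw)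
    have hu20 : u2 ≠ 0 := fun h0 => by
      have := congrArg (fun y => B y w) h0
      simp only [u2, B_add_left, B_smul_left, B_self, hu1w, B_zero_left, mul_zero, add_zero] at this
      exact one_ne_zero this
    rw [show p + u1 + (l - 1) • (p + w) = l • p + u2 by simp only [u2]; module] at hd
    obtain ⟨g, hg, eg⟩ := Lg_trans hu2 hu hu20 hu0
    have := hDinv g (hL g hg) _ hd
    rwa [Matrix.mulVec_add, Matrix.mulVec_smul, hgp g hg, eg] at this
  have hTp : ∀ r : F, r ≠ 0 → (T p (1 + r) : Spm) • x = x := by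
    intro r hr
    set u' := r • u1
    have hu' : u' ∈ Vp (F := F) a := Submodule.smul_mem _ _ hu1
    have hBr : B u' w = r := by rw [B_smul_left, hu1w, mul_one]
    have hu'0 : u' ≠ 0 := fun h0 => hr (by rw [← hBr, h0, B_zero_left])
    have hsum0 : w + u' ≠ 0 := fun h0 => hr (by
      have := congrArg (fun y => B y w) h0
      simpa [B_add_left, B_self, hBr, B_zero_left] using this)
    have key : ∀ y, y ∈ Vp (F := F) a → y ≠ 0 → (S p y 1 * T p 1 : Spm) • x = x := by
      intro y hy hy0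
      have hc1 : (T p 1 : Spm) * T y (-1) = T y (-1) * T p 1 := T_comm (hpe y hy) _ _
      rw [show (S p y 1 * T p 1 : Spm) = T (p + y) 1 * T y (-1) by
        rw [S, mul_assoc, mul_assoc, ← hc1, ← mul_assoc (T p (-1)), T_add, neg_add_cancel, T_zero, one_mul]]
      rw [mul_smul, hDV y hy, h1 y hy hy0]
    have hS : ∀ y ∈ Vp (F := F) a, ∀ c : F, Commute (S p y 1 : Spm) (T p c) := fun y hy c =>
      (commute_of_fix (S_fix (hpe y hy) 1).1 (S_fix (hpe y hy) 1).2 c).1
    have e : (S p (w + u') 1 * T p 1 : Spm) * T p (1 + r) = (S p w 1 * T p 1) * (S p u' 1 * T p 1) := by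
      rw [S_add_right' (hpe w hw) (hpe u' hu'), hBr]
      calc T p (-(1 * 1 * r)) * (S p w 1 * S p u' 1) * T p 1 * T p (1 + r)
          = S p w 1 * S p u' 1 * (T p (-(1 * 1 * r)) * (T p 1 * T p (1 + r))) := by
            rw [← ((hS w hw _).mul_left (hS u' hu' _)).eq]; simp only [mul_assoc]
        _ = S p w 1 * S p u' 1 * (T p 1 * T p 1) := by rw [T_add, T_add, T_add]; congr 2; ring
        _ = S p w 1 * (T p 1 * S p u' 1) * T p 1 := by rw [← (hS u' hu' 1).eq]; simp only [mul_assoc]
        _ = _ := by simp only [mul_assoc]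
    have e1 := congrArg (· • x) e
    simp only [mul_smul] at e1
    rw [← mul_smul (S p u' 1), key u' hu' hu'0, ← mul_smul (S p w 1), key w hw hw0'] at e1
    exact MulAction.injective (S p (w + u') 1 * T p 1) (by
      show (S p (w + u') 1 * T p 1 : Spm) • (T p (1 + r) : Spm) • x = (S p (w + u') 1 * T p 1 : Spm) • x
      rw [key _ (add_mem hw hu') hsum0, mul_smul]; exact e1)
  have hDp : D p := by
    intro t
    have hT : ∀ s : F, s ≠ 1 → (T p s : Spm) • x = x := fun s hs => by
      simpa using hTp (s - 1) (sub_ne_zero.2 hs)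
    by_cases ht : t = 1
    · obtain ⟨t1, -, hb⟩ := Finset.exists_mem_notMem_of_card_lt_card (s := ({0, 1} : Finset F)) (t := Finset.univ)
        (lt_of_le_of_lt Finset.card_le_two (by rw [Finset.card_univ]; omega))
      simp only [Finset.mem_insert, Finset.mem_singleton, not_or] at hb
      rw [ht, show (1 : F) = t1 + (1 - t1) by ring, ← T_add, mul_smul, hT _ (fun h0 => hb.1 (by linear_combination -h0)),
        hT _ hb.2]
    · exact hT t ht
  have hP : ∀ z : Vm, B p z = 0 → D z := by
    intro z hz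
    set zp : Vm := z a • e a + z (bar a) • e (bar a) with hzp
    have hrest : z - zp ∈ Vp (F := F) a := by
      constructor
      · simp [zp, e_self, e_ne (bar_ne a).symm]
      · simp [zp, e_self, e_ne (bar_ne a)]
    have hpexp : p = p a • e a + p (bar a) • e (bar a) := by
      funext i
      simp only [Pi.add_apply, Pi.smul_apply, e_apply, smul_eq_mul]
      by_cases hi : cls i = cls a
      · rcases eq_or_bar hi with rfl | rfl
        · simp [(bar_ne i).symm]
        · simp [bar_ne a]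
      · rw [if_neg (fun e' : i = a => hi (by rw [e'])), if_neg (fun e' : i = bar a => hi (by rw [e', cls_bar])),
          mul_zero, mul_zero, add_zero, coord_eq p i, B_swap, hpe _ (e_mem_Vp (by rw [cls_bar]; exact hi)),
          neg_zero, mul_zero]
    have h0 : B p zp = 0 := by
      have hh : B p (z - zp) = 0 := hpe _ hrest
      rw [B_sub_right, hz, zero_sub, neg_eq_zero] at hh
      exact hh
    obtain ⟨k, hk⟩ : ∃ k : F, zp = k • p := by
      have hdet : p a * z (bar a) = p (bar a) * z a := by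
        rw [hpexp, hzp] at h0
        simp only [B_add_left, B_add_right, B_smul_left, B_smul_right, B_self, mul_zero, zero_add, add_zero] at h0
        rw [B_e_left, B_e_left, bar_bar, e_self, e_self, sg_bar] at h0
        refine mul_left_cancel₀ (sg_ne (F := F) a) ?_
        linear_combination h0
      by_cases hpa : p a = 0
      · have hpb : p (bar a) ≠ 0 := fun h' => hp0 (by rw [hpexp, hpa, h', zero_smul, zero_smul, add_zero])
        have hza : z a = 0 := by
          rw [hpa, zero_mul] at hdet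
          exact (mul_eq_zero.1 hdet.symm).resolve_left hpb
        refine ⟨z (bar a) / p (bar a), ?_⟩
        rw [hzp]
        conv_rhs => arg 2; rw [hpexp]
        rw [hpa, hza, zero_smul, zero_add, smul_add, smul_zero, zero_add, smul_smul,
          div_mul_cancel₀ _ hpb]
      · refine ⟨z a / p a, ?_⟩
        rw [hzp]
        conv_rhs => arg 2; rw [hpexp]
        rw [smul_add, smul_smul, smul_smul, div_mul_cancel₀ _ hpa]
        congr 2
        field_simp
        linear_combination hdet
    have hsplit : z = k • p + (z - zp) := by rw [← hk]; abel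
    by_cases hr0 : z - zp = 0
    · intro c
      rw [hsplit, hr0, add_zero, T_smul, hDp]
    · rw [hsplit]
      exact h2 k _ hrest hr0
  refine line_bound (x := x) hp0 fun g hg => ?_
  by_contra hne
  refine hDa ?_
  set p' := g.1 *ᵥ p
  have hP' : ∀ z : Vm, B p' z = 0 → D z := fun z hz => by
    have := hDinv g hg _ (hP ((g⁻¹).1 *ᵥ z) (by rw [← sp_B g, sp_mulVec_inv]; exact hz))
    rwa [sp_mulVec_inv] at this
  by_cases hx : (e a : Vm) ∈ F ∙ p
  · obtain ⟨k, hk⟩ := Submodule.mem_span_singleton.1 hx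
    intro c
    rw [← hk, T_smul, hDp]
  obtain ⟨y1, hy1, hy1'⟩ := exists_sep hne
  obtain ⟨y2, hy2, hy2'⟩ := exists_sep hx
  obtain ⟨y, hyp, hyp', hya⟩ : ∃ y : Vm, B y p = 0 ∧ B y p' ≠ 0 ∧ B y (e a) ≠ 0 := by
    by_cases c1 : B y1 (e a) = 0
    · by_cases c2 : B y2 p' = 0
      · refine ⟨y1 + y2, ?_, ?_, ?_⟩ <;> simp [B_add_left, hy1, hy2, hy1', hy2', c1, c2]
      · exact ⟨y2, hy2, c2, by rw [hy2']; exact one_ne_zero⟩
    · exact ⟨y1, hy1, by rw [hy1']; exact one_ne_zero, c1⟩
  have hDy : D y := hP y (by rw [B_swap, hyp, neg_zero])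
  have hpy : B p' y ≠ 0 := by rw [B_swap, neg_ne_zero]; exact hyp'
  have hay : B (e a) y ≠ 0 := by rw [B_swap, neg_ne_zero]; exact hya
  set c := -(B p' (e a)) / (B (e a) y * B p' y)
  have hD' : D ((T y c).1 *ᵥ e a) := hP' _ (by
    rw [T_mulVec, B_add_right, B_smul_right]
    simp only [c]
    field_simp
    ring)
  have := hDinv (T y (-c)) (hDy _) _ hD'
  rwa [← sp_mul_mulVec, T_add, neg_add_cancel, T_zero, sp_one_mulVec] at this

end Cfsg.Agent.Suzuki.SpIdx
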