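import Cfsg.Agent.Suzuki.SpIdxMoves
import Cfsg.Agent.Suzuki.SpIdxLines
import Cfsg.Agent.Suzuki.SpIdxArith
import Cfsg.Agent.Forms.SympOrder
import Mathlib

/-!
The orbits with trivially stabilised centre.
-/

set_option autoImplicit false

namespace Cfsg.Agent.Suzuki.SpIdx

open Matrix
open Cfsg.Agent.KnownB.Proj.Symp
open Cfsg.Agent.Suzuki.SpSt

universe u v

variable {m : ℕ} {F : Type u} [Field F] [Fintype F] {Ω : Type v} [MulAction (Matrix.symplecticGroup (Fin m) F) Ω]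
  [Finite Ω]

local notation "Vm" => (Fin m ⊕ Fin m → F)
local notation "Spm" => Matrix.symplecticGroup (Fin m) F
local notation "B" => Cfsg.sympForm m F

theorem qQ (hm : 2 ≤ m) : Fintype.card F ^ (2 * m) = Fintype.card F ^ 2 * Fintype.card F ^ (2 * m - 2) := by
  rw [← pow_add]; congr 1; omega

theorem two_le_Q (hm : 2 ≤ m) : Fintype.card F ^ 2 ≤ Fintype.card F ^ (2 * m - 2) :=
  Nat.pow_le_pow_right Fintype.card_pos (by omega)

theorem An_eq_q {a : Fin m ⊕ Fin m} {x : Ω} (hX : X0 F a x = ⊥) : Nat.card (An F a x) = Fintype.card F := by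
  have h := An_card (F := F) a x
  rwa [hX, AddSubgroup.card_bot, mul_one] at h

theorem exists_mu (hq : 3 ≤ Fintype.card F) :
    ∃ (r : ℕ) (μ : F), r.Prime ∧ μ ^ r = 1 ∧ μ ≠ 1 ∧ μ ≠ 0 ∧ ∀ k : ℕ, ¬ r ∣ Fintype.card F ^ k := by
  classical
  obtain ⟨r, hr, hdvd⟩ := Nat.exists_prime_and_dvd (show Fintype.card F - 1 ≠ 1 by omega)
  have := Fact.mk hr
  obtain ⟨u, hu⟩ := exists_prime_orderOf_dvd_card (G := Fˣ) r (by rwa [Fintype.card_units])
  refine ⟨r, (u : F), hr, ?_, fun h => hr.ne_one ?_, u.ne_zero, fun k hk => ?_⟩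
  · rw [← Units.val_pow_eq_pow_val, ← hu, pow_orderOf_eq_one, Units.val_one]
  · rw [← hu, Units.val_eq_one.1 h, orderOf_one]
  · have h1 := hr.dvd_of_dvd_pow hk
    have h2 := Nat.dvd_sub h1 hdvd
    rw [Nat.sub_sub_self Fintype.card_pos] at h2
    exact hr.ne_one (Nat.dvd_one.1 h2)

theorem exists_scale {a : Fin m ⊕ Fin m} (hq : 4 ≤ Fintype.card F) : ∃ ν : F, ν ≠ 0 ∧ ν ^ 2 ≠ 1 := by
  classical
  obtain ⟨ν, -, hb⟩ := Finset.exists_mem_notMem_of_card_lt_card (s := ({0, 1, -1} : Finset F)) (t := Finset.univ)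
    (lt_of_le_of_lt Finset.card_le_three (by rw [Finset.card_univ]; omega))
  simp only [Finset.mem_insert, Finset.mem_singleton, not_or] at hb
  exact ⟨ν, hb.1, fun h => (sq_eq_one_iff.1 h).elim hb.2.1 hb.2.2⟩

variable {a : Fin m ⊕ Fin m}

/-- regular orbits -/
theorem regular_case (hm : 2 ≤ m) (hq : 3 ≤ Fintype.card F) (hexc : m = 2 → 4 ≤ Fintype.card F) {x : Ω}
    (hX : X0 F a x = ⊥) (hu : Nat.card (Un F a x) = Nat.card (Vp (F := F) a)) :
    Fintype.card F ^ (2 * m) - 1 ≤ (Fintype.card F - 1) * Nat.card Ω := by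
  classical
  have hOc : ∀ y : Ω, X0 F a y = ⊥ → Nat.card (Un F a y) = Nat.card (Vp (F := F) a) →
      Nat.card (MulAction.orbit (Qg (F := F) a) y) = Fintype.card F ^ (2 * m - 2) * Fintype.card F := by
    intro y hy hy'
    rw [orbit_card, An_eq_q hy, hy', card_Vp, mul_comm]
  by_cases hex : ∃ (μ : F) (g : Spm), Sc a μ g ∧ g • x ∉ MulAction.orbit (Qg (F := F) a) x
  · obtain ⟨μ, g, hg, hgx⟩ := hex
    have hXg : X0 F a (g • x) = ⊥ := (AddSubgroup.eq_bot_iff_forall _).2 fun z hz => by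
      have := X0_sc' hg hz
      rw [hX, AddSubgroup.mem_bot, mul_eq_zero] at this
      exact this.resolve_left (pow_ne_zero 2 (inv_ne_zero hg.1))
    have hd : Disjoint (MulAction.orbit (Qg (F := F) a) (g • x)) (MulAction.orbit (Qg (F := F) a) x) := by
      rw [Set.disjoint_left]
      intro y hy hy'
      apply hgx
      rw [← MulAction.orbit_eq_iff.2 hy', MulAction.orbit_eq_iff.2 hy]
      exact MulAction.mem_orbit_self _
    rw [qQ hm]
    refine bound_regular hq ?_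
    rw [two_mul]
    conv_lhs => arg 1; rw [← hOc _ hXg (by rw [Un_card_sc hg, hu]), Nat.card_coe_set_eq]
    conv_lhs => arg 2; rw [← hOc _ hX hu, Nat.card_coe_set_eq]
    rw [← Set.ncard_union_eq hd, ← Set.ncard_univ Ω]
    exact Set.ncard_le_ncard (Set.subset_univ _)
  push Not at hex
  obtain ⟨r, μ, hr, hμr, hμ1, hμ0, hrq⟩ := exists_mu hq
  have := Fact.mk hr
  obtain ⟨h, hh, hfix, hcomm, hpow⟩ := exists_torus a hμ0
  have hinv : ∀ (ν : F) (g : Spm), Sc a ν g → ∀ y ∈ MulAction.orbit (Qg (F := F) a) x,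
      g • y ∈ MulAction.orbit (Qg (F := F) a) x := fun ν g hg y hy => by
    rw [← MulAction.orbit_eq_iff.2 (hex ν g hg)]
    exact Sc_orbit hg hy
  obtain ⟨x1, hx1, hfx⟩ := exists_fix (hinv μ h hh) (hpow r hμr) (by
    rw [hOc x hX hu, ← pow_succ]; exact hrq _)
  obtain ⟨e1, e2⟩ := An_orbit hx1
  have hX1 : X0 F a x1 = ⊥ := by
    rw [← perp_mul.2 (X0 F a x1), ← An, e1, An, perp_mul.2, hX]
  have hSb : Sb F a x1 = ⊥ := by
    have hc := (perp_bp a).1 (Sb F a x1)
    rw [← Un, e2, hu, mul_eq_left₀ Nat.card_pos.ne'] at hc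
    exact AddSubgroup.eq_bot_of_card_eq _ hc
  have hmap : ∀ g ∈ Lg (F := F) a, ∃ t, g • x1 = (T (e a) t : Spm) • x1 := by
    intro g hg
    have hmem := hinv 1 g (Lg_sc hg) x1 hx1
    rw [← MulAction.orbit_eq_iff.2 hx1] at hmem
    obtain ⟨⟨_, w, hw, z, rfl⟩, hwz⟩ := hmem
    have hwz' : q a w z • x1 = g • x1 := hwz
    have h1 : h • q a w z • x1 = q a w z • x1 := by rw [hwz', smul_smul, hcomm g hg, mul_smul, hfx]
    have h2 : q a (μ • w) (μ ^ 2 * z) • x1 = q a w z • x1 := by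
      conv_rhs => rw [← h1]
      rw [← hfix w hw, ← q_conj hh.2.1 hh.1 (Vp_B hw).1, hfix w hw, mul_smul, mul_smul, inv_smul_eq_iff.2 hfx.symm]
    have h3 := free_eq (w := ⟨μ • w, Submodule.smul_mem _ μ hw⟩) (w' := ⟨w, hw⟩) h2
    rw [hSb, AddSubgroup.mem_bot, sub_eq_zero] at h3
    have h4 : (μ - 1) • w = 0 := by rw [sub_smul, one_smul, sub_eq_zero]; exact congrArg Subtype.val h3
    have hw0 : w = 0 := (smul_eq_zero.1 h4).resolve_left (sub_ne_zero.2 hμ1)
    exact ⟨z, by rw [← hwz', hw0, q_zero]⟩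
  have hTfix : ∀ v ∈ Vp (F := F) a, ∀ c : F, (T v c : Spm) • x1 = x1 := by
    intro v hv c
    by_cases hv0 : v = 0
    · have : (T v c : Spm) = 1 := sp_ext fun y => by rw [hv0, T_mulVec, smul_zero, add_zero, sp_one_mulVec]
      rw [this, one_smul]
    by_cases h4 : 4 ≤ Fintype.card F
    · obtain ⟨ν, hν0, hν⟩ := exists_scale (F := F) (a := a) h4
      obtain ⟨k, hk, ek⟩ := Lg_trans hv (Submodule.smul_mem _ ν hv) hv0 (smul_ne_zero hν0 hv0)
      obtain ⟨s, es⟩ := hmap k hk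
      exact kill_torus hX1 hk ek hν hv es (fun d => hmap _ (T_mem_Lg hv d)) c
    have hm3 : 3 ≤ m := by
      by_contra hc
      exact h4 (hexc (by omega))
    have h2 : (2 : F) ≠ 0 := fun h2 => by
      have := FiniteField.even_card_of_char_two (F := F)
        (ringChar.eq_iff.2 (CharTwo.of_one_ne_zero_of_two_eq_zero one_ne_zero h2))
      omega
    have : ∃ d : F, (∀ u ∈ Vp (F := F) a, u ≠ 0 → (T u c : Spm) • x1 = (T (e a) d : Spm) • x1) := by
      obtain ⟨d, hd⟩ := hmap _ (T_mem_Lg hv c)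
      refine ⟨d, fun u hu hu0 => ?_⟩
      obtain ⟨k, hk, ek⟩ := Lg_trans hv hu hv0 hu0
      obtain ⟨s, es⟩ := hmap k hk
      rw [← ek, ← T_conj k, trans_conj hk (T_mem_Lg hv c) es hd]
    obtain ⟨d, hd⟩ := this
    suffices hd0 : d = 0 by rw [hd v hv hv0, hd0, T_zero, one_smul]
    by_cases hc : c = 0
    · have := hd v hv hv0
      rw [hc, T_zero, one_smul] at this
      exact T_unique hX1 (this.symm.trans (by rw [T_zero, one_smul]))
    obtain ⟨j, j', hj, hj', hjj⟩ : ∃ j j' : Fin m, j ≠ cls a ∧ j' ≠ cls a ∧ j ≠ j' := by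
      obtain ⟨j, hj⟩ : ∃ j : Fin m, j ≠ cls a := by
        have : Nontrivial (Fin m) := Fin.nontrivial_iff_two_le.2 hm
        exact exists_ne _
      obtain ⟨j', -, hb⟩ := Finset.exists_mem_notMem_of_card_lt_card (s := ({cls a, j} : Finset (Fin m)))
        (t := Finset.univ) (lt_of_le_of_lt Finset.card_le_two (by rw [Finset.card_univ, Fintype.card_fin]; omega))
      simp only [Finset.mem_insert, Finset.mem_singleton, not_or] at hb
      exact ⟨j, j', hj, hb.1, Ne.symm hb.2⟩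
    let b : Fin m ⊕ Fin m := Sum.inl j
    let b' : Fin m ⊕ Fin m := Sum.inl j'
    set p : Vm := e b with hp
    set w : Vm := e b' with hw
    set w' : Vm := (c⁻¹ * (sg (bar b') : F)) • e (bar b') with hw'
    have hpV : p ∈ Vp (F := F) a := e_mem_Vp hj
    have hwV : w ∈ Vp (F := F) a := e_mem_Vp hj'
    have hw'V : w' ∈ Vp (F := F) a := Submodule.smul_mem _ _ (e_mem_Vp (by rw [cls_bar]; exact hj'))
    have hb1 : cls b ≠ cls b' := hjj
    have hpw : B p w = 0 := B_e_e (ne_bar_of_cls hb1)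
    have hpw' : B p w' = 0 := by
      rw [hw', B_smul_right, hp, B_e_e (ne_bar_of_cls (by rw [cls_bar]; exact hb1)), mul_zero]
    have hww : B w' w = c⁻¹ := by
      rw [hw', hw, B_smul_left, B_e_left, bar_bar, e_self, mul_one, mul_assoc, sg_mul_self, mul_one]
    have hne0 : ∀ y, y ∈ ({p, w, w', p + w, p + w', w + w', p + (w + w')} : Set Vm) → y ≠ 0 := by
      have hp1 : p b = 1 := e_self b
      have hw1 : w b' = 1 := e_self b'
      have hwb : w b = 0 := e_ne (ne_of_cls hb1)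
      have hw'b : w' b = 0 := by
        rw [hw', Pi.smul_apply, e_ne (ne_of_cls (by rw [cls_bar]; exact hb1)), smul_zero]
      have hw'b' : w' b' = 0 := by rw [hw', Pi.smul_apply, e_ne (bar_ne b').symm, smul_zero]
      have hw'0 : w' ≠ 0 := fun h0 => inv_ne_zero hc (by rw [← hww, h0, B_zero_left])
      intro y hy
      simp only [Set.mem_insert_iff, Set.mem_singleton_iff] at hy
      rcases hy with rfl | rfl | rfl | rfl | rfl | rfl | rfl
      · exact e_ne_zero b
      · exact e_ne_zero b'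
      · exact hw'0
      all_goals intro h0
      · have := congrFun h0 b; simp [hp1, hwb] at this
      · have := congrFun h0 b; simp [hp1, hw'b] at this
      · have := congrFun h0 b'; simp [hw1, hw'b'] at this
      · have := congrFun h0 b; simp [hp1, hwb, hw'b] at this
    have hneg : ∀ u, u ∈ Vp (F := F) a → u ≠ 0 → (T u (-c) : Spm) • x1 = (T (e a) (-d) : Spm) • x1 := by
      intro u hu hu0
      have e3 : (T u (-c) : Spm) = (T u c)⁻¹ :=
        (inv_eq_of_mul_eq_one_right (by rw [T_add, add_neg_cancel, T_zero])).symm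
      rw [e3]
      exact trans_inv (T_mem_Lg hu c) (hd u hu hu0)
    have hS : ∀ u, u ∈ Vp (F := F) a → u ≠ 0 → p + u ≠ 0 → (S p u c : Spm) • x1 = (T (e a) (-d) : Spm) • x1 := by
      intro u hu hu0 hpu
      rw [S, trans_mul (mul_mem (T_mem_Lg (add_mem hpV hu) _) (T_mem_Lg hpV _))
        (trans_mul (T_mem_Lg (add_mem hpV hu) _) (hd _ (add_mem hpV hu) hpu)
          (hneg p hpV (hne0 p (by simp)))) (hneg u hu hu0)]
      congr 2
      ring
    have hA : (S p (w + w') c : Spm) • x1 = (T (e a) (-d + (-d + -d)) : Spm) • x1 := by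
      rw [S_add_right' hpw hpw', hww, show -(c * c * c⁻¹) = -c by field_simp]
      exact trans_mul (T_mem_Lg hpV _) (hneg p hpV (hne0 p (by simp)))
        (trans_mul (S_mem_Lg hpV hwV c) (hS w hwV (hne0 w (by simp)) (hne0 _ (by simp)))
          (hS w' hw'V (hne0 w' (by simp)) (hne0 _ (by simp))))
    rw [hS (w + w') (add_mem hwV hw'V) (hne0 _ (by simp)) (hne0 _ (by simp))] at hA
    have h5 := T_unique hX1 hA
    have : (2 : F) * d = 0 := by linear_combination h5
    exact (mul_eq_zero.1 this).resolve_left h2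
  refine Lg_fixed_bound (a := a) (x := x1) hm hq (fun g hg => Lg_fix_of_T hTfix hg) ?_
  rw [hX1]
  exact fun h => one_ne_zero ((AddSubgroup.mem_bot).1 (h ▸ AddSubgroup.mem_top (1 : F)))

/-- two orbits through every vector when there are independent vectors -/
theorem span_case (hm : 2 ≤ m) (hq : 3 ≤ Fintype.card F) {x : Ω} (hX : X0 F a x = ⊥)
    (hu : 1 < Nat.card (Un F a x)) (hne : Un F a x ≠ ⊤) {v w : Vp (F := F) a} (hv : v ∈ Un F a x)
    (hw : w ∈ Un F a x) (hind : (w : Vm) ∉ F ∙ (v : Vm)) (hv0 : (v : Vm) ≠ 0) :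
    Fintype.card F ^ (2 * m) - 1 ≤ (Fintype.card F - 1) * Nat.card Ω := by
  classical
  obtain ⟨v0, hv0U, hv00, g0, hg0, hg0v, hg0x⟩ : ∃ v0 ∈ Un F a x, (v0 : Vm) ≠ 0 ∧ ∃ g ∈ Lg (F := F) a,
      g.1 *ᵥ (v0 : Vm) = v0 ∧ g • x ∉ MulAction.orbit (Qg (F := F) a) x := by
    by_contra hcon
    push Not at hcon
    have hstab : ∀ v0 ∈ Un F a x, (v0 : Vm) ≠ 0 → ∀ z : Vp (F := F) a, B (z : Vm) (v0 : Vm) = 0 →
        ∀ u ∈ Un F a x, ∀ c : F, (c * B (u : Vm) (z : Vm)) • z ∈ Un F a x := by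
      intro v0 hv0U hv00 z hz u hu c
      have hfix : (T (z : Vm) c).1 *ᵥ (v0 : Vm) = v0 := by
        rw [T_mulVec, B_swap, hz, neg_zero, mul_zero, zero_smul, add_zero]
      have hor := hcon v0 hv0U hv00 _ (T_mem_Lg z.2 c) hfix
      have h1 := Un_sc (Lg_sc (T_mem_Lg z.2 c)) hu
      rw [(An_orbit hor).2] at h1
      have h3 := sub_mem h1 hu
      convert h3 using 1
      apply Subtype.ext
      show (c * B (u : Vm) (z : Vm)) • (z : Vm) = (1 : F)⁻¹ • (T (z : Vm) c).1 *ᵥ (u : Vm) - (u : Vm)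
      rw [inv_one, one_smul, T_mulVec, add_sub_cancel_left]
    have hperp : ∀ v0 w0 : Vp (F := F) a, v0 ∈ Un F a x → w0 ∈ Un F a x → (v0 : Vm) ≠ 0 →
        (w0 : Vm) ∉ F ∙ (v0 : Vm) → (∀ z : Vp (F := F) a, B (z : Vm) (v0 : Vm) = 0 → z ∈ Un F a x) ∧
          ∃ z : Vp (F := F) a, B (z : Vm) (v0 : Vm) = 0 ∧ B (z : Vm) (w0 : Vm) = 1 := by
      intro v0 w0 hv0U hw0U hv00 hi
      obtain ⟨y, hy0, hy1⟩ := exists_sep hi
      set yp : Vm := y a • e a + y (bar a) • e (bar a) with hyp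
      have hy' : y - yp ∈ Vp (F := F) a := by
        constructor
        · simp [yp, e_self, e_ne (bar_ne a).symm]
        · simp [yp, e_self, e_ne (bar_ne a)]
      have hB : ∀ u : Vp (F := F) a, B yp (u : Vm) = 0 := fun u => by
        simp [yp, B_add_left, B_smul_left, (Vp_B u.2).1, (Vp_B u.2).2.1]
      obtain ⟨z1, hz10, hz11⟩ : ∃ z : Vp (F := F) a, B (z : Vm) (v0 : Vm) = 0 ∧ B (z : Vm) (w0 : Vm) = 1 :=
        ⟨⟨_, hy'⟩, by show B (y - yp) (v0 : Vm) = 0; rw [B_sub_left, hy0, hB, sub_zero],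
          by show B (y - yp) (w0 : Vm) = 1; rw [B_sub_left, hy1, hB, sub_zero]⟩
      have hnz : ∀ z : Vp (F := F) a, B (z : Vm) (v0 : Vm) = 0 → B (z : Vm) (w0 : Vm) ≠ 0 → z ∈ Un F a x := by
        intro z hz hzw
        have := hstab v0 hv0U hv00 z hz w0 hw0U (B (w0 : Vm) (z : Vm))⁻¹
        rwa [inv_mul_cancel₀ (by rw [B_swap, neg_ne_zero]; exact hzw), one_smul] at this
      refine ⟨fun z hz => ?_, z1, hz10, hz11⟩
      by_cases hzw : B (z : Vm) (w0 : Vm) = 0
      · have := sub_mem (hnz (z + z1) (by rw [Submodule.coe_add, B_add_left, hz, hz10, add_zero])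
          (by rw [Submodule.coe_add, B_add_left, hzw, hz11, zero_add]; exact one_ne_zero))
          (hnz z1 hz10 (by rw [hz11]; exact one_ne_zero))
        simpa using this
      · exact hnz z hz hzw
    have hw0 : (w : Vm) ≠ 0 := fun h0 => hind (by rw [h0]; exact zero_mem _)
    obtain ⟨hA, z1, hz10, hz11⟩ := hperp v w hv hw hv0 hind
    obtain ⟨hB', -⟩ := hperp w v hw hv hw0 (notMem_swap hv0 hind)
    apply hne
    rw [eq_top_iff]
    intro z _
    set k := B (z : Vm) (w : Vm)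
    have h1 : k • z1 ∈ Un F a x := hA _ (by rw [Submodule.coe_smul, B_smul_left, hz10, mul_zero])
    have h3 : z - k • z1 ∈ Un F a x := hB' _ (by
      rw [Submodule.coe_sub, Submodule.coe_smul, B_sub_left, B_smul_left, hz11, mul_one, sub_self])
    simpa using add_mem h1 h3
  have h2 : ∀ u : Vp (F := F) a, u ≠ 0 → ∃ g ∈ Lg (F := F) a, ∃ g' ∈ Lg (F := F) a, u ∈ Un F a (g • x) ∧
      u ∈ Un F a (g' • x) ∧ g • x ∉ MulAction.orbit (Qg (F := F) a) (g' • x) := by
    intro u hu'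
    obtain ⟨g1, hg1, eg1⟩ := Lg_trans v0.2 u.2 hv00 (fun h => hu' (Subtype.ext h))
    refine ⟨g1 * g0, mul_mem hg1 hg0, g1, hg1, ?_, ?_, fun hor => hg0x ?_⟩
    · have h := Un_sc (Lg_sc (mul_mem hg1 hg0)) hv0U
      convert h using 1
      apply Subtype.ext
      show (u : Vm) = (1 : F)⁻¹ • (g1 * g0).1 *ᵥ _
      rw [sp_mul_mulVec, hg0v, eg1, inv_one, one_smul]
    · have h := Un_sc (Lg_sc hg1) hv0U
      convert h using 1
      apply Subtype.ext
      show (u : Vm) = (1 : F)⁻¹ • g1.1 *ᵥ _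
      rw [eg1, inv_one, one_smul]
    · have := Sc_orbit (Lg_sc (inv_mem hg1)) hor
      rwa [inv_smul_smul, mul_smul, inv_smul_smul] at this
  have hP := Pts_two h2
  rw [An_eq_q hX, card_Vp] at hP
  rw [qQ hm]
  refine bound_double hq (two_le_Q hm) ?_
  have hP' : Nat.card (Pts F a x) ≤ Nat.card Ω := Finite.card_subtype_le _
  refine le_trans ?_ hP'
  refine Nat.le_of_mul_le_mul_right ?_ (show 0 < Nat.card (Un F a x) - 1 by omega)
  refine le_trans ?_ hP
  calc _ ≤ 2 * (Fintype.card F ^ (2 * m - 2) - 1) * Fintype.card F * Nat.card (Un F a x) :=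
        Nat.mul_le_mul_left _ (Nat.sub_le _ _)
    _ = _ := by ring

/-- annihilators inside one line -/
theorem line_case (hm : 2 ≤ m) (hq : 3 ≤ Fintype.card F) (hexc : m = 2 → 4 ≤ Fintype.card F)
    (hdvd : Nat.card Ω ∣ Nat.card Spm) {x : Ω} (hX : X0 F a x = ⊥) (hu : 1 < Nat.card (Un F a x))
    {j : Fin m} (hj : j ≠ cls a) (hline : ∀ u ∈ Un F a x, (u : Vm) ∈ F ∙ (e (Sum.inl j) : Vm)) :
    Fintype.card F ^ (2 * m) - 1 ≤ (Fintype.card F - 1) * Nat.card Ω := by
  classical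
  have := Fintype.ofFinite Ω
  set b : Fin m ⊕ Fin m := Sum.inl j with hbdef
  have hb : cls b ≠ cls a := hj
  have hba : cls a ≠ cls b := Ne.symm hb
  have hbV : (e b : Vm) ∈ Vp (F := F) a := e_mem_Vp hb
  set qc := Fintype.card F with hqc
  let eb : Vp (F := F) a := ⟨e b, hbV⟩
  let K : AddSubgroup F := (Un F a x).comap (AddMonoidHom.mk' (fun k : F => k • eb) fun s t => add_smul s t eb)
  have hKu : Nat.card K = Nat.card (Un F a x) := by
    refine Nat.card_eq_of_bijective (fun k : K => (⟨(k : F) • eb, k.2⟩ : Un F a x)) ⟨fun s t h => ?_, fun u => ?_⟩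
    · have := congrArg (fun y : Un F a x => ((y : Vp (F := F) a) : Vm) b) h
      simp [eb, e_self] at this
      exact this
    · obtain ⟨k, hk⟩ := Submodule.mem_span_singleton.1 (hline _ u.2)
      have e1 : k • eb = (u : Vp (F := F) a) := Subtype.ext hk
      exact ⟨⟨k, by show k • eb ∈ Un F a x; rw [e1]; exact u.2⟩, Subtype.ext e1⟩
  have hP := Pts_one (F := F) (a := a) hu
  rw [An_eq_q hX, card_Vp] at hP
  have hP' : Nat.card (Pts F a x) ≤ Nat.card Ω := Finite.card_subtype_le _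
  have hdv : Nat.card K ∣ qc := by rw [hqc, ← Nat.card_eq_fintype_card]; exact AddSubgroup.card_addSubgroup_dvd_card K
  by_cases hfull : Nat.card K = qc
  swap
  · rw [qQ hm]
    refine bound_line_small hq (two_le_Q hm) ?_
    set u := Nat.card (Un F a x)
    rw [hKu] at hdv hfull
    have h2u : 2 * u ≤ qc := by
      obtain ⟨c, hc⟩ := hdv
      rcases c with _ | _ | c
      · rw [hqc] at hc; simp at hc
      · exact absurd (by rw [hc]; ring) hfull
      · rw [hc]; nlinarith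
    obtain ⟨v, hv⟩ : ∃ v, u = v + 1 := ⟨u - 1, by omega⟩
    rw [hv, Nat.add_sub_cancel] at hP
    rw [hv] at h2u
    obtain ⟨k, hk⟩ : ∃ k, qc = k + 2 := ⟨qc - 2, by omega⟩
    refine Nat.le_of_mul_le_mul_right ?_ (show 0 < v + 1 by omega)
    calc (qc ^ (2 * m - 2) - 1) * (qc * qc) * (v + 1) = (qc ^ (2 * m - 2) - 1) * (qc * (v + 1)) * qc := by ring
      _ ≤ Nat.card (Pts F a x) * v * qc := Nat.mul_le_mul_right _ hP
      _ ≤ Nat.card Ω * v * qc := Nat.mul_le_mul_right _ (Nat.mul_le_mul_right _ hP')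
      _ ≤ _ := by
          rw [show Fintype.card F = k + 2 from hk, Nat.add_sub_cancel]
          rw [hk] at h2u ⊢
          nlinarith [Nat.zero_le (Nat.card Ω)]
  have hKtop : K = ⊤ := AddSubgroup.eq_top_of_card_eq _ (by rw [hfull, hqc, Nat.card_eq_fintype_card])
  have hUk : ∀ k : F, k • eb ∈ Un F a x := fun k => by
    have : k ∈ K := by rw [hKtop]; trivial
    exact this
  have hUn : ∀ u : Vp (F := F) a, u ∈ Un F a x ↔ (u : Vm) ∈ F ∙ (e b : Vm) := fun u => ⟨hline u, fun h => by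
    obtain ⟨k, hk⟩ := Submodule.mem_span_singleton.1 h
    rw [show u = k • eb from Subtype.ext hk.symm]
    exact hUk k⟩
  have hu_q : Nat.card (Un F a x) = qc := by rw [← hKu, hfull]
  rw [hu_q] at hP
  -- elements of the stabiliser of the line keep the orbit, or the bound holds
  by_cases hex : ∃ g ∈ Lg (F := F) a, g.1 *ᵥ (e b : Vm) ∈ F ∙ (e b : Vm) ∧
      g • x ∉ MulAction.orbit (Qg (F := F) a) x
  · obtain ⟨g, hg, hgb, hgx⟩ := hex
    obtain ⟨k, hk⟩ := Submodule.mem_span_singleton.1 hgb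
    have hk0 : k ≠ 0 := fun h0 => sp_mulVec_ne g (e_ne_zero b) (by rw [← hk, h0, zero_smul])
    have h2 : ∀ u : Vp (F := F) a, u ≠ 0 → ∃ g1 ∈ Lg (F := F) a, ∃ g2 ∈ Lg (F := F) a, u ∈ Un F a (g1 • x) ∧
        u ∈ Un F a (g2 • x) ∧ g1 • x ∉ MulAction.orbit (Qg (F := F) a) (g2 • x) := by
      intro u hu'
      obtain ⟨g1, hg1, eg1⟩ := Lg_trans hbV u.2 (e_ne_zero b) (fun h => hu' (Subtype.ext h))
      refine ⟨g1 * g, mul_mem hg1 hg, g1, hg1, ?_, ?_, fun hor => hgx ?_⟩
      · have h := Un_sc (Lg_sc (mul_mem hg1 hg)) (hUk k⁻¹)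
        convert h using 1
        apply Subtype.ext
        show (u : Vm) = (1 : F)⁻¹ • (g1 * g).1 *ᵥ (k⁻¹ • (e b : Vm))
        rw [sp_mul_mulVec, Matrix.mulVec_smul, ← hk, smul_smul, inv_mul_cancel₀ hk0, one_smul, eg1, inv_one, one_smul]
      · have h := Un_sc (Lg_sc hg1) (hUk 1)
        convert h using 1
        apply Subtype.ext
        show (u : Vm) = (1 : F)⁻¹ • g1.1 *ᵥ ((1 : F) • (e b : Vm))
        rw [one_smul, eg1, inv_one, one_smul]
      · have := Sc_orbit (Lg_sc (inv_mem hg1)) hor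
        rwa [inv_smul_smul, mul_smul, inv_smul_smul] at this
    have hP2 := Pts_two h2
    rw [An_eq_q hX, card_Vp, hu_q] at hP2
    rw [qQ hm]
    refine bound_double hq (two_le_Q hm) (le_trans ?_ hP')
    refine Nat.le_of_mul_le_mul_right ?_ (show 0 < qc - 1 by omega)
    refine le_trans ?_ hP2
    calc _ ≤ 2 * (qc ^ (2 * m - 2) - 1) * qc * qc := Nat.mul_le_mul_left _ (Nat.sub_le _ _)
      _ = _ := by ring
  push Not at hex
  obtain ⟨r, μ, hr, hμr, hμ1, hμ0, hrq⟩ := exists_mu hq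
  have := Fact.mk hr
  obtain ⟨h, hh, hfix, hcomm, hpow⟩ := exists_torus a hμ0
  by_cases hhx : h • x ∈ Pts F a x
  swap
  · have hXh : X0 F a (h • x) = ⊥ := (AddSubgroup.eq_bot_iff_forall _).2 fun z hz => by
      have := X0_sc' hh hz
      rw [hX, AddSubgroup.mem_bot, mul_eq_zero] at this
      exact this.resolve_left (pow_ne_zero 2 (inv_ne_zero hμ0))
    have hPh := Pts_one (F := F) (a := a) (x := h • x) (by rw [Un_card_sc hh]; exact hu)
    rw [An_eq_q hXh, card_Vp, Un_card_sc hh, hu_q] at hPh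
    have hd : Disjoint (Pts F a (h • x)) (Pts F a x) := by
      rw [Set.disjoint_left]
      rintro y ⟨g, hg, hy⟩ ⟨g', hg', hy'⟩
      apply hhx
      have h1 : g • h • x ∈ MulAction.orbit (Qg (F := F) a) (g' • x) := by
        rw [← MulAction.orbit_eq_iff.2 hy', MulAction.orbit_eq_iff.2 hy]
        exact MulAction.mem_orbit_self _
      have h3 := Sc_orbit (Lg_sc (inv_mem hg)) h1
      rw [inv_smul_smul, ← mul_smul] at h3
      exact ⟨g⁻¹ * g', mul_mem (inv_mem hg) hg', h3⟩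
    rw [qQ hm]
    refine bound_two_lines hq (two_le_Q hm) ?_
    have hsum : Nat.card (Pts F a (h • x)) + Nat.card (Pts F a x) ≤ Nat.card Ω := by
      rw [Nat.card_coe_set_eq, Nat.card_coe_set_eq, ← Set.ncard_union_eq hd, ← Set.ncard_univ Ω]
      exact Set.ncard_le_ncard (Set.subset_univ _)
    calc _ ≤ Nat.card (Pts F a (h • x)) * (qc - 1) + Nat.card (Pts F a x) * (qc - 1) := by
          rw [two_mul]; exact Nat.add_le_add hPh hP
      _ ≤ _ := by rw [← add_mul, mul_comm]; exact Nat.mul_le_mul_left _ hsum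
  obtain ⟨g, hg, hgor⟩ := hhx
  have hgx : g • x ∈ MulAction.orbit (Qg (F := F) a) x := by
    refine hex g hg ?_
    have h1 := Un_sc hh (hUk μ)
    rw [(An_orbit hgor).2] at h1
    have h3 := Un_sc (Lg_sc hg).inv h1
    simp only [inv_smul_smul] at h3
    have h4 := hline _ h3
    simp only [eb, Submodule.coe_smul, Matrix.mulVec_smul, inv_one, inv_inv, one_smul, smul_smul,
      inv_mul_cancel₀ hμ0, hfix _ hbV] at h4
    obtain ⟨k, hk⟩ := Submodule.mem_span_singleton.1 h4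
    have hk0 : k ≠ 0 := fun h0 => sp_mulVec_ne g⁻¹ (e_ne_zero b) (by rw [← hk, h0, zero_smul])
    have := congrArg (g.1 *ᵥ ·) hk
    simp only [Matrix.mulVec_smul, sp_mulVec_inv] at this
    exact Submodule.mem_span_singleton.2 ⟨k⁻¹, by conv_lhs => rw [← this, smul_smul, inv_mul_cancel₀ hk0, one_smul]⟩
  have hhO : h • x ∈ MulAction.orbit (Qg (F := F) a) x := by
    rw [← MulAction.orbit_eq_iff.2 hgx]; exact hgor
  obtain ⟨x1, hx1, hfx⟩ := exists_fix (O := MulAction.orbit (Qg (F := F) a) x) (h := h)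
    (fun y hy => by rw [← MulAction.orbit_eq_iff.2 hhO]; exact Sc_orbit hh hy) (hpow r hμr)
    (by rw [orbit_card, An_eq_q hX, hu_q, ← pow_two]; exact hrq 2)
  obtain ⟨e1, e2⟩ := An_orbit hx1
  have hX1 : X0 F a x1 = ⊥ := by rw [← perp_mul.2 (X0 F a x1), ← An, e1, An, perp_mul.2, hX]
  have hSb : ∀ w : Vp (F := F) a, w ∈ Sb F a x1 ↔ B (e b) (w : Vm) = 0 := by
    intro w
    rw [← (perp_bp a).2 (Sb F a x1), ← Un, e2, mem_perp]
    constructor
    · intro h'
      by_contra hne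
      obtain ⟨t, ht⟩ := tr_nondeg hne
      apply ht
      have h5 := h' _ (hUk (-t))
      rw [bp_apply] at h5
      simp only [eb, Submodule.coe_smul, B_smul_right] at h5
      rwa [B_swap (w : Vm), neg_mul_neg, mul_comm] at h5
    · intro h' u hu'
      obtain ⟨k, hk⟩ := Submodule.mem_span_singleton.1 ((hUn u).1 hu')
      rw [bp_apply, ← hk, B_smul_right, B_swap, h', neg_zero, mul_zero, map_zero]
  have hmap : ∀ g ∈ Lg (F := F) a, g.1 *ᵥ (e b : Vm) ∈ F ∙ (e b : Vm) →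
      ∃ t, g • x1 = (T (e a) t : Spm) • x1 := by
    intro g hg hgb
    have hmem : g • x1 ∈ MulAction.orbit (Qg (F := F) a) x1 := by
      rw [MulAction.orbit_eq_iff.2 hx1, ← MulAction.orbit_eq_iff.2 (hex g hg hgb)]
      exact Sc_orbit (Lg_sc hg) hx1
    obtain ⟨⟨_, w, hw, z, rfl⟩, hwz⟩ := hmem
    have hwz' : q a w z • x1 = g • x1 := hwz
    have h1 : h • q a w z • x1 = q a w z • x1 := by rw [hwz', smul_smul, hcomm g hg, mul_smul, hfx]
    have h2 : q a (μ • w) (μ ^ 2 * z) • x1 = q a w z • x1 := by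
      conv_rhs => rw [← h1]
      rw [← hfix w hw, ← q_conj hh.2.1 hh.1 (Vp_B hw).1, hfix w hw, mul_smul, mul_smul, inv_smul_eq_iff.2 hfx.symm]
    have h3 := (hSb _).1 (free_eq (w := ⟨μ • w, Submodule.smul_mem _ μ hw⟩) (w' := ⟨w, hw⟩) h2)
    rw [Submodule.coe_sub] at h3
    have h4 : (μ - 1) * B (e b) w = 0 := by
      rw [B_sub_right, B_smul_right] at h3
      linear_combination h3
    have h5 : (⟨w, hw⟩ : Vp (F := F) a) ∈ Sb F a x1 :=
      (hSb _).2 ((mul_eq_zero.1 h4).resolve_left (sub_ne_zero.2 hμ1))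
    obtain ⟨z', hz'⟩ := h5
    refine ⟨z - z', ?_⟩
    rw [← hwz']
    conv_rhs => rw [← hz']
    simp only [q]
    rw [smul_smul, ← mul_assoc, T_add, sub_add_cancel]
  have h4q : 4 ≤ qc := by
    by_contra hc
    have hm3 : 3 ≤ m := by
      by_contra hc'
      exact hc (hexc (by omega))
    have h2 : (2 : F) ≠ 0 := fun h2 => by
      have := FiniteField.even_card_of_char_two (F := F)
        (ringChar.eq_iff.2 (CharTwo.of_one_ne_zero_of_two_eq_zero one_ne_zero h2))
      omega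
    obtain ⟨j', -, hb'⟩ := Finset.exists_mem_notMem_of_card_lt_card (s := ({cls a, j} : Finset (Fin m)))
      (t := Finset.univ) (lt_of_le_of_lt Finset.card_le_two (by rw [Finset.card_univ, Fintype.card_fin]; omega))
    simp only [Finset.mem_insert, Finset.mem_singleton, not_or] at hb'
    let c' : Fin m ⊕ Fin m := Sum.inl j'
    have hc1 : cls b ≠ cls c' := Ne.symm hb'.2
    let w : Vp (F := F) a := ⟨e c', e_mem_Vp hb'.1⟩
    let w' : Vp (F := F) a := ⟨e (bar c'), e_mem_Vp (by rw [cls_bar]; exact hb'.1)⟩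
    have hm1 : w ∈ Sb F a x1 := (hSb w).2 (B_e_e (ne_bar_of_cls hc1))
    have hm2 : w' ∈ Sb F a x1 := (hSb w').2 (B_e_e (ne_bar_of_cls (by rw [cls_bar]; exact hc1)))
    have := comm_mem hm1 hm2
    rw [hX1, AddSubgroup.mem_bot] at this
    simp only [w, w', B_e_left, bar_bar, e_self, mul_one] at this
    exact sg_ne _ ((mul_eq_zero.1 this).resolve_left h2)
  have hTfix : ∀ p : Fin m ⊕ Fin m, cls p ≠ cls a → (p = b ∨ cls p ≠ cls b) → ∀ c : F,
      (T (e p) c : Spm) • x1 = x1 := by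
    intro p hp hpb c
    obtain ⟨ν, hν0, hν⟩ := exists_scale (F := F) (a := a) h4q
    obtain ⟨k, ⟨-, hkp, -⟩, hkfix, -, -⟩ := exists_torus (m := m) p hν0
    have hkL : k ∈ Lg (F := F) a :=
      ⟨hkfix _ (e_mem_Vp (Ne.symm hp)), hkfix _ (e_mem_Vp (by rw [cls_bar]; exact Ne.symm hp))⟩
    have hkb : k.1 *ᵥ (e b : Vm) ∈ F ∙ (e b : Vm) := by
      rcases hpb with rfl | hpb
      · exact Submodule.mem_span_singleton.2 ⟨ν, hkp.symm⟩
      · rw [hkfix _ (e_mem_Vp (Ne.symm hpb))]; exact Submodule.mem_span_singleton_self _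
    have hTb : ∀ d : F, (T (e p) d : Spm).1 *ᵥ (e b : Vm) ∈ F ∙ (e b : Vm) := fun d => by
      rw [T_mulVec, B_e_e (show p ≠ bar b by
        rcases hpb with rfl | hpb
        · exact (bar_ne b).symm
        · exact fun e' => hpb (by rw [e', cls_bar])), mul_zero, zero_smul, add_zero]
      exact Submodule.mem_span_singleton_self _
    obtain ⟨s, es⟩ := hmap k hkL hkb
    exact kill_torus hX1 hkL hkp hν (e_mem_Vp hp) es (fun d => hmap _ (T_mem_Lg (e_mem_Vp hp) d) (hTb d)) c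
  -- counting the points fixed by the centre
  let FX : Vm → Set Ω := fun v => {y | ∀ c : F, (T v c : Spm) • y = y}
  have hFX : ∀ v : Vm, v ≠ 0 → (FX v).ncard ≤ (FX (e a)).ncard := by
    intro v hv
    obtain ⟨k, hk⟩ := exists_move (F := F) a hv
    refine Set.ncard_le_ncard_of_injOn (fun y => k⁻¹ • y) (fun y hy c => ?_) (MulAction.injective _).injOn
    exact (fix_T_iff hk c y).1 (hy c)
  have htr : ∀ (v : Vm), v ∈ Vp (F := F) a → (∀ c : F, (T v c : Spm) • x1 = x1) → ∀ t : F,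
      (T (e a) t : Spm) • x1 ∈ FX v := by
    intro v hv hfixv t c
    rw [smul_smul, (Lg_T_comm (T_mem_Lg hv c) t).eq, mul_smul, hfixv c]
  have hinj : Function.Injective (fun t : F => (T (e a) t : Spm) • x1) := fun s t h => T_unique hX1 h
  have hdisj : Disjoint (FX (e a)) (Pts F a x) := by
    rw [Set.disjoint_left]
    intro y hy hyP
    have e3 := (Pts_data hyP).1
    have htop : X0 F a y = ⊤ := eq_top_iff.2 fun c _ => hy c
    rw [← perp_mul.2 (X0 F a y), ← An, e3, An, perp_mul.2, hX] at htop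
    exact one_ne_zero ((AddSubgroup.mem_bot).1 (htop ▸ AddSubgroup.mem_top (1 : F)))
  have htot : Nat.card (Pts F a x) + (FX (e a)).ncard ≤ Nat.card Ω := by
    rw [add_comm, Nat.card_coe_set_eq, ← Set.ncard_union_eq hdisj, ← Set.ncard_univ Ω]
    exact Set.ncard_le_ncard (Set.subset_univ _)
  have hFb : qc ≤ (FX (e a)).ncard := by
    refine le_trans ?_ (hFX _ (e_ne_zero b))
    have h1 := Set.ncard_le_ncard (s := Set.range fun t : F => (T (e a) t : Spm) • x1) (t := FX (e b))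
      (Set.range_subset_iff.2 (htr _ hbV (hTfix b hb (Or.inl rfl))))
    rwa [← Nat.card_coe_set_eq, Nat.card_range_of_injective hinj, Nat.card_eq_fintype_card] at h1
  by_cases hm2 : m = 2
  · by_contra hcon
    have hQ : qc ^ (2 * m - 2) = qc ^ 2 := by rw [hm2]
    rw [hQ] at hP
    rw [qQ hm, hQ] at hcon
    have hn := squeeze hq hP hFb htot hcon
    refine not_dvd_order hq ?_
    rw [← hn]
    refine hdvd.trans (dvd_of_eq ?_)
    rw [Forms.card_symplecticGroup (F := F) rfl m, hm2, Finset.prod_range_succ, Finset.prod_range_one]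
    rfl
  obtain ⟨j', -, hb'⟩ := Finset.exists_mem_notMem_of_card_lt_card (s := ({cls a, j} : Finset (Fin m)))
    (t := Finset.univ) (lt_of_le_of_lt Finset.card_le_two (by rw [Finset.card_univ, Fintype.card_fin]; omega))
  simp only [Finset.mem_insert, Finset.mem_singleton, not_or] at hb'
  let c' : Fin m ⊕ Fin m := Sum.inl j'
  have hc1 : cls c' ≠ cls b := hb'.2
  have hcV : (e c' : Vm) ∈ Vp (F := F) a := e_mem_Vp hb'.1
  obtain ⟨k, hk, ek⟩ := Lg_trans hbV hcV (e_ne_zero b) (e_ne_zero c')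
  have hfix2 : ∀ c : F, (T (e c') c : Spm) • (k • x1) = k • x1 := fun c => by
    rw [← ek, ← T_conj k, mul_smul, mul_smul, inv_smul_smul, hTfix b hb (Or.inl rfl)]
  rw [qQ hm]
  refine bound_line (Q := qc ^ (2 * m - 2)) hq (Nat.one_le_pow _ _ (by omega)) hP ?_ htot
  refine le_trans ?_ (hFX _ (e_ne_zero c'))
  have hXk : ∀ z, z ∈ X0 F a (k • x1) → z = 0 := fun z hz => by
    have := X0_sc' (Lg_sc hk) hz
    rw [hX1, AddSubgroup.mem_bot, inv_one, one_pow, one_mul] at this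
    exact this
  have hinj2 : Function.Injective (fun t : F => (T (e a) t : Spm) • k • x1) := fun s t h =>
    T_unique ((AddSubgroup.eq_bot_iff_forall _).2 hXk) h
  have hd2 : Disjoint (Set.range fun t : F => (T (e a) t : Spm) • x1)
      (Set.range fun t : F => (T (e a) t : Spm) • k • x1) := by
    rw [Set.disjoint_left]
    rintro _ ⟨t, rfl⟩ ⟨s, hs⟩
    have h1 : k • x1 ∈ MulAction.orbit (Qg (F := F) a) x1 :=
      ⟨⟨_, q_mem (zero_mem _) (-s + t)⟩, by
        show q a 0 (-s + t) • x1 = k • x1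
        have hs' := congrArg (fun y => (T (e a) (-s) : Spm) • y) hs
        simp only [smul_smul, ← mul_assoc, T_add, neg_add_cancel, T_zero, one_mul] at hs'
        rw [q_zero]; exact hs'.symm⟩
    have h3 := Un_sc (Lg_sc hk) (x := x1) (v := (1 : F) • eb) (by rw [e2]; exact hUk 1)
    rw [(An_orbit h1).2, e2] at h3
    have h4 := hline _ h3
    simp only [eb, one_smul, inv_one, ek] at h4
    obtain ⟨l, hl⟩ := Submodule.mem_span_singleton.1 h4
    have := congrFun hl c'
    simp [e_self, e_ne (ne_of_cls hc1)] at this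
  have htr2 : ∀ t : F, (T (e a) t : Spm) • k • x1 ∈ FX (e c') := fun t c => by
    rw [smul_smul, (Lg_T_comm (T_mem_Lg hcV c) t).eq, mul_smul, hfix2]
  have h2 := Set.ncard_le_ncard (t := FX (e c')) (Set.union_subset
    (Set.range_subset_iff.2 (htr _ hcV (hTfix c' hb'.1 (Or.inr hc1)))) (Set.range_subset_iff.2 htr2))
  rw [Set.ncard_union_eq hd2, ← Nat.card_coe_set_eq, ← Nat.card_coe_set_eq,
    Nat.card_range_of_injective hinj, Nat.card_range_of_injective hinj2, Nat.card_eq_fintype_card] at h2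
  omega

end Cfsg.Agent.Suzuki.SpIdx
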