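import Cfsg.Agent.Suzuki.SpIdxTools
import Mathlib

/-!
The abelian group of the transvections of an isotropic plane.
-/

set_option autoImplicit false

namespace Cfsg.Agent.Suzuki.SpIdx

open Matrix
open Cfsg.Agent.KnownB.Proj.Symp
open Cfsg.Agent.Suzuki.SpSt

universe u

variable {m : ℕ} {F : Type u} [Field F]

local notation "Vm" => (Fin m ⊕ Fin m → F)
local notation "Spm" => Matrix.symplecticGroup (Fin m) F
local notation "B" => Cfsg.sympForm m F

/-- the elements of the plane group -/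
def W (v w : Vm) (X Y Z : F) : Spm := T v X * S v w Y * T w Z

theorem commute_of_fix {g : Spm} {v w : Vm} (hv : g.1 *ᵥ v = v) (hw : g.1 *ᵥ w = w) (c : F) :
    Commute g (T v c) ∧ Commute g (T w c) ∧ Commute g (S v w c) :=
  ⟨mul_inv_eq_iff_eq_mul.1 (by rw [T_conj, hv]), mul_inv_eq_iff_eq_mul.1 (by rw [T_conj, hw]),
    mul_inv_eq_iff_eq_mul.1 (by rw [S_conj, hv, hw])⟩

variable {v w : Fin m ⊕ Fin m → F} (h : Cfsg.sympForm m F v w = 0)

include h in
theorem S_fix (c : F) : (S v w c).1 *ᵥ v = v ∧ (S v w c).1 *ᵥ w = w := by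
  have h' : B w v = 0 := by rw [B_swap, h, neg_zero]
  constructor <;> rw [S_mulVec h] <;> simp [B_self, h, h']

include h in
theorem T_fix (c : F) : (T v c).1 *ᵥ v = v ∧ (T v c).1 *ᵥ w = w := by
  have h' : B w v = 0 := by rw [B_swap, h, neg_zero]
  constructor <;> rw [T_mulVec] <;> simp [B_self, h']

include h in
theorem W_mul (X Y Z X' Y' Z' : F) : W v w X Y Z * W v w X' Y' Z' = (W v w (X + X') (Y + Y') (Z + Z') : Spm) := by
  have h' : B w v = 0 := by rw [B_swap, h, neg_zero]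
  have c1 : Commute (T w Z : Spm) (T v X') := (commute_of_fix (T_fix h' Z).2 (T_fix h' Z).1 X').1
  have c2 : Commute (T w Z : Spm) (S v w Y') := (commute_of_fix (T_fix h' Z).2 (T_fix h' Z).1 Y').2.2
  have c3 : Commute (S v w Y : Spm) (T v X') := (commute_of_fix (S_fix h Y).1 (S_fix h Y).2 X').1
  calc W v w X Y Z * W v w X' Y' Z' = T v X * S v w Y * (T w Z * T v X') * S v w Y' * T w Z' := by
        simp only [W, mul_assoc]
    _ = T v X * (S v w Y * T v X') * (T w Z * S v w Y') * T w Z' := by rw [c1.eq]; simp only [mul_assoc]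
    _ = (T v X * T v X') * (S v w Y * S v w Y') * (T w Z * T w Z') := by
        rw [c2.eq, c3.eq]; simp only [mul_assoc]
    _ = _ := by rw [T_add, T_add, S_add h, W]

theorem S_zero (u : Vm) {y : Vm} (hu : B u y = 0) : S u y 0 = (1 : Spm) := sp_ext fun x => by
  rw [S_mulVec hu, zero_smul, add_zero, sp_one_mulVec]

include h in
theorem W_X (X : F) : W v w X 0 0 = (T v X : Spm) := by rw [W, S_zero _ h, T_zero, mul_one, mul_one]

include h in
theorem W_Y (Y : F) : W v w 0 Y 0 = (S v w Y : Spm) := by rw [W, T_zero, T_zero, mul_one, one_mul]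

include h in
theorem W_Z (Z : F) : W v w 0 0 Z = (T w Z : Spm) := by rw [W, S_zero _ h, T_zero, mul_one, one_mul]

include h in
theorem W_swap (X Y Z : F) : W w v Z Y X = (W v w X Y Z : Spm) := by
  have h' : B w v = 0 := by rw [B_swap, h, neg_zero]
  have e1 : (W w v Z Y X : Spm) = W v w 0 0 Z * (W v w 0 Y 0 * W v w X 0 0) := by
    rw [W_X h, W_Y h, W_Z h, W, S_symm h, mul_assoc]
  rw [e1, W_mul h, W_mul h]
  simp

include h in
theorem S_left_self (k Y : F) : S v (k • v) Y = (T v (2 * k * Y) : Spm) := by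
  refine sp_ext fun x => ?_
  rw [S_mulVec (by rw [B_smul_right, B_self, mul_zero]), T_mulVec, B_smul_right]
  module

include h in
/-- the transvections of the plane -/
theorem T_line (k c : F) : T (v + k • w) c = (W v w c (c * k) (c * k ^ 2) : Spm) := by
  have h1 : B v (k • w) = 0 := by rw [B_smul_right, h, mul_zero]
  have e1 : (T (v + k • w) c : Spm) = W v (k • w) c c c := by
    refine sp_ext fun x => ?_
    rw [W, sp_mul_mulVec, sp_mul_mulVec, T_mulVec, T_mulVec, S_mulVec h1, T_mulVec]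
    simp only [B_add_left, B_add_right, B_smul_left, B_smul_right, B_self, h, B_swap w v, mul_zero, neg_zero,
      add_zero]
    module
  rw [e1, W, W, T_smul, S_symm h1, S_smul_left (by rw [B_swap, h, neg_zero]), S_symm h, mul_comm k c]

include h in
/-- conjugation by an element moving `w` along `v` -/
theorem W_conj {g : Spm} {β : F} (hv : g.1 *ᵥ v = v) (hw : g.1 *ᵥ w = w + β • v) (X Y Z : F) :
    g * W v w X Y Z * g⁻¹ = W v w (X + 2 * β * Y + β ^ 2 * Z) (Y + β * Z) Z := by
  have h' : B w v = 0 := by rw [B_swap, h, neg_zero]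
  have hvv : B v (β • v) = 0 := by rw [B_smul_right, B_self, mul_zero]
  rw [W, show g * (T v X * S v w Y * T w Z) * g⁻¹ = (g * T v X * g⁻¹) * (g * S v w Y * g⁻¹) * (g * T w Z * g⁻¹) by group,
    T_conj, S_conj, T_conj, hv, hw, T_line h', S_add_right' h hvv, S_left_self h, B_smul_left, B_swap v w, h',
    neg_zero, mul_zero, mul_zero, neg_zero, T_zero, one_mul, ← W_X h, ← W_Y h, ← W_X h, W_swap h, W_mul h, W_mul h,
    W_mul h]
  congr 1 <;> ring

theorem exists_sep {v w : Vm} (hv : v ∉ F ∙ w) : ∃ y : Vm, B y w = 0 ∧ B y v = 1 := by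
  obtain ⟨f, hf, hp⟩ := Submodule.exists_le_ker_of_notMem hv
  let y : Vm := LinearMap.BilinForm.toDual (Forms.sympB m F) Forms.sympB_nondegenerate |>.symm ((f v)⁻¹ • f)
  have hy : ∀ x, B y x = (f v)⁻¹ * f x := fun x => by
    rw [← sB]
    exact LinearMap.BilinForm.apply_toDual_symm_apply _ _
  exact ⟨y, by rw [hy, LinearMap.mem_ker.1 (hp (Submodule.mem_span_singleton_self w)), mul_zero],
    by rw [hy, inv_mul_cancel₀ hf]⟩

theorem notMem_swap {v w : Vm} (hv : v ≠ 0) (hw : w ∉ F ∙ v) : v ∉ F ∙ w := by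
  intro hm
  obtain ⟨k, rfl⟩ := Submodule.mem_span_singleton.1 hm
  apply hw
  have hk : k ≠ 0 := fun h0 => hv (by rw [h0, zero_smul])
  exact Submodule.mem_span_singleton.2 ⟨k⁻¹, by rw [smul_smul, inv_mul_cancel₀ hk, one_smul]⟩

theorem exists_orth (hm : 2 ≤ m) (v u : Vm) : ∃ z : Vm, z ≠ 0 ∧ B v z = 0 ∧ B u z = 0 := by
  let f : Vm →ₗ[F] (Fin 2 → F) := LinearMap.pi ![Forms.sympB m F v, Forms.sympB m F u]
  have hne : LinearMap.ker f ≠ ⊥ := LinearMap.ker_ne_bot_of_finrank_lt (by
    rw [Module.finrank_pi, Module.finrank_pi]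
    simp
    omega)
  obtain ⟨z, hz, hz0⟩ := Submodule.exists_mem_ne_zero_of_ne_bot hne
  have h0 := congrFun (LinearMap.mem_ker.1 hz)
  refine ⟨z, hz0, ?_, ?_⟩
  · rw [← sB]; exact h0 0
  · rw [← sB]; exact h0 1

end Cfsg.Agent.Suzuki.SpIdx
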