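import Cfsg.Agent.Suzuki.SpIdxTools
import Cfsg.Agent.Suzuki.SpIdxWeb
import Mathlib

/-!
Moved points and the isometries acting on their orbits by central translations.
-/

set_option autoImplicit false

namespace Cfsg.Agent.Suzuki.SpIdx

open Matrix
open Cfsg.Agent.KnownB.Proj.Symp
open Cfsg.Agent.Suzuki.SpSt

universe u v

variable {m : ℕ} {F : Type u} [Field F] {Ω : Type v} [MulAction (Matrix.symplecticGroup (Fin m) F) Ω]

local notation "Vm" => (Fin m ⊕ Fin m → F)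
local notation "Spm" => Matrix.symplecticGroup (Fin m) F
local notation "B" => Cfsg.sympForm m F

theorem Lg_T_comm {a : Fin m ⊕ Fin m} {g : Spm} (hg : g ∈ Lg a) (t : F) : Commute g (T (e a : Vm) t) :=
  mul_inv_eq_iff_eq_mul.1 (by rw [T_conj, hg.1])

theorem T_unique {a : Fin m ⊕ Fin m} {x : Ω} (hX : X0 F a x = ⊥) {s t : F}
    (h : (T (e a) s : Spm) • x = (T (e a) t : Spm) • x) : s = t := by
  have : s - t ∈ X0 F a x := by
    rw [mem_X0]
    refine MulAction.injective (T (e a) t : Spm) ?_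
    show (T (e a) t : Spm) • (T (e a) (s - t) : Spm) • x = _
    rw [smul_smul, T_add, add_sub_cancel, h]
  rw [hX, AddSubgroup.mem_bot] at this
  exact sub_eq_zero.1 this

theorem trans_mul {a : Fin m ⊕ Fin m} {x : Ω} {g k : Spm} (hg : g ∈ Lg a) {s t : F}
    (eg : g • x = (T (e a) s : Spm) • x) (ek : k • x = (T (e a) t : Spm) • x) :
    (g * k) • x = (T (e a) (s + t) : Spm) • x := by
  rw [mul_smul, ek, smul_smul, (Lg_T_comm hg t).eq, mul_smul, eg, smul_smul, T_add, add_comm]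

theorem trans_inv {a : Fin m ⊕ Fin m} {x : Ω} {g : Spm} (hg : g ∈ Lg a) {s : F}
    (eg : g • x = (T (e a) s : Spm) • x) : g⁻¹ • x = (T (e a) (-s) : Spm) • x := by
  rw [inv_smul_eq_iff, smul_smul, (Lg_T_comm hg _).eq, mul_smul, eg, smul_smul, T_add, neg_add_cancel, T_zero,
    one_smul]

theorem trans_conj {a : Fin m ⊕ Fin m} {x : Ω} {g k : Spm} (hg : g ∈ Lg a) (hk : k ∈ Lg a) {s t : F}
    (eg : g • x = (T (e a) s : Spm) • x) (ek : k • x = (T (e a) t : Spm) • x) :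
    (g * k * g⁻¹) • x = (T (e a) t : Spm) • x := by
  rw [trans_mul (mul_mem hg hk) (trans_mul hg eg ek) (trans_inv hg eg)]
  congr 2
  ring

/-- a transvection group scaled by the centraliser of its orbit acts trivially -/
theorem kill_torus {a : Fin m ⊕ Fin m} {x : Ω} (hX : X0 F a x = ⊥) {v : Vm} {k : Spm} {ν : F}
    (hk : k ∈ Lg a) (hkv : k.1 *ᵥ v = ν • v) (hν : ν ^ 2 ≠ 1) (hv : v ∈ Vp (F := F) a) {s : F}
    (ek : k • x = (T (e a) s : Spm) • x) (hmap : ∀ c : F, ∃ t, (T v c : Spm) • x = (T (e a) t : Spm) • x) (c : F) :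
    (T v c : Spm) • x = x := by
  choose ξ hξ using hmap
  have hadd : ∀ b d, ξ (b + d) = ξ b + ξ d := fun b d => T_unique hX (by
    rw [← hξ, ← T_add v, trans_mul (T_mem_Lg hv b) (hξ b) (hξ d)])
  have hscale : ∀ d, ξ (d * ν ^ 2) = ξ d := fun d => T_unique hX (by
    rw [← hξ, ← T_smul, ← hkv, ← T_conj k, trans_conj hk (T_mem_Lg hv d) ek (hξ d)])
  have hne : ν ^ 2 - 1 ≠ 0 := sub_ne_zero.2 hν
  have h0 : ξ c = 0 := by
    have h1 := hadd (c / (ν ^ 2 - 1)) c
    have e : c / (ν ^ 2 - 1) + c = c / (ν ^ 2 - 1) * ν ^ 2 := by field_simp; ring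
    rw [e, hscale] at h1
    linear_combination -h1
  rw [hξ, h0, T_zero, one_smul]

theorem Lg_fix_of_T {a : Fin m ⊕ Fin m} {x : Ω} (h : ∀ v ∈ Vp (F := F) a, ∀ c : F, (T v c : Spm) • x = x)
    {g : Spm} (hg : g ∈ Lg a) : g • x = x := by
  have hs : g ∈ spOn (Finset.univ.erase (cls a)) := fun p hp => by
    rw [Finset.mem_erase, not_and_or, not_not] at hp
    rcases hp with hp | hp
    · rcases eq_or_bar hp with rfl | rfl
      · exact hg.1
      · exact hg.2
    · exact absurd (Finset.mem_univ _) hp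
  have hle : Ys (Finset.univ.erase (cls a)) ≤ MulAction.stabilizer Spm x := by
    rw [Ys, Subgroup.closure_le]
    rintro _ ⟨p, r, c, hp, hr, -, rfl⟩
    have hp' : (e p : Vm) ∈ Vp (F := F) a := e_mem_Vp (Finset.ne_of_mem_erase hp)
    have hr' : (e r : Vm) ∈ Vp (F := F) a := e_mem_Vp (Finset.ne_of_mem_erase hr)
    show (Y p r c : Spm) • x = x
    by_cases hpr : p = r
    · subst hpr; rw [Y_long, h _ hp']
    · rw [Y_short hpr, S, mul_smul, mul_smul, h _ hr', h _ hp', h _ (add_mem hp' hr')]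
  exact hle (spOn_le_Ys _ hs)

theorem Sc_orbit {a : Fin m ⊕ Fin m} {μ : F} {g : Spm} (hg : Sc a μ g) {x y : Ω}
    (hy : y ∈ MulAction.orbit (Qg (F := F) a) x) : g • y ∈ MulAction.orbit (Qg (F := F) a) (g • x) := by
  obtain ⟨⟨_, w, hw, z, rfl⟩, rfl⟩ := hy
  refine ⟨⟨_, q_mem (Submodule.smul_mem _ μ (hg.mem_Vp hw)) (μ ^ 2 * z)⟩, ?_⟩
  show q a (μ • g.1 *ᵥ w) (μ ^ 2 * z) • g • x = g • q a w z • x
  rw [← q_conj hg.2.1 hg.1 (Vp_B hw).1, smul_smul, smul_smul, inv_mul_cancel_right]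

theorem free_eq {a : Fin m ⊕ Fin m} {x : Ω} {w w' : Vp (F := F) a} {z z' : F}
    (h : q a (w : Vm) z • x = q a (w' : Vm) z' • x) : w - w' ∈ Sb F a x := by
  refine ⟨-z' + z + B (w : Vm) (-(w' : Vm)), ?_⟩
  have h1 : ((q a (w' : Vm) z')⁻¹ * q a (w : Vm) z) • x = x := by rw [mul_smul, h, inv_smul_smul]
  rw [q_inv (Vp_B w'.2).1, q_mul (Vp_B (neg_mem w'.2)).1 (Vp_B w.2).1] at h1
  rwa [Submodule.coe_sub, sub_eq_add_neg, add_comm (w : Vm)]

section Finite

variable [Fintype F]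

/-- a point moved by the centre with a nonzero annihilator of its stabiliser image -/
def Good (a : Fin m ⊕ Fin m) (x : Ω) : Prop := X0 F a x ≠ ⊤ ∧ 1 < Nat.card (Un F a x)

theorem An_two {a : Fin m ⊕ Fin m} {x : Ω} (h : X0 F a x ≠ ⊤) : 2 ≤ Nat.card (An F a x) := by
  by_contra hc
  have h1 : Nat.card (An F a x) = 1 := by
    have : 0 < Nat.card (An F a x) := Nat.card_pos
    omega
  have := An_card (F := F) a x
  rw [h1, one_mul] at this
  exact h (AddSubgroup.eq_top_of_card_eq _ (by rw [this, Nat.card_eq_fintype_card]))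

theorem Good_sc {a : Fin m ⊕ Fin m} {μ : F} {g : Spm} (hg : Sc a μ g) {x : Ω} (hx : Good (F := F) a x) :
    Good (F := F) a (g • x) := by
  refine ⟨fun h => hx.1 (eq_top_iff.2 fun z _ => ?_), by rw [Un_card_sc hg]; exact hx.2⟩
  have := X0_sc' hg (x := x) (z := μ ^ 2 * z) (by rw [h]; exact trivial)
  rwa [← mul_assoc, ← mul_pow, inv_mul_cancel₀ hg.1, one_pow, one_mul] at this

theorem Sb_eq_top {a : Fin m ⊕ Fin m} {x : Ω} (h : Nat.card (Un F a x) ≤ 1) : Sb F a x = ⊤ := by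
  have h0 : Un F a x = ⊥ := AddSubgroup.eq_bot_of_card_le _ h
  rw [← (perp_bp a).2 (Sb F a x), ← Un, h0, eq_top_iff]
  intro v _ w hw
  rw [AddSubgroup.mem_bot] at hw
  rw [hw, map_zero, map_zero]

/-- in odd characteristic moved points are good -/
theorem good_of_moved {a : Fin m ⊕ Fin m} {x : Ω} (hm : 2 ≤ m) (h2 : (2 : F) ≠ 0) (h : X0 F a x ≠ ⊤) :
    Good (F := F) a x := by
  refine ⟨h, ?_⟩
  by_contra hc
  push Not at hc
  have htop := Sb_eq_top hc
  apply h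
  rw [eq_top_iff]
  intro t _
  obtain ⟨j, hj⟩ : ∃ j : Fin m, j ≠ cls a := by
    have : Nontrivial (Fin m) := Fin.nontrivial_iff_two_le.2 hm
    exact exists_ne _
  let b : Fin m ⊕ Fin m := Sum.inl j
  have hb : cls b ≠ cls a := hj
  let w : Vp (F := F) a := ⟨e b, e_mem_Vp hb⟩
  let w' : Vp (F := F) a := ⟨(t / (2 * sg (bar b))) • e (bar b),
    Submodule.smul_mem _ _ (e_mem_Vp (by rw [cls_bar]; exact hb))⟩
  have := comm_mem (a := a) (x := x) (w := w) (w' := w') (by rw [htop]; trivial) (by rw [htop]; trivial)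
  have e : 2 * B (w' : Vm) (w : Vm) = t := by
    show 2 * B ((t / (2 * sg (bar b))) • e (bar b)) (e b) = t
    rw [B_smul_left, B_e_left, bar_bar, e_self, mul_one]
    field_simp [sg_ne (F := F) (bar b)]
  rwa [e] at this

end Finite

end Cfsg.Agent.Suzuki.SpIdx
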