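import Cfsg.Agent.Suzuki.SpIdxBase
import Mathlib

/-!
The normaliser of the unipotent radical acting on the data of its orbits.
-/

set_option autoImplicit false

namespace Cfsg.Agent.Suzuki.SpIdx

open Matrix
open Cfsg.Agent.KnownB.Proj.Symp
open Cfsg.Agent.Suzuki.SpSt

universe u v

variable {m : ℕ} {F : Type u} [Field F]

local notation "Vm" => (Fin m ⊕ Fin m → F)
local notation "Spm" => Matrix.symplecticGroup (Fin m) F
local notation "B" => Cfsg.sympForm m F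

/-- the isometries scaling the hyperbolic pair at `a` -/
def Sc (a : Fin m ⊕ Fin m) (μ : F) (g : Spm) : Prop :=
  μ ≠ 0 ∧ g.1 *ᵥ e a = μ • e a ∧ g.1 *ᵥ e (bar a) = μ⁻¹ • e (bar a)

theorem Sc.inv {a : Fin m ⊕ Fin m} {μ : F} {g : Spm} (h : Sc a μ g) : Sc a μ⁻¹ g⁻¹ := by
  obtain ⟨h0, h1, h2⟩ := h
  refine ⟨inv_ne_zero h0, ?_, ?_⟩
  · conv_rhs => rw [← sp_inv_mulVec g (e a), h1, Matrix.mulVec_smul, smul_smul, inv_mul_cancel₀ h0, one_smul]
  · conv_rhs => rw [← sp_inv_mulVec g (e (bar a)), h2, Matrix.mulVec_smul, inv_inv, smul_smul, mul_inv_cancel₀ h0,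
      one_smul]

theorem Sc.mem_Vp {a : Fin m ⊕ Fin m} {μ : F} {g : Spm} (h : Sc a μ g) {w : Vm} (hw : w ∈ Vp (F := F) a) :
    g.1 *ᵥ w ∈ Vp (F := F) a := by
  obtain ⟨h0, h1, h2⟩ := h
  refine Vp_of_B ?_ ?_
  · have := sp_B g (e a) w
    rw [h1, B_smul_left, (Vp_B hw).1] at this
    exact (mul_eq_zero.1 this).resolve_left h0
  · have := sp_B g (e (bar a)) w
    rw [h2, B_smul_left, (Vp_B hw).2.1] at this
    exact (mul_eq_zero.1 this).resolve_left (inv_ne_zero h0)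

/-- the isometries fixing the hyperbolic pair at `a` -/
def Lg (a : Fin m ⊕ Fin m) : Subgroup Spm where
  carrier := {g | g.1 *ᵥ e a = e a ∧ g.1 *ᵥ e (bar a) = e (bar a)}
  one_mem' := ⟨sp_one_mulVec _, sp_one_mulVec _⟩
  mul_mem' := fun {g h} hg hh => ⟨by rw [sp_mul_mulVec, hh.1, hg.1], by rw [sp_mul_mulVec, hh.2, hg.2]⟩
  inv_mem' := fun {g} hg => ⟨by conv_lhs => rw [← hg.1]; rw [sp_inv_mulVec],
    by conv_lhs => rw [← hg.2]; rw [sp_inv_mulVec]⟩

theorem Lg_sc {a : Fin m ⊕ Fin m} {g : Spm} (hg : g ∈ Lg a) : Sc a 1 g :=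
  ⟨one_ne_zero, by rw [one_smul]; exact hg.1, by rw [inv_one, one_smul]; exact hg.2⟩

theorem T_mem_Lg {a : Fin m ⊕ Fin m} {w : Vm} (hw : w ∈ Vp (F := F) a) (c : F) : T w c ∈ Lg (F := F) a :=
  ⟨by rw [T_mulVec, (Vp_B hw).1, mul_zero, zero_smul, add_zero],
    by rw [T_mulVec, (Vp_B hw).2.1, mul_zero, zero_smul, add_zero]⟩

theorem S_mem_Lg {a : Fin m ⊕ Fin m} {u w : Vm} (hu : u ∈ Vp (F := F) a) (hw : w ∈ Vp (F := F) a) (c : F) :
    S u w c ∈ Lg (F := F) a :=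
  mul_mem (mul_mem (T_mem_Lg (add_mem hu hw) _) (T_mem_Lg hu _)) (T_mem_Lg hw _)

theorem spOn_le_Lg (a : Fin m ⊕ Fin m) : (spOn (Finset.univ.erase (cls a)) : Subgroup Spm) ≤ Lg a :=
  fun g hg => ⟨hg a (by simp), hg (bar a) (by simp [cls_bar])⟩

theorem Lg_trans {a : Fin m ⊕ Fin m} {v w : Vm} (hv : v ∈ Vp (F := F) a) (hw : w ∈ Vp (F := F) a) (hv0 : v ≠ 0)
    (hw0 : w ≠ 0) : ∃ g ∈ Lg (F := F) a, g.1 *ᵥ v = w := by
  obtain ⟨p, hp⟩ := Function.ne_iff.1 hv0
  have hpa : cls p ∈ Finset.univ.erase (cls a) := by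
    by_contra hc
    exact hp (vp_supp hv p hc)
  obtain ⟨g, hg, eg⟩ := trans_vec hpa (vp_supp hv) hv0
  obtain ⟨k, hk, ek⟩ := trans_vec hpa (vp_supp hw) hw0
  exact ⟨k * g⁻¹, mul_mem (spOn_le_Lg a (Ys_le_spOn _ hk)) (inv_mem (spOn_le_Lg a (Ys_le_spOn _ hg))),
    by rw [sp_mul_mulVec, ← eg, sp_inv_mulVec, ek]⟩

/-- the torus element -/
theorem exists_torus (a : Fin m ⊕ Fin m) {μ : F} (hμ : μ ≠ 0) :
    ∃ h : Spm, Sc a μ h ∧ (∀ w : Vm, w ∈ Vp (F := F) a → h.1 *ᵥ w = w) ∧ (∀ g ∈ Lg a, h * g = g * h) ∧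
      ∀ r : ℕ, μ ^ r = 1 → h ^ r = 1 := by
  obtain ⟨h, hh, e1, e2⟩ := exists_pair (t := {cls a}) (b := a) (v := μ • (e a : Vm)) (w := μ⁻¹ • (e (bar a) : Vm))
    (Finset.mem_singleton_self _)
    (fun p hp => by rw [Pi.smul_apply, supp_e (F := F) (Finset.mem_singleton_self _) p hp, smul_zero])
    (fun p hp => by rw [Pi.smul_apply, supp_e (F := F) (by rw [cls_bar]; exact Finset.mem_singleton_self _) p hp,
      smul_zero])
    (by rw [B_smul_left, B_smul_right, ← mul_assoc, mul_inv_cancel₀ hμ, one_mul, B_e_left, e_self, mul_one])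
  have hfix : ∀ w : Vm, w ∈ Vp (F := F) a → h.1 *ᵥ w = w := fun w hw => spOn_fix (Ys_le_spOn _ hh) fun p hp => by
    rcases eq_or_bar (Finset.mem_singleton.1 hp) with rfl | rfl
    · exact hw.1
    · exact hw.2
  have hbasis : ∀ p, cls p ≠ cls a → h.1 *ᵥ e p = (e p : Vm) := fun p hp => hfix _ (e_mem_Vp hp)
  refine ⟨h, ⟨hμ, e1, e2⟩, hfix, fun g hg => sp_ext_e fun p => ?_, fun r hr => sp_ext_e fun p => ?_⟩
  · rw [sp_mul_mulVec, sp_mul_mulVec]
    by_cases hp : cls p = cls a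
    · rcases eq_or_bar hp with rfl | rfl
      · rw [hg.1, e1, Matrix.mulVec_smul, hg.1]
      · rw [hg.2, e2, Matrix.mulVec_smul, hg.2]
    · rw [hbasis p hp, hfix _ ((Lg_sc hg).mem_Vp (e_mem_Vp hp))]
  · rw [sp_one_mulVec]
    have hpow : ∀ (c : F) (v : Vm), h.1 *ᵥ v = c • v → ∀ k : ℕ, (h ^ k).1 *ᵥ v = c ^ k • v := by
      intro c v hv k
      induction k with
      | zero => rw [pow_zero, pow_zero, sp_one_mulVec, one_smul]
      | succ k ih => rw [pow_succ, sp_mul_mulVec, hv, Matrix.mulVec_smul, ih, smul_smul, pow_succ']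
    by_cases hp : cls p = cls a
    · rcases eq_or_bar hp with rfl | rfl
      · rw [hpow μ _ e1, hr, one_smul]
      · rw [hpow μ⁻¹ _ e2, inv_pow, hr, inv_one, one_smul]
    · rw [hpow 1 _ (by rw [hbasis p hp, one_smul]), one_pow, one_smul]

/-- a subgroup with all transvections is everything -/
theorem eq_top_of_T {H : Subgroup Spm} (h : ∀ (v : Vm) (c : F), v ≠ 0 → T v c ∈ H) : H = ⊤ := by
  have h' : ∀ (v : Vm) (c : F), T v c ∈ H := fun v c => by
    by_cases hv : v = 0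
    · have : (T v c : Spm) = 1 := sp_ext fun x => by rw [hv, T_mulVec, smul_zero, add_zero, sp_one_mulVec]
      rw [this]; exact one_mem _
    · exact h v c hv
  rw [eq_top_iff, ← Ys_univ, Ys, Subgroup.closure_le]
  rintro _ ⟨p, r, c, -, -, -, rfl⟩
  show Y p r c ∈ H
  by_cases hpr : p = r
  · subst hpr; rw [Y_long]; exact h' _ _
  · rw [Y_short hpr]; exact mul_mem (mul_mem (h' _ _) (h' _ _)) (h' _ _)

theorem exists_move (a : Fin m ⊕ Fin m) {v : Vm} (hv : v ≠ 0) : ∃ g : Spm, g.1 *ᵥ e a = v := by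
  obtain ⟨g, -, eg⟩ := trans_vec (t := Finset.univ) (Finset.mem_univ (cls a))
    (fun p hp => absurd (Finset.mem_univ _) hp) hv
  exact ⟨g, eg⟩

section Action

variable {Ω : Type v} [MulAction (Matrix.symplecticGroup (Fin m) F) Ω]

theorem fix_T_iff {a : Fin m ⊕ Fin m} {g : Spm} {v : Vm} (hg : g.1 *ᵥ e a = v) (c : F) (x : Ω) :
    (T v c : Spm) • x = x ↔ (T (e a) c : Spm) • (g⁻¹ • x) = g⁻¹ • x := by
  rw [← hg, ← T_conj g, mul_smul, mul_smul, eq_inv_smul_iff]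

variable {a : Fin m ⊕ Fin m} {μ : F} {g : Matrix.symplecticGroup (Fin m) F}

theorem X0_sc (hg : Sc a μ g) {x : Ω} {z : F} (hz : z ∈ X0 F a x) : μ ^ 2 * z ∈ X0 F a (g • x) := by
  rw [mem_X0, mul_comm, ← T_smul, ← hg.2.1, ← T_conj g, mul_smul, mul_smul, inv_smul_smul, mem_X0.1 hz]

theorem X0_sc' (hg : Sc a μ g) {x : Ω} {z : F} (hz : z ∈ X0 F a (g • x)) : μ⁻¹ ^ 2 * z ∈ X0 F a x := by
  simpa using X0_sc hg.inv hz

theorem Sb_sc (hg : Sc a μ g) {x : Ω} {w : Vp (F := F) a} (hw : w ∈ Sb F a x) :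
    (⟨μ • g.1 *ᵥ (w : Vm), Submodule.smul_mem _ μ (hg.mem_Vp w.2)⟩ : Vp (F := F) a) ∈ Sb F a (g • x) := by
  obtain ⟨z, hz⟩ := hw
  refine ⟨μ ^ 2 * z, ?_⟩
  rw [← q_conj hg.2.1 hg.1 (Vp_B w.2).1, mul_smul, mul_smul, inv_smul_smul, hz]

theorem Sb_sc' (hg : Sc a μ g) {x : Ω} {w : Vp (F := F) a} (hw : w ∈ Sb F a (g • x)) :
    (⟨μ⁻¹ • (g⁻¹).1 *ᵥ (w : Vm), Submodule.smul_mem _ _ (hg.inv.mem_Vp w.2)⟩ : Vp (F := F) a) ∈ Sb F a x := by
  simpa using Sb_sc hg.inv hw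

variable [Fintype F]

theorem An_sc (hg : Sc a μ g) {x : Ω} {α : F} (hα : α ∈ An F a x) : μ⁻¹ ^ 2 * α ∈ An F a (g • x) := fun z hz => by
  have := hα _ (X0_sc' hg hz)
  rw [LinearMap.mul_apply'] at this ⊢
  rwa [mul_assoc, mul_left_comm]

theorem An_sc_iff (hg : Sc a μ g) {x : Ω} {α : F} : α ∈ An F a (g • x) ↔ μ ^ 2 * α ∈ An F a x := by
  constructor
  · intro h
    simpa using An_sc hg.inv h
  · intro h
    have := An_sc hg h
    rwa [← mul_assoc, ← mul_pow, inv_mul_cancel₀ hg.1, one_pow, one_mul] at this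

theorem Un_sc (hg : Sc a μ g) {x : Ω} {v : Vp (F := F) a} (hv : v ∈ Un F a x) :
    (⟨μ⁻¹ • g.1 *ᵥ (v : Vm), Submodule.smul_mem _ _ (hg.mem_Vp v.2)⟩ : Vp (F := F) a) ∈ Un F a (g • x) := fun w hw => by
  have h := hv _ (Sb_sc' hg hw)
  rw [bp_apply] at h ⊢
  simp only [B_smul_left, B_smul_right] at h ⊢
  rwa [← sp_B g, sp_mulVec_inv] at h

theorem An_card_sc (hg : Sc a μ g) (x : Ω) : Nat.card (An F a (g • x)) = Nat.card (An F a x) := by
  have h : ∀ {μ : F} {g : Spm}, Sc a μ g → ∀ x : Ω, Nat.card (An F a x) ≤ Nat.card (An F a (g • x)) := by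
    intro μ g hg x
    refine Nat.card_le_card_of_injective (fun α => (⟨μ⁻¹ ^ 2 * (α : F), An_sc hg α.2⟩ : An F a (g • x))) ?_
    intro α β h
    exact Subtype.ext (mul_left_cancel₀ (pow_ne_zero 2 (inv_ne_zero hg.1)) (congrArg Subtype.val h))
  refine le_antisymm ?_ (h hg x)
  simpa using h hg.inv (g • x)

theorem Un_card_sc (hg : Sc a μ g) (x : Ω) : Nat.card (Un F a (g • x)) = Nat.card (Un F a x) := by
  have h : ∀ {μ : F} {g : Spm}, Sc a μ g → ∀ x : Ω, Nat.card (Un F a x) ≤ Nat.card (Un F a (g • x)) := by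
    intro μ g hg x
    refine Nat.card_le_card_of_injective (fun v => (⟨_, Un_sc hg v.2⟩ : Un F a (g • x))) ?_
    intro v w h
    apply Subtype.ext
    apply Subtype.ext
    have := congrArg (fun y : Un F a (g • x) => μ • (g⁻¹).1 *ᵥ ((y : Vp (F := F) a) : Vm)) h
    simp only [Matrix.mulVec_smul, smul_smul, mul_inv_cancel₀ hg.1, one_smul, sp_inv_mulVec] at this
    exact this
  refine le_antisymm ?_ (h hg x)
  simpa using h hg.inv (g • x)

theorem An_Lg {g : Matrix.symplecticGroup (Fin m) F} (hg : g ∈ Lg a) (x : Ω) : An F a (g • x) = An F a x := by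
  ext α
  rw [An_sc_iff (Lg_sc hg), one_pow, one_mul]

variable (F a) in
/-- the points over the orbit of `Lg` and the unipotent radical -/
def Pts (x : Ω) : Set Ω := {y | ∃ g ∈ Lg (F := F) a, y ∈ MulAction.orbit (Qg (F := F) a) (g • x)}

theorem Pts_data {x y : Ω} (hy : y ∈ Pts F a x) :
    An F a y = An F a x ∧ Nat.card (Un F a y) = Nat.card (Un F a x) := by
  obtain ⟨g, hg, hy⟩ := hy
  obtain ⟨e1, e2⟩ := An_orbit hy
  exact ⟨by rw [e1, An_Lg hg], by rw [e2, Un_card_sc (Lg_sc hg)]⟩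

/-- double counting the incidences of vectors and points -/
theorem count_incidence [Finite Ω] {x : Ω} {k : ℕ}
    (hk : ∀ v : Vp (F := F) a, v ≠ 0 → k ≤ Nat.card {y : Ω // y ∈ Pts F a x ∧ v ∈ Un F a y}) :
    (Nat.card (Vp (F := F) a) - 1) * k ≤ Nat.card (Pts F a x) * (Nat.card (Un F a x) - 1) := by
  classical
  have := Fintype.ofFinite Ω
  have := Fintype.ofFinite (Vp (F := F) a)
  let s : Finset (Vp (F := F) a) := Finset.univ.erase 0
  let t : Finset Ω := Finset.univ.filter fun y => y ∈ Pts F a x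
  have h := Finset.card_mul_le_card_mul (fun (v : Vp (F := F) a) y => v ∈ Un F a y) (s := s) (t := t) (m := k)
    (n := Nat.card (Un F a x) - 1) (fun v hv => by
      refine (hk v (Finset.ne_of_mem_erase hv)).trans (le_of_eq ?_)
      rw [Nat.card_eq_fintype_card, Fintype.card_subtype, Finset.bipartiteAbove]
      congr 1
      ext y
      simp [t]) (fun y hy => by
      rw [← (Pts_data (Finset.mem_filter.1 hy).2).2]
      refine le_of_eq ?_
      have h1 : (Finset.bipartiteBelow (fun (v : Vp (F := F) a) y => v ∈ Un F a y) s y) =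
          (Finset.univ.filter fun v => v ∈ Un F a y).erase 0 := by
        ext v
        simp [s, Finset.bipartiteBelow, and_comm]
      rw [h1, Finset.card_erase_of_mem (by simp [(Un F a y).zero_mem]), Nat.card_eq_fintype_card, Fintype.card_subtype])
  simpa [s, t, Nat.card_eq_fintype_card, Fintype.card_subtype, Finset.card_erase_of_mem] using h

omit [Fintype F] in
theorem orbit_sub_Pts {x : Ω} {g : Matrix.symplecticGroup (Fin m) F} (hg : g ∈ Lg a) :
    MulAction.orbit (Qg (F := F) a) (g • x) ⊆ Pts F a x := fun _ hy => ⟨g, hg, hy⟩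

theorem incidence_one [Finite Ω] {x : Ω} (hu : 1 < Nat.card (Un F a x)) {v : Vp (F := F) a} (hv : v ≠ 0) :
    ∃ g ∈ Lg (F := F) a, v ∈ Un F a (g • x) := by
  have : Nontrivial (Un F a x) := Finite.one_lt_card_iff_nontrivial.1 hu
  obtain ⟨v0, hv0⟩ := exists_ne (0 : Un F a x)
  have h0 : ((v0 : Vp (F := F) a) : Vm) ≠ 0 := fun h => hv0 (Subtype.ext (Subtype.ext h))
  obtain ⟨g, hg, eg⟩ := Lg_trans (v0 : Vp (F := F) a).2 v.2 h0 (fun h => hv (Subtype.ext h))
  refine ⟨g, hg, ?_⟩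
  have h := Un_sc (Lg_sc hg) v0.2
  convert h using 1
  apply Subtype.ext
  show (v : Vm) = (1 : F)⁻¹ • g.1 *ᵥ _
  rw [eg, inv_one, one_smul]

/-- the lower bound from transitivity on nonzero vectors -/
theorem Pts_one [Finite Ω] {x : Ω} (hu : 1 < Nat.card (Un F a x)) :
    (Nat.card (Vp (F := F) a) - 1) * (Nat.card (An F a x) * Nat.card (Un F a x)) ≤
      Nat.card (Pts F a x) * (Nat.card (Un F a x) - 1) := by
  refine count_incidence fun v hv => ?_
  obtain ⟨g, hg, hvg⟩ := incidence_one hu hv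
  have hc := orbit_card (F := F) a (g • x)
  rw [An_Lg hg, Un_card_sc (Lg_sc hg)] at hc
  rw [← hc]
  exact Nat.card_le_card_of_injective
    (fun y => (⟨(y : Ω), orbit_sub_Pts hg y.2, by rw [(An_orbit y.2).2]; exact hvg⟩ :
      {y : Ω // y ∈ Pts F a x ∧ v ∈ Un F a y}))
    fun y y' h => Subtype.ext (Subtype.ext_iff.1 h :)

/-- two orbits through one vector double the bound -/
theorem Pts_two [Finite Ω] {x : Ω}
    (h2 : ∀ v : Vp (F := F) a, v ≠ 0 → ∃ g ∈ Lg (F := F) a, ∃ g' ∈ Lg (F := F) a, v ∈ Un F a (g • x) ∧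
      v ∈ Un F a (g' • x) ∧ g • x ∉ MulAction.orbit (Qg (F := F) a) (g' • x)) :
    2 * (Nat.card (Vp (F := F) a) - 1) * (Nat.card (An F a x) * Nat.card (Un F a x)) ≤
      Nat.card (Pts F a x) * (Nat.card (Un F a x) - 1) := by
  rw [mul_comm 2, mul_assoc]
  refine count_incidence fun v hv => ?_
  obtain ⟨g, hg, g', hg', hvg, hvg', hne⟩ := h2 v hv
  have hc := orbit_card (F := F) a (g • x)
  rw [An_Lg hg, Un_card_sc (Lg_sc hg)] at hc
  have hc' := orbit_card (F := F) a (g' • x)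
  rw [An_Lg hg', Un_card_sc (Lg_sc hg')] at hc'
  have hd : Disjoint (MulAction.orbit (Qg (F := F) a) (g • x)) (MulAction.orbit (Qg (F := F) a) (g' • x)) := by
    rw [Set.disjoint_left]
    intro y hy hy'
    apply hne
    rw [← MulAction.orbit_eq_iff.2 hy', MulAction.orbit_eq_iff.2 hy]
    exact MulAction.mem_orbit_self _
  show 2 * _ ≤ Nat.card ↥{y : Ω | y ∈ Pts F a x ∧ v ∈ Un F a y}
  rw [Nat.card_coe_set_eq, two_mul]
  conv_lhs => arg 1; rw [← hc, Nat.card_coe_set_eq]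
  conv_lhs => arg 2; rw [← hc', Nat.card_coe_set_eq]
  rw [← Set.ncard_union_eq hd]
  refine Set.ncard_le_ncard ?_
  rintro y (hy | hy)
  · exact ⟨orbit_sub_Pts hg hy, by rw [(An_orbit hy).2]; exact hvg⟩
  · exact ⟨orbit_sub_Pts hg' hy, by rw [(An_orbit hy).2]; exact hvg'⟩

omit [Fintype F] in
/-- an element of prime order coprime to an invariant set fixes one of its points -/
theorem exists_fix {h : Matrix.symplecticGroup (Fin m) F} {O : Set Ω} [Finite O] (hO : ∀ y ∈ O, h • y ∈ O)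
    {r : ℕ} [hr : Fact r.Prime] (hhr : h ^ r = 1) (hcop : ¬ r ∣ Nat.card O) : ∃ y ∈ O, h • y = y := by
  classical
  have := Fintype.ofFinite O
  have hinv : ∀ y ∈ O, ∀ k : ℕ, h ^ k • y ∈ O := by
    intro y hy k
    induction k with
    | zero => rwa [pow_zero, one_smul]
    | succ k ih => rw [pow_succ', mul_smul]; exact hO _ ih
  let σ : Equiv.Perm O :=
    { toFun := fun y => ⟨h • (y : Ω), hO _ y.2⟩
      invFun := fun y => ⟨h ^ (r - 1) • (y : Ω), hinv _ y.2 _⟩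
      left_inv := fun y => Subtype.ext (by
        show h ^ (r - 1) • (h • (y : Ω)) = y
        rw [smul_smul, ← pow_succ, Nat.sub_add_cancel hr.out.one_le, hhr, one_smul])
      right_inv := fun y => Subtype.ext (by
        show h • (h ^ (r - 1) • (y : Ω)) = y
        rw [smul_smul, ← pow_succ', Nat.sub_add_cancel hr.out.one_le, hhr, one_smul]) }
  have hσk : ∀ (k : ℕ) (y : O), ((σ ^ k) y : Ω) = h ^ k • (y : Ω) := by
    intro k
    induction k with
    | zero => intro y; rw [pow_zero, pow_zero, one_smul, Equiv.Perm.one_apply]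
    | succ k ih => intro y; rw [pow_succ', pow_succ', Equiv.Perm.mul_apply, mul_smul, ← ih]; rfl
  obtain ⟨y, hy⟩ := Equiv.Perm.exists_fixed_point_of_prime (p := r) (n := 1) (by rwa [← Nat.card_eq_fintype_card])
    (σ := σ) (Equiv.ext fun y => Subtype.ext (by rw [pow_one, hσk, hhr, one_smul, Equiv.Perm.one_apply]))
  exact ⟨y, y.2, congrArg Subtype.val hy⟩

end Action

end Cfsg.Agent.Suzuki.SpIdx
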