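import Cfsg.Agent.Suzuki.SpIdxBase
import Mathlib

/-!
Quadratic forms over the field with two elements polarising to a symplectic form, through character sums.
-/

set_option autoImplicit false

namespace Cfsg.Agent.Suzuki.SpIdxTwo

universe u v

variable {F : Type u} [Field F] [Fintype F] (hF : Fintype.card F = 2)

include hF in
theorem zero_or_one (c : F) : c = 0 ∨ c = 1 := by
  classical
  by_contra h
  push Not at h
  have : ({0, 1, c} : Finset F).card = 3 := by simp [h.1.symm, h.2.symm]
  have := Finset.card_le_univ ({0, 1, c} : Finset F)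
  omega

include hF in
theorem two_eq_zero : (2 : F) = 0 := by
  rcases zero_or_one hF (2 : F) with h | h
  · exact h
  · exact absurd (show (1 : F) = 0 by linear_combination h) one_ne_zero

open scoped Classical in
/-- the sign -/
noncomputable def χ (c : F) : ℤ := if c = 0 then 1 else -1

include hF in
theorem χ_add (a b : F) : χ (a + b) = χ a * χ b := by
  have h2 := two_eq_zero hF
  rcases zero_or_one hF a with rfl | rfl <;> rcases zero_or_one hF b with rfl | rfl <;>
    simp [χ, one_add_one_eq_two, h2]

variable {V : Type v} [AddCommGroup V] [Module F V] [Fintype V] (β : LinearMap.BilinForm F V)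
  (hβ : β.SeparatingLeft) {f : V → F} (hf : ∀ x y, f (x + y) = f x + f y + β x y)

/-- the character sum -/
noncomputable def gs (f : V → F) : ℤ := ∑ x, χ (f x)

open scoped Classical in
theorem two_mul_zeros (f : V → F) :
    2 * ((Finset.univ.filter fun x => f x = 0).card : ℤ) = Fintype.card V + gs f := by
  have h : (Fintype.card V : ℤ) + gs f = ∑ x : V, (if f x = 0 then 2 else 0 : ℤ) := by
    rw [gs, show (Fintype.card V : ℤ) = ∑ _x : V, (1 : ℤ) by simp, ← Finset.sum_add_distrib]
    refine Finset.sum_congr rfl fun x _ => ?_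
    unfold χ
    split_ifs <;> norm_num
  rw [h, Finset.sum_ite, Finset.sum_const_zero, add_zero, Finset.sum_const, nsmul_eq_mul]
  ring

include hF hβ in
theorem char_sum {x : V} (hx : x ≠ 0) : ∑ y, χ (β x y) = 0 := by
  obtain ⟨y0, hy0⟩ : ∃ y0, β x y0 ≠ 0 := by
    by_contra hc
    push Not at hc
    exact hx (hβ x hc)
  have h1 : β x y0 = 1 := (zero_or_one hF _).resolve_left hy0
  have := Equiv.sum_comp (Equiv.addRight y0) (fun y => χ (β x y))
  simp only [Equiv.coe_addRight, map_add, h1, χ_add hF] at this
  rw [← Finset.sum_mul] at this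
  simp only [χ, one_ne_zero, if_false] at this
  unfold χ
  linarith

include hF hβ hf in
theorem gs_sq : gs f ^ 2 = Fintype.card V := by
  classical
  have h0 : f 0 = 0 := by
    have := hf 0 0
    rw [add_zero, map_zero] at this
    simp only [LinearMap.zero_apply, add_zero] at this
    linear_combination -this
  have key : ∀ x, ∑ y, χ (f x) * χ (f (y + x)) = ∑ h, χ (f h) * χ (β h x) := fun x => by
    refine Finset.sum_congr rfl fun h _ => ?_
    rw [← χ_add hF, ← χ_add hF, hf]
    congr 1
    linear_combination (f x) * two_eq_zero hF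
  rw [pow_two, gs, Finset.sum_mul_sum]
  calc ∑ x, ∑ y, χ (f x) * χ (f y) = ∑ x, ∑ h, χ (f x) * χ (f (h + x)) :=
        Finset.sum_congr rfl fun x _ => (Equiv.sum_comp (Equiv.addRight x) fun y => χ (f x) * χ (f y)).symm
    _ = ∑ h, χ (f h) * ∑ x, χ (β h x) := by
        simp only [key]; rw [Finset.sum_comm]; simp only [Finset.mul_sum]
    _ = Fintype.card V := by
        rw [Finset.sum_eq_single 0 (fun h _ hh => by rw [char_sum hF β hβ hh, mul_zero])
          (fun h => absurd (Finset.mem_univ _) h)]
        simp [h0, χ]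

include hF hf in
theorem gs_shift (u : V) : gs (fun x => f x + β x u) = χ (f u) * gs f := by
  rw [gs, gs, Finset.mul_sum, ← Equiv.sum_comp (Equiv.addRight u) fun x => χ (f u) * χ (f x)]
  refine Finset.sum_congr rfl fun x _ => ?_
  simp only [Equiv.coe_addRight]
  rw [← χ_add hF (f u), hf]
  congr 1
  linear_combination -(f u) * two_eq_zero hF

include hF hβ hf in
open scoped Classical in
theorem zeros_ge {r : ℕ} (hV : Fintype.card V = (2 ^ r) ^ 2) :
    (2 ^ r) ^ 2 ≤ 2 * (Finset.univ.filter fun x => f x = 0).card + 2 ^ r := by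
  have h1 := gs_sq hF β hβ hf
  have h2 := two_mul_zeros f
  rw [hV] at h1 h2
  push_cast at h1 h2
  have h3 : -(2 : ℤ) ^ r ≤ gs f := (abs_le.1 (abs_le_of_sq_le_sq h1.le (by positivity))).1
  have : ((2 : ℤ) ^ r) ^ 2 ≤ 2 * ((Finset.univ.filter fun x => f x = 0).card : ℤ) + 2 ^ r := by linarith
  exact_mod_cast this

end Cfsg.Agent.Suzuki.SpIdxTwo
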