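import Cfsg.Agent.Suzuki.SpIdxTwoGauss
import Cfsg.Agent.Suzuki.SpIdxMoves
import Mathlib

/-!
The minimal index of a proper subgroup of `Sp_2m(2)`, `m ≥ 3`.
-/

set_option autoImplicit false

namespace Cfsg.Agent.Suzuki.SpIdxTwo

open Matrix
open Cfsg.Agent.KnownB.Proj.Symp
open Cfsg.Agent.Suzuki.SpSt
open Cfsg.Agent.Suzuki.SpIdx

universe u v

variable {m : ℕ} {F : Type u} [Field F] [Fintype F] (hF : Fintype.card F = 2)

local notation "Vm" => (Fin m ⊕ Fin m → F)
local notation "Spm" => Matrix.symplecticGroup (Fin m) F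
local notation "B" => Cfsg.sympForm m F

include hF in
theorem mem_span_two {v w : Vm} (h0 : w ≠ 0) (h1 : w ≠ v) : w ∉ F ∙ v := fun h => by
  obtain ⟨k, rfl⟩ := Submodule.mem_span_singleton.1 h
  rcases zero_or_one hF k with rfl | rfl
  · exact h0 (zero_smul _ _)
  · exact h1 (one_smul _ _)

theorem exists_out {v : Vm} {w : Vm} (hm : 3 ≤ m) : ∃ y : Vm, B y v = 0 ∧ B y w = 0 ∧ y ∉ (F ∙ v) ⊔ (F ∙ w) := by
  let f : Vm →ₗ[F] (Fin 2 → F) := LinearMap.pi ![(Forms.sympB m F).flip v, (Forms.sympB m F).flip w]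
  have h3 : ∀ u : Vm, Module.finrank F (F ∙ u) ≤ 1 := fun u => by
    simpa using finrank_span_le_card ({u} : Set Vm)
  have h4 : ¬ LinearMap.ker f ≤ (F ∙ v) ⊔ (F ∙ w) := by
    intro hle
    have h5 := Submodule.finrank_mono hle
    have h6 := Submodule.finrank_add_le_finrank_add_finrank (F ∙ v) (F ∙ w)
    have := h3 v
    have := h3 w
    have h7 := f.finrank_range_add_finrank_ker
    have h8 := Submodule.finrank_le (LinearMap.range f)
    rw [Module.finrank_pi] at h8 h7
    simp at h7 h8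
    omega
  obtain ⟨y, hy, hy'⟩ := SetLike.not_le_iff_exists.1 h4
  have h0 := congrFun (LinearMap.mem_ker.1 hy)
  refine ⟨y, ?_, ?_, hy'⟩
  · rw [← sB]; exact h0 0
  · rw [← sB]; exact h0 1

theorem exists_dual {v w u : Vm} (hu : u ∉ (F ∙ v) ⊔ (F ∙ w)) : ∃ y : Vm, B y v = 0 ∧ B y w = 0 ∧ B y u = 1 := by
  obtain ⟨f, hf, hp⟩ := Submodule.exists_le_ker_of_notMem hu
  let y : Vm := LinearMap.BilinForm.toDual (Forms.sympB m F) Forms.sympB_nondegenerate |>.symm ((f u)⁻¹ • f)
  have hy : ∀ x, B y x = (f u)⁻¹ * f x := fun x => by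
    rw [← sB]
    exact LinearMap.BilinForm.apply_toDual_symm_apply _ _
  exact ⟨y,
    by rw [hy, LinearMap.mem_ker.1 (hp (Submodule.mem_sup_left (Submodule.mem_span_singleton_self v))), mul_zero],
    by rw [hy, LinearMap.mem_ker.1 (hp (Submodule.mem_sup_right (Submodule.mem_span_singleton_self w))), mul_zero],
    by rw [hy, inv_mul_cancel₀ hf]⟩

section Point

variable {Ω : Type v} [MulAction (Matrix.symplecticGroup (Fin m) F) Ω] {x : Ω}
  (hfull : ∀ v : Fin m ⊕ Fin m → F, v ≠ 0 → ∀ w, Cfsg.sympForm m F v w = 0 →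
    ∃ z : F, (T v z * S v w 1 : Matrix.symplecticGroup (Fin m) F) • x = x)

include hF in
theorem fix_all_of_one {v : Vm} (h : (T v 1 : Spm) • x = x) (c : F) : (T v c : Spm) • x = x := by
  rcases zero_or_one hF c with rfl | rfl
  · rw [T_zero, one_smul]
  · exact h

include hF hfull in
theorem nbr_fixed {v w : Vm} (hv : v ≠ 0) (hw : w ∉ F ∙ v) (hvw : B v w = 0)
    (hfix : ∀ c : F, (T v c : Spm) • x = x) (t : F) : (T w t : Spm) • x = x := by
  have h2 := two_eq_zero hF
  refine fix_all_of_one hF ?_ t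
  have hw0 : w ≠ 0 := fun h0 => hw (by rw [h0]; exact zero_mem _)
  obtain ⟨y, hy0, hy1⟩ := exists_sep (notMem_swap hv hw)
  have horth : B w y = 0 := by rw [B_swap, hy0, neg_zero]
  obtain ⟨z, hz⟩ := hfull w hw0 y horth
  set g : Spm := T w z * S w y 1
  have hgv : g.1 *ᵥ v = v + w := by
    rw [sp_mul_mulVec, S_mulVec horth, T_mulVec, B_swap v y, hy1, hvw]
    simp only [B_add_left, B_smul_left, B_self, hvw]
    have e0 : (2 : F) • w = 0 := by rw [h2, zero_smul]
    rw [two_smul] at e0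
    linear_combination (norm := module) -e0
  have h3 : (T (v + w) 1 : Spm) • x = x := by
    rw [← hgv, ← T_conj g, mul_smul, mul_smul, inv_smul_eq_iff.2 hz.symm, hfix, hz]
  obtain ⟨z', hz'⟩ := hfull v hv w hvw
  have hS : (S v w 1 : Spm) • x = x := by
    rw [mul_smul] at hz'
    exact MulAction.injective (T v z' : Spm) (hz'.trans (hfix z').symm)
  have e : (T (v + w) 1 : Spm) = W v w 1 1 1 := by
    have := T_line hvw (1 : F) 1
    rwa [one_smul, one_mul, one_pow, one_mul] at this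
  rw [e, W, mul_smul] at h3
  exact MulAction.injective (T v 1 * S v w 1 : Spm) (h3.trans (by
    show x = (T v 1 * S v w 1 : Spm) • x
    rw [mul_smul, hS, hfix]))

include hF hfull in
theorem all_fixed (hm : 2 ≤ m) {v : Vm} (hv : v ≠ 0) (hfix : ∀ c : F, (T v c : Spm) • x = x) :
    ∀ (u : Vm) (c : F), (T u c : Spm) • x = x := by
  intro u c
  by_cases hu : u ∈ F ∙ v
  · obtain ⟨k, rfl⟩ := Submodule.mem_span_singleton.1 hu
    rw [T_smul, hfix]
  by_cases hvu : B v u = 0
  · exact nbr_fixed hF hfull hv hu hvu hfix c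
  obtain ⟨z, hz, hvz, huz⟩ := exists_orth hm v u
  have hz1 : z ∉ F ∙ v := by
    intro hmem
    obtain ⟨k, rfl⟩ := Submodule.mem_span_singleton.1 hmem
    rw [B_smul_right, B_swap, mul_neg, neg_eq_zero] at huz
    exact hz (by rw [(mul_eq_zero.1 huz).resolve_right hvu, zero_smul])
  have hz2 : u ∉ F ∙ z := by
    intro hmem
    obtain ⟨k, rfl⟩ := Submodule.mem_span_singleton.1 hmem
    exact hvu (by rw [B_smul_right, hvz, mul_zero])
  exact nbr_fixed hF hfull hz hz2 (by rw [B_swap, huz, neg_zero]) (nbr_fixed hF hfull hv hz1 hvz hfix) c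

include hF hfull in
/-- the contradiction -/
theorem point_false (hm : 3 ≤ m) {v0 : Vm} {c0 : F} (hmove : (T v0 c0 : Spm) • x ≠ x) : False := by
  have h2 := two_eq_zero hF
  have hmv : ∀ v : Vm, v ≠ 0 → (T v 1 : Spm) • x ≠ x := fun v hv hc =>
    hmove (all_fixed hF hfull (by omega) hv (fix_all_of_one hF hc) v0 c0)
  have hX : ∀ v : Vm, v ≠ 0 → ∀ z z' : F, (T v z : Spm) • x = (T v z' : Spm) • x → z = z' := by
    intro v hv z z' h
    rcases zero_or_one hF z with rfl | rfl <;> rcases zero_or_one hF z' with rfl | rfl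
    · rfl
    · rw [T_zero, one_smul] at h; exact absurd h.symm (hmv v hv)
    · rw [T_zero, one_smul] at h; exact absurd h (hmv v hv)
    · rfl
  -- the short root elements fix the point
  have hS : ∀ v b : Vm, v ≠ 0 → b ∉ F ∙ v → B v b = 0 → (S v b 1 : Spm) • x = x := by
    intro v b hv hb hvb
    have hb0 : b ≠ 0 := fun h0 => hb (by rw [h0]; exact zero_mem _)
    obtain ⟨u, huv, hub, hu⟩ := exists_out (F := F) (v := v) (w := b) hm
    obtain ⟨a, hav, hab, hau⟩ := exists_dual hu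
    obtain ⟨z, hz⟩ := hfull v hv u (by rw [B_swap, huv, neg_zero])
    set g : Spm := T v z * S v u 1
    have hvu : B v u = 0 := by rw [B_swap, huv, neg_zero]
    have hgb : g.1 *ᵥ b = b := by
      rw [sp_mul_mulVec, S_mulVec hvu, T_mulVec, B_swap b u, hub, B_swap b v, hvb]
      simp [B_swap b v, hvb]
    have hga : g.1 *ᵥ a = a + v := by
      rw [sp_mul_mulVec, S_mulVec hvu, T_mulVec, hav, hau]
      simp only [B_add_left, B_smul_left, B_self, hav]
      module
    have hba : B b a = 0 := by rw [B_swap, hab, neg_zero]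
    have hbv : B b v = 0 := by rw [B_swap, hvb, neg_zero]
    obtain ⟨za, hza⟩ := hfull b hb0 a hba
    obtain ⟨zv, hzv⟩ := hfull b hb0 v hbv
    have e1 : (T b za * S b (a + v) 1 : Spm) • x = x := by
      have e : (T b za * S b (a + v) 1 : Spm) = g * (T b za * S b a 1) * g⁻¹ := by
        rw [show g * (T b za * S b a 1) * g⁻¹ = (g * T b za * g⁻¹) * (g * S b a 1 * g⁻¹) by group, T_conj, S_conj,
          hgb, hga]
      rw [e, mul_smul, mul_smul, inv_smul_eq_iff.2 hz.symm, hza, hz]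
    have e2 : (T b za * S b a 1 * (T b zv * S b v 1) : Spm) = T b zv * (T b za * S b (a + v) 1) := by
      have hva : B v a = 0 := by rw [B_swap, hav, neg_zero]
      rw [S_add_right' hba hbv, hva, mul_zero, neg_zero, T_zero, one_mul, mul_assoc, ← mul_assoc (S b a 1),
        ((commute_of_fix (S_fix hba 1).1 (S_fix hba 1).2 zv).1).eq, mul_assoc, ← mul_assoc, ← mul_assoc (T b zv),
        T_add, T_add, add_comm zv]
    have h3 : (T b zv : Spm) • x = (T b 0 : Spm) • x := by
      rw [T_zero, one_smul]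
      have := congrArg (· • x) e2
      simp only [mul_smul] at this
      rw [← mul_smul (T b zv) (S b v 1), hzv, ← mul_smul (T b za) (S b a 1), hza, ← mul_smul (T b za) (S b (a + v) 1),
        e1] at this
      exact this.symm
    rw [hX b hb0 _ _ h3, T_zero, one_mul] at hzv
    rwa [S_symm hvb]
  let a : Fin m ⊕ Fin m := Sum.inl ⟨0, by omega⟩
  let b : Fin m ⊕ Fin m := Sum.inl ⟨1, by omega⟩
  have hab : cls b ≠ cls a := by simp [a, b, cls]
  have h1 : (e b : Vm) ∈ Vp (F := F) a := e_mem_Vp hab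
  have h3 : (e (bar b) : Vm) ∈ Vp (F := F) a := e_mem_Vp (by rw [cls_bar]; exact hab)
  have hne : (e b + e (bar b) : Vm) ≠ 0 := fun h0 => by
    have := congrFun h0 b
    simp [e_self, e_ne (bar_ne b).symm] at this
  have hnm : ∀ u : Vm, u ∈ Vp (F := F) a → u ≠ 0 → u ∉ F ∙ (e a : Vm) := fun u hu hu0 =>
    mem_span_two hF hu0 fun h => by
      have := hu.1
      rw [h, e_self] at this
      exact one_ne_zero this
  apply hmv (e a) (e_ne_zero a)
  have hx := hS (e a) _ (e_ne_zero a) (hnm _ (add_mem h1 h3) hne) (Vp_B (add_mem h1 h3)).1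
  rw [S_add_right' (Vp_B h1).1 (Vp_B h3).1, mul_smul, mul_smul,
    hS (e a) _ (e_ne_zero a) (hnm _ h3 (e_ne_zero _)) (Vp_B h3).1,
    hS (e a) _ (e_ne_zero a) (hnm _ h1 (e_ne_zero _)) (Vp_B h1).1] at hx
  rcases zero_or_one hF (-(1 * 1 * B (e (bar b)) (e b : Vm))) with h | h
  · simp [B_e_left, bar_bar, e_self, sg_ne] at h
  · rwa [h] at hx

end Point

variable {Ω : Type v} [MulAction (Matrix.symplecticGroup (Fin m) F) Ω] [Finite Ω]

include hF in
/-- the bound for actions -/
theorem action_bound (hm : 3 ≤ m) {x0 : Ω} {v0 : Vm} {c0 : F} (hmove : (T v0 c0 : Spm) • x0 ≠ x0) :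
    2 ^ (m - 1) * (2 ^ m - 1) ≤ Nat.card Ω := by
  classical
  have h2 := two_eq_zero hF
  have := Fintype.ofFinite Ω
  let a : Fin m ⊕ Fin m := Sum.inl ⟨0, by omega⟩
  have hmr : 2 ^ (m - 1) * (2 ^ m - 1) = 2 * (2 ^ (m - 1)) ^ 2 - 2 ^ (m - 1) := by
    rw [Nat.mul_sub, mul_one, show 2 ^ m = 2 * 2 ^ (m - 1) by rw [← pow_succ']; congr 1; omega]
    ring_nf
  rw [hmr]
  set R := 2 ^ (m - 1) with hR
  have hR2 : 2 ≤ R := by rw [hR]; exact le_self_pow₀ (by omega) (by omega)
  have hcV : Nat.card (Vp (F := F) a) = R ^ 2 := by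
    rw [card_Vp, hF, hR, ← pow_mul]; congr 1; omega
  have hv0 : v0 ≠ 0 := fun h0 => hmove (by
    have : (T v0 c0 : Spm) = 1 := sp_ext fun y => by rw [h0, T_mulVec, smul_zero, add_zero, sp_one_mulVec]
    rw [this, one_smul])
  obtain ⟨g0, hg0⟩ := exists_move (F := F) a hv0
  have hx : X0 F a (g0⁻¹ • x0) ≠ ⊤ := fun h => hmove ((fix_T_iff hg0 c0 x0).2 (by
    have : c0 ∈ X0 F a (g0⁻¹ • x0) := h ▸ AddSubgroup.mem_top _
    exact this))
  by_cases hgood : ∃ y : Ω, Good (F := F) a y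
  · obtain ⟨y, hy⟩ := hgood
    have hP := Pts_one hy.2
    rw [hcV] at hP
    have hA := An_two hy.1
    have hle : Nat.card (Pts F a y) ≤ Nat.card Ω := Finite.card_subtype_le _
    obtain ⟨u, hu⟩ : ∃ u, Nat.card (Un F a y) = u + 2 := ⟨Nat.card (Un F a y) - 2, by have := hy.2; omega⟩
    rw [hu, show u + 2 - 1 = u + 1 by omega] at hP
    have h4 : (R ^ 2 - 1) * 2 * (u + 1) ≤ Nat.card Ω * (u + 1) :=
      le_trans (by rw [mul_assoc]; exact Nat.mul_le_mul_left _ (Nat.mul_le_mul hA (by omega)))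
        (le_trans hP (Nat.mul_le_mul_right _ hle))
    have h5 := Nat.le_of_mul_le_mul_right h4 (by omega)
    omega
  push Not at hgood
  have hSb : ∀ y : Ω, X0 F a y ≠ ⊤ → Sb F a y = ⊤ := fun y hy => Sb_eq_top (by
    by_contra hc
    exact hgood y ⟨hy, not_le.1 hc⟩)
  have hXbot : ∀ y : Ω, X0 F a y ≠ ⊤ → ∀ z z' : F, (T (e a) z : Spm) • y = (T (e a) z' : Spm) • y → z = z' := by
    intro y hy
    refine fun z z' h => T_unique ((AddSubgroup.eq_bot_iff_forall _).2 fun c hc => ?_) h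
    rcases zero_or_one hF c with rfl | rfl
    · rfl
    · exact absurd (eq_top_iff.2 fun c _ => fix_all_of_one hF hc c) hy
  -- a point fixed by the centre and moved by the radical
  obtain ⟨y, hyX, hyu⟩ : ∃ y : Ω, X0 F a y = ⊤ ∧ 1 < Nat.card (Un F a y) := by
    by_contra hc
    push Not at hc
    have hall : ∀ y : Ω, Sb F a y = ⊤ := fun y => by
      by_cases hy : X0 F a y = ⊤
      · exact Sb_eq_top (hc y hy)
      · exact hSb y hy
    refine point_false hF (x := x0) (fun v hv w hvw => ?_) hm hmove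
    obtain ⟨g, hg⟩ := exists_move (F := F) a hv
    set w1 := (g⁻¹).1 *ᵥ w with hw1
    have hBw : B (e a) w1 = 0 := by rw [hw1, ← sp_B g, sp_mulVec_inv, hg, hvw]
    have hwb : w1 (bar a) = 0 := by
      rw [B_e_left, mul_eq_zero] at hBw
      exact hBw.resolve_left (sg_ne a)
    have hw2 : w1 - w1 a • e a ∈ Vp (F := F) a :=
      ⟨by simp [e_self], by simp [e_ne (bar_ne a), hwb]⟩
    obtain ⟨z, hz⟩ := (show (⟨_, hw2⟩ : Vp (F := F) a) ∈ Sb F a (g⁻¹ • x0) from hall _ ▸ AddSubgroup.mem_top _)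
    refine ⟨z, ?_⟩
    have hS : (S (e a) w1 1 : Spm) = S (e a) (w1 - w1 a • e a) 1 := sp_ext fun u => by
      rw [S_mulVec hBw, S_mulVec (Vp_B hw2).1, B_sub_right, B_smul_right]
      have : (2 : F) • ((B u (e a) * w1 a) • (e a : Vm)) = 0 := by rw [h2, zero_smul]
      rw [two_smul] at this
      linear_combination (norm := module) this
    have e1 : (T v z * S v w 1 : Spm) = g * (T (e a) z * S (e a) w1 1) * g⁻¹ := by
      rw [show g * (T (e a) z * S (e a) w1 1) * g⁻¹ = (g * T (e a) z * g⁻¹) * (g * S (e a) w1 1 * g⁻¹) by group,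
        T_conj, S_conj, hg, hw1, sp_mulVec_inv]
    rw [e1, hS, mul_smul, mul_smul]
    show g • (q a (w1 - w1 a • e a) z • g⁻¹ • x0) = x0
    rw [hz, smul_inv_smul]
  have hFy : R ^ 2 ≤ Nat.card (Pts F a y) := by
    have hP := Pts_one hyu
    have h1 := An_card (F := F) a y
    rw [hyX, AddSubgroup.card_top, Nat.card_eq_fintype_card (α := F), mul_eq_right₀ Fintype.card_ne_zero] at h1
    rw [h1, one_mul, hcV] at hP
    by_contra hlt
    push Not at hlt
    obtain ⟨u, hu⟩ : ∃ u, Nat.card (Un F a y) = u + 1 := ⟨Nat.card (Un F a y) - 1, by omega⟩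
    rw [hu, Nat.add_sub_cancel, mul_add, mul_one] at hP
    have h6 : Nat.card (Pts F a y) * u ≤ (R ^ 2 - 1) * u := Nat.mul_le_mul_right _ (by omega)
    have : 1 ≤ R ^ 2 - 1 := by
      have : 4 ≤ R ^ 2 := by nlinarith
      omega
    omega
  set x := g0⁻¹ • x0
  have htop := hSb x hx
  choose f hf using fun w : Vp (F := F) a => (show w ∈ Sb F a x from htop ▸ AddSubgroup.mem_top w)
  have hpol : ∀ v w, f (v + w) = f v + f w + bp a v w := by
    intro v w
    refine hXbot x hx _ _ ?_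
    have e1 : q a ((v + w : Vp (F := F) a) : Vm) (f v + f w + bp a v w) • x = x := by
      rw [Submodule.coe_add, bp_apply, show B (v : Vm) (w : Vm) = B (w : Vm) (v : Vm) by
        rw [B_swap]; linear_combination -(B (w : Vm) (v : Vm)) * h2, ← q_mul (Vp_B v.2).1 (Vp_B w.2).1, mul_smul,
        hf w, hf v]
    have e2 := hf (v + w)
    rw [q, T_S_comm (Vp_B (v + w).2).1, mul_smul] at e1 e2
    exact MulAction.injective (S (e a) ((v + w : Vp (F := F) a) : Vm) 1 : Spm) (e2.trans e1.symm)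
  have hsq : ∀ c : F, c * c = c := fun c => by rcases zero_or_one hF c with rfl | rfl <;> simp
  have := Fintype.ofFinite (Vp (F := F) a)
  have hz := zeros_ge hF (bp a) (bp_sep a) hpol (r := m - 1) (by rw [← Nat.card_eq_fintype_card, hcV])
  let Z : Finset (Vp (F := F) a) := Finset.univ.filter fun u => f u = 0
  let φ : Vp (F := F) a × F → Ω := fun p => (T (e a) p.2 : Spm) • (T (p.1 : Vm) 1 : Spm) • x
  have hyX' : ∀ u : Vp (F := F) a, X0 F a ((T (u : Vm) 1 : Spm) • x) ≠ ⊤ := fun u h => hx (eq_top_iff.2 fun c _ => by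
    have := X0_sc' (Lg_sc (T_mem_Lg u.2 1)) (z := c) (by rw [h]; trivial)
    rwa [inv_one, one_pow, one_mul] at this)
  have hfu : ∀ u ∈ Z, ∀ w : Vp (F := F) a, ∀ t : F,
      q a (w : Vm) (f w + B (w : Vm) (u : Vm)) • φ (u, t) = φ (u, t) := by
    intro u hu w t
    have hu0 : f u = 0 := (Finset.mem_filter.1 hu).2
    set c := B (w : Vm) (u : Vm)
    have hw' : f (w + c • u) = f w + c := by
      rcases zero_or_one hF c with hc | hc
      · rw [hc, zero_smul, add_zero, add_zero]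
      · rw [hc, one_smul, hpol, hu0, add_zero, bp_apply]
        show f w + c = f w + 1
        rw [hc]
    have ee := hf (w + c • u)
    rw [hw'] at ee
    have hvec : (T (u : Vm) 1).1 *ᵥ ((w + c • u : Vp (F := F) a) : Vm) = (w : Vm) := by
      rw [Submodule.coe_add, Submodule.coe_smul, T_mulVec, B_add_left, B_smul_left, B_self, mul_zero, add_zero,
        one_mul]
      have e0 : (2 : F) • (c • (u : Vm)) = 0 := by rw [h2, zero_smul]
      rw [two_smul] at e0
      show (w : Vm) + c • (u : Vm) + c • (u : Vm) = w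
      rw [add_assoc, e0, add_zero]
    have e1 : q a (w : Vm) (f w + c) • (T (u : Vm) 1 : Spm) • x = (T (u : Vm) 1 : Spm) • x := by
      have hc' := q_conj (g := (T (u : Vm) 1 : Spm)) (μ := 1) (by rw [one_smul]; exact (T_mem_Lg u.2 1).1) one_ne_zero
        (Vp_B (w + c • u).2).1 (f w + c)
      rw [hvec, one_smul, one_pow, one_mul] at hc'
      rw [← hc', mul_smul, mul_smul, inv_smul_smul, ee]
    show q a (w : Vm) (f w + c) • (T (e a) t : Spm) • (T (u : Vm) 1 : Spm) • x = _
    rw [smul_smul, ← T_q_comm (Vp_B w.2).1, mul_smul, e1]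
  have hinj : ∀ p ∈ Z ×ˢ (Finset.univ : Finset F), ∀ p' ∈ Z ×ˢ (Finset.univ : Finset F), φ p = φ p' → p = p' := by
    rintro ⟨u, t⟩ hu ⟨u', t'⟩ hu' ee
    rw [Finset.mem_product] at hu hu'
    have huu : u = u' := by
      refine sub_eq_zero.1 (bp_sep a (u - u') fun w => ?_)
      have h1 := hfu u hu.1 w t
      have h1' := hfu u' hu'.1 w t'
      rw [← ee] at h1'
      have hX : X0 F a (φ (u, t)) ≠ ⊤ := by
        show X0 F a ((T (e a) t : Spm) • (T (u : Vm) 1 : Spm) • x) ≠ ⊤
        have h0 := hyX' u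
        rwa [← X0_orbit (a := a) (w := 0) (B_zero_right _) t, q_zero] at h0
      have h7 : f w + B (w : Vm) (u : Vm) = f w + B (w : Vm) (u' : Vm) := by
        refine hXbot _ hX _ _ ?_
        rw [q, T_S_comm (Vp_B w.2).1, mul_smul] at h1 h1'
        exact MulAction.injective (S (e a) (w : Vm) 1 : Spm) (h1.trans h1'.symm)
      rw [bp_apply, Submodule.coe_sub, B_swap, B_sub_right, add_left_cancel h7, sub_self, neg_zero]
    subst huu
    exact Prod.ext rfl (hXbot _ (hyX' u) t t' ee)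
  have hcard : ((Z ×ˢ (Finset.univ : Finset F)).image φ).card = Z.card * 2 := by
    rw [Finset.card_image_of_injOn (fun p hp p' hp' => hinj p hp p' hp'), Finset.card_product, Finset.card_univ, hF]
  have hdisj : Disjoint ((Z ×ˢ (Finset.univ : Finset F)).image φ) (Finset.univ.filter fun z => z ∈ Pts F a y) := by
    rw [Finset.disjoint_left]
    intro z hz hz'
    obtain ⟨⟨u, t⟩, -, rfl⟩ := Finset.mem_image.1 hz
    have e3 := (Pts_data (Finset.mem_filter.1 hz').2).1
    have h0 := hyX' u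
    rw [← X0_orbit (a := a) (w := 0) (B_zero_right _) t, q_zero] at h0
    apply h0
    rw [← perp_mul.2 (X0 F a _), ← An]
    show perp (LinearMap.mul F F) (An F a (φ (u, t))) = ⊤
    rw [e3, An, perp_mul.2, hyX]
  have hsum := Finset.card_le_univ (((Z ×ˢ (Finset.univ : Finset F)).image φ) ∪ (Finset.univ.filter fun z => z ∈ Pts F a y))
  rw [Finset.card_union_of_disjoint hdisj, hcard, ← Nat.card_eq_fintype_card] at hsum
  have hPc : (Finset.univ.filter fun z => z ∈ Pts F a y).card = Nat.card (Pts F a y) := by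
    rw [Nat.card_eq_fintype_card, Fintype.card_subtype]
  rw [hPc] at hsum
  have hzR : R ^ 2 ≤ 2 * Z.card + R := hz
  omega

end Cfsg.Agent.Suzuki.SpIdxTwo
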