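import Cfsg.Agent.Suzuki.StLiftGen
import Cfsg.Agent.KnownA.CoverPerfect

/-!
Central extensions of Steinberg's group by groups without torsion in the characteristic, all of whose elements
are powers with exponent the characteristic, split.
-/

set_option autoImplicit false

universe u v

namespace Cfsg.Agent.Suzuki.StLift

open Cfsg.Lie Cfsg.Agent.Chev Cfsg.Agent.KnownA.Cover
open scoped commutatorElement

variable {D : ChevalleyDatum} {K : Type u} [Field K]

theorem pairInd_of_termCheck {ok : ℕ → Bool} (h : termCheck D ok = true) {i s : ℕ} (hi : i < D.rank) (hs : s < D.nroots)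
    (hne : s ≠ D.neg (D.simple i)) (hnil : tIds D (D.simple i) s ≠ []) : pairInd D (D.simple i) s = true := by
  simp only [termCheck, List.all_eq_true, List.mem_range] at h
  have hb := h i hi s hs
  simp only [Bool.or_eq_true, beq_iff_eq, hne, List.isEmpty_iff, hnil, false_or, Bool.and_eq_true] at hb
  exact hb.1

section Ext

variable {E : Type v} [Group E] {π : E →* D.SteinbergCover K} (hπ : Function.Surjective π)
  (hk : π.ker ≤ Subgroup.center E) (C : Cert.{u} D)
  (hc : cornerCheck D = true)

include hπ hk C hc in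
theorem exists_section_pdiv {p : ℕ} (hp : (p : K) = 0) (h1 : ∀ z ∈ π.ker, z ^ p = 1 → z = 1)
    (hdiv : ∀ z ∈ π.ker, ∃ w ∈ π.ker, w ^ p = z) {ok : ℕ → Bool} (hterm : termCheck D ok = true) :
    ∃ σ : D.SteinbergCover K →* E, ∀ x, π (σ x) = x := by
  classical
  have hyp : ∀ r (t : K) (k : ℕ), D.scGen K r t ^ k = D.scGen K r ((k : K) * t) := by
    intro r t k
    induction k with
    | zero => rw [pow_zero, Nat.cast_zero, zero_mul, y_zero]
    | succ k ih => rw [pow_succ, ih, y_add, Nat.cast_succ, add_mul, one_mul]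
  have hz : ∀ r < D.nroots, ∀ s < D.nroots, s ≠ D.neg r → tIds D r s = [] → Zero hπ r s := by
    intro r hr s hs hne h t v
    obtain ⟨hl, -⟩ := lc_biadd hπ hk C hc hr hs hne h
    have h0 : lc hπ (D.scGen K r 0) (D.scGen K s v) = 1 := by rw [y_zero, lc_one_left hπ hk]
    have hpow : ∀ k : ℕ, lc hπ (D.scGen K r t) (D.scGen K s v) ^ k = lc hπ (D.scGen K r ((k : K) * t)) (D.scGen K s v) := by
      intro k
      induction k with
      | zero => rw [pow_zero, Nat.cast_zero, zero_mul, h0]
      | succ k ih => rw [pow_succ, ih, ← hl, Nat.cast_succ, add_mul, one_mul]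
    refine h1 _ ?_ (by rw [hpow p, hp, zero_mul, h0])
    rw [MonoidHom.mem_ker, map_lc, commutatorElement_eq_one_iff_mul_comm]
    exact y_commute C hr hs hne h t v
  have hex : ∀ r (t : K), ∃ e : E, π e = D.scGen K r t ∧ e ^ p = 1 := by
    intro r t
    obtain ⟨l, hl⟩ := hπ (D.scGen K r t)
    have hlk : l ^ p ∈ π.ker := by rw [MonoidHom.mem_ker, map_pow, hl, hyp, hp, zero_mul, y_zero]
    obtain ⟨w, hw, hwp⟩ := hdiv _ hlk
    refine ⟨l * w⁻¹, by rw [map_mul, map_inv, MonoidHom.mem_ker.1 hw, hl, inv_one, mul_one], ?_⟩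
    rw [Commute.mul_pow (show Commute l w⁻¹ from Subgroup.mem_center_iff.1 (inv_mem (hk hw)) l), inv_pow, hwp,
      mul_inv_cancel]
  choose X hmap hXp using hex
  have huniq : ∀ (e : E) r (t : K), π e = D.scGen K r t → e ^ p = 1 → e = X r t := by
    intro e r t he hep
    have hk' : e⁻¹ * X r t ∈ π.ker := by rw [MonoidHom.mem_ker, map_mul, map_inv, he, hmap, inv_mul_cancel]
    have hcomm : Commute e (e⁻¹ * X r t) := Subgroup.mem_center_iff.1 (hk hk') e
    have := h1 _ hk' (by
      have e1 := hcomm.mul_pow p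
      rw [mul_inv_cancel_left, hXp, hep, one_mul] at e1
      exact e1.symm)
    exact inv_mul_eq_one.1 this
  have hadd : ∀ r t t', X r (t + t') = X r t * X r t' := by
    intro r t t'
    refine (huniq _ r _ (by rw [map_mul, hmap, hmap, y_add]) ?_).symm
    have hcomm : Commute (X r t) (X r t') := by
      by_cases hr : r < D.nroots
      · refine lift_commute hπ hk ?_
        rw [hmap, hmap]
        exact hz r hr r hr (C.neg_ne r hr).symm (by simp [tIds, ChevalleyDatum.commTerms, ChevalleyDatum.chainRoot, C.chain_self r hr]) t t'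
      · exact (Subgroup.mem_center_iff.1 (hk (MonoidHom.mem_ker.2 (by rw [hmap, y_of_le hr]))) _ : X r t * X r t' = X r t' * X r t)
    rw [hcomm.mul_pow, hXp, hXp, one_mul]
  have hconj : ∀ (g : E) r s (t z : K), π g * D.scGen K r t * (π g)⁻¹ = D.scGen K s z → g * X r t * g⁻¹ = X s z := by
    intro g r s t z h
    refine huniq _ s z (by rw [map_mul, map_mul, map_inv, hmap, h]) ?_
    rw [conj_pow, hXp, mul_one, mul_inv_cancel]
  refine exists_section_of_rel C hmap hadd fun r hr s hs _ hneg => ?_
  refine rel_all_gen hπ hk C hc hz hmap hadd (fun g _ r _ b hb t => hconj g r r t _ (hb t))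
    (fun i hi g hg r hr t => hconj g r _ t _ (by rw [hg, wEl_conj C hc hi hr one_ne_zero]))
    (fun i hi s hs hne hnil => Or.inr ⟨pairInd_of_termCheck hterm hi hs hne hnil, 1, one_mem _, 1, 1,
      fun v => by simp, fun v => by simp, fun f hl _ _ hker _ t v => ?_⟩) _ r hr s hs hneg rfl
  have hf0 : f 0 v = 1 := by
    have := hl 0 0 v
    rw [add_zero] at this
    exact mul_eq_left.1 this.symm
  have hpow : ∀ k : ℕ, f t v ^ k = f ((k : K) * t) v := by
    intro k
    induction k with
    | zero => rw [pow_zero, Nat.cast_zero, zero_mul, hf0]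
    | succ k ih => rw [pow_succ, ih, ← hl, Nat.cast_succ, add_mul, one_mul]
  exact h1 _ (hker t v) (by rw [hpow, hp, zero_mul, hf0])

end Ext

end Cfsg.Agent.Suzuki.StLift
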