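import Cfsg.Agent.Suzuki.SzMultiplier
import Mathlib.GroupTheory.QuotientGroup.Basic

/-! # The multiplier of `Sz(8)` has order at most four -/

set_option autoImplicit false

namespace Cfsg.Agent.Suzuki.SzEight

open scoped commutatorElement

variable (F : Type*) [Field F]

/-- The field modulo its prime field. -/
abbrev Aq : Type _ := F ⧸ AddSubgroup.zmultiples (1 : F)

variable {F}

theorem th_one_eq (x : F) : th 1 x = x ^ 4 := rfl

theorem pow_eight (h : Ctx F 1) (x : F) : x ^ 8 = x := h.pow_q x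

theorem pow_seven (h : Ctx F 1) {x : F} (hx : x ≠ 0) : x ^ 7 = 1 :=
  mul_right_cancel₀ hx (by rw [one_mul, ← pow_succ]; exact pow_eight h x)

variable (h : Ctx F 1) {Γ : Type*} [Group Γ] {σ : Γ →* Cfsg.Sz F 1}
  (hσ : Function.Surjective σ) (hc : σ.ker ≤ Subgroup.center Γ)

include h hσ hc

/-- The commutators with the centre of the lifted unipotent group come from one homomorphism on
the field modulo its prime field. -/
theorem exists_hom : ∃ π : Multiplicative (Aq F) →* Γ, π.range ≤ σ.ker ∧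
    ∀ a e b, liftComm hσ (uEl h a e) (uEl h 0 b) ∈ π.range := by
  have hker : ∀ a e b, liftComm hσ (uEl h a e) (uEl h 0 b) ∈ σ.ker := fun a e b => by
    rw [MonoidHom.mem_ker, map_liftComm, commutatorElement_eq_one_iff_mul_comm]
    exact uEl_zero_comm h a e b
  have hconj : ∀ a e b (x : Γ), x * liftComm hσ (uEl h a e) (uEl h 0 b) * x⁻¹ =
      liftComm hσ (uEl h a e) (uEl h 0 b) := fun a e b x => by
    rw [Subgroup.mem_center_iff.1 (hc (hker a e b)) x, mul_inv_cancel_right]
  have hcomm : ∀ a e b (x : Γ), x * liftComm hσ (uEl h a e) (uEl h 0 b) =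
      liftComm hσ (uEl h a e) (uEl h 0 b) * x := fun a e b x =>
    Subgroup.mem_center_iff.1 (hc (hker a e b)) x
  have hr : ∀ a e b d, liftComm hσ (uEl h a e) (uEl h 0 (b + d)) =
      liftComm hσ (uEl h a e) (uEl h 0 b) * liftComm hσ (uEl h a e) (uEl h 0 d) := fun a e b d => by
    rw [show uEl h 0 (b + d) = uEl h 0 b * uEl h 0 d by rw [uEl_mul]; simp [th_zero],
      liftComm_mul_right hσ hc, hconj]
  have hl : ∀ a e c e' b, liftComm hσ (uEl h a e * uEl h c e') (uEl h 0 b) =
      liftComm hσ (uEl h a e) (uEl h 0 b) * liftComm hσ (uEl h c e') (uEl h 0 b) := fun a e c e' b => by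
    rw [liftComm_mul_left hσ hc, hconj, hcomm]
  have hT : ∀ (k : Fˣ) a e b, liftComm hσ (uEl h ((k : F) * a) ((k : F) * th 1 (k : F) * e))
      (uEl h 0 ((k : F) * th 1 (k : F) * b)) = liftComm hσ (uEl h a e) (uEl h 0 b) := fun k a e b => by
    obtain ⟨t, ht⟩ := hσ (hEl h k)
    have := liftComm_conj hσ hc ht (uEl h a e) (uEl h 0 b)
    rw [hconj, hEl_conj, hEl_conj, mul_zero] at this
    exact this.symm
  have hC : ∀ b d, liftComm hσ (uEl h 0 b) (uEl h 0 d) = 1 := by
    refine fun b d => weight_trivial (fun b d => liftComm hσ (uEl h 0 b) (uEl h 0 d)) (fun k => k)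
      h.two_eq_zero ?_ (fun a b d => hr 0 a b d) ?_ (fun k hk => hk) rfl (exists_weight_linear h) b d
    · intro a c b
      rw [← hl, uEl_mul]
      simp [th_zero]
    · intro k hk a b
      obtain ⟨l, hl'⟩ := exists_th_mul h k
      have hl0 : l ≠ 0 := fun e => hk (by rw [← hl', e, mul_zero])
      have := hT (Units.mk0 l hl0) 0 a b
      rw [Units.val_mk0, mul_zero, mul_comm l, hl'] at this
      exact this
  let g : F → Γ := fun b => liftComm hσ (uEl h 1 0) (uEl h 0 b)
  have hval : ∀ a e b, liftComm hσ (uEl h a e) (uEl h 0 b) = g (a ^ 2 * b) := by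
    intro a e b
    rw [uEl_split h a e, hl, hC, mul_one]
    by_cases ha : a = 0
    · subst ha
      rw [uEl_zero]
      have h0 : g 0 = 1 := by
        have := hr 1 0 0 0
        rw [add_zero] at this
        exact left_eq_mul.1 this
      rw [zero_pow (by norm_num), zero_mul, h0, liftComm, commutatorElement_eq_one_iff_mul_comm]
      exact (Subgroup.mem_center_iff.1 (hc (by rw [MonoidHom.mem_ker, Function.surjInv_eq hσ])) _).symm
    · have := hT (Units.mk0 a ha) 1 0 (a ^ 2 * b)
      rw [Units.val_mk0, mul_one, mul_zero, th_one_eq,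
        show a * a ^ 4 * (a ^ 2 * b) = a ^ 7 * b by ring, pow_seven h ha, one_mul] at this
      exact this
  have hg1 : g 1 = 1 := by
    show liftComm hσ (uEl h 1 0) (uEl h 0 1) = 1
    have e : uEl h 1 0 * uEl h 1 0 = uEl h 0 1 := by
      rw [uEl_mul, h.add_self]; simp [th_one_eq]
    obtain ⟨x, hx⟩ := hσ (uEl h 1 0)
    have := liftComm_map hσ hc x (x * x)
    rw [map_mul, hx, e] at this
    rw [← this, commutatorElement_eq_one_iff_mul_comm, mul_assoc]
  let G0 : F →+ Additive Γ := AddMonoidHom.mk' (fun b => Additive.ofMul (g b)) fun b d => hr 1 0 b d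
  have hle : AddSubgroup.zmultiples (1 : F) ≤ G0.ker := by
    rw [AddSubgroup.zmultiples_le]
    exact hg1
  let G1 : Aq F →+ Additive Γ := QuotientAddGroup.lift _ G0 hle
  let π : Multiplicative (Aq F) →* Γ := AddMonoidHom.toMultiplicativeLeft G1
  have hπ : ∀ b : F, π (Multiplicative.ofAdd (b : Aq F)) = g b := fun b => rfl
  refine ⟨π, ?_, fun a e b => ⟨_, (hπ _).trans (hval a e b).symm⟩⟩
  rintro _ ⟨x, rfl⟩
  obtain ⟨b, hb⟩ := QuotientAddGroup.mk_surjective (Multiplicative.toAdd x)
  rw [show x = Multiplicative.ofAdd (b : Aq F) from Multiplicative.toAdd.injective hb.symm, hπ]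
  exact hker 1 0 b

/-- Kernels of finite stem extensions of `Sz(8)` are images of the field modulo its prime field. -/
theorem exists_surj [Finite Γ] (hst : Cfsg.IsStemExtension σ) :
    ∃ ψ : Multiplicative (Aq F) →* σ.ker, Function.Surjective ψ := by
  obtain ⟨π, hπk, hπ⟩ := exists_hom h hst.1 hst.2.1
  let N := π.range
  have : N.Normal := ⟨fun n hn x => by
    rw [Subgroup.mem_center_iff.1 (hst.2.1 (hπk hn)) x, mul_inv_cancel_right]; exact hn⟩
  let σ' : Γ ⧸ N →* Cfsg.Sz F 1 := QuotientGroup.lift N σ hπk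
  have hk : ∀ y, y ∈ σ'.ker → ∃ x ∈ σ.ker, QuotientGroup.mk' N x = y := fun y hy => by
    obtain ⟨x, rfl⟩ := QuotientGroup.mk'_surjective N y
    exact ⟨x, hy, rfl⟩
  have hst' : Cfsg.IsStemExtension σ' := by
    refine ⟨fun s => ?_, fun y hy => ?_, fun y hy => ?_⟩
    · obtain ⟨x, hx⟩ := hst.1 s
      exact ⟨QuotientGroup.mk' N x, hx⟩
    · obtain ⟨x, hx, rfl⟩ := hk y hy
      refine Subgroup.mem_center_iff.2 fun z => ?_
      obtain ⟨z, rfl⟩ := QuotientGroup.mk'_surjective N z
      rw [← map_mul, ← map_mul, Subgroup.mem_center_iff.1 (hst.2.1 hx) z]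
    · obtain ⟨x, hx, rfl⟩ := hk y hy
      have := Subgroup.mem_map_of_mem (QuotientGroup.mk' N) (hst.2.2 hx)
      rw [commutator_def, Subgroup.map_commutator] at this
      rw [commutator_def]
      exact Subgroup.commutator_mono le_top le_top this
  have hcl : ∀ a e b, liftComm hst'.1 (uEl h a e) (uEl h 0 b) = 1 := by
    intro a e b
    have h1 : QuotientGroup.mk' N (liftComm hst.1 (uEl h a e) (uEl h 0 b)) = 1 :=
      (QuotientGroup.eq_one_iff _).2 (hπ a e b)
    rw [liftComm, map_commutatorElement] at h1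
    rw [← h1, liftComm]
    refine commutator_congr hst'.2.1 ?_ ?_ <;>
    · rw [Function.surjInv_eq hst'.1]
      exact (Function.surjInv_eq hst.1 _).symm
  have hbot := stem_trivial_of h hst' hcl
  refine ⟨π.codRestrict σ.ker fun x => hπk ⟨x, rfl⟩, fun z => ?_⟩
  have hz : QuotientGroup.mk' N z.1 ∈ σ'.ker := z.2
  rw [hbot, Subgroup.mem_bot] at hz
  obtain ⟨x, hx⟩ := (QuotientGroup.eq_one_iff _).1 hz
  exact ⟨x, Subtype.ext hx⟩

end Cfsg.Agent.Suzuki.SzEight
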