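import Cfsg.Agent.Suzuki.TripleData
import Cfsg.Agent.Suzuki.TripleCarmichael
import Cfsg.Prelude.Def_KGroupFacts
import Mathlib.GroupTheory.Perm.Fin

/-! # Triple covers of `A₆` and `A₇` -/

set_option autoImplicit false
set_option maxRecDepth 20000

namespace Cfsg.Agent.Suzuki.Triple

open scoped commutatorElement

section general

variable {m : ℕ} (e : Fin m ↪ Fin 5)

theorem cyc_sign (i : Fin m) : Equiv.Perm.sign (cyc m i) = 1 := by
  rw [cyc, Equiv.Perm.sign_mul, Equiv.Perm.sign_swap, Equiv.Perm.sign_swap]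
  · rfl
  · simp [Fin.ext_iff]
  · simp [Fin.ext_iff]

/-- The cycles as even permutations. -/
def acyc (i : Fin m) : alternatingGroup (Fin (m + 2)) :=
  ⟨cyc m i, Equiv.Perm.mem_alternatingGroup.2 (cyc_sign i)⟩

/-- The ambient group. -/
abbrev Amb (m : ℕ) : Type := Equiv.Perm (Fin 45) × alternatingGroup (Fin (m + 2))

/-- The generators of the cover. -/
def tgen (i : Fin m) : Amb m := (tX (e i), acyc i)

/-- The triple cover. -/
def cover : Subgroup (Amb m) := Subgroup.closure (Set.range (tgen e))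

/-- The covering map. -/
def proj : cover e →* alternatingGroup (Fin (m + 2)) :=
  (MonoidHom.snd _ _).comp (cover e).subtype

/-- The hypotheses to be checked for a given `m`. -/
structure Checks : Prop where
  words : ∀ a b : Fin (m + 2), a ≠ b →
    ∃ w : List (Fin m), Equiv.swap a b * Equiv.swap 0 1 = (w.map (cyc m)).prod
  swap01 : ∀ i, Equiv.swap 0 1 * cyc m i * Equiv.swap 0 1 = (cyc m i) * (cyc m i)
  rel : ∀ i j : Fin m, i ≠ j → cyc m i * cyc m j * (cyc m i * cyc m j) = 1
  cube : ∀ i : Fin m, cyc m i * cyc m i * cyc m i = 1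
  witness : ∃ g h : cover e, proj e g * proj e h = proj e h * proj e g ∧
    proj e g ^ 3 = 1 ∧ proj e h ^ 3 = 1 ∧ (⁅g, h⁆ : cover e).1.1 ≠ 1

variable {e}

theorem proj_surjective (hc : Checks e) : Function.Surjective (proj e) := by
  classical
  set H := Subgroup.closure (Set.range (cyc m))
  have hconj : ∀ σ ∈ H, Equiv.swap 0 1 * σ * Equiv.swap 0 1 ∈ H := by
    intro σ hσ
    have hle : H ≤ H.comap (MulAut.conj (Equiv.swap (0 : Fin (m + 2)) 1)).toMonoidHom := by
      rw [Subgroup.closure_le]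
      rintro _ ⟨i, rfl⟩
      show Equiv.swap 0 1 * cyc m i * (Equiv.swap 0 1)⁻¹ ∈ H
      rw [Equiv.swap_inv, hc.swap01]
      exact H.mul_mem (Subgroup.subset_closure ⟨i, rfl⟩) (Subgroup.subset_closure ⟨i, rfl⟩)
    simpa [Equiv.swap_inv] using hle hσ
  have hword : ∀ a b : Fin (m + 2), a ≠ b → Equiv.swap a b * Equiv.swap 0 1 ∈ H := by
    intro a b hab
    obtain ⟨w, hw⟩ := hc.words a b hab
    rw [hw]
    refine Subgroup.list_prod_mem _ fun x hx => ?_
    obtain ⟨i, -, rfl⟩ := List.mem_map.1 hx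
    exact Subgroup.subset_closure ⟨i, rfl⟩
  have hall : ∀ σ : Equiv.Perm (Fin (m + 2)),
      (Equiv.Perm.sign σ = 1 → σ ∈ H) ∧ (Equiv.Perm.sign σ = -1 → σ * Equiv.swap 0 1 ∈ H) := by
    intro σ
    induction σ using Equiv.Perm.swap_induction_on with
    | one => exact ⟨fun _ => H.one_mem, fun h => absurd h (by simp)⟩
    | swap_mul f x y hxy ih =>
      rw [Equiv.Perm.sign_mul, Equiv.Perm.sign_swap hxy, neg_one_mul]
      constructor
      · intro h
        have hf := ih.2 (by rw [← h, neg_neg])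
        have := H.mul_mem (hword x y hxy) (hconj _ hf)
        simpa [mul_assoc] using this
      · intro h
        have hf := ih.1 (neg_inj.1 h)
        have := H.mul_mem (hword x y hxy) (hconj _ hf)
        simpa [mul_assoc] using this
  intro a
  have hH : H ≤ ((alternatingGroup (Fin (m + 2))).subtype.comp (proj e)).range := by
    rw [Subgroup.closure_le]
    rintro _ ⟨i, rfl⟩
    exact ⟨⟨tgen e i, Subgroup.subset_closure ⟨i, rfl⟩⟩, rfl⟩
  obtain ⟨g, hg⟩ := hH ((hall a.1).1 (Equiv.Perm.mem_alternatingGroup.1 a.2))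
  exact ⟨g, Subtype.ext hg⟩

theorem tX_comm_tz {x : Amb m} (hx : x ∈ cover e) : tz * x.1 = x.1 * tz := by
  have hle : cover e ≤ (Subgroup.centralizer {tz}).comap (MonoidHom.fst _ _) := by
    rw [cover, Subgroup.closure_le]
    rintro _ ⟨i, rfl⟩
    exact Subgroup.mem_centralizer_singleton_iff.2 (tz_facts.2.2 _).symm
  exact (Subgroup.mem_centralizer_singleton_iff.1 (hle hx)).symm

/-- The central element in the ambient group. -/
def zAmb (m : ℕ) : Amb m := (tz, 1)

theorem tz_pow_three : tz ^ 3 = 1 := by rw [pow_succ, pow_two]; exact tz_facts.1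

theorem zAmb_pow_three : zAmb m ^ 3 = 1 := Prod.ext tz_pow_three (one_pow _)

/-- The kernel consists of powers of the central element. -/
theorem mem_zpowers_of_snd (hc : Checks e) {x : Amb m} (hx : x ∈ cover e) (h : x.2 = 1) :
    x ∈ Subgroup.zpowers (zAmb m) := by
  classical
  -- the group `cover ⊔ ⟨z⟩`, modulo `⟨z⟩`
  let W : Subgroup (Amb m) := (Subgroup.centralizer {tz}).comap (MonoidHom.fst _ _)
  have hW : cover e ≤ W := fun g hg => Subgroup.mem_centralizer_singleton_iff.2 (tX_comm_tz hg).symm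
  have hzW : zAmb m ∈ W := Subgroup.mem_centralizer_singleton_iff.2 rfl
  let z' : W := ⟨zAmb m, hzW⟩
  have hzc : z' ∈ Subgroup.center W := by
    rw [Subgroup.mem_center_iff]
    intro g
    exact Subtype.ext (Prod.ext (Subgroup.mem_centralizer_singleton_iff.1 g.2) (by simp [z', zAmb]))
  let N : Subgroup W := Subgroup.zpowers z'
  have : N.Normal := ⟨fun n hn g => by
    rw [Subgroup.mem_center_iff.1 ((Subgroup.zpowers_le.2 hzc) hn) g]; simpa using hn⟩
  let mk := QuotientGroup.mk' N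
  let xg : Fin m → W := fun i => ⟨tgen e i, hW (Subgroup.subset_closure ⟨i, rfl⟩)⟩
  let f : ℕ → W ⧸ N := fun i => if hi : i < m then mk (xg ⟨i, hi⟩) else 1
  have f3 : ∀ i, f i * f i * f i = 1 := by
    intro i
    by_cases hi : i < m
    · simp only [f, dif_pos hi]
      rw [← map_mul, ← map_mul]
      refine (QuotientGroup.eq_one_iff _).2 ?_
      have e1 : xg ⟨i, hi⟩ * xg ⟨i, hi⟩ * xg ⟨i, hi⟩ = 1 :=
        Subtype.ext (Prod.ext (tX_rel.1 _) (Subtype.ext (hc.cube _)))
      rw [e1]; exact N.one_mem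
    · simp [f, dif_neg hi]
  have f2 : ∀ i j, i < m → j < m → i ≠ j → f i * f j * (f i * f j) = 1 := by
    intro i j hi hj hij
    simp only [f, dif_pos hi, dif_pos hj]
    rw [← map_mul, ← map_mul]
    refine (QuotientGroup.eq_one_iff _).2 ?_
    have hne : (⟨i, hi⟩ : Fin m) ≠ ⟨j, hj⟩ := fun hh => hij (congrArg Fin.val hh)
    refine Subgroup.mem_zpowers_iff.2 ⟨(texp (e ⟨i, hi⟩) (e ⟨j, hj⟩) : ℕ), ?_⟩
    rw [zpow_natCast]
    exact Subtype.ext (Prod.ext (tX_rel.2 _ _ fun hh => hne (e.injective hh)).symm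
      (by simp only [SubmonoidClass.coe_pow, z', zAmb, Prod.pow_snd, one_pow]
          exact (Subtype.ext (hc.rel _ _ hne) : acyc ⟨i, hi⟩ * acyc ⟨j, hj⟩ * (acyc ⟨i, hi⟩ * acyc ⟨j, hj⟩) = 1).symm))
  obtain ⟨S, hS, hmem⟩ := carmichael_bound f f3 m f2
  let K : Subgroup (W ⧸ N) := Subgroup.closure (f '' {i | i < m})
  have hK : Nat.card K * 2 ≤ Nat.factorial (m + 2) := by
    refine le_trans (Nat.mul_le_mul_right 2 ?_) hS
    have : Nat.card K ≤ Nat.card S :=
      Nat.card_le_card_of_injective (fun k => (⟨k.1, hmem k.1 k.2⟩ : S))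
        (fun a b hab => Subtype.ext (congrArg (fun s : S => s.1) hab))
    simpa using this
  have hKfin : Finite K :=
    Finite.of_injective (fun k => (⟨k.1, hmem k.1 k.2⟩ : S))
        (fun a b hab => Subtype.ext (congrArg (fun s : S => s.1) hab))
  let ψ : W ⧸ N →* alternatingGroup (Fin (m + 2)) :=
    QuotientGroup.lift N ((MonoidHom.snd _ _).comp W.subtype) (by
      rw [Subgroup.zpowers_le]; rfl)
  have hcovK : ∀ g (hg : g ∈ cover e), mk ⟨g, hW hg⟩ ∈ K := by
    intro g hg
    have hle : cover e ≤ ((K.comap mk).map W.subtype) := by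
      rw [cover, Subgroup.closure_le]
      rintro _ ⟨i, rfl⟩
      refine ⟨xg i, ?_, rfl⟩
      refine Subgroup.mem_comap.2 (Subgroup.subset_closure ⟨i.1, i.2, ?_⟩)
      simp [f]
    obtain ⟨w, hw, e'⟩ := hle hg
    rwa [show (⟨g, hW hg⟩ : W) = w from Subtype.ext e'.symm]
  have hψs : Function.Surjective (ψ.comp K.subtype) := fun a => by
    obtain ⟨g, rfl⟩ := proj_surjective hc a
    exact ⟨⟨_, hcovK g.1 g.2⟩, rfl⟩
  have hψi : Function.Injective (ψ.comp K.subtype) := by
    refine ((Nat.bijective_iff_surjective_and_card _).2 ⟨hψs, ?_⟩).1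
    have hA := two_mul_card_alternatingGroup (α := Fin (m + 2))
    rw [Fintype.card_perm, Fintype.card_fin] at hA
    have h1 := Nat.card_le_card_of_surjective _ hψs
    rw [Nat.card_eq_fintype_card (α := alternatingGroup _)] at h1 ⊢
    omega
  have hone : (⟨_, hcovK x hx⟩ : K) = 1 := hψi (by
    rw [map_one]; exact h)
  have h' : (⟨x, hW hx⟩ : W) ∈ N := (QuotientGroup.eq_one_iff _).1 (congrArg Subtype.val hone)
  obtain ⟨k, hk⟩ := Subgroup.mem_zpowers_iff.1 h'
  exact Subgroup.mem_zpowers_iff.2 ⟨k, by simpa [z'] using congrArg Subtype.val hk⟩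

/-- The data of a stem extension with kernel of order 3 and a commutator witness. -/
theorem stem_facts (hc : Checks e) :
    Cfsg.IsStemExtension (proj e) ∧ Nat.card (proj e).ker = 3 ∧
      ∃ g h : cover e, proj e g * proj e h = proj e h * proj e g ∧ proj e g ^ 3 = 1 ∧
        proj e h ^ 3 = 1 ∧ (proj e).ker = Subgroup.zpowers ⁅g, h⁆ ∧ orderOf ⁅g, h⁆ = 3 := by
  obtain ⟨g, h, hgh, hg3, hh3, hne⟩ := hc.witness
  have hcent : (proj e).ker ≤ Subgroup.center (cover e) := by
    intro k hk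
    obtain ⟨n, hn⟩ := Subgroup.mem_zpowers_iff.1 (mem_zpowers_of_snd hc k.2 hk)
    rw [Subgroup.mem_center_iff]
    intro y
    refine Subtype.ext ?_
    have hz : Commute (zAmb m) (y : Amb m) :=
      Prod.ext (tX_comm_tz y.2) (by simp [zAmb])
    have := (hz.zpow_left n).eq
    rw [hn] at this
    exact this.symm
  have hck : ⁅g, h⁆ ∈ (proj e).ker := by
    rw [MonoidHom.mem_ker, map_commutatorElement, commutatorElement_eq_one_iff_mul_comm]
    exact hgh
  have hc1 : ⁅g, h⁆ ≠ 1 := fun hh => hne (by rw [hh]; rfl)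
  have hc3 : ∀ k ∈ (proj e).ker, k ^ 3 = 1 := by
    intro k hk
    obtain ⟨n, hn⟩ := Subgroup.mem_zpowers_iff.1 (mem_zpowers_of_snd hc k.2 hk)
    refine Subtype.ext ?_
    rw [SubmonoidClass.coe_pow, ← hn, ← zpow_natCast, ← zpow_mul, mul_comm, zpow_mul, zpow_natCast,
      zAmb_pow_three, one_zpow]
    rfl
  have hord : orderOf ⁅g, h⁆ = 3 := by
    have : Fact (Nat.Prime 3) := ⟨Nat.prime_three⟩
    exact orderOf_eq_prime (hc3 _ hck) hc1
  have hker : (proj e).ker = Subgroup.zpowers ⁅g, h⁆ := by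
    refine (Subgroup.eq_of_le_of_card_ge (Subgroup.zpowers_le.2 hck) ?_).symm
    rw [Nat.card_zpowers, hord]
    have hz3 : orderOf (zAmb m) ∣ 3 := orderOf_dvd_of_pow_eq_one zAmb_pow_three
    refine le_trans (Nat.card_le_card_of_injective
      (fun k => (⟨k.1.1, mem_zpowers_of_snd hc k.1.2 k.2⟩ : Subgroup.zpowers (zAmb m))) ?_) ?_
    · intro a b hab
      exact Subtype.ext (Subtype.ext (congrArg (fun s : Subgroup.zpowers (zAmb m) => s.1) hab))
    · rw [Nat.card_zpowers]
      exact Nat.le_of_dvd (by norm_num) hz3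
  refine ⟨⟨proj_surjective hc, hcent, ?_⟩, ?_, g, h, hgh, hg3, hh3, hker, hord⟩
  · rw [hker, Subgroup.zpowers_le]
    exact Subgroup.commutator_mem_commutator (Subgroup.mem_top g) (Subgroup.mem_top h)
  · rw [hker, Nat.card_zpowers, hord]

end general

/-- The first four generators. -/
def emb6 : Fin 4 ↪ Fin 5 := Fin.castSuccEmb

/-- All five generators. -/
def emb7 : Fin 5 ↪ Fin 5 := Function.Embedding.refl _

/-- A generator of the cover. -/
def cgen {m : ℕ} (e : Fin m ↪ Fin 5) (i : Fin m) : cover e :=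
  ⟨tgen e i, Subgroup.subset_closure ⟨i, rfl⟩⟩

theorem checks6 : Checks emb6 where
  words := by
    intro a b h
    obtain ⟨w, -, hw⟩ := List.mem_map.1 (words6_ok a b h)
    exact ⟨w, hw.symm⟩
  swap01 := by decide +kernel
  rel := by decide +kernel
  cube := by decide +kernel
  witness := ⟨cgen emb6 0, cgen emb6 1 * cgen emb6 2 * cgen emb6 3 * cgen emb6 1 * cgen emb6 2,
    by decide +kernel, by decide +kernel, by decide +kernel, by decide +kernel⟩

theorem checks7 : Checks emb7 where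
  words := by
    intro a b h
    obtain ⟨w, -, hw⟩ := List.mem_map.1 (words7_ok a b h)
    exact ⟨w, hw.symm⟩
  swap01 := by decide +kernel
  rel := by decide +kernel
  cube := by decide +kernel
  witness := ⟨cgen emb7 0, cgen emb7 1 * cgen emb7 2 * cgen emb7 3 * cgen emb7 1 * cgen emb7 2,
    by decide +kernel, by decide +kernel, by decide +kernel, by decide +kernel⟩

end Cfsg.Agent.Suzuki.Triple
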